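import Cfsg.Agent.H3.C2a
import Cfsg.Agent.H1.Bx4
import Cfsg.Agent.H7.BS5
import Cfsg.Agent.H4.Sz2

set_option autoImplicit false

/-! Groups with a strongly embedded subgroup acting on a four-dimensional space in characteristic two. -/

namespace Cfsg.Agent.H6.X
open Matrix Cfsg.Agent.H2.M4 Cfsg.Agent.H3.C2

theorem two_zero {F : Type*} [Field F] [Fintype F] {n : ℕ} (h : Fintype.card F = 2 ^ n) : (2 : F) = 0 := by
  have := FiniteField.cast_card_eq_zero F
  rw [h, Nat.cast_pow] at this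
  simpa using (pow_eq_zero_iff (by rintro rfl; simp at this)).1 this

theorem sl2_real {F : Type*} [Field F] (h2 : (2 : F) = 0) (g : SpecialLinearGroup (Fin 2) F) :
    ∃ h : SpecialLinearGroup (Fin 2) F, h * g * h⁻¹ = g⁻¹ := by
  have hd := g.det_coe
  rw [det_fin_two] at hd
  have k : ∀ h : SpecialLinearGroup (Fin 2) F, g.1 * (h.1 * g.1) = h.1 → h * g * h⁻¹ = g⁻¹ := fun h e => by
    rw [mul_inv_eq_iff_eq_mul, eq_inv_mul_iff_mul_eq]; exact Subtype.ext e
  by_cases b : g.1 0 1 = 0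
  · by_cases c : g.1 1 0 = 0
    · exact ⟨⟨!![0, 1; 1, 0], by simp; grind⟩, k _ (by
        ext i j; fin_cases i <;> fin_cases j <;> simp [Matrix.mul_apply, Fin.sum_univ_two, vecMul, dotProduct] <;> grind)⟩
    · exact ⟨⟨!![1, (g.1 0 0 + g.1 1 1) / g.1 1 0; 0, 1], by simp⟩, k _ (by
        ext i j; fin_cases i <;> fin_cases j <;> simp [Matrix.mul_apply, Fin.sum_univ_two, vecMul, dotProduct] <;>
          field_simp <;> grind)⟩
  · exact ⟨⟨!![1, 0; (g.1 0 0 + g.1 1 1) / g.1 0 1, 1], by simp⟩, k _ (by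
      ext i j; fin_cases i <;> fin_cases j <;> simp [Matrix.mul_apply, Fin.sum_univ_two, vecMul, dotProduct] <;>
        field_simp <;> grind)⟩

open H6.Suzuki H4.Sz in
theorem sz_real {F : Type*} [Field F] [CharP F 2] [Finite F] {θ : F →+* F} (hθ : ∀ x, θ (θ x) = x ^ 2) (g : SzG θ) :
    g ^ 4 = 1 ∨ ∃ h, h * g * h⁻¹ = g⁻¹ := by
  by_cases h1 : g = 1
  · simp [h1]
  have ho : orderOf g ≠ 1 := by simpa using h1
  obtain ⟨p, hp, hd⟩ := Nat.exists_prime_and_dvd ho
  have hx := orderOf_pow_orderOf_div (orderOf_pos g).ne' hd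
  have hc : g * g ^ (orderOf g / p) = g ^ (orderOf g / p) * g := (Commute.self_pow g _).eq
  generalize g ^ (orderOf g / p) = x at hx hc
  rcases hp.eq_two_or_odd' with rfl | hp2
  · left
    obtain ⟨k, rfl⟩ := exists_conj_z hθ (s := x) (by rintro rfl; simp at hx) (by rw [← sq, ← hx, pow_orderOf_eq_one])
    have := pow_four hθ (mem_U_of_comm hθ one_ne_zero (g := k⁻¹ * g * k⁻¹⁻¹) (by
      calc _ = k⁻¹ * (g * (k * u hθ 0 1 * k⁻¹)) * k := by group
        _ = _ := by rw [hc]; group))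
    rw [conj_pow] at this
    simpa only [conj_eq_one_iff] using this
  · right
    obtain ⟨k, d, hd, e⟩ := exists_invert hθ hp hp2 hx
    have := inv_centralizer hθ (x := k * x * k⁻¹) (by rintro h; simp at h; simp [h] at hx; exact hp.one_lt.ne hx)
      (by rw [show orderOf (k * x * k⁻¹) = orderOf x from MulEquiv.orderOf_eq (MulAut.conj k) x, hx]; exact hp2) hd e
      (a := k * g * k⁻¹) (by rw [conj_mul, conj_mul, hc])
    refine ⟨k⁻¹ * u hθ 0 d * k, ?_⟩
    calc _ = k⁻¹ * (u hθ 0 d * (k * g * k⁻¹) * (u hθ 0 d)⁻¹) * k := by group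
      _ = _ := by rw [z_inv, this]; group

variable {K : Type*} [Field K] [CharP K 2] {G : Type*} [Group G]

theorem tr_conj (ρ : G →* M4 K) (h g : G) : (ρ (h * g * h⁻¹)).trace = (ρ g).trace := by
  rw [map_mul, map_mul, Matrix.trace_mul_cycle, ← map_mul]; simp

theorem tr_four (ρ : G →* M4 K) {g : G} (h : g ^ 4 = 1) : (ρ g).trace = 4 := by
  have : IsNilpotent (ρ g - 1) := ⟨2 ^ 2, by
    rw [sub_pow_char_pow_of_commute 2 2 (Commute.one_right _), ← map_pow, show 2 ^ 2 = 4 from rfl, h]; simp⟩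
  simpa [sub_eq_zero] using (Matrix.isNilpotent_trace_of_isNilpotent this).eq_zero

section su
variable {F : Type*} [Field F] {q : ℕ}

theorem mem_su (g : SpecialLinearGroup (Fin 3) F)
    (h : ∀ u v, hermForm 3 F q (g.1 *ᵥ u) (g.1 *ᵥ v) = hermForm 3 F q u v) : g ∈ SU 3 F q := h

/-- diagonal unitary matrices -/
def dg (a b c : F) (h : a * b * c = 1) (ha : a * a ^ q = 1) (hb : b * b ^ q = 1) (hc : c * c ^ q = 1) : SU 3 F q :=
  ⟨⟨!![a, 0, 0; 0, b, 0; 0, 0, c], by simp [det_fin_three, h]⟩, mem_su _ fun u v => by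
    simp [hermForm, Fin.sum_univ_three, mulVec, dotProduct, mul_pow]
    linear_combination u 0 * v 0 ^ q * ha + u 1 * v 1 ^ q * hb + u 2 * v 2 ^ q * hc⟩

/-- a cyclic permutation of the coordinates -/
def cy : SU 3 F q := ⟨⟨!![0, 0, 1; 1, 0, 0; 0, 1, 0], by simp [det_fin_three]⟩, mem_su _ fun u v => by
    simp [hermForm, Fin.sum_univ_three, mulVec, dotProduct]; ring⟩

/-- a transposition of the coordinates -/
def sw (h2 : (2 : F) = 0) : SU 3 F q := ⟨⟨!![1, 0, 0; 0, 0, 1; 0, 1, 0], by simp [det_fin_three]; grind⟩, mem_su _ fun u v => by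
    simp [hermForm, Fin.sum_univ_three, mulVec, dotProduct]; ring⟩

theorem su_ext {x y : SU 3 F q} (h : x.1.1 = y.1.1) : x = y := Subtype.ext (Subtype.ext h)

theorem su_mul (x y : SU 3 F q) : (x * y).1.1 = x.1.1 * y.1.1 := rfl

theorem no_su (h2 : (2 : F) = 0) {v : F} (hv : v * v ^ q = 1) (h3 : v ^ 3 ≠ 1) (f : SU 3 F q →* M4 K)
    (hf : ∀ x, f x = 1 → x ∈ Subgroup.center (SU 3 F q))
    (ev : ∀ g t, t ∉ Subgroup.center (SU 3 F q) → t * t = 1 → g * t = t * g → ∃ c : K, f g ^ 4 + 1 = c • f g ^ 2) : False := by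
  have v0 : v ≠ 0 := by rintro rfl; simp at hv
  have hu : v⁻¹ ^ 2 * (v⁻¹ ^ 2) ^ q = 1 := by
    rw [pow_right_comm, ← mul_pow, inv_pow v q, ← mul_inv, hv]; simp
  let g : SU 3 F q := dg (v⁻¹ ^ 2) v v (by field_simp) hu hv hv
  have cen : ∀ x ∈ Subgroup.center (SU 3 F q), x.1.1 0 0 = x.1.1 1 1 ∧ x.1.1 1 1 = x.1.1 2 2 := fun x hx => by
    have := congrArg (fun y : SU 3 F q => y.1.1) (Subgroup.mem_center_iff.1 hx cy)
    simp only [su_mul] at this
    have a := congrFun (congrFun this 1) 0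
    have b := congrFun (congrFun this 2) 1
    simpa [cy, Matrix.mul_apply, Fin.sum_univ_three] using And.intro a b
  obtain ⟨c, hc⟩ := ev g (sw h2) (fun k => by simpa [sw] using (cen _ k).1)
    (su_ext (by rw [su_mul]; ext i j; fin_cases i <;> fin_cases j <;> simp [sw]))
    (su_ext (by rw [su_mul, su_mul]; ext i j; fin_cases i <;> fin_cases j <;> simp [sw, g, dg]))
  have k : ∀ x : SU 3 F q, f (x * (g * g) * x⁻¹) * f (x * (g * g) * x⁻¹) + 1 = c • f (x * (g * g) * x⁻¹) := fun x => by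
    have : f (g * g) * f (g * g) + 1 = c • f (g * g) := by simpa [pow_succ, mul_assoc] using hc
    have := congrArg (fun M => f x * M * f x⁻¹) this
    simp only [mul_add, add_mul, mul_one, mul_smul_comm, smul_mul_assoc, ← map_mul, mul_inv_cancel, map_one] at this
    rw [← map_mul, conj_mul, this]
  have e1 : (g * g).1.1 = !![v⁻¹ ^ 4, 0, 0; 0, v ^ 2, 0; 0, 0, v ^ 2] := by
    rw [su_mul]; ext i j; fin_cases i <;> fin_cases j <;> simp [g, dg] <;> ring
  have cj : ∀ (x : SU 3 F q) {a b c : F}, x.1.1 = !![a, 0, 0; 0, b, 0; 0, 0, c] →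
      (cy * x * cy⁻¹).1.1 = !![c, 0, 0; 0, a, 0; 0, 0, b] := fun x a b c e => by
    have i : (cy⁻¹ : SU 3 F q) = cy * cy := inv_eq_of_mul_eq_one_right (su_ext (by
      rw [su_mul, su_mul]; ext i j; fin_cases i <;> fin_cases j <;> simp [cy]))
    rw [i, su_mul, su_mul, su_mul, e]; ext i j; fin_cases i <;> fin_cases j <;> simp [cy]
  have e2 := cj _ e1
  have e3 := cj _ e2
  have k1 := k 1
  have k2 := k cy
  have k3 := k (cy * cy)
  rw [show cy * cy * (g * g) * (cy * cy)⁻¹ = cy * (cy * (g * g) * cy⁻¹) * cy⁻¹ by group] at k3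
  rw [one_mul, inv_one, mul_one] at k1
  generalize cy * (cy * (g * g) * cy⁻¹) * cy⁻¹ = z at k3 e3
  generalize cy * (g * g) * cy⁻¹ = y at k2 e2
  generalize g * g = x at k1 e1
  have m1 : x * y * z = 1 := su_ext (by
    rw [su_mul, su_mul, e1, e2, e3]; ext i j; fin_cases i <;> fin_cases j <;> simp <;> field_simp)
  have m2 : y * z * x = 1 := by rw [mul_eq_one_comm, ← mul_assoc, m1]
  have m3 : x * y = y * x := su_ext (by
    rw [su_mul, su_mul, e1, e2]; ext i j; fin_cases i <;> fin_cases j <;> simp [mul_comm])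
  have sq : ∀ a : F, a ^ 2 = 1 → a = 1 := fun a h => sub_eq_zero.1 (pow_eq_zero_iff two_ne_zero |>.1 (by
    linear_combination h + (1 - a) * h2))
  have a2 : ∀ M : M4 K, M + M = 0 := fun M => by ext; simp [CharTwo.add_self_eq_zero]
  have c0 : c ≠ 0 := by
    rintro rfl
    have := (cen _ (hf (x * x) (by rw [map_mul]; linear_combination (norm := module) k1 - a2 1))).1
    rw [su_mul, e1] at this
    simp at this
    exact h3 (sq _ (sq _ (by field_simp at this; linear_combination -this)))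
  have n1 : f y * f z + f x = c • 1 := by
    have := congrArg (f (y * z) * ·) k1
    simp only [mul_add, mul_one, mul_smul_comm, ← mul_assoc, ← map_mul, m2, map_one, one_mul] at this
    rw [← map_mul, add_comm, this]
  have n3 : f y * f x + f z = c • 1 := by
    have := congrArg (f (x * y) * ·) k3
    simp only [mul_add, mul_one, mul_smul_comm, ← mul_assoc, ← map_mul, m1, map_one, one_mul] at this
    rw [← map_mul, ← m3, add_comm, this]
  have n4 : (1 + f y) * (f x + f z) = 0 := by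
    simp only [mul_add, add_mul, one_mul]
    linear_combination (norm := module) n1 + n3 + a2 (c • 1)
  have n5 : f x + f z = 0 := by
    have : c⁻¹ • (f y⁻¹ * (1 + f y)) * (1 + f y) = 1 := by
      have : (1 + f y) * (1 + f y) = c • f y := by
        simp only [mul_add, add_mul, one_mul, mul_one]
        linear_combination (norm := module) k2 + a2 (f y)
      rw [smul_mul_assoc, mul_assoc, this, mul_smul_comm, ← map_mul, smul_smul]; simp [c0]
    rw [← one_mul (f x + f z), ← this, mul_assoc, n4, mul_zero]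
  have := (cen _ (hf (x * x * y) (by
    have : f x = f z := by linear_combination (norm := module) n5 - a2 (f z)
    rw [← map_one f, ← m1, mul_assoc, m3, ← mul_assoc, map_mul f _ x, map_mul f _ z, m3, this]))).2
  rw [su_mul, su_mul, e1, e2] at this
  simp at this
  exact h3 (sq _ (by field_simp at this; linear_combination -this.resolve_right v0))

end su

open MulAction Bd in
/-- package SE -/
theorem se_real [Finite G] {ρ : G →* M4 K} (h : Bas ρ) (ev : EV ρ) (M : Subgroup G) (hM : M ≠ ⊤)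
    (hi : ∃ y ∈ M, y ≠ 1 ∧ y * y = 1) (se : ∀ g, ∀ y ∈ M, y ≠ 1 → y * y = 1 → g * y * g⁻¹ ∈ M → g ∈ M)
    (ab : ∀ u ∈ M, ∀ v ∈ M, u * u = 1 → v * v = 1 → u * v = v * u) : Real ρ := by
  have := h.simple
  obtain ⟨y, hy, y1, y2⟩ := hi
  have fx : ∀ t g : G, t • (g : G ⧸ M) = g ↔ g⁻¹ * t * g ∈ M := fun t g => by
    rw [Quotient.smul_coe, eq_comm, QuotientGroup.eq, smul_eq_mul, mul_assoc]
  have cq : ∀ {t : G} (g : G), Inv t → Inv (g⁻¹ * t * g) := fun g ht => by simpa using ht.conj g⁻¹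
  have hSE : SE G (G ⧸ M) := fun t ht => by
    obtain ⟨g, hg⟩ : ∃ g : G, g⁻¹ * t * g ∈ M := by
      rcases H3.Sz3.dih (P := ⊤) (y := t) (y' := y) trivial trivial ht.2 y2 with ⟨s, -, s2, e⟩ | ⟨w, -, w1, w2, e1, e2⟩
      · exact ⟨s, by rwa [inv_eq_of_mul_eq_one_right s2, e]⟩
      · exact ⟨1, by simpa using se t w (se w y hy y1 y2 (by rwa [e2, mul_inv_cancel_right])) w1 w2 (by
          rw [← e1, mul_inv_cancel_right]; exact se w y hy y1 y2 (by rwa [e2, mul_inv_cancel_right]))⟩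
    refine ⟨g, (fx _ _).2 hg, fun a ha => ?_⟩
    induction a using QuotientGroup.induction_on with | H a =>
    exact QuotientGroup.eq.2 (se _ _ hg (cq g ht).1 (cq g ht).2 (by
      have := (fx _ _).1 ha
      simpa [mul_assoc] using this))
  have hA : H1.Bx.AB G (G ⧸ M) := fun a u v hu hv e1 e2 => by
    induction a using QuotientGroup.induction_on with | H a =>
    have := ab _ ((fx _ _).1 e1) _ ((fx _ _).1 e2) (cq a hu).2 (cq a hv).2
    exact mul_right_cancel (b := a) (by simpa [mul_assoc] using this)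
  obtain ⟨g0, hg0⟩ : ∃ g, g ∉ M := by
    by_contra! k
    exact hM (eq_top_iff.2 fun g _ => k g)
  have hF : FaithfulSMul G (G ⧸ M) := ⟨fun {x y} h => by
    rcases (inferInstance : (toPermHom G (G ⧸ M)).ker.Normal).eq_bot_or_eq_top with h' | h'
    · exact (MonoidHom.ker_eq_bot_iff _).1 h' (Equiv.ext h)
    · exact absurd ((fx g0 1).1 (DFunLike.congr_fun (MonoidHom.mem_ker.1 (h'.ge (Subgroup.mem_top g0))) ((1 : G) : G ⧸ M)))
        (by simpa)⟩
  have lam : ∀ a : G ⧸ M, a ∈ Lam (G ⧸ M) (⊤ : Subgroup G) := fun a => by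
    induction a using QuotientGroup.induction_on with | H a =>
    exact ⟨_, trivial, Inv.conj ⟨y1, y2⟩ a, (fx _ _).2 (by simpa [mul_assoc])⟩
  have r2 : R2 (⊤ : Subgroup G) := by
    by_contra k
    refine H7.BS.simple_case h.nab (fun a b a1 b1 a2 b2 e => by_contra fun n => k ⟨a, trivial, b, trivial, ⟨a1, a2⟩,
      ⟨b1, b2⟩, n, e⟩) ?_
    rw [← orderOf_eq_prime (p := 2) (by rw [sq, y2]) y1]
    exact orderOf_dvd_natCard y
  have fin : ∀ {H : Type} [Group H] (e : G ≃* H), (∀ g : H, g ^ 4 = 1 ∨ ∃ h, h * g * h⁻¹ = g⁻¹) → Real ρ := by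
    intro H _ e k g
    rcases k (e g) with k | ⟨x, k⟩
    · have : g ^ 4 = 1 := e.injective (by simpa using k)
      rw [tr_four ρ this, tr_four ρ (by rw [inv_pow, this, inv_one])]
    · rw [← tr_conj ρ (e.symm x) g]
      congr 2
      exact e.injective (by simpa using k.symm)
  rcases H1.Bx.classify hSE hA lam ⟨_, lam (g0 : G), _, lam (1 : G), fun e => hg0 (by simpa using QuotientGroup.eq.1 e)⟩ r2
    with ⟨F, _, _, n, -, hF, ⟨e⟩⟩ | ⟨F, _, _, m, -, hF, ⟨e⟩⟩ | ⟨F, _, _, n, hn, hF, ⟨e⟩⟩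
  · refine fin e fun g => Or.inr ?_
    induction g using QuotientGroup.induction_on with | H g =>
    obtain ⟨x, hx⟩ := sl2_real (two_zero hF) g
    exact ⟨x, by rw [← QuotientGroup.mk_inv, ← QuotientGroup.mk_inv, ← QuotientGroup.mk_mul, ← QuotientGroup.mk_mul, hx]⟩
  · have : CharP F 2 := CharTwo.of_one_ne_zero_of_two_eq_zero one_ne_zero (two_zero hF)
    rw [H6.Suzuki.Sz_eq (iterateFrobenius F 2 (m + 1)) _ (iterateFrobenius_def 2 _)] at e
    refine fin e (sz_real fun x => ?_)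
    rw [iterateFrobenius_def, iterateFrobenius_def, ← pow_mul, ← pow_add, show m + 1 + (m + 1) = 2 * m + 1 + 1 by ring,
      pow_succ, pow_mul, ← hF, FiniteField.pow_card]
  · exfalso
    obtain ⟨γ, hγ⟩ := IsCyclic.exists_ofOrder_eq_natCard (α := Fˣ)
    have q4 : 4 ≤ 2 ^ n := Nat.pow_le_pow_right (n := 2) two_pos hn
    rw [Nat.card_units, Nat.card_eq_fintype_card, hF] at hγ
    have h2 := two_zero (n := n * 2) (by rw [hF, pow_mul])
    generalize 2 ^ n = q at *
    obtain ⟨r, rfl⟩ : ∃ r, q = r + 1 := ⟨q - 1, by omega⟩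
    have ho : orderOf γ = r * (r + 2) := by rw [hγ, show (r + 1) ^ 2 = r * (r + 2) + 1 by ring]; rfl
    refine no_su h2 (v := ((γ ^ r : Fˣ) : F)) ?_ (fun k => ?_)
      (ρ.comp (e.symm.toMonoidHom.comp (QuotientGroup.mk' _))) (fun x hx => ?_) fun g t t1 t2 c => ?_
    · rw [← pow_succ', ← Units.val_pow_eq_pow_val, ← pow_mul, ← ho, pow_orderOf_eq_one, Units.val_one]
    · rw [← Units.val_pow_eq_pow_val, Units.val_eq_one, ← pow_mul, ← orderOf_dvd_iff_pow_eq_one, ho] at k
      have := Nat.le_of_dvd (by omega) (Nat.dvd_of_mul_dvd_mul_left (by omega) k)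
      omega
    · exact (QuotientGroup.eq_one_iff x).1 (e.symm.injective (h.inj (by simpa using hx)))
    · refine ev _ (e.symm (QuotientGroup.mk t)) (fun k => t1 ((QuotientGroup.eq_one_iff t).1 (by simpa using k))) ?_ ?_
      · rw [← map_mul, ← QuotientGroup.mk_mul, t2]; simp
      · have := congrArg (e.symm.toMonoidHom.comp (QuotientGroup.mk' _)) c
        rwa [map_mul, map_mul] at this

end Cfsg.Agent.H6.X
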