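import Mathlib

set_option autoImplicit false

/-! Carmichael's presentation of the alternating groups; recognition of `A₇`. -/

namespace Cfsg.Agent.H6.Y
open Subgroup

variable {G : Type*} [Group G]

theorem carm_step {S : Set G} {a : G} (h3 : ∀ x ∈ S, x ^ 3 = 1) (a3 : a ^ 3 = 1)
    (h2 : ∀ x ∈ S, ∀ y ∈ S, x ≠ y → (x * y) ^ 2 = 1) (ha : ∀ x ∈ S, (x * a) ^ 2 = 1) [Finite G] {g : G}
    (hg : g ∈ closure (insert a S)) : ∃ h ∈ closure S, g = h ∨ g = h * a ∨ g = h * a * a ∨ ∃ x ∈ S, g = h * a * a * x := by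
  have m := fun x (hx : x ∈ S) => subset_closure (k := S) hx
  have c3 : ∀ {x : G}, x ^ 3 = 1 → ∀ y, y * x * x * x = y := fun {x} e y => by
    rw [mul_assoc, mul_assoc, ← pow_three, e, mul_one]
  have c2 : ∀ {x y : G}, (x * y) ^ 2 = 1 → y ^ 3 = 1 → ∀ z, z * y * x = z * x⁻¹ * y * y := fun {x y} e f z => by
    have : y * x = x⁻¹ * y * y := by
      calc _ = x⁻¹ * (x * y) ^ 2 * y * y * (y ^ 3)⁻¹ := by simp only [pow_succ]; group
        _ = _ := by rw [e, f]; group
    rw [mul_assoc, this]; group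
  have c1 : ∀ {x y : G}, (x * y) ^ 2 = 1 → (y * x) ^ 2 = 1 := fun {x y} e => by
    rw [show (y * x) ^ 2 = y * (x * y) ^ 2 * y⁻¹ by simp only [pow_succ]; group, e]; group
  rw [← mem_toSubmonoid, closure_toSubmonoid_of_finite] at hg
  induction hg using Submonoid.closure_induction_right with
  | one => exact ⟨1, one_mem _, Or.inl rfl⟩
  | mul_right g _ y hy ih =>
    obtain ⟨h, hh, ih⟩ := ih
    have k : ∀ x ∈ S, h * a * a * x * x = h * x * a := fun x hx => by
      calc _ = h * x * x⁻¹ * a * a * x * x := by group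
        _ = _ := by rw [← c2 (ha x hx) a3, c3 (h3 x hx)]
    rcases hy with rfl | hy
    · rcases ih with rfl | rfl | rfl | ⟨x, hx, rfl⟩
      · exact ⟨_, hh, by simp⟩
      · exact ⟨_, hh, by simp⟩
      · exact ⟨_, hh, Or.inl (c3 a3 _)⟩
      · refine ⟨h * x⁻¹, mul_mem hh (inv_mem (m x hx)), Or.inr (Or.inr (Or.inr ⟨x, hx, ?_⟩))⟩
        rw [c2 (c1 (ha x hx)) (h3 x hx), mul_inv_cancel_right, c2 (ha x hx) a3]
    · rcases ih with rfl | rfl | rfl | ⟨x, hx, rfl⟩
      · exact ⟨_, mul_mem hh (m y hy), Or.inl rfl⟩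
      · exact ⟨h * y⁻¹, mul_mem hh (inv_mem (m y hy)), Or.inr (Or.inr (Or.inl (c2 (ha y hy) a3 _)))⟩
      · exact ⟨_, hh, Or.inr (Or.inr (Or.inr ⟨y, hy, rfl⟩))⟩
      · by_cases e : y = x
        · exact ⟨h * x, mul_mem hh (m x hx), Or.inr (Or.inl (by rw [e, k x hx]))⟩
        · refine ⟨h * y * x⁻¹, mul_mem (mul_mem hh (m y hy)) (inv_mem (m x hx)), Or.inr (Or.inr (Or.inr ⟨x, hx, ?_⟩))⟩
          rw [c2 (h2 y hy x hx e) (h3 x hx), ← c2 (ha x hx) a3, ← k y hy,
            inv_eq_of_mul_eq_one_right ((pow_three y).symm.trans (h3 y hy)), ← mul_assoc]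

theorem carm [Finite G] (S : Finset G) (h3 : ∀ x ∈ S, x ^ 3 = 1) (h2 : ∀ x ∈ S, ∀ y ∈ S, x ≠ y → (x * y) ^ 2 = 1) :
    Nat.card (closure (S : Set G)) * 2 ≤ (S.card + 2).factorial := by
  classical
  induction S using Finset.induction_on with
  | empty => simp
  | insert a S ha ih =>
    have := ih (fun x hx => h3 x (by simp [hx])) fun x hx y hy => h2 x (by simp [hx]) y (by simp [hy])
    let f : closure (S : Set G) × (Fin 3 ⊕ S) → G := fun p => p.1 * Sum.elim (fun i => a ^ i.1) (fun x => a * a * x.1) p.2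
    have k : (Subgroup.closure (insert a (S : Set G)) : Set G) ⊆ Set.range f := fun g hg => by
      obtain ⟨h, hh, e⟩ := carm_step (fun x hx => h3 x (by simp [show x ∈ S from hx])) (h3 a (by simp))
        (fun x hx y hy => h2 x (by simp [show x ∈ S from hx]) y (by simp [show y ∈ S from hy]))
        (fun x hx => h2 x (by simp [show x ∈ S from hx]) a (by simp) (by rintro rfl; exact ha hx)) hg
      rcases e with rfl | rfl | rfl | ⟨x, hx, rfl⟩
      exacts [⟨(⟨_, hh⟩, .inl 0), by simp [f]⟩, ⟨(⟨_, hh⟩, .inl 1), by simp [f]⟩,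
        ⟨(⟨_, hh⟩, .inl 2), by simp [f, sq, mul_assoc]⟩, ⟨(⟨_, hh⟩, .inr ⟨x, hx⟩), by simp [f, mul_assoc]⟩]
    have k2 := (Nat.card_mono (Set.toFinite _) k).trans (Finite.card_range_le f)
    rw [Finset.coe_insert, Finset.card_insert_of_notMem ha, show S.card + 1 + 2 = S.card + 2 + 1 by ring, Nat.factorial_succ]
    simp only [Nat.card_prod, Nat.card_sum, Nat.card_fin, Nat.card_eq_finsetCard, SetLike.coe_sort_coe] at k2
    nlinarith

theorem a7_of_carm {T : Type*} [Group T] (hc : Nat.card T = 2520) (a : Fin 5 → T) (h3 : ∀ i, a i ^ 3 = 1)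
    (h2 : ∀ i j, i ≠ j → (a i * a j) ^ 2 = 1) (h0 : a 0 ≠ 1) : Nonempty (T ≃* alternatingGroup (Fin 7)) := by
  classical
  have : Finite T := Nat.finite_of_card_ne_zero (by omega)
  let c : Fin 5 → Equiv.Perm (Fin 7) := fun i => Equiv.swap 5 6 * Equiv.swap 6 (i.castAdd 2)
  let S : Finset (T × Equiv.Perm (Fin 7)) := Finset.univ.image fun i => (a i, c i)
  have c3 : ∀ i, c i ^ 3 = 1 := by decide
  have c2 : ∀ i j, i ≠ j → (c i * c j) ^ 2 = 1 := by decide
  have hS := carm S (by simp [S, h3, c3]) (by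
    simp only [S, Finset.mem_image, Finset.mem_univ, true_and]
    rintro _ ⟨i, rfl⟩ _ ⟨j, rfl⟩ n
    have : i ≠ j := fun e => n (by rw [e])
    simp [h2 i j this, c2 i j this])
  have h5 := Nat.factorial_le (Nat.add_le_add_right (Finset.card_image_le (s := Finset.univ) (f := fun i => (a i, c i))) 2)
  have mem : ∀ i, (a i, c i) ∈ Subgroup.closure (S : Set (T × Equiv.Perm (Fin 7))) := fun i =>
    subset_closure (Finset.mem_image_of_mem _ (Finset.mem_univ i))
  have c7 : Nat.card (alternatingGroup (Fin 7)) = 2520 := by rw [nat_card_alternatingGroup]; simp; decide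
  have le : ∀ x : Subgroup.closure (S : Set (T × Equiv.Perm (Fin 7))), ((MonoidHom.snd _ _).comp (Subgroup.closure (S : Set (T × Equiv.Perm (Fin 7)))).subtype) x ∈ alternatingGroup (Fin 7) := by
    have : Subgroup.closure (S : Set (T × Equiv.Perm (Fin 7))) ≤ (alternatingGroup (Fin 7)).comap (MonoidHom.snd _ _) := (closure_le _).2 (by
      simp only [S, Finset.coe_image, Finset.coe_univ, Set.image_univ]
      rintro _ ⟨i, rfl⟩
      revert i
      simp [c]
      decide)
    exact fun x => this x.2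
  let f' := MonoidHom.codRestrict _ _ le
  have s1 : Function.Surjective f' := by
    let H := (Subgroup.closure (S : Set (T × Equiv.Perm (Fin 7)))).map (MonoidHom.snd T (Equiv.Perm (Fin 7)))
    have m : ∀ i, c i ∈ H := fun i => ⟨_, mem i, rfl⟩
    have : MulAction.IsPretransitive H (Fin 7) := (MulAction.isPretransitive_iff_base (5 : Fin 7)).2 fun x => by
      have k : ∀ g ∈ H, g 5 = x → ∃ g : H, g • (5 : Fin 7) = x := fun g h e => ⟨⟨g, h⟩, e⟩
      fin_cases x
      exacts [k _ (mul_mem (m 0) (m 0)) (by decide), k _ (mul_mem (m 1) (m 1)) (by decide),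
        k _ (mul_mem (m 2) (m 2)) (by decide), k _ (mul_mem (m 3) (m 3)) (by decide),
        k _ (mul_mem (m 4) (m 4)) (by decide), k _ H.one_mem rfl, k _ (m 0) (by decide)]
    intro x
    obtain ⟨y, hy, e⟩ := Equiv.Perm.alternatingGroup_le_of_isPreprimitive_of_isThreeCycle_mem
      (MulAction.IsPreprimitive.of_prime_card (by simp; decide)) (card_support_eq_three_iff.1 (by decide)) (m 0) x.2
    exact ⟨⟨y, hy⟩, Subtype.ext e⟩
  have b1 := s1.bijective_of_nat_card_le (by
    have := hS.trans h5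
    rw [c7]; simp [Nat.factorial] at this; omega)
  let e := MulEquiv.ofBijective f' b1
  let f := ((MonoidHom.fst _ _).comp (Subgroup.closure (S : Set (T × Equiv.Perm (Fin 7)))).subtype).comp e.symm.toMonoidHom
  have := alternatingGroup.isSimpleGroup (α := Fin 7) (by simp)
  rcases (inferInstance : f.ker.Normal).eq_bot_or_eq_top with k | k
  · exact ⟨(MulEquiv.ofBijective f (((MonoidHom.ker_eq_bot_iff _).1 k).bijective_of_nat_card_le (by omega))).symm⟩
  · exact absurd (by simpa [f] using k.ge (mem_top (e ⟨_, mem 0⟩))) h0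

end Cfsg.Agent.H6.Y
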