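import Cfsg.Agent.H1.N2a
import Cfsg.Agent.H6.Y1

set_option autoImplicit false

/-! Matrices commuting with a quaternion group of degree four. -/

namespace Cfsg.Agent.H6.Y
open Matrix Cfsg.Agent.H1.Mit Cfsg.Agent.H1.N1

variable {K : Type*} [Field K]

/-- quaternion units -/
structure Qa (i j : M4 K) : Prop where
  two : (2 : K) ≠ 0
  ii : i * i = -1
  jj : j * j = -1
  ji : j * i = -(i * j)

/-- commuting with both units -/
def Cm (i j x : M4 K) : Prop := i * x = x * i ∧ j * x = x * j

theorem half (h : (2 : K) ≠ 0) {x y : M4 K} (e : (2 : K) • x = (2 : K) • y) : x = y := smul_right_injective _ h e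

theorem quad_diag {d : Fin 4 → K} {j x : M4 K} (q : Qa (diagonal d) j) (c : Cm (diagonal d) j x) :
    ∃ a b : K, x * x = a • x + b • 1 := by
  have dd : ∀ a, d a * d a = -1 := fun a => by simpa using congrFun (congrFun q.ii a) a
  have d0 : d 0 ≠ 0 := fun e => by simpa [e] using dd 0
  have pm : ∀ a, d a = d 0 ∨ d a = -d 0 := fun a => mul_self_eq_mul_self_iff.1 (by rw [dd, dd])
  have ji : j * diagonal d * j = diagonal d := by rw [q.ji, neg_mul, mul_assoc, q.jj]; simp
  have tr : d 0 + d 1 + d 2 + d 3 = 0 := by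
    have := congrArg trace ji
    rw [trace_mul_cycle, q.jj, neg_mul, one_mul, trace_neg, trace_diagonal, Fin.sum_univ_four] at this
    exact mul_left_cancel₀ q.two (by linear_combination -this)
  have z : ∀ a b, d a = -d b → x a b = 0 := fun a b e => by
    have := congrFun (congrFun c.1 a) b
    rw [mul_diagonal, diagonal_mul, e] at this
    exact mul_left_cancel₀ (mul_ne_zero q.two (fun k : d b = 0 => by simpa [k] using dd b)) (by linear_combination -this)
  have key : ∀ a b : K, (x * x - a • x - b • 1) * (diagonal d + d 0 • 1) = 0 → ∃ a b : K, x * x = a • x + b • 1 :=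
    fun a b e => ⟨a, b, by
      have c2 : j * (x * x - a • x - b • 1) = (x * x - a • x - b • 1) * j := by
        simp only [mul_sub, sub_mul, mul_smul_comm, smul_mul_assoc, ← mul_assoc, c.2, mul_one, one_mul]
        rw [mul_assoc, c.2, mul_assoc]
      rw [← sub_eq_zero, ← sub_sub]
      generalize x * x - a • x - b • 1 = y at *
      have e2 : y * (diagonal d - d 0 • 1) = 0 := by
        have := congrArg (fun m => j * m * j) e
        simp only [← mul_assoc, c2] at this
        rw [mul_assoc, mul_assoc, ← mul_assoc j, mul_add, add_mul, ji] at this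
        simpa [q.jj, mul_sub, mul_add, sub_eq_add_neg] using this
      refine smul_right_injective _ (mul_ne_zero q.two d0) ?_
      simp only [mul_add, mul_sub, mul_smul_comm, mul_one] at e e2
      simp only [smul_zero]
      linear_combination (norm := module) e - e2⟩
  have t2 := mul_ne_zero q.two d0
  have t4 := mul_ne_zero q.two t2
  rcases pm 1 with h1 | h1 <;> rcases pm 2 with h2 | h2 <;> rcases pm 3 with h3 | h3 <;> try (exfalso; grind)
  · refine key (x 0 0 + x 1 1) (x 0 1 * x 1 0 - x 0 0 * x 1 1) ?_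
    have := z 2 0 h2; have := z 3 0 h3; have := z 2 1 (by grind); have := z 3 1 (by grind)
    ext a b; fin_cases a <;> fin_cases b <;> simp [mul_apply, Fin.sum_univ_four, diagonal_apply, one_apply, *] <;> grind
  · refine key (x 0 0 + x 2 2) (x 0 2 * x 2 0 - x 0 0 * x 2 2) ?_
    have := z 1 0 h1; have := z 3 0 h3; have := z 1 2 (by grind); have := z 3 2 (by grind)
    ext a b; fin_cases a <;> fin_cases b <;> simp [mul_apply, Fin.sum_univ_four, diagonal_apply, one_apply, *] <;> grind
  · refine key (x 0 0 + x 3 3) (x 0 3 * x 3 0 - x 0 0 * x 3 3) ?_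
    have := z 1 0 h1; have := z 2 0 h2; have := z 1 3 (by grind); have := z 2 3 (by grind)
    ext a b; fin_cases a <;> fin_cases b <;> simp [mul_apply, Fin.sum_univ_four, diagonal_apply, one_apply, *] <;> grind

/-- the commutant of a quaternion group consists of quadratic matrices -/
theorem Qa.quad {i j x : M4 K} (q : Qa i j) (hs : i.charpoly.Splits) (c : Cm i j x) : ∃ a b : K, x * x = a • x + b • 1 := by
  obtain ⟨Q, hQ, k⟩ := sdiag (fun _ : Unit => i) (fun _ _ => rfl) (fun _ => hs) fun _ => ⟨2, -1, q.two, by simp, by simp [sq, q.ii]⟩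
  obtain ⟨d, hd⟩ := k ()
  have e : diagonal d = Q⁻¹ * i * Q := by rw [mul_assoc, hd, li' hQ]
  have m : ∀ x y : M4 K, Q⁻¹ * x * Q * (Q⁻¹ * y * Q) = Q⁻¹ * (x * y) * Q := fun x y => by simp only [mul_assoc, ri' hQ]
  obtain ⟨a, b, h⟩ := quad_diag (d := d) (j := Q⁻¹ * j * Q) (x := Q⁻¹ * x * Q)
    ⟨q.two, by simp [e, m, q.ii, li hQ], by simp [m, q.jj, li hQ], by simp [e, m, q.ji]⟩ ⟨by rw [e, m, m, c.1], by rw [m, m, c.2]⟩
  refine ⟨a, b, ?_⟩
  have := congrArg (fun y => Q * y * Q⁻¹) h
  simpa [m, mul_add, add_mul, mul_assoc, ri' hQ, ri hQ] using this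

end Cfsg.Agent.H6.Y
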