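import Cfsg.Agent.H6.W7
import Cfsg.Agent.H7.M4D

set_option autoImplicit false

/-! Rotations in primitive subgroups of `SL₄` have order two, three or five. -/

namespace Cfsg.Agent.H6.W
open Cfsg Matrix Cfsg.Agent.H2.Mi Cfsg.Agent.H2.M4 Cfsg.Agent.H7.M4

variable {K : Type*} [Field K] {P : Subgroup (G4 K)}

theorem vmv_desc {L : Type*} [Field L] (φ : K →+* L) {N : M4 K} {v w : Fin 4 → L} (h : N.map φ = vecMulVec v w) :
    ∃ v w, N = vecMulVec v w := by
  by_cases h0 : N = 0
  · exact ⟨0, 0, by simp [h0]⟩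
  obtain ⟨i, j, hij⟩ : ∃ i j, N i j ≠ 0 := by
    by_contra! k
    exact h0 (Matrix.ext k)
  refine ⟨fun a => N a j, fun b => N i b / N i j, Matrix.ext fun a b => ?_⟩
  rw [vecMulVec_apply, ← mul_div_assoc, eq_div_iff hij]
  apply φ.injective
  have k : ∀ a b, φ (N a b) = v a * w b := fun a b => congrFun (congrFun h a) b
  rw [map_mul, map_mul, k, k, k, k]; ring

theorem eq_one_of_ntv (ntv : NoTv P) {x : G4 K} (hx : x ∈ P) {v w : Fin 4 → K} (h : x.val - 1 = vecMulVec v w) :
    x.val = 1 := by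
  have h1 := ntv x hx
  have h2 : (x.val - 1).rank ≤ 1 := h ▸ rank_vecMulVec_le v w
  have h3 : (x.val - 1).rank = 0 := by omega
  rw [Matrix.rank, Submodule.finrank_eq_zero, LinearMap.range_eq_bot] at h3
  exact sub_eq_zero.1 (Matrix.toLin'.injective (by rw [Matrix.toLin'_apply', h3, map_zero]))

/-- the representation over an extension field -/
def rp {L : Type*} [Field L] (φ : K →+* L) (P : Subgroup (G4 K)) : P →* N4 L :=
  (Units.coeHom _).comp ((gm φ).comp P.subtype)

theorem rp_apply {L : Type*} [Field L] (φ : K →+* L) (x : P) : rp φ P x = φ.mapMatrix x.1.val := rfl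

theorem cx_rp {L : Type*} [Field L] (φ : K →+* L) (ntv : NoTv P) (sq : SQ P) : Cx (rp φ P) where
  nt g v w e := by
    obtain ⟨v, w, h⟩ := vmv_desc φ (N := g.1.val - 1) (v := v) (w := w) (by
      rw [← RingHom.mapMatrix_apply, map_sub, map_one, ← rp_apply, e]; simp)
    rw [rp_apply, eq_one_of_ntv ntv g.2 h, map_one]
  sq u y a b c := by
    have k : ∀ u y : P, (rp φ P u - 1) * (rp φ P y - 1) = 0 → (u.1.val - 1) * (y.1.val - 1) = 0 := fun u y e =>
      Matrix.map_injective φ.injective (by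
        change φ.mapMatrix _ = φ.mapMatrix _
        rw [map_mul, map_sub, map_sub, map_one, map_zero]; exact e)
    by_cases hu : u.1 = 1
    · exact Or.inl (by rw [rp_apply, hu]; simp)
    obtain ⟨h3, h⟩ := sq u u.2 hu (by rw [pow_two]; exact k _ _ a)
    have u3 : u.1 ^ 3 = 1 := Units.ext (by
      have := k _ _ a
      obtain ⟨N, hN⟩ : ∃ N, u.1.val = 1 + N := ⟨u.1.val - 1, by simp⟩
      rw [Units.val_pow_eq_pow_val, hN]
      rw [hN, add_sub_cancel_left] at this
      simp only [pow_succ, pow_zero, one_mul, mul_add, add_mul, mul_one, this, Units.val_one, zero_mul]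
      linear_combination (norm := module) h3 • N)
    obtain ⟨n, e⟩ := h y y.2 (k _ _ b) (k _ _ c)
    have f3 : Fact (Nat.Prime 3) := ⟨Nat.prime_three⟩
    obtain ⟨i, hi, e⟩ : ∃ i < 3, u.1 ^ i = y := ⟨(n % 3).toNat, by omega, by
      rw [← zpow_natCast, Int.toNat_of_nonneg (by omega), ← e]
      simpa [orderOf_eq_prime u3 hu] using zpow_mod_orderOf u.1 n⟩
    right
    interval_cases i
    · left; rw [show y = 1 from Subtype.ext (by simpa using e.symm), map_one]
    · right; left; rw [show y = u from Subtype.ext (by simpa using e.symm)]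
    · right; right; rw [← map_mul, show y * u = 1 from Subtype.ext (by rw [Subgroup.coe_mul, ← e, ← pow_succ, u3]; rfl), map_one]

theorem idem_cases {L : Type*} [Field L] (h2 : (2 : L) ≠ 0) {S : N4 L} (hS : S * S = 1) (tS : S.trace ≠ 0) (s t : L) :
    ∃ (t' : L) (E : N4 L), s • (1 : N4 L) + t • S = (s - t') • (1 : N4 L) + (2 * t') • E ∧
      (E = 0 ∨ (E.trace = 1 ∧ ∃ v w, E = vecMulVec v w) ∨ E = 1) := by
  have id1 : ∀ S : N4 L, S * S = 1 → ((2 : L)⁻¹ • (1 + S)) * ((2 : L)⁻¹ • (1 + S)) = (2 : L)⁻¹ • (1 + S) := fun S h => by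
    simp only [smul_mul_assoc, mul_smul_comm, add_mul, mul_add, h, one_mul, mul_one]
    match_scalars <;> grind
  have k1 : s • (1 : N4 L) + t • S = (s - t) • (1 : N4 L) + (2 * t) • ((2 : L)⁻¹ • (1 + S)) := by match_scalars <;> grind
  have k2 : s • (1 : N4 L) + t • S = (s - -t) • (1 : N4 L) + (2 * -t) • ((2 : L)⁻¹ • (1 + -S)) := by match_scalars <;> grind
  rcases idem (id1 S hS) with r | r | r | r | r
  · exact ⟨_, _, k1, Or.inl r⟩
  · exact ⟨_, _, k1, Or.inr (Or.inl r)⟩
  · simp at r; grind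
  · rcases idem (id1 (-S) (by rwa [neg_mul_neg])) with r' | r' | r' | r' | r'
    · exact ⟨_, _, k2, Or.inl r'⟩
    · exact ⟨_, _, k2, Or.inr (Or.inl r')⟩
    · simp at r'; grind
    · simp at r r'; exact (mul_ne_zero h2 h2 (by field_simp at r r'; linear_combination -r - r')).elim
    · exact ⟨_, _, k2, Or.inr (Or.inr r')⟩
  · exact ⟨_, _, k1, Or.inr (Or.inr r)⟩

variable [Finite K]

theorem rot_unip (two : (2 : K) ≠ 0) (det : ∀ x ∈ P, x.val.det = 1) (sq : SQ P) {X : G4 K} (hX : X ∈ P) {s : K}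
    (e : (X.val - s • 1) * (X.val - s • 1) = 0) : pr X = 1 ∨ pr X ^ 3 = 1 := by
  obtain ⟨p, hp⟩ := CharP.exists K
  have : Fact p.Prime := ⟨CharP.char_is_prime K p⟩
  obtain ⟨N, hN⟩ : ∃ N, X.val = s • 1 + N := ⟨X.val - s • 1, by simp⟩
  rw [hN, add_sub_cancel_left] at e
  have h1 : s ^ 4 = 1 := by
    have := add_pow_char_of_commute p (x := s • (1 : M4 K)) (y := N) ((Commute.one_left N).smul_left s)
    rw [← hN, pow_eq_zero_of_le (Fact.out : p.Prime).two_le (show N ^ 2 = 0 by rwa [pow_two]), add_zero, smul_pow,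
      one_pow] at this
    have h2 := congrArg Matrix.det this
    rw [det_pow, det X hX, one_pow, det_smul, det_one, mul_one, Fintype.card_fin, ← pow_mul, mul_comm, pow_mul] at h2
    exact frobenius_inj K p (by simpa [frobenius_def] using h2.symm)
  have hn : ∀ n : ℕ, (X ^ (n + 1)).val = s ^ (n + 1) • (1 : M4 K) + (((n : K) + 1) * s ^ n) • N := fun n => by
    induction n with
    | zero => simp [hN]
    | succ n ih =>
      rw [pow_succ, Units.val_mul, ih, hN]
      simp only [smul_mul_assoc, mul_smul_comm, add_mul, mul_add, e, one_mul, mul_one, smul_smul, smul_zero]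
      match_scalars <;> ring
  by_cases h4 : X ^ 4 = 1
  · left
    have := hn 3
    rw [h4, h1, Units.val_one, one_smul, left_eq_add] at this
    have hs : s ≠ 0 := by rintro rfl; simp at h1
    have h0 : ((3 : ℕ) + 1 : K) ≠ 0 := by
      rw [show ((3 : ℕ) + 1 : K) = 2 * 2 by norm_num]; exact mul_ne_zero two two
    exact pr_eq_one'.2 ⟨s, by rw [hN, (smul_eq_zero.1 this).resolve_left (mul_ne_zero h0 (pow_ne_zero _ hs)), add_zero]⟩
  · right
    have h3 := (sq _ (pow_mem hX 4) h4 (by rw [hn 3, h1, one_smul, add_sub_cancel_left, pow_two]; simp [e])).1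
    rw [← map_pow]
    exact pr_eq_one'.2 ⟨s ^ 3, by rw [hn 2, show ((2 : ℕ) + 1 : K) = 3 by norm_num, h3]; simp⟩

omit [Finite K] in
theorem split_rot {L : Type*} [Field L] [IsAlgClosed L] (φ : K →+* L) (two : (2 : K) ≠ 0) {X : G4 K} {a b : K}
    (e : X.val * X.val = a • X.val + b • (1 : M4 K)) (h : (a / 2) ^ 2 + b ≠ 0) :
    ∃ (t : L) (S : N4 L), t ≠ 0 ∧ S * S = 1 ∧ φ.mapMatrix X.val = φ (a / 2) • (1 : N4 L) + t • S := by
  obtain ⟨t, ht⟩ := IsAlgClosed.exists_pow_nat_eq (φ ((a / 2) ^ 2 + b)) two_pos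
  have t0 : t ≠ 0 := by rintro rfl; exact h (φ.injective (by simpa using ht.symm))
  refine ⟨t, t⁻¹ • (φ.mapMatrix X.val - φ (a / 2) • 1), t0, ?_, by simp [smul_smul, t0]⟩
  have e' : φ.mapMatrix X.val * φ.mapMatrix X.val = φ a • φ.mapMatrix X.val + φ b • (1 : N4 L) := by
    rw [← map_mul, e]; ext i j; by_cases h : i = j <;> simp [h]
  have a2 : φ a = 2 * φ (a / 2) := by rw [← map_ofNat φ 2, ← map_mul]; congr 1; field_simp
  rw [map_add, map_pow] at ht
  generalize φ.mapMatrix X.val = Y at *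
  simp only [smul_mul_assoc, mul_smul_comm, sub_mul, mul_sub, e', one_mul, mul_one, smul_smul]
  match_scalars
  · rw [a2]; ring
  · field_simp; linear_combination -ht

theorem rot22' (two : (2 : K) ≠ 0) (det : ∀ x ∈ P, x.val.det = 1) (perf : ⁅P, P⁆ = P) (simple : IsSimpleGroup (PQ P))
    (ntv : NoTv P) (sq : SQ P) {X : G4 K} (hX : X ∈ P) {a b : K} (e : X.val * X.val = a • X.val + b • (1 : M4 K))
    (ht : T X = 2 * a) : pr X ^ 2 = 1 ∨ pr X ^ 3 = 1 ∨ pr X ^ 5 = 1 := by
  by_cases h : (a / 2) ^ 2 + b = 0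
  · refine (rot_unip two det sq hX (s := a / 2) ?_).imp (fun k => by simp [k]) Or.inl
    simp only [smul_mul_assoc, mul_smul_comm, sub_mul, mul_sub, e, one_mul, mul_one, smul_smul]
    match_scalars
    · field_simp; ring
    · linear_combination h
  obtain ⟨p, hp⟩ := CharP.exists K
  have : Fact p.Prime := ⟨CharP.char_is_prime K p⟩
  let L := AlgebraicClosure K
  let φ := algebraMap K L
  have h2 : (2 : L) ≠ 0 := by rw [← map_ofNat φ 2]; exact (map_ne_zero φ).2 two
  obtain ⟨t, S, t0, hS, hY⟩ := split_rot φ two e h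
  generalize hs : φ (a / 2) = s at hY
  have tS : S.trace = 0 := by
    have := congrArg Matrix.trace hY
    rw [RingHom.mapMatrix_apply, ← AddMonoidHom.map_trace, show X.val.trace = 4 * (a / 2) by
      rw [show X.val.trace = 2 * a from ht]; field_simp; ring, map_mul, map_ofNat, hs] at this
    simp at this
    exact mul_left_cancel₀ t0 (by linear_combination -this)
  have hq : ∀ n, (s + t) ^ n = (s - t) ^ n → pr X ^ n = 1 := fun n hn => by
    rw [← map_pow, ← pr_gm φ, map_pow]
    refine pr_eq_one'.2 ⟨((s + t) ^ n + (s - t) ^ n) / 2, ?_⟩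
    rw [Units.val_pow_eq_pow_val, show (gm φ X).val = _ from hY, rot_pow h2 hS, hn]; simp
  by_contra! hc
  have sb : IsSimpleGroup (bar P) := (pqEquiv P).symm.isSimpleGroup
  have := perfect_bar perf
  let f : P →* bar P := (pr.comp P.subtype).codRestrict (bar P) fun x => mem_bar x.2
  have hf : Function.Surjective f := by rintro ⟨_, x, hx, rfl⟩; exact ⟨⟨x, hx⟩, rfl⟩
  have hi : Function.Injective (rp φ P) := fun x y e => Subtype.ext (gm_inj φ (Units.ext e))
  let x : P := ⟨X, hX⟩
  have cjg : ∀ g : P, ∃ S : N4 L, rp φ P (g * x * g⁻¹) = s • 1 + t • S ∧ S * S = 1 ∧ S.trace = 0 := fun g => by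
    have k : rp φ P g⁻¹ * rp φ P g = 1 := by rw [← map_mul]; simp
    have k' : rp φ P g * rp φ P g⁻¹ = 1 := by rw [← map_mul]; simp
    refine ⟨cb _ _ k k' S, ?_, by rw [← map_mul, hS, map_one], by rw [cb_trace, tS]⟩
    rw [map_mul, map_mul, show rp φ P x = _ from hY, ← cb_apply (h := k) (h' := k')]; simp
  have key : ∀ g g' : P, g * x * g⁻¹ * (g' * x * g'⁻¹) = g' * x * g'⁻¹ * (g * x * g⁻¹) ∨ ((s + t) ^ 4 = (s - t) ^ 4 ∧
      ((g * x * g⁻¹) ^ 2 * (g' * x * g'⁻¹) ^ 2) ^ 4 = 1) := fun g g' => by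
    obtain ⟨S1, a1, a2, a3⟩ := cjg g
    obtain ⟨S2, b1, b2, b3⟩ := cjg g'
    refine (pair p (locFin K) h2 (cx_rp φ ntv sq) a1 b1 a2 a3 b2 b3 ?_ (fun k => hc.1 (hq 2 k)) (fun k => hc.2.1 (hq 3 k))
      fun k => hc.2.2 (hq 5 k)).imp (fun k => hi (by simpa using k)) fun k => ⟨k.1, hi (by simpa using k.2)⟩
    rw [rp_apply, ← RingHom.map_det, det _ (g * x * g⁻¹).2, map_one]
  by_cases q4 : (s + t) ^ 4 = (s - t) ^ 4
  · have x4 : f x ^ 4 = 1 := Subtype.ext (hq 4 q4)
    have : Finite (bar P) := Finite.of_surjective f hf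
    refine hc.1 (congrArg Subtype.val (inv_four (z := f x ^ 2) (by rw [← pow_add, x4]) fun g g' => ?_))
    obtain ⟨g, rfl⟩ := hf g
    obtain ⟨g', rfl⟩ := hf g'
    rw [← conj_pow, ← conj_pow]
    rcases key g g' with k | k
    · have : Commute (f g * f x * (f g)⁻¹) (f g' * f x * (f g')⁻¹) := by
        simpa [Commute, SemiconjBy] using congrArg f k
      rw [(this.pow_pow 2 2).mul_pow, pow_right_comm, pow_right_comm (f g' * f x * (f g')⁻¹), conj_pow, conj_pow, conj_pow,
        conj_pow, x4]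
      simp
    · simpa using congrArg f k.2
  · have := comm_one (z := f x) fun g g' => by
      obtain ⟨g, rfl⟩ := hf g
      obtain ⟨g', rfl⟩ := hf g'
      simpa using congrArg f ((key g g').resolve_right fun k => q4 k.1)
    exact hc.1 (by rw [show pr X = 1 from congrArg Subtype.val this, one_pow])

/-- rotations of type `2 + 2` have order two, three or five -/
theorem rot22 (two : (2 : K) ≠ 0) (det : ∀ x ∈ P, x.val.det = 1) (perf : ⁅P, P⁆ = P) (simple : IsSimpleGroup (PQ P))
    (ntv : NoTv P) (sq : SQ P) {X : G4 K} (hX : pr X ∈ bar P) {a b : K} (e : X.val * X.val = a • X.val + b • (1 : M4 K))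
    (ht : T X = 2 * a) : pr X ^ 2 = 1 ∨ pr X ^ 3 = 1 ∨ pr X ^ 5 = 1 := by
  obtain ⟨y, hy, e'⟩ := hX
  obtain ⟨d, hd⟩ := pr_eq_iff.1 e'
  rw [← e']
  exact rot22' two det perf simple ntv sq hy (a := d * a) (b := d * d * b) (by
    rw [hd, Matrix.smul_mul, Matrix.mul_smul, e]; simp only [smul_add, smul_smul]; congr 2 <;> ring)
    (by rw [T_of_smul hd, ht]; ring)

/-- there is no rotation of order four -/
theorem r4 (two : (2 : K) ≠ 0) (det : ∀ x ∈ P, x.val.det = 1) (perf : ⁅P, P⁆ = P) (simple : IsSimpleGroup (PQ P))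
    (ntv : NoTv P) (sq : SQ P) {X : G4 K} (hX : pr X ∈ bar P) {c i : K} {E : M4 K} (hE : E * E = E) (ht : E.trace = 2)
    (e : X.val = c • (1 + (i - 1) • E)) (hi : i ^ 2 = -1) : False := by
  have hn : ∀ n, (X ^ n).val = c ^ n • (1 + (i ^ n - 1) • E) := fun n => by
    induction n with
    | zero => simp
    | succ n ih =>
      rw [pow_succ, Units.val_mul, ih, e]
      simp only [smul_mul_assoc, mul_smul_comm, add_mul, mul_add, hE, one_mul, mul_one, smul_smul, smul_add]
      match_scalars <;> ring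
  have hc := ne_zero_of_eq_smul e
  have k : ∀ n, pr X ^ n = 1 → i ^ n = 1 := fun n h => by
    obtain ⟨d, hd⟩ := pr_eq_one'.1 (by rwa [← map_pow] at h)
    rw [hn] at hd
    by_contra h1
    have h2 : E = ((i ^ n - 1)⁻¹ * ((c ^ n)⁻¹ * d - 1)) • (1 : M4 K) := by
      rw [mul_smul, eq_inv_smul_iff₀ (sub_ne_zero.2 h1), sub_smul (_ * d), mul_smul, ← hd, inv_smul_smul₀ (pow_ne_zero _ hc)]
      simp
    generalize (i ^ n - 1)⁻¹ * ((c ^ n)⁻¹ * d - 1) = w at h2
    subst h2
    have := congrFun (congrFun hE 0) 0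
    simp at this ht
    grind
  rcases rot22 two det perf simple ntv sq hX (a := c * (i + 1)) (b := -(c * c * i)) (by
    rw [e]
    simp only [smul_mul_assoc, mul_smul_comm, add_mul, mul_add, hE, one_mul, mul_one, smul_smul, smul_add]
    match_scalars <;> ring) (by simp [T, e, ht]; ring) with h | h | h <;> have := k _ h <;> grind

omit [Finite K] in
theorem ntv_of_per (per : NoPer P) : NoTv P := fun X hX h => by
  obtain ⟨v, hv, hv'⟩ := finrank_eq_one_iff'.1 h
  choose c hc using fun j => hv' ⟨_, Pi.single j 1, rfl⟩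
  have e : X.val - 1 = vecMulVec v c := by
    ext i j
    have := congrFun (congrArg Subtype.val (hc j)) i
    simpa [vecMulVec_apply, mul_comm, Pi.single_apply, one_apply] using this.symm
  obtain ⟨d, hd⟩ := pr_eq_one'.1 (per X hX 1 v c (by rw [← e]; simp))
  by_cases h1 : d = 1
  · simp [hd, h1] at h
  · have : X.val - 1 = (d - 1) • 1 := by rw [hd, sub_smul, one_smul]
    rw [this, rank_of_isUnit] at h
    · simp at h
    · exact (Matrix.isUnit_iff_isUnit_det _).2 (by simp [sub_ne_zero.2 h1])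

/-- package R -/
theorem rot (two : (2 : K) ≠ 0) (det : ∀ x ∈ P, x.val.det = 1) (perf : ⁅P, P⁆ = P) (simple : IsSimpleGroup (PQ P))
    (per : NoPer P) (sq : SQ P) : Rot P := fun X hX a b e => by
  by_cases ht : T X = 2 * a
  · exact rot22' two det perf simple (ntv_of_per per) sq hX e ht
  left
  suffices pr X = 1 by simp [this]
  let L := AlgebraicClosure K
  let φ := algebraMap K L
  have h2 : (2 : L) ≠ 0 := by rw [← map_ofNat φ 2]; exact (map_ne_zero φ).2 two
  obtain ⟨t, S, t0, hS, hY⟩ := split_rot φ two e fun h => ht (by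
    have : IsNilpotent (X.val - (a / 2) • 1) := ⟨2, by
      simp only [pow_two, smul_mul_assoc, mul_smul_comm, sub_mul, mul_sub, e, one_mul, mul_one, smul_smul]
      match_scalars
      · field_simp; ring
      · linear_combination h⟩
    have := (Matrix.isNilpotent_trace_of_isNilpotent this).eq_zero
    simp at this
    rw [T, sub_eq_zero.1 this]; field_simp; ring)
  have a2 : φ a = 2 * φ (a / 2) := by rw [← map_ofNat φ 2, ← map_mul]; congr 1; field_simp
  generalize φ (a / 2) = s at hY a2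
  have tX : φ (T X) = 4 * s + t * S.trace := by
    have := congrArg Matrix.trace hY
    rw [RingHom.mapMatrix_apply, ← AddMonoidHom.map_trace] at this
    simpa [mul_comm, T] using this
  have key : ∀ (t : L) (E : N4 L), φ.mapMatrix X.val = (s - t) • (1 : N4 L) + (2 * t) • E →
      (E = 0 ∨ (E.trace = 1 ∧ ∃ v w, E = vecMulVec v w) ∨ E = 1) → pr X = 1 := by
    rintro t E h (rfl | ⟨h1, v, w, rfl⟩ | rfl)
    · exact (pr_gm φ X).1 (pr_eq_one'.2 ⟨_, by simpa using h⟩)
    · have h3 : s - t = φ ((T X - a) / 2) := by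
        have := congrArg Matrix.trace h
        rw [RingHom.mapMatrix_apply, ← AddMonoidHom.map_trace, trace_add, trace_smul, trace_smul, h1] at this
        rw [map_div₀, map_sub, map_ofNat, a2, eq_div_iff h2, T]
        simp at this ⊢
        linear_combination -this
      generalize (T X - a) / 2 = c at h3
      obtain ⟨v', w', k⟩ := vmv_desc φ (N := X.val - c • 1) (v := (2 * t) • v) (w := w) (by
        have : φ.mapMatrix (c • (1 : M4 K)) = φ c • 1 := by ext i j; by_cases h : i = j <;> simp [h]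
        rw [← RingHom.mapMatrix_apply, map_sub, this, h, h3, smul_vecMulVec]; simp)
      have hc : c ≠ 0 := by
        rintro rfl
        have h4 := rank_vecMulVec_le v' w'
        rw [← k, zero_smul, sub_zero, rank_of_isUnit _ X.isUnit] at h4
        simp at h4
      exact per X hX c (c⁻¹ • v') w' (by rw [smul_vecMulVec, ← k, smul_add, smul_inv_smul₀ hc]; simp)
    · exact (pr_gm φ X).1 (pr_eq_one'.2 ⟨s + t, by
        rw [show (gm φ X).val = _ from h, ← add_smul]; congr 1; ring⟩)
  obtain ⟨t', E, k1, k2⟩ := idem_cases h2 hS (fun k => ht (φ.injective (by rw [tX, k, map_mul, map_ofNat, a2]; ring))) s t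
  exact key t' E (hY.trans k1) k2

end Cfsg.Agent.H6.W
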