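import Cfsg.Agent.H6.Y3

set_option autoImplicit false

/-! Recognition of `A₇` in a projective group of degree four. -/

namespace Cfsg.Agent.H6.Y
open Matrix Cfsg.Agent.MH Cfsg.Agent.H1.Mit Cfsg.Agent.H1.N1

variable {T K : Type*} [Group T] [Field K] {ρ : PR T K} {z w t v : T} {Z W : M4 K}

theorem sc_inj {c d : K} (e : c • (1 : M4 K) = d • 1) : c = d := smul_inj (by simp) e

theorem cube {S : M4 K} {a b c : K} (l : ρ.L w S) (w1 : w ≠ 1) (e : S * S = a • S + b • 1) (e3 : S ^ 3 = c • 1) :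
    a * a + b = 0 ∧ a * b = c := by
  have : (a * a + b) • S = (c - a * b) • 1 := by
    rw [pow_three', e, add_mul, smul_mul_assoc, e, smul_mul_assoc, one_mul] at e3
    linear_combination (norm := module) e3
  by_cases k : a * a + b = 0
  · rw [k, zero_smul, ← zero_smul K (1 : M4 K)] at this
    exact ⟨k, by linear_combination sc_inj this⟩
  · exact (w1 (l.sc (c := (c - a * b) / (a * a + b)) (smul_right_injective _ k (by
      simp only [this, smul_smul]; rw [mul_div_cancel₀ _ k])))).elim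

theorem qu (h : ρ.Gm) (n : ρ.Neg) (lZ : ρ.O z Z) (lW : ρ.O w W) (w1 : w ≠ 1) (w3 : w ^ 3 = 1) (r : ρ.Rt w) (ht : Inv t)
    (c1 : z * t = t * z) (c2 : z * w = w * z) (n1 : w * t * w⁻¹ ≠ t) (c3 : w * t * w⁻¹ * t = t * (w * t * w⁻¹))
    (c4 : w * (w * t * w⁻¹) * w⁻¹ = t * (w * t * w⁻¹)) : ∃ i j, ρ.L t i ∧ ρ.L (w * t * w⁻¹) j ∧ Qa i j ∧ Cm i j Z ∧
      (2 : K) • W = -1 - (i + j + i * j) := by
  have hk := ht.mul (ht.conj w) n1.symm c3.symm
  have nz := lW.1.nz
  obtain ⟨i, li, e⟩ : ∃ i, ρ.L t i ∧ W * (W * i * W⁻¹) * W⁻¹ = i * (W * i * W⁻¹) := by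
    obtain ⟨i, li⟩ := ρ.exL t
    have l1 := li.mul (lW.1.conj li)
    have l2 := (lW.1.conj (lW.1.conj li)).congr' c4.symm
    obtain ⟨c, -, e⟩ := l1.uniq l2
    have := n.neg _ _ hk l2
    rw [e, smul_mul_smul_comm, n.neg _ _ hk l1, smul_neg, neg_inj, ← one_smul K (1 : M4 K), smul_smul, mul_one] at this
    rcases mul_self_eq_one_iff.1 (sc_inj this) with rfl | rfl
    · exact ⟨i, li, by simpa using e⟩
    · exact ⟨-i, ((li.mul li).mul li).congr' (by rw [ht.2, one_mul]) |>.congr (by rw [n.neg _ _ ht li]; simp), by simp [e]⟩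
  have lj := lW.1.conj li
  obtain ⟨j, hj⟩ : ∃ j, j = W * i * W⁻¹ := ⟨_, rfl⟩
  rw [← hj] at e lj
  have e1 : W * i = j * W := by rw [hj, mul_assoc, H1.N1.li nz, mul_one]
  have e2 : W * j = i * j * W := by rw [← e, mul_assoc, H1.N1.li nz, mul_one]
  have W3 := lW.pow_eq w3
  have e3 : W * (i * j) = i * W := by
    have e3 : W * (W * W) = 1 := by rw [← pow_three, W3]
    refine cr nz (cr nz ?_)
    rw [mul_assoc W, ← e2, mul_assoc W, mul_assoc W, ← e1, mul_assoc i, mul_assoc i, mul_assoc W W W, e3, ← mul_assoc W W i,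
      ← mul_assoc W (W * W), e3, one_mul, mul_one]
  have ii := n.neg _ _ ht li
  have jj := n.neg _ _ (ht.conj w) lj
  have q : Qa i j := ⟨h.two, ii, jj, by
    have := congrArg (fun x => i * x * j) (n.neg _ _ hk (li.mul lj))
    simpa [mul_assoc, tl ii, jj] using this⟩
  refine ⟨i, j, li, lj, q, ⟨lZ.comm li c1.symm, lZ.comm lj (by
    rw [mul_assoc, mul_assoc, (show Commute w z from c2.symm).inv_left.eq, ← mul_assoc t, ← c1, ← mul_assoc, ← mul_assoc, ← c2]
    simp only [mul_assoc])⟩, ?_⟩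
  obtain ⟨a, b, e⟩ := r.all lW.1
  obtain ⟨k1, k2⟩ := cube lW.1 w1 e (W3.trans (one_smul K _).symm)
  obtain ⟨V, hV⟩ : ∃ V, V = (a * a) • W := ⟨_, rfl⟩
  have v0 : V * V = -1 - V := by
    rw [hV, smul_mul_smul_comm, e, ← one_smul K (1 : M4 K)]
    match_scalars <;> grind
  have v1 : V * i = j * V := by simp [hV, e1]
  have v3 : V * (i * j) = i * V := by simp [hV, e3]
  have v4 : V * (j - i * j) = i - j := by
    have := congrArg (fun x => (-1 - V) * x * (-1 - V)) v1
    qs q, [v0] at this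
    rw [mul_sub, v3]
    linear_combination (norm := module) this
  have v5 : (2 : K) • V = -1 - (i + j + i * j) := by
    have := congrArg (· * (j - i * j)) v4
    simp only [mul_assoc] at this
    qs q, [q.ii] at this
    linear_combination (norm := module) -this
  have v6 : (i - j) * V = (-1 - V) * (i - j) := half h.two (by
    rw [← mul_smul_comm, ← smul_mul_assoc, smul_sub, v5]; qs q, [q.ii]; module)
  have d1 : (i - j).det ≠ 0 := fun k => by
    have := congrArg det (show (i - j) * (i - j) = (-2 : K) • 1 by qs q, [q.ii]; module)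
    rw [det_mul, k, det_smul, det_one, mul_one, mul_zero] at this
    exact pow_ne_zero _ (neg_ne_zero.2 h.two) this.symm
  have d2 := congrArg det (show V * (-1 - V) = 1 by qs q, [v0]; module)
  have d3 := congrArg det v6
  have d4 : V.det = (a * a) ^ 4 := by simp [hV, lW.1.det]
  rw [det_mul, det_mul, mul_comm, mul_left_inj' d1] at d3
  rw [det_mul, ← d3, d4, det_one] at d2
  rw [← v5, hV, show a * a = 1 by grind, one_smul]

/-- package A7 -/
theorem a7 [Finite K] (h : ρ.Gm) (n : ρ.Neg) (o : OutA ρ.Rt z w t v) : Nonempty (T ≃* alternatingGroup (Fin 7)) := by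
  obtain ⟨Z, lZ, -⟩ := ρ.exO (by decide) o.z3
  obtain ⟨W, lW, -⟩ := ρ.exO (by decide) o.w3
  obtain ⟨i, j, li, lj, q, cZ, eW⟩ := qu h n lZ lW o.w1 o.w3 o.rw o.it o.zt o.zw o.t1 o.t2 o.t3
  obtain ⟨x, y, lx, -, q', cW, eZ⟩ := qu h n lW lZ o.z1 o.z3 o.rz o.iv o.wv o.zw.symm o.v1 o.v2 o.v3
  have eI : (2 : K) • Z + 1 = -(x + y + x * y) := by rw [eZ]; abel
  have II : ((2 : K) • Z + 1) * ((2 : K) • Z + 1) = (-3 : K) • 1 := by rw [eI]; qs q', [q.ii]; module
  have xI : x * ((2 : K) • Z + 1) + ((2 : K) • Z + 1) * x = (2 : K) • 1 := by rw [eI]; qs q', [q.ii]; module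
  have eY : (1 - ((2 : K) • Z + 1) - (2 : K) • x) * i = (2 : K) • (x * (Z * Z) * x * i) := by
    have e1 : (2 : K) • (Z * Z) = -1 - ((2 : K) • Z + 1) := half h.two (by
      qs q, [q.ii] at II; linear_combination (norm := module) II)
    rw [← smul_mul_assoc, ← smul_mul_assoc, ← mul_smul_comm, e1, eI]; qs q', [q.ii]; module
  obtain ⟨a, b, β, s, hx⟩ := q.st (h.spl _ _ li) (x := x) (by
    rw [show i + j + i * j = -1 - (2 : K) • W by rw [eW]; abel]; qs q, [cW.1]) q'.ii ((cZ.smul 2).add .one) II xI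
  have e := s.quad rfl
  rw [← hx, eY] at e
  have lS := ((lx.mul (lZ.1.mul lZ.1)).mul lx).mul li
  replace lS := lS.mul lS
  generalize x * (Z * Z) * x * i = Y at e lS
  have eS : Y * Y * (Y * Y) = (1 - 8 * β) • (Y * Y) + (-1 : K) • 1 := half h.two (half h.two (half h.two (half h.two (by
    simp only [smul_mul_smul_comm] at e; linear_combination (norm := module) e))))
  have key : (v * (z * z) * v * t * (v * (z * z) * v * t)) ^ 2 = 1 := by
    by_contra k
    have k1 : v * (z * z) * v * t * (v * (z * z) * v * t) ≠ 1 := fun e => k (by rw [e, one_pow])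
    rcases h.rot _ _ _ _ lS eS with e | e | e
    · exact k e
    swap
    · exact k1 (o.five _ e ⟨_, lS, _, _, eS⟩)
    obtain ⟨c, -, e3⟩ := (lS.pow 3).of_one e
    have l := li.mul lx
    rcases (mul_eq_zero.1 (mul_left_cancel₀ (pow_ne_zero 4 h.two) (by
      linear_combination (cube lS k1 eS e3).1) : β * (4 * β - 1) = 0)).imp_right sub_eq_zero.1 with b | b
    · obtain ⟨p, hp⟩ := CharP.exists K
      have po : Odd p := (CharP.char_is_prime K p).odd_of_ne_two (by rintro rfl; exact h.two (CharP.cast_eq_zero K 2))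
      have z1 := fun l => s.zero (l := l) b p po
      rw [← hx] at z1
      by_cases u1 : (t * v) ^ p = 1
      · obtain ⟨c, -, e⟩ := (l.pow p).of_one u1
        exact (z1 c).2 e
      · have := n.neg _ _ ⟨u1, ((l.pow p).mul (l.pow p)).sc ((z1 0).1.trans (one_smul K _).symm)⟩ (l.pow p)
        rw [(z1 0).1, ← one_smul K (1 : M4 K), ← neg_smul] at this
        exact h.two (by linear_combination sc_inj this)
    · have z1 := fun l => s.quarter (l := l) b rfl
      have z2 := s.sq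
      rw [← hx, b, sub_self, zero_smul, zero_add] at z2
      rw [← z2] at z1
      replace l := l.mul l
      rcases o.nm _ (mem_Cn.2 ((l.mul li).inj (li.mul l) (z1 0).1).symm) with e | e <;> rw [mul_inv_eq_iff_eq_mul] at e
      · obtain ⟨c, -, e⟩ := (lj.mul l).uniq ((l.mul lj).congr' e.symm)
        exact (z1 c).2.1 e
      · obtain ⟨c, -, e⟩ := ((li.mul lj).mul l).uniq ((l.mul lj).congr' e.symm)
        exact (z1 c).2.2 e
  have A3 : (v * (z * z) * v) ^ 3 = 1 := by
    rw [show v * (z * z) * v = v * z ^ 2 * v⁻¹ by rw [o.iv.inv_eq, sq], conj_pow, ← pow_mul, mul_comm 2, pow_mul, o.z3]; simp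
  have zA : (z * (v * (z * z) * v)) ^ 2 = 1 := by
    have := (o.iv.mul (o.iv.conj z) o.v1.symm o.v2.symm).2
    rw [← o.v2, ← inv_eq_of_mul_eq_one_right ((pow_three z).symm.trans o.z3)] at *
    simpa [sq, mul_assoc] using this
  have wA : w * (v * (z * z) * v) * w⁻¹ = v * (z * z) * v := by
    rw [mul_inv_eq_iff_eq_mul]
    exact ((show Commute w v from o.wv).mul_right ((show Commute w z from o.zw.symm).mul_right o.zw.symm)).mul_right o.wv
  generalize v * (z * z) * v = A at *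
  have k2 : (A * (w * t * w⁻¹) * (A * (w * t * w⁻¹))) ^ 2 = 1 := by rw [← wA, conj_mul, conj_mul, conj_pow, key]; simp
  have k3 : (A * (t * (w * t * w⁻¹)) * (A * (t * (w * t * w⁻¹)))) ^ 2 = 1 := by
    rw [← o.t3, ← wA, conj_mul, conj_mul, conj_pow, k2]; simp
  have z2 : z * (w * t * w⁻¹) = w * t * w⁻¹ * z :=
    ((show Commute z w from o.zw).mul_right o.zt).mul_right (show Commute z w from o.zw).inv_right
  have tt := o.it.2
  have ss := (o.it.conj w).2
  have ts := o.t2
  have zt := o.zt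
  generalize w * t * w⁻¹ = s at *
  have f : ∀ r : T, z * r = r * z → (z * (r * A * r⁻¹)) ^ 2 = 1 := fun r e => by
    rw [show z * (r * A * r⁻¹) = r * (z * A) * r⁻¹ by simp only [← mul_assoc, e], conj_pow, zA]; simp
  have g : ∀ r r' u : T, r' = r * u → u * u = 1 → (A * u * (A * u)) ^ 2 = 1 → (r * A * r⁻¹ * (r' * A * r'⁻¹)) ^ 2 = 1 := by
    rintro r _ u rfl e k
    rw [show r * A * r⁻¹ * (r * u * A * (r * u)⁻¹) = r * (A * u * (A * u⁻¹)) * r⁻¹ by group, inv_eq_of_mul_eq_one_right e,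
      conj_pow, k]; simp
  have us : t * s * (t * s) = 1 := by rw [mul_assoc, ← mul_assoc s, ts, mul_assoc, ss, mul_one, tt]
  have c1 : ∀ {x y : T}, (x * y) ^ 2 = 1 → (y * x) ^ 2 = 1 := fun {x y} e => by
    rw [show (y * x) ^ 2 = y * (x * y) ^ 2 * y⁻¹ by simp only [pow_succ]; group, e]; group
  have r : ∀ i j : Fin 5, i < j → (![z, 1 * A * 1⁻¹, t * A * t⁻¹, s * A * s⁻¹, t * s * A * (t * s)⁻¹] i *
      ![z, 1 * A * 1⁻¹, t * A * t⁻¹, s * A * s⁻¹, t * s * A * (t * s)⁻¹] j) ^ 2 = 1 := fun i j hij => by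
    fin_cases i <;> fin_cases j <;> try exact absurd hij (by decide)
    exacts [f 1 (by simp), f t zt, f s z2, f _ ((show Commute z t from zt).mul_right z2), g _ _ t (by simp) tt key,
      g _ _ s (by simp) ss k2, g _ _ _ (by simp) us k3, g _ _ _ (by rw [← mul_assoc, tt, one_mul]) us k3, g _ _ s rfl ss k2,
      g _ _ t ts.symm tt key]
  refine a7_of_carm o.card _ (fun i => ?_) (fun i j e => e.lt_or_gt.elim (r i j) fun k => c1 (r j i k)) o.z1
  fin_cases i <;> simp [conj_pow, o.z3, A3, -_root_.mul_inv_rev]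

end Cfsg.Agent.H6.Y
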