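import Cfsg.Agent.H1.N1d

set_option autoImplicit false

/-! Three commuting elements of odd prime order with independent sign patterns. -/

namespace Cfsg.Agent.H6.Z
open Matrix Cfsg.Agent.MH Cfsg.Agent.H1.Mit Cfsg.Agent.H1.N1

variable {T K : Type*} [Group T] [Field K] {ρ : PR T K}

theorem sq_eq {a a' u u' g : T} (e : a * u = a' * u') (h1 : g * a * g⁻¹ = a) (h2 : g * a' * g⁻¹ = a') (h3 : g * u * g⁻¹ = u⁻¹)
    (h4 : g * u' * g⁻¹ = u'⁻¹) (c : Commute a u) (c' : Commute a' u') : a ^ 2 = a' ^ 2 := by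
  have := congrArg (fun x => g * x * g⁻¹) e
  simp only [← conj_mul, h1, h2, h3, h4] at this
  calc _ = a * u * (a * u⁻¹) := by rw [mul_assoc, ← mul_assoc u, ← c.eq]; simp [sq]
    _ = a' * u' * (a' * u'⁻¹) := by rw [e, this]
    _ = _ := by rw [mul_assoc, ← mul_assoc u', ← c'.eq]; simp [sq]

theorem diag_eq (h : ρ.Gm) {u u' : T} {d d' : Fin 4 → K} (l : ρ.L u (diagonal d)) (l' : ρ.L u' (diagonal d'))
    (e1 : d 1 / d 3 = d' 1 / d' 3) (e2 : d 2 / d 3 = d' 2 / d' 3) : u = u' := by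
  have n : ∀ i, d i ≠ 0 := fun i => Finset.prod_ne_zero_iff.1 (det_diagonal (d := d) ▸ l.nz) i (Finset.mem_univ i)
  have n' : ∀ i, d' i ≠ 0 := fun i => Finset.prod_ne_zero_iff.1 (det_diagonal (d := d') ▸ l'.nz) i (Finset.mem_univ i)
  have e : (diagonal fun i => d i / d' i) = diagonal d * (diagonal d')⁻¹ := by
    rw [inv_eq_right_inv (B := diagonal fun i => (d' i)⁻¹) (by simp [n']), diagonal_mul_diagonal]
    simp [div_eq_mul_inv]
  refine mul_inv_eq_one.1 (h.per _ _ (d 3 / d' 3) ((l.mul l'.inv).congr e) (rk1_diag 0 fun i hi => ?_))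
  have := n 1; have := n 2; have := n 3; have := n' 1; have := n' 2; have := n' 3
  fin_cases i
  · simp at hi
  all_goals simp; try (field_simp at *; grind)

theorem quad_nv (h : ρ.Gm) {p : ℕ} (hp : p.Prime) (p0 : (p : K) = 0) {x : T} {X : M4 K} (l : ρ.O x X) (e : x ^ p = 1)
    (n : nv x ≠ 0) : (X - 1) * (X - 1) = 0 := by
  obtain ⟨s, hs, c⟩ := Set.nonempty_of_ncard_ne_zero n
  obtain ⟨Q, hQ, d, k, e1, e2, e3, e4⟩ := h.blk hs.1 (n := 2) h.two (by rw [sq, hs.2])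
  have l' := l.cj hQ (Y := Q⁻¹ * X * Q) (by rw [mul_assoc, ri' hQ])
  obtain ⟨b1, b2⟩ := comm_bd e1 e2 e3 e4 (l'.comm k (mem_Cn.1 c).symm).symm
  have := congrArg (fun Y => Q * Y * Q⁻¹) (bd_nil (UL.sub1 b1) b2.sub1 (nil_of_pow (k := 1) hp p0 (by simpa using l'.pow_eq e)))
  simpa only [← cj_mul hQ, ← cj_sub1 hQ, mul_assoc, ri' hQ, ri hQ, mul_one, mul_zero, zero_mul] using this

theorem tri (h : ρ.Gm) : Tri T := fun r g k x y z hr ro xr yr zr x1 y1 z1 xy xz yz nx ny nz gx gy gz kx ky kz => by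
  classical
  replace xy : Commute x y := xy
  replace xz : Commute x z := xz
  replace yz : Commute y z := yz
  by_cases r0 : (r : K) = 0
  · obtain ⟨X, lX, -⟩ := ρ.exO ro xr
    obtain ⟨Y, lY, -⟩ := ρ.exO ro yr
    obtain ⟨Z, lZ, -⟩ := ρ.exO ro zr
    have c : ∀ {x y X Y}, ρ.O x X → ρ.O y Y → Commute x y → (X - 1) * (Y - 1) = (Y - 1) * (X - 1) := fun lX lY e => by
      simp only [mul_sub, sub_mul, lY.comm lX.1 e, mul_one, one_mul]; abel
    have f : ∀ {x y g X Y}, ρ.O x X → ρ.O y Y → Commute x y → x ≠ 1 → y ≠ 1 → x ^ r = 1 → y ^ r = 1 → nv x ≠ 0 →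
        g * x * g⁻¹ = x → g * y * g⁻¹ = y⁻¹ → (X - 1) * (Y - 1) ≠ 0 := fun {x y g X Y} lX lY e x1 y1 xr yr nx gx gy e0 => by
      refine y1 (Od.eq_one ⟨r, ro, yr⟩ (mul_eq_one_iff_eq_inv.2 ?_))
      rcases (h.sq x X lX.1 (mt lX.eq_one.2 x1) (quad_nv h hr r0 lX xr nx)).2 y Y lY.1 ((c lX lY e).symm.trans e0) e0
        with e | rfl | rfl
      exacts [(y1 e).elim, gx.symm.trans gy, by rw [← gy, ← conj_inv, gx]]
    rcases cyc_three h.two (quad_nv h hr r0 lX xr nx) (quad_nv h hr r0 lY yr ny) (quad_nv h hr r0 lZ zr nz) (c lX lY xy)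
      (c lZ lX xz.symm) (c lZ lY yz.symm) with e | e | e
    exacts [f lX lY xy x1 y1 xr yr nx gx gy e, f lX lZ xz x1 z1 xr zr nx gx gz e, f lY lZ yz y1 z1 yr zr ny ky kz e]
  obtain ⟨Q, hQ, D⟩ := h.diag (R := {x, y, z}) ro r0 (by simp [xr, yr, zr]) (by simp [xy.eq, xz.eq, yz.eq])
  obtain ⟨a, la⟩ := D x (by simp)
  obtain ⟨b, lb⟩ := D y (by simp)
  obtain ⟨c, lc⟩ := D z (by simp)
  have rt : ∀ {x d}, (ρ.cj Q hQ).O x (diagonal d) → x ^ r = 1 → ∀ i, d i ^ r = 1 := fun l e i => by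
    simpa [diagonal_pow] using congrFun (congrFun (l.pow_eq e) i) i
  have l : ∀ i j m : ℕ, (ρ.cj Q hQ).L (x ^ i * (y ^ j * z ^ m)) (diagonal (a ^ i * (b ^ j * c ^ m))) := fun i j m =>
    ((la.1.pow i).mul ((lb.1.pow j).mul (lc.1.pow m))).congr (by simp [diagonal_pow])
  obtain ⟨⟨i, j, m⟩, h1, ⟨i', j', m'⟩, h2, ne, e⟩ := Finset.exists_ne_map_eq_of_card_lt_of_maps_to
    (s := Finset.range r ×ˢ Finset.range r ×ˢ Finset.range r)
    (t := (Polynomial.nthRoots r (1 : K)).toFinset ×ˢ (Polynomial.nthRoots r (1 : K)).toFinset)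
    (f := fun p => ((a ^ p.1 * (b ^ p.2.1 * c ^ p.2.2)) 1 / (a ^ p.1 * (b ^ p.2.1 * c ^ p.2.2)) 3,
      (a ^ p.1 * (b ^ p.2.1 * c ^ p.2.2)) 2 / (a ^ p.1 * (b ^ p.2.1 * c ^ p.2.2)) 3)) (by
      have := (Multiset.toFinset_card_le _).trans (Polynomial.card_nthRoots r (1 : K))
      have := hr.one_lt
      simp only [Finset.card_product, Finset.card_range]
      exact (Nat.mul_le_mul ‹_› ‹_›).trans_lt (by nlinarith [Nat.mul_pos hr.pos hr.pos])) fun p _ => by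
      simp [Polynomial.mem_nthRoots hr.pos, div_pow, mul_pow, pow_right_comm _ _ r, rt la xr, rt lb yr, rt lc zr]
  have e' := diag_eq (h.cj hQ) (l i j m) (l i' j' m') (Prod.mk.inj e).1 (Prod.mk.inj e).2
  have := Fact.mk hr
  simp only [Finset.mem_product, Finset.mem_range] at h1 h2
  have inj : ∀ {x : T} {i i' : ℕ}, x ≠ 1 → x ^ r = 1 → i < r → i' < r → (x ^ i) ^ 2 = (x ^ i') ^ 2 → i = i' :=
    fun x1 xr h1 h2 e => by
      rw [← pow_mul, ← pow_mul, pow_eq_pow_iff_modEq, orderOf_eq_prime xr x1] at e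
      exact (Nat.ModEq.cancel_right_of_coprime (Nat.coprime_two_right.2 ro) e).eq_of_lt_of_lt h1 h2
  have cp : ∀ {g x y : T} (n : ℕ), g * x * g⁻¹ = y → g * x ^ n * g⁻¹ = y ^ n := fun n e => by rw [← conj_pow, e]
  have ci : ∀ {g x y : T} (n m : ℕ), g * x * g⁻¹ = x⁻¹ → g * y * g⁻¹ = y⁻¹ → Commute x y →
      g * (x ^ n * y ^ m) * g⁻¹ = (x ^ n * y ^ m)⁻¹ := fun n m e f c => by
    rw [← conj_mul, cp n e, cp m f, (c.pow_pow n m).eq, _root_.mul_inv_rev, inv_pow, inv_pow]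
  obtain rfl := inj x1 xr h1.1 h2.1 (sq_eq e' (cp _ gx) (cp _ gx) (ci _ _ gy gz yz) (ci _ _ gy gz yz)
    ((xy.pow_pow _ _).mul_right (xz.pow_pow _ _)) ((xy.pow_pow _ _).mul_right (xz.pow_pow _ _)))
  replace e' := mul_left_cancel e'
  obtain rfl := inj y1 yr h1.2.1 h2.2.1 (sq_eq e' (cp _ ky) (cp _ ky) (by rw [cp _ kz, inv_pow]) (by rw [cp _ kz, inv_pow])
    (yz.pow_pow _ _) (yz.pow_pow _ _))
  exact ne (by rw [inj z1 zr h1.2.2 h2.2.2 (by rw [mul_left_cancel e'])])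

end Cfsg.Agent.H6.Z
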