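import Cfsg.Agent.H6.T8
import Cfsg.Agent.H2.PGroup
import Cfsg.Agent.Asch.Struct
import Cfsg.Agent.H7.Proper

/-! Class six in dimension nine. -/

set_option autoImplicit false
set_option linter.unusedSectionVars false
set_option linter.unusedSimpArgs false
set_option linter.unusedVariables false

namespace Cfsg.Agent.H6.T

open Matrix Cfsg.Agent.H4.E Cfsg.Agent.Form Cfsg.Agent.H7
open scoped MatrixGroups commutatorElement

theorem class_two {Γ : Type*} [Group Γ] [Finite Γ] (hp : IsPGroup 3 Γ)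
    (hc : ∀ A : Subgroup Γ, A.Characteristic → IsMulCommutative A → IsCyclic A) (h3 : ∀ x : Γ, x ^ 3 = 1)
    (hZ : Nat.card (Subgroup.center Γ) = 3) : commutator Γ ≤ Subgroup.center Γ := by
  by_contra h
  have := Fact.mk Nat.prime_three
  obtain ⟨b, b1, b2, -, b4⟩ := H2.PGroup.exists_central_mod_p hp _ _ h
  let Z := Subgroup.upperCentralSeriesStep (Subgroup.center Γ)
  have z1 : ⁅(⊤ : Subgroup Γ), Z⁆ ≤ Subgroup.center Γ := by
    rw [Subgroup.commutator_comm]; exact Subgroup.commutator_le.2 fun x hx y _ => hx y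
  have z2 : ⁅⁅(⊤ : Subgroup Γ), Z⁆, ⊤⁆ = ⊥ := Subgroup.commutator_eq_bot_iff_le_centralizer.2
    (z1.trans (Subgroup.center_le_centralizer _))
  have z3 := Subgroup.commutator_eq_bot_iff_le_centralizer.1
    (Subgroup.commutator_commutator_eq_bot_of_rotate z2 (by rwa [Subgroup.commutator_comm Z]))
  have := hc (Z ⊓ Subgroup.centralizer Z) inferInstance ⟨⟨fun a b => Subtype.ext (b.2.2 a a.2.1)⟩⟩
  have e : Subgroup.center Γ = Z ⊓ Subgroup.centralizer Z := Subgroup.eq_of_le_of_card_ge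
    (le_inf (fun x hx y => by rw [commutatorElement_eq_one_iff_mul_comm.2 (Subgroup.mem_center_iff.1 hx y).symm]; simp)
      (Subgroup.center_le_centralizer _)) (by
      rw [hZ, ← IsCyclic.exponent_eq_card]
      exact Nat.le_of_dvd (by norm_num) (Monoid.exponent_dvd_of_forall_pow_eq_one fun x => Subtype.ext (h3 x)))
  refine b2 (e ▸ ⟨fun y => ?_, z3 b1⟩)
  simpa [commutatorElement_def, mul_assoc] using inv_mem (b4 y)

variable {F : Type*} [Field F] {o : Om F} {ι : Type} [Fintype ι] [DecidableEq ι]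

/-- commuting up to a root of unity -/
def Cm (o : Om F) (x y : Matrix ι ι F) (a : Z3) : Prop := x * y = o.χ a • (y * x)

/-- powers -/
def pw (x : Matrix ι ι F) (a : Z3) : Matrix ι ι F := x ^ a.val

variable {x y x' : Matrix ι ι F} {a a' : Z3}

theorem pw_add (h : x ^ 3 = 1) (a b : Z3) : pw x (a + b) = pw x a * pw x b := by
  rw [pw, ZMod.val_add, ← pow_eq_pow_mod _ h, pow_add, pw, pw]
@[simp] theorem pw0 : pw x 0 = 1 := pow_zero x
@[simp] theorem pw1 : pw x 1 = x := pow_one x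
theorem pw2 : pw x 2 = x * x := pow_two x
theorem Cm.mul (h : Cm o x y a) (h' : Cm o x' y a') : Cm o (x * x') y (a + a') := by
  rw [Cm, mul_assoc, h', mul_smul_comm, ← mul_assoc, h, smul_mul_assoc, smul_smul, mul_assoc, Om.χ_add, mul_comm]
theorem Cm.symm (h : Cm o x y a) : Cm o y x (-a) := by rw [Cm, h, smul_smul, Om.χ_neg, one_smul]
theorem cm0 : Cm o x y 0 ↔ Commute x y := by simp [Cm, Commute, SemiconjBy]
theorem Cm.pw (h : Cm o x y a) (n : Z3) : Cm o (pw x n) y (n * a) := by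
  rcases z3' n with rfl | rfl | rfl
  exacts [by simp [Cm], by simpa using h, by rw [two_mul, pw2]; exact h.mul h]

theorem exists_fixed (h3 : x ^ 3 = 1) (h3' : y ^ 3 = 1) (h : Cm o x y 1) (U : Submodule F (ι → F))
    (hx : ∀ v ∈ U, x *ᵥ v ∈ U) (hy : ∀ v ∈ U, y *ᵥ v ∈ U) {v : ι → F} (hv : v ∈ U) (v0 : v ≠ 0) :
    ∃ v ∈ U, v ≠ 0 ∧ x *ᵥ v = v := by
  obtain ⟨a, ha⟩ : ∃ a, v + o.χ a • x *ᵥ v + o.χ (-a) • x *ᵥ x *ᵥ v ≠ 0 := by
    by_contra! hn
    refine v0 ((smul_eq_zero.1 ?_).resolve_left o.three)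
    have := congrArg₂ (· + ·) (congrArg₂ (· + ·) (hn 0) (hn 1)) (hn (-1))
    simp only [neg_zero, neg_neg, Om.χ0, Om.χ1, Om.χm, add_zero] at this
    linear_combination (norm := module) this - o.h • (x *ᵥ v + x *ᵥ x *ᵥ v)
  refine ⟨pw y a *ᵥ (v + o.χ a • x *ᵥ v + o.χ (-a) • x *ᵥ x *ᵥ v), ?_, fun e => ha ?_, ?_⟩
  · have := add_mem (add_mem hv (U.smul_mem (o.χ a) (hx v hv))) (U.smul_mem (o.χ (-a)) (hx _ (hx v hv)))
    rcases z3' a with rfl | rfl | rfl
    exacts [by simpa using this, by simpa using hy _ this, by rw [pw2, ← mulVec_mulVec]; exact hy _ (hy _ this)]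
  · simpa [← pw_add h3'] using congrArg (pw y (-a) *ᵥ ·) e
  · rw [mulVec_mulVec, (h.symm.pw a).symm, smul_mulVec, ← mulVec_mulVec, ← mulVec_smul]
    congr 1
    have e : x *ᵥ x *ᵥ x *ᵥ v = v := by simpa [pow_three] using congrArg (· *ᵥ v) h3
    have e1 : o.χ a * o.χ a = o.χ (-a) := by rw [← Om.χ_add, add3]
    have e2 : o.χ a * o.χ (-a) = 1 := by rw [mul_comm, Om.χ_neg]
    simp only [mulVec_add, mulVec_smul, e, mul_neg, mul_one, neg_neg, smul_add, smul_smul, e1, e2, one_smul]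
    abel

/-- normal form -/
structure NF (o : Om F) (R : Subgroup (GL ι F)) (P : Matrix ι I F) (Q : Matrix I ι F) : Prop where
  pq : P * Q = 1
  qp : Q * P = 1
  η : ∀ w a, ∃ r ∈ R, Q * r.val * P = o.χ a • o.η w
  mem : ∀ r ∈ R, ∃ w a, Q * r.val * P = o.χ a • o.η w

variable {R : Subgroup (GL ι F)} {P : Matrix ι I F} {Q : Matrix I ι F}

theorem exists_NF [Finite F] (hι : Fintype.card ι = 9) (hR : Geo.IsSymplecticTypeGroup 3 R)
    (hirr : Geo.ActsAbsolutelyIrreducibly (Geo.matrixSet R)) (hZ : Nat.card (Subgroup.center R) = 3) :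
    ∃ (o : Om F) (P : _) (Q : _), NF o R P Q := by
  have : Nonempty ι := Fintype.card_pos_iff.1 (by omega)
  have h3 : ∀ x : R, x ^ 3 = 1 := fun x => by simpa [hR.exponent_eq] using Monoid.pow_exponent_eq_one x
  have h3' : ∀ x ∈ R, x.val ^ 3 = 1 := fun x hx => congrArg (fun y : R => y.1.val) (h3 ⟨x, hx⟩)
  have sc : ∀ z ∈ R, (∀ g ∈ R, z * g = g * z) → ∃ c : F, c ^ 3 = 1 ∧ z.val = c • 1 := fun z hz e => by
    obtain ⟨c, hc⟩ := hirr.2 z.val (by rintro _ ⟨g, hg, rfl⟩; exact congrArg Units.val (e g hg))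
    exact ⟨c, smul_cancel isUnit_one (by simpa [hc, smul_pow] using h3' z hz), hc⟩
  obtain ⟨z, z1⟩ := (Subgroup.center R).nontrivial_iff_exists_ne_one.1 (Finite.one_lt_card_iff_nontrivial.1 (by omega))
  obtain ⟨ω, ω3, hz⟩ := sc z z.2 fun g hg => (congrArg Subtype.val (Subgroup.mem_center_iff.1 z1.1 ⟨g, hg⟩)).symm
  have ω1 : ω - 1 ≠ 0 := fun e => z1.2 (Subtype.ext (Units.ext (by simp [hz, sub_eq_zero.1 e])))
  let o : Om F := ⟨ω, mul_left_cancel₀ ω1 (by linear_combination ω3), fun e => ω1 (pow_eq_zero_iff three_ne_zero |>.1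
    (by linear_combination ω3 + (ω - ω ^ 2) * e))⟩
  have cm : ∀ x ∈ R, ∀ y ∈ R, ∃ a, Cm o x.val y.val a := fun x hx y hy => by
    have := class_two hR.pGroup hR.cyclic_of_characteristic h3 hZ
      (Subgroup.commutator_mem_commutator (Subgroup.mem_top (⟨x, hx⟩ : R)) (Subgroup.mem_top (⟨y, hy⟩ : R)))
    obtain ⟨c, c3, e⟩ := sc _ (⁅(⟨x, hx⟩ : R), (⟨y, hy⟩ : R)⁆).2 fun g hg =>
      (congrArg Subtype.val (Subgroup.mem_center_iff.1 this ⟨g, hg⟩)).symm
    obtain ⟨a, rfl⟩ := o.exists_χ c3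
    exact ⟨a, by rw [Cm, ← smul_one_mul, ← e]; simp [commutatorElement_def, mul_assoc]⟩
  have pair : ∀ C : Subgroup (GL ι F), C ≤ R → (∀ x ∈ C, ∀ y ∈ C, Commute x.val y.val) ∨
      ∃ x ∈ C, ∃ y ∈ C, Cm o x.val y.val 1 := fun C hC => by
    by_contra! hn
    obtain ⟨⟨x, hx, y, hy, e⟩, hn⟩ := hn
    obtain ⟨a, ha⟩ := cm x (hC hx) y (hC hy)
    rcases z3 a with rfl | rfl | rfl
    exacts [e (cm0.1 ha), hn x hx y hy ha, hn y hy x hx ha.symm]
  have big : ∀ m : I → Matrix ι ι F, ¬ ∀ r ∈ R, ∃ j, ∃ c : F, r.val = c • m j := fun m h => by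
    have : Submodule.span F (Set.range m) = ⊤ := top_le_iff.1 (Asch.full_iff_absIrr.2 hirr ▸ Submodule.span_le.2 (by
      rintro _ ⟨r, hr, rfl⟩
      obtain ⟨j, c, e⟩ := h r hr
      simpa only [e, SetLike.mem_coe] using Submodule.smul_mem _ c (Submodule.subset_span (Set.mem_range_self j))))
    have h := finrank_range_le_card (R := F) m
    rw [Set.finrank, this] at h
    simp [Module.finrank_matrix, hι] at h
  obtain ⟨r1, m1, s1, n1, c1⟩ := (pair R le_rfl).resolve_left fun h => big 1 fun r hr =>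
    ⟨0, (sc r hr fun g hg => Units.ext (h r hr g hg)).imp fun c e => e.2⟩
  let C := R ⊓ Subgroup.centralizer {r1, s1}
  have mC : ∀ {x}, x ∈ C ↔ x ∈ R ∧ Commute x.val r1.val ∧ Commute x.val s1.val := by
    simp only [C, Subgroup.mem_inf, Subgroup.mem_centralizer_iff, Set.forall_mem_insert, Set.mem_singleton_iff, forall_eq]
    simp [Commute, SemiconjBy, Units.ext_iff, eq_comm]
  obtain ⟨r2, m2, s2, n2, c2⟩ := (pair C inf_le_left).resolve_left fun h => by
    have dec : ∀ r ∈ R, ∃ j : I, r * s1 ^ j.1.val * r1 ^ j.2.val ∈ C := fun r hr => by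
      obtain ⟨a, ha⟩ := cm r hr r1 m1
      obtain ⟨b, hb⟩ := cm r hr s1 n1
      exact ⟨(a, -b), mC.2 ⟨R.mul_mem (R.mul_mem hr (R.pow_mem n1 _)) (R.pow_mem m1 _),
        cm0.1 (by simpa [pw] using (ha.mul (c1.symm.pw a)).mul ((cm0.2 (.refl _)).pw (-b))),
        cm0.1 (by simpa [pw] using (hb.mul ((cm0.2 (.refl _)).pw a)).mul (c1.pw (-b)))⟩⟩
    refine big (fun j => ((s1 ^ j.1.val * r1 ^ j.2.val)⁻¹).val) fun r hr => (dec r hr).imp fun j e => ?_
    obtain ⟨c, -, e'⟩ := sc _ e.1 fun g hg => by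
      obtain ⟨k, hk⟩ := dec g hg
      have a1 : Commute _ _ := Units.ext (h _ e _ hk)
      have a2 : Commute _ r1 := Units.ext (mC.1 e).2.1
      have a3 : Commute _ s1 := Units.ext (mC.1 e).2.2
      have := (a1.mul_right (a2.pow_right k.2.val).inv_right).mul_right (a3.pow_right k.1.val).inv_right
      rwa [mul_inv_cancel_right, mul_inv_cancel_right] at this
    exact ⟨c, by rw [← smul_one_mul, ← e', mul_assoc, ← Units.val_mul, mul_inv_cancel_right]⟩
  obtain ⟨m2, a1, a2⟩ := mC.1 m2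
  obtain ⟨n2, a3, a4⟩ := mC.1 n2
  obtain ⟨v, -, v0, hv⟩ := exists_fixed (h3' _ m1) (h3' _ n1) c1 ⊤ (by simp) (by simp) (v := 1) trivial one_ne_zero
  obtain ⟨b, b1, b0, b2⟩ := exists_fixed (h3' _ m2) (h3' _ n2) c2 (LinearMap.eqLocus (toLin' r1.val) LinearMap.id)
    (fun v (e : _ *ᵥ v = v) => show _ *ᵥ _ = _ by rw [mulVec_mulVec, ← a1, ← mulVec_mulVec, e]; rfl)
    (fun v (e : _ *ᵥ v = v) => show _ *ᵥ _ = _ by rw [mulVec_mulVec, ← a3, ← mulVec_mulVec, e]; rfl) hv v0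
  replace b1 : r1.val *ᵥ b = b := b1
  let P : Matrix ι I F := of fun i j => ((pw s1.val j.1 * pw s2.val j.2) *ᵥ b) i
  have col : ∀ {m : Matrix ι ι F} {w : I × I}, (∀ j : I, (m * (pw s1.val j.1 * pw s2.val j.2)) *ᵥ b =
      o.χ (Bf.β w.1 (j - w.2)) • (pw s1.val (j + w.2).1 * pw s2.val (j + w.2).2) *ᵥ b) → m * P = P * o.η w :=
    fun {m w} h => by
      ext i j
      have := congrFun (h j) i
      rw [← mulVec_mulVec] at this
      refine Eq.trans (b := _) this ?_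
      simp only [mul_apply, Om.η, Mon_apply, mul_ite, mul_zero, Finset.sum_ite_eq', Finset.mem_univ, if_true]
      exact mul_comm ..
  have P0 : ∀ i, P i 0 = b i := by simp [P]
  clear_value P
  have zz : ∀ a, ∃ r ∈ R, r.val = o.χ a • 1 := fun a => ⟨z.1 ^ a.val, R.pow_mem z.2 _, by simp [hz, smul_pow]; rfl⟩
  let Rel : I × I → Prop := fun w => ∃ r ∈ R, r.val * P = P * o.η w
  have add : ∀ {u v}, Rel u → Rel v → Rel (u + v) := fun {u v} ⟨r, h1, h2⟩ ⟨s, h3, h4⟩ => by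
    obtain ⟨t, h5, h6⟩ := zz (f u v)
    refine ⟨t * r * s, R.mul_mem (R.mul_mem h5 h1) h3, ?_⟩
    rw [Units.val_mul, Units.val_mul, Matrix.mul_assoc, h4, ← Matrix.mul_assoc, Matrix.mul_assoc _ _ P, h2, h6,
      Matrix.mul_assoc, Matrix.mul_assoc, o.η_mul]
    simp only [Matrix.smul_mul, Matrix.one_mul, Matrix.mul_smul, smul_smul]
    rw [Om.χ_neg, one_smul]
  have smul : ∀ {u} (c : Z3), Rel u → Rel (c • u) := fun c h => by
    rcases z3' c with rfl | rfl | rfl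
    exacts [⟨1, R.one_mem, by simp⟩, by simpa using h, by simpa [two_smul] using add h h]
  have rel : ∀ w, Rel w := fun w => by
    rw [show w = mk4 e1 e2 f1 f2 w by revert w; decide, mk4_apply]
    refine add (add (add (smul _ ⟨r1, m1, col fun j => ?_⟩) (smul _ ⟨r2, m2, col fun j => ?_⟩))
      (smul _ ⟨s1, n1, col fun j => ?_⟩)) (smul _ ⟨s2, n2, col fun j => ?_⟩)
    · rw [((c1.symm.pw j.1).mul ((cm0.2 a3).pw j.2)).symm, smul_mulVec, ← mulVec_mulVec, b1]; simp [e1, Bf.β]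
    · rw [(((cm0.2 a2.symm).pw j.1).mul (c2.symm.pw j.2)).symm, smul_mulVec, ← mulVec_mulVec, b2]; simp [e2, Bf.β]
    · simp [f1, Bf.β, add_comm j.1, pw_add (h3' _ n1), mul_assoc]
    · simp [f2, Bf.β, add_comm j.2, pw_add (h3' _ n2), ← mul_assoc, show s2.val * pw s1.val j.1 = pw s1.val j.1 * _ from a4.pow_right _]
  have inj : Function.Injective (toLin' P) := (injective_iff_map_eq_zero _).2 fun x hx => by
    by_contra x0
    obtain ⟨i, hi⟩ := Function.ne_iff.1 b0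
    obtain ⟨w, hw⟩ := o.exists_ne (φ := P i) (fun e => hi (P0 i ▸ congrFun e 0)) x0
    obtain ⟨r, -, e⟩ := rel w
    refine hw (show (P *ᵥ _) i = 0 from ?_)
    rw [mulVec_mulVec, ← e, ← mulVec_mulVec, show P *ᵥ x = 0 from hx, mulVec_zero]; rfl
  let Φ := LinearMap.linearEquivOfInjective _ inj (by simp [hι])
  have pq : P * LinearMap.toMatrix' Φ.symm.toLinearMap = 1 := mulVec_ext fun x => by
    rw [← mulVec_mulVec, LinearMap.toMatrix'_mulVec, one_mulVec]; exact Φ.apply_symm_apply x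
  have qp : LinearMap.toMatrix' Φ.symm.toLinearMap * P = 1 := mulVec_ext fun x => by
    rw [← mulVec_mulVec, LinearMap.toMatrix'_mulVec, one_mulVec]; exact Φ.symm_apply_apply x
  generalize LinearMap.toMatrix' Φ.symm.toLinearMap = Q at pq qp
  have mul : ∀ a b : Matrix ι ι F, Q * (a * b) * P = Q * a * P * (Q * b * P) := fun a b => by
    simp only [Matrix.mul_assoc, ← Matrix.mul_assoc P, pq, Matrix.one_mul]
  have rel' : ∀ w, ∃ r ∈ R, Q * r.val * P = o.η w := fun w => (rel w).imp fun r e =>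
    ⟨e.1, by rw [Matrix.mul_assoc, e.2, ← Matrix.mul_assoc, qp, one_mul]⟩
  refine ⟨o, P, Q, pq, qp, fun w a => ?_, fun r hr => ?_⟩
  · obtain ⟨r, h1, h2⟩ := rel' w
    obtain ⟨t, h5, h6⟩ := zz a
    exact ⟨t * r, R.mul_mem h5 h1, by simp [h6, h2]⟩
  · have r3 : Q * r.val * P * (Q * r.val * P * (Q * r.val * P)) = 1 := by
      rw [← mul, ← mul, ← pow_three, h3' r hr, Matrix.mul_one, qp]
    obtain ⟨w, c, -, e⟩ := Om.inner (o := o) (.of_mul_eq_one _ r3) fun u => by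
      obtain ⟨s, h1, h2⟩ := rel' u
      obtain ⟨a, ha⟩ := cm r hr s h1
      exact ⟨o.χ a, by rw [← h2, ← mul, ← mul, ha]; simp⟩
    obtain ⟨a, rfl⟩ := o.exists_χ (c := c) (smul_cancel (J := I) isUnit_one (by
      simpa [e, smul_smul, Om.η_sq, pow_three'] using r3))
    exact ⟨w, a, e⟩

namespace NF
variable (h : NF o R P Q)
include h

theorem mul (a b : Matrix ι ι F) : Q * (a * b) * P = Q * a * P * (Q * b * P) := by
  simp only [Matrix.mul_assoc, ← Matrix.mul_assoc P, h.pq, Matrix.one_mul]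

theorem inj {a b : Matrix ι ι F} (e : Q * a * P = Q * b * P) : a = b := by
  simpa only [Matrix.mul_assoc, ← Matrix.mul_assoc P, h.pq, Matrix.one_mul, Matrix.mul_one]
    using congrArg (P * · * Q) e

theorem inv (g : GL ι F) : Q * g.val * P * (Q * (g⁻¹).val * P) = 1 := by simp [← h.mul, h.qp]

theorem lift {A : N9 F} (hA : IsUnit A) : ∃ g : GL ι F, Q * g.val * P = A := by
  obtain ⟨A, rfl⟩ := hA
  have e : ∀ {A B : N9 F}, A * B = 1 → P * A * Q * (P * B * Q) = 1 := fun e => by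
    simp only [Matrix.mul_assoc, ← Matrix.mul_assoc Q, h.qp, Matrix.one_mul]
    rw [← Matrix.mul_assoc _ _ Q, e, Matrix.one_mul, h.pq]
  exact ⟨⟨_, _, e A.val_inv, e A.inv_val⟩, by
    simp only [Matrix.mul_assoc, ← Matrix.mul_assoc Q, h.qp, Matrix.one_mul, Matrix.mul_one]⟩

theorem nrm_iff [Finite F] {g : GL ι F} : g ∈ Geo.subgroupNormalizer R ↔ o.Nrm (Q * g.val * P) := by
  refine ⟨fun hg w => ?_, fun hg => Subgroup.mem_normalizer_fintype fun r hr => ?_⟩
  · obtain ⟨r, h1, h2⟩ := h.η w 0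
    obtain ⟨v, a, e⟩ := h.mem _ ((Subgroup.mem_normalizer_iff.1 hg r).1 h1)
    rw [Om.χ0, one_smul] at h2
    exact ⟨v, _, by rw [← h2, ← smul_mul_assoc, ← e, ← h.mul, ← h.mul]; simp⟩
  · obtain ⟨w, a, e⟩ := h.mem r hr
    obtain ⟨v, c, e'⟩ := hg w
    obtain ⟨b, rfl⟩ := o.exists_χ (Om.cj_cube (.of_mul_eq_one _ (h.inv g)) e')
    obtain ⟨s, h1, h2⟩ := h.η v (a + b)
    rw [show g * r * g⁻¹ = s from Units.ext (h.inj ?_)]
    · exact h1
    rw [Units.val_mul, Units.val_mul, h.mul, h.mul, e, h2, mul_smul_comm, e', smul_smul, smul_mul_assoc, mul_assoc,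
      h.inv, mul_one, Om.χ_add]

theorem max [Finite F] {K : Subgroup (GL ι F)} (hne : ¬ K ≤ Geo.subgroupNormalizer R) (PK : N9 F → Prop)
    (hK : ∀ g, g ∈ K ↔ PK (Q * g.val * P)) (h1 : ∀ v, PK (o.η v)) (h2 : ∀ v, v ≠ 0 → PK ((o.ω - 1)⁻¹ • o.U v))
    (H : ∀ M : Gp F (N9 F), o.Over M → (∀ g, M.mem g → ∃ k, ∃ c : F, PK k ∧ g = c • k) →
      (∀ g, M.mem g → o.Nrm g) ∨ ∀ g, PK g → M.mem g) : Geo.IsMaximalIn K (Geo.subgroupNormalizer R ⊓ K) := by
  refine ⟨lt_of_le_of_ne inf_le_right fun e => hne (e.ge.trans inf_le_left), fun M a b => ?_⟩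
  let X : Gp F (N9 F) :=
    { mem A := ∃ g ∈ M, ∃ c : F, c ≠ 0 ∧ A = c • (Q * g.val * P)
      one := ⟨1, M.one_mem, 1, one_ne_zero, by simp [h.qp]⟩
      mul := by
        rintro _ _ ⟨g, g1, c, c0, rfl⟩ ⟨k, k1, d, d0, rfl⟩
        exact ⟨_, M.mul_mem g1 k1, c * d, mul_ne_zero c0 d0, by rw [Units.val_mul, h.mul, smul_mul_smul_comm]⟩
      smul := by rintro _ d d0 ⟨g, g1, c, c0, rfl⟩; exact ⟨g, g1, _, mul_ne_zero d0 c0, smul_smul ..⟩
      inv := by
        rintro _ ⟨g, g1, c, c0, rfl⟩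
        have : c • (Q * g.val * P) * c⁻¹ • (Q * (g⁻¹).val * P) = 1 := by
          rw [smul_mul_smul_comm, h.inv, mul_inv_cancel₀ c0, one_smul]
        exact ⟨_, ⟨_, M.inv_mem g1, _, inv_ne_zero c0, rfl⟩, this, mul_eq_one_comm.1 this⟩ }
  have key : ∀ A, IsUnit A → o.Nrm A → PK A → X.mem A := fun A u n k => by
    obtain ⟨g, rfl⟩ := h.lift u
    exact ⟨g, a ⟨h.nrm_iff.2 n, (hK g).2 k⟩, 1, one_ne_zero, (one_smul ..).symm⟩
  have i0 := inv_ne_zero o.sub_ne
  refine (H X (Om.over_of (fun v => key _ (o.η_unit v) (Om.nrm_η v) (h1 v)) fun v => ?_) ?_).imp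
    (fun H => le_antisymm (fun g hg => ⟨h.nrm_iff.2 (H _ ⟨g, hg, 1, one_ne_zero, (one_smul ..).symm⟩), b hg⟩) a)
    fun H => le_antisymm b fun g hg => ?_
  · by_cases v0 : v = 0
    · have e : o.U v = (o.ω + 2) • 1 := by simp [v0, Om.U, add_smul, two_smul, add_assoc]
      exact e ▸ X.smul (fun e' => (o.U_unit v).ne_zero (by simp [e, e'])) X.one
    · exact Gp.of_smul i0 (key _ ((o.U_unit v).smul (Units.mk0 _ i0)) ((o.nrm_U v).smul _) (h2 v v0))
  · rintro _ ⟨g, g1, c, -, rfl⟩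
    exact ⟨_, c, (hK g).1 (b g1), rfl⟩
  · obtain ⟨k, k1, c, -, e⟩ := H _ ((hK g).1 hg)
    refine (M.mul_mem_cancel_right (M.inv_mem k1)).1 (a ⟨h.nrm_iff.2 ?_, K.mul_mem hg (K.inv_mem (b k1))⟩)
    rw [Units.val_mul, h.mul, e, smul_mul_assoc, h.inv]
    exact Om.nrm_one.smul c

theorem mem_SL (g : GL ι F) : g ∈ Geo.specialLinear ι F ↔ (Q * g.val * P).det = 1 := by
  rw [det_conj_of_mul_eq_one h.qp h.pq]; exact Units.ext_iff

end NF

theorem nat_of_pow {p : ℕ} (hp : p.Prime) [CharP F p] {a : F} (h : a ^ p = a) : ∃ n : ℕ, a = n := by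
  have := Fact.mk hp
  obtain ⟨n, rfl⟩ := (mem_bot_iff_intCast p F).1 ((Subfield.mem_bot_iff_pow_eq_self F p).2 h)
  obtain ⟨m, e⟩ := Int.eq_ofNat_of_zero_le (Int.emod_nonneg n (Int.natCast_ne_zero.2 hp.ne_zero))
  exact ⟨m, by rw [← Int.cast_natCast, ← e, CharP.intCast_eq_intCast_mod F p]⟩

/-- class C6 in `SL₉(p)` -/
theorem geo_SL9 [Fintype F] (hι : Fintype.card ι = 9) (hF : ∃ p : ℕ, p.Prime ∧ Fintype.card F = p ∧ p % 3 = 1)
    (R : Subgroup (GL ι F)) (hR : Geo.IsLinearSymplecticTypeData 3 R) :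
    Geo.IsMaximalIn (Geo.specialLinear ι F) (Geo.subgroupNormalizer R ⊓ Geo.specialLinear ι F) := by
  obtain ⟨p, hp, hF, h3⟩ := hF
  have := Fact.mk hp
  have := charP_of_card_eq_prime hF
  obtain ⟨o, P, Q, h⟩ := exists_NF hι hR.symplecticType hR.absIrred (by
    obtain ⟨p, e, -, -, h | h | h⟩ := hR.field
    exacts [h.2.2.1, absurd h.1 (by decide), absurd h.1 (by decide)])
  exact h.max (SL_not_le_subgroupNormalizer (by omega) Nat.prime_three hR.symplecticType.pGroup hR.absIrred)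
    (·.det = 1) h.mem_SL o.det_η det_uh fun M hM _ => main_lin hM
      (fun a => nat_of_pow hp (by rw [← hF, FiniteField.pow_card])) fun e => by
        have := (Nat.prime_dvd_prime_iff_eq hp Nat.prime_two).1 ((CharP.cast_eq_zero_iff F p 2).1 e)
        omega

theorem herm_iff {n q : ℕ} [Fintype F] (hF : Fintype.card F = q ^ 2) (A : Matrix (Fin n) (Fin n) F) (c : F) :
    (∀ u v, hermForm n F q (A *ᵥ u) (A *ᵥ v) = c * hermForm n F q u v) ↔
      (A.map (frobQ hF : F →+* F))ᵀ * A = c • 1 := by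
  have e : ∀ u v, hermForm n F q u v = u ⬝ᵥ (frobQ hF : F →+* F) ∘ v := fun _ _ => rfl
  simp only [e, σ_mulVec, dotProduct_comm (A *ᵥ _), ← dotProduct_mulVec, mulVec_mulVec]
  generalize (frobQ hF : F →+* F) = σ
  refine ⟨fun h => ?_, fun h => by simp [h, smul_mulVec, dotProduct_comm]⟩
  ext i j
  have e : ∀ i : Fin n, σ ∘ Pi.single i 1 = Pi.single i 1 := fun i => by ext j; simp [Pi.single_apply, apply_ite σ]
  simpa [e, Pi.single_apply, one_apply, eq_comm] using h (Pi.single j 1) (Pi.single i 1)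

/-- class C6 in `SU₉(p)` -/
theorem geo_SU9 [Fintype F] {q : ℕ} (hF : Fintype.card F = q ^ 2) (hp : q.Prime) (h3 : q % 3 = 2)
    {R : Subgroup (GL (Fin 9) F)} (hR : Geo.IsSymplecticTypeGroup 3 R)
    (hirr : Geo.ActsAbsolutelyIrreducibly (Geo.matrixSet R)) (hs : R ≤ Geo.similarityGroup (hermForm 9 F q))
    (hZ : Nat.card (Subgroup.center R) = 3) : Geo.IsMaximalIn (GU 9 F q ⊓ Geo.specialLinear (Fin 9) F)
      (Geo.subgroupNormalizer R ⊓ (GU 9 F q ⊓ Geo.specialLinear (Fin 9) F)) := by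
  have := Fact.mk hp
  have := charP_of_card_eq_prime_pow hF
  obtain ⟨o, P, Q, h⟩ := exists_NF (by simp) hR hirr hZ
  have hσ := unit_invol (isUnitaryForm_hermForm hF 0)
  have hne := unit_ne (isUnitaryForm_hermForm hF 0)
  have hω : (frobQ hF : F →+* F) o.ω = o.ω ^ 2 := (pow_eq_pow_mod q o.cube).trans (by rw [h3])
  have hh := herm_iff (n := 9) hF
  have hp' : ∀ a, (frobQ hF : F →+* F) a = a → ∃ n : ℕ, a = n := fun a => nat_of_pow hp
  generalize (frobQ hF : F →+* F) = σ at *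
  have e1 : (P.map σ)ᵀ * (Q.map σ)ᵀ = 1 := by rw [← transpose_mul, ← Matrix.map_mul, h.qp]; simp
  have e2 : (Q.map σ)ᵀ * (P.map σ)ᵀ = 1 := by rw [← transpose_mul, ← Matrix.map_mul, h.pq]; simp
  have key : ∀ (A : Matrix (Fin 9) (Fin 9) F), adj σ (Q * A * P) * ((P.map σ)ᵀ * P) * (Q * A * P) =
      (P.map σ)ᵀ * ((A.map σ)ᵀ * A) * P := fun A => by
    simp only [adj, Matrix.map_mul, transpose_mul, Matrix.mul_assoc, ← Matrix.mul_assoc P, h.pq, Matrix.one_mul,
      ← Matrix.mul_assoc (Q.map σ)ᵀ, e2]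
  obtain ⟨w, c, c0, e⟩ := Om.inner (o := o) (g := (P.map σ)ᵀ * P) (.of_mul_eq_one (Q * (Q.map σ)ᵀ) (by
    simp only [Matrix.mul_assoc, ← Matrix.mul_assoc P, h.pq, Matrix.one_mul, e1])) fun u => by
      obtain ⟨r, h1, h2⟩ := h.η u 0
      obtain ⟨μ, hμ⟩ := hs h1
      have := key r
      rw [h2, Om.χ0, one_smul, Om.adj_η hω, (hh _ _).1 hμ] at this
      exact ⟨μ, by simpa [← mul_assoc] using congrArg (o.η u * ·) this⟩
  obtain rfl : w = 0 := by
    have : adj σ ((P.map σ)ᵀ * P) = (P.map σ)ᵀ * P := by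
      simp [adj, Matrix.map_mul, transpose_map, Matrix.map_map, Function.comp_def, hσ]
    rw [e, adj_smul, Om.adj_η hω, ← inv_smul_eq_iff₀ c0, smul_smul] at this
    have := Om.η_inj this.symm
    rwa [← add3, left_eq_add] at this
  refine h.max (SU_not_le_subgroupNormalizer hF (by omega) (by omega) Nat.prime_three hR.pGroup hirr)
    (fun A => adj σ A * A = 1 ∧ A.det = 1) (fun g => and_congr ?_ (h.mem_SL g))
    (fun v => ⟨by rw [Om.adj_η hω, Om.η_neg'], o.det_η v⟩) (fun v hv => ⟨adj_uh hω v, det_uh v hv⟩)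
    fun M hM hs => (main_unit hM hσ hne hp' hω fun g hg => ?_).imp_right fun H g hg => H g hg.1 hg.2
  · have := key g
    rw [e, Om.η0, mul_smul_comm, mul_one, smul_mul_assoc] at this
    refine Iff.trans (by simp only [one_mul]; rfl) ((hh g 1).trans ⟨fun e' => smul_right_injective _ c0 ?_, fun e' => ?_⟩)
    · simpa [e', e] using this
    · replace this := congrArg ((Q.map σ)ᵀ * · * Q) this
      rw [e', ← o.η0, ← e] at this
      simpa only [Matrix.mul_assoc, ← Matrix.mul_assoc (Q.map σ)ᵀ, e2, h.pq, Matrix.one_mul,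
        Matrix.mul_one, one_smul] using this.symm
  · obtain ⟨k, c, k1, rfl⟩ := hs g hg
    exact ⟨σ c * c, by rw [adj_smul, smul_mul_smul_comm, k1.1]⟩

end Cfsg.Agent.H6.T
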