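import Cfsg.Prelude.Def_LieExceptional

/-! Bruhat cells of an abstract (B,N)-pair, indexed by the Weyl group. -/

set_option autoImplicit false

namespace Cfsg.Agent.H6.BN

variable {G : Type*} [Group G] (P : BNPair G)

/-- the subgroup `B ⊓ N` of `N` -/
abbrev Hs : Subgroup P.N := (P.B ⊓ P.N).subgroupOf P.N

theorem mem_Hs {n : P.N} : n ∈ Hs P ↔ (n : G) ∈ P.B := by
  simp [Subgroup.mem_subgroupOf]

instance instNormalHs : (Hs P).Normal :=
  ⟨fun t ht n => (mem_Hs P).2 (P.conj_mem n n.2 t ⟨(mem_Hs P).1 ht, t.2⟩)⟩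

/-- the Weyl group -/
abbrev W := P.N ⧸ Hs P

/-- the projection onto the Weyl group -/
def π : P.N →* W P := QuotientGroup.mk' _

theorem π_eq {n n' : P.N} : π P n = π P n' ↔ (n : G)⁻¹ * n' ∈ P.B := by
  rw [π, QuotientGroup.mk'_apply, QuotientGroup.mk'_apply, QuotientGroup.eq, mem_Hs]; rfl

theorem π_eq_one {n : P.N} : π P n = 1 ↔ (n : G) ∈ P.B := by
  rw [π, QuotientGroup.mk'_apply, QuotientGroup.eq_one_iff, mem_Hs]

theorem π_surj (w : W P) : ∃ n, π P n = w := QuotientGroup.mk'_surjective _ w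

/-- the Bruhat cell -/
def C (w : W P) : Set G := {g | ∃ n : P.N, π P n = w ∧ ∃ b ∈ P.B, ∃ b' ∈ P.B, g = b * n * b'}

/-- the distinguished generators of the Weyl group -/
def SW : Set (W P) := {w | ∃ s : P.N, (s : G) ∈ P.S ∧ π P s = w}

variable {P}

theorem mem_C_self (n : P.N) : (n : G) ∈ C P (π P n) := ⟨n, rfl, 1, P.B.one_mem, 1, P.B.one_mem, by simp⟩

theorem mem_C_mul {w : W P} {g b b' : G} (hg : g ∈ C P w) (hb : b ∈ P.B) (hb' : b' ∈ P.B) : b * g * b' ∈ C P w := by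
  obtain ⟨n, hn, c, hc, c', hc', rfl⟩ := hg
  exact ⟨n, hn, b * c, P.B.mul_mem hb hc, c' * b', P.B.mul_mem hc' hb', by group⟩

theorem mem_C_mul_iff {w : W P} {g b b' : G} (hb : b ∈ P.B) (hb' : b' ∈ P.B) : b * g * b' ∈ C P w ↔ g ∈ C P w :=
  ⟨fun h => by simpa [mul_assoc] using mem_C_mul h (P.B.inv_mem hb) (P.B.inv_mem hb'), fun h => mem_C_mul h hb hb'⟩

theorem mem_C_iff (n : P.N) {g : G} : g ∈ C P (π P n) ↔ ∃ b ∈ P.B, ∃ b' ∈ P.B, g = b * n * b' := by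
  constructor
  · rintro ⟨n', hn, c, hc, c', hc', rfl⟩
    exact ⟨c, hc, (n : G)⁻¹ * n' * c', P.B.mul_mem ((π_eq P).1 hn.symm) hc', by group⟩
  · rintro ⟨c, hc, c', hc', rfl⟩
    exact ⟨n, rfl, c, hc, c', hc', rfl⟩

theorem inv_mem_C {w : W P} {g : G} (hg : g ∈ C P w) : g⁻¹ ∈ C P w⁻¹ := by
  obtain ⟨n, rfl, c, hc, c', hc', rfl⟩ := hg
  exact ⟨n⁻¹, map_inv _ _, c'⁻¹, P.B.inv_mem hc', c⁻¹, P.B.inv_mem hc, by simp [mul_assoc]⟩

theorem mem_C_one {g : G} : g ∈ C P 1 ↔ g ∈ P.B := by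
  rw [← map_one (π P), mem_C_iff]
  constructor
  · rintro ⟨c, hc, c', hc', rfl⟩
    simpa using P.B.mul_mem hc hc'
  · intro h
    exact ⟨g, h, 1, P.B.one_mem, by simp⟩

theorem exists_factor {w w' : W P} {g : G} (hg : g ∈ C P (w * w')) : ∃ x ∈ C P w, x⁻¹ * g ∈ C P w' := by
  obtain ⟨n, rfl⟩ := π_surj P w
  obtain ⟨n', rfl⟩ := π_surj P w'
  rw [← map_mul, mem_C_iff] at hg
  obtain ⟨c, hc, c', hc', rfl⟩ := hg
  exact ⟨c * n, (mem_C_iff n).2 ⟨c, hc, 1, P.B.one_mem, by simp⟩,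
    (mem_C_iff n').2 ⟨1, P.B.one_mem, c', hc', by simp [mul_assoc]⟩⟩

theorem mul_mem_C {s w : W P} (hs : s ∈ SW P) {g g' : G} (hg : g ∈ C P s) (hg' : g' ∈ C P w) :
    g * g' ∈ C P (s * w) ∨ g * g' ∈ C P w := by
  obtain ⟨s, hs, rfl⟩ := hs
  obtain ⟨n, rfl⟩ := π_surj P w
  obtain ⟨c, hc, c', hc', rfl⟩ := (mem_C_iff s).1 hg
  obtain ⟨d, hd, d', hd', rfl⟩ := (mem_C_iff n).1 hg'
  rw [show c * s * c' * (d * n * d') = c * (s * (c' * d) * n) * d' by group, mem_C_mul_iff hc hd',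
    mem_C_mul_iff hc hd', ← map_mul, mem_C_iff, mem_C_iff]
  simpa only [Set.mem_union, DoubleCoset.mem_doubleCoset, SetLike.mem_coe, Subgroup.coe_mul] using
    P.mul_mem_union s hs n n.2 _ (P.B.mul_mem hc' hd)

theorem SW_mul_self {s : W P} (hs : s ∈ SW P) : s * s = 1 := by
  obtain ⟨s, hs, rfl⟩ := hs
  rw [← map_mul, π_eq_one]
  exact P.sq_mem s hs

theorem SW_inv {s : W P} (hs : s ∈ SW P) : s⁻¹ = s := inv_eq_iff_mul_eq_one.2 (SW_mul_self hs)

theorem mul_mem_C' {s w : W P} (hs : s ∈ SW P) {g g' : G} (hg : g ∈ C P w) (hg' : g' ∈ C P s) :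
    g * g' ∈ C P (w * s) ∨ g * g' ∈ C P w := by
  have h1 := inv_mem_C hg'
  rw [SW_inv hs] at h1
  rcases mul_mem_C hs h1 (inv_mem_C hg) with h | h
  · left; simpa [SW_inv hs] using inv_mem_C h
  · right; simpa using inv_mem_C h

theorem exists_thick {s : W P} (hs : s ∈ SW P) : ∃ g ∈ C P s, ∃ g' ∈ C P s, g * g' ∉ P.B := by
  obtain ⟨s, hs, rfl⟩ := hs
  by_contra h
  push Not at h
  have h1 : ∀ b ∈ P.B, (s : G) * b * s ∈ P.B := fun b hb =>
    h _ (by simpa using mem_C_mul (mem_C_self s) P.B.one_mem hb) _ (mem_C_self s)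
  apply P.conj_ne s hs
  apply Set.Subset.antisymm
  · rintro _ ⟨b, hb, rfl⟩
    exact h1 b hb
  · intro b hb
    have h2 := P.B.inv_mem (P.sq_mem s hs)
    refine ⟨(s : G)⁻¹ * b * (s : G)⁻¹, ?_, by simp [mul_assoc]⟩
    have := P.B.mul_mem (P.B.mul_mem h2 (h1 b hb)) h2
    rw [SetLike.mem_coe]
    convert this using 1
    group

theorem SW_ne_one {s : W P} (hs : s ∈ SW P) : s ≠ 1 := by
  rintro rfl
  obtain ⟨g, hg, g', hg', h⟩ := exists_thick hs
  exact h (P.B.mul_mem (mem_C_one.1 hg) (mem_C_one.1 hg'))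

theorem closure_SW : Subgroup.closure (SW P) = ⊤ := by
  rw [eq_top_iff]
  rintro w -
  obtain ⟨⟨n, hn⟩, rfl⟩ := π_surj P w
  have h : P.N ≤ ((Subgroup.closure (SW P)).comap (π P)).map P.N.subtype := by
    conv_lhs => rw [← P.closure_sup]
    rw [sup_le_iff, Subgroup.closure_le]
    constructor
    · intro s hs
      exact ⟨⟨s, P.subset hs⟩, Subgroup.subset_closure ⟨_, hs, rfl⟩, rfl⟩
    · intro t ht
      refine ⟨⟨t, ht.2⟩, ?_, rfl⟩
      show π P _ ∈ Subgroup.closure (SW P)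
      rw [(π_eq_one P).2 ht.1]
      exact Subgroup.one_mem _
  obtain ⟨n', h1, rfl⟩ := h hn
  exact h1

/-- `w` is a product of `k` generators -/
def Word (k : ℕ) (w : W P) : Prop := ∃ l : List (W P), (∀ x ∈ l, x ∈ SW P) ∧ l.length = k ∧ l.prod = w

theorem exists_word (w : W P) : ∃ k, Word k w := by
  have : w ∈ Subgroup.closure (SW P) := by rw [closure_SW]; trivial
  induction this using Subgroup.closure_induction_left with
  | one => exact ⟨0, [], by simp, rfl, rfl⟩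
  | mul_left s hs w _ ih =>
    obtain ⟨k, l, h1, h2, h3⟩ := ih
    exact ⟨_, s :: l, by simpa using ⟨hs, h1⟩, rfl, by simp [h3]⟩
  | inv_mul_cancel s hs w _ ih =>
    obtain ⟨k, l, h1, h2, h3⟩ := ih
    exact ⟨_, s :: l, by simpa using ⟨hs, h1⟩, rfl, by simp [h3, SW_inv hs]⟩

theorem eq_of_mem_C_aux (k : ℕ) : ∀ w w' : W P, Word k w → (∀ j < k, ¬ Word j w') → ∀ g ∈ C P w, g ∈ C P w' →
    w = w' := by
  induction k with
  | zero =>
    rintro _ w' ⟨l, -, h2, rfl⟩ - g hg hg'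
    obtain rfl := List.length_eq_zero_iff.1 h2
    obtain ⟨n, rfl, c, hc, c', hc', rfl⟩ := hg'
    have := mem_C_one.1 hg
    rw [P.B.mul_mem_cancel_right hc', P.B.mul_mem_cancel_left hc] at this
    exact ((π_eq_one P).2 this).symm
  | succ k ih =>
    rintro _ w' ⟨l, h1, h2, rfl⟩ h3 g hg hg'
    obtain ⟨s, l, rfl⟩ := List.exists_cons_of_length_eq_add_one h2
    simp only [List.forall_mem_cons] at h1
    have hl : Word k l.prod := ⟨l, h1.2, by simpa using h2, rfl⟩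
    rw [List.prod_cons] at hg ⊢
    obtain ⟨x, hx, hx'⟩ := exists_factor hg
    have hx2 := inv_mem_C hx
    rw [SW_inv h1.1] at hx2
    rcases mul_mem_C h1.1 hx2 hg' with h | h
    · rw [ih _ _ hl ?_ _ hx' h, ← mul_assoc, SW_mul_self h1.1, one_mul]
      rintro j hj ⟨l', e1, e2, e3⟩
      refine h3 (j + 1) (by omega) ⟨s :: l', by simpa using ⟨h1.1, e1⟩, by simp [e2], ?_⟩
      rw [List.prod_cons, e3, ← mul_assoc, SW_mul_self h1.1, one_mul]
    · exact absurd (ih _ _ hl (fun j hj => h3 j (by omega)) _ hx' h ▸ hl) (h3 k (by omega))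

theorem eq_of_mem_C {w w' : W P} {g : G} (hg : g ∈ C P w) (hg' : g ∈ C P w') : w = w' := by
  classical
  rcases le_total (Nat.find (exists_word w)) (Nat.find (exists_word w')) with h | h
  · exact eq_of_mem_C_aux _ w w' (Nat.find_spec (exists_word w))
      (fun j hj => Nat.find_min (exists_word w') (by omega)) g hg hg'
  · exact (eq_of_mem_C_aux _ w' w (Nat.find_spec (exists_word w'))
      (fun j hj => Nat.find_min (exists_word w) (by omega)) g hg' hg).symm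

theorem exists_mem_C (g : G) : ∃ w, g ∈ C P w := by
  have key : ∀ k, ∀ w, Word k w → ∀ x ∈ C P w, ∀ g', (∃ w, g' ∈ C P w) → ∃ w, x * g' ∈ C P w := by
    intro k
    induction k with
    | zero =>
      rintro _ ⟨l, -, h2, rfl⟩ x hx g' ⟨w, hw⟩
      obtain rfl := List.length_eq_zero_iff.1 h2
      exact ⟨w, by simpa using mem_C_mul hw (mem_C_one.1 hx) P.B.one_mem⟩
    | succ k ih =>
      rintro _ ⟨l, h1, h2, rfl⟩ x hx g' hg'
      obtain ⟨s, l, rfl⟩ := List.exists_cons_of_length_eq_add_one h2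
      simp only [List.forall_mem_cons] at h1
      rw [List.prod_cons] at hx
      obtain ⟨y, hy, hy'⟩ := exists_factor hx
      obtain ⟨w, hw⟩ := ih _ ⟨l, h1.2, by simpa using h2, rfl⟩ _ hy' g' hg'
      rcases mul_mem_C h1.1 hy hw with h | h <;> exact ⟨_, by simpa [mul_assoc] using h⟩
  let L : Subgroup G :=
    { carrier := {g | ∃ w, g ∈ C P w}
      mul_mem' := fun {x y} ⟨w, hw⟩ hy => by
        obtain ⟨k, hk⟩ := exists_word w
        exact key k w hk x hw y hy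
      one_mem' := ⟨1, mem_C_one.2 P.B.one_mem⟩
      inv_mem' := fun ⟨w, hw⟩ => ⟨_, inv_mem_C hw⟩ }
  have : P.B ⊔ P.N ≤ L := sup_le (fun b hb => ⟨1, mem_C_one.2 hb⟩) fun n hn => ⟨_, mem_C_self ⟨n, hn⟩⟩
  exact this (P.sup_eq_top ▸ Subgroup.mem_top g)

end Cfsg.Agent.H6.BN
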