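import Mathlib

/-! The algebraic part of the Feit–Higman theorem: integrality of multiplicities in a dihedral Hecke algebra. -/

set_option autoImplicit false

namespace Cfsg.Agent.H6.FH

open Matrix

variable {n : Type*} [Fintype n] [DecidableEq n]

theorem trace_of_sq {e : Matrix n n ℂ} {γ : ℂ} (h : e * e = γ • e) : ∃ N : ℕ, e.trace = N * γ := by
  by_cases hγ : γ = 0
  · refine ⟨0, ?_⟩
    rw [hγ, zero_smul] at h
    simpa using (Matrix.isNilpotent_trace_of_isNilpotent ⟨2, by rw [sq, h]⟩).eq_zero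
  · have h1 : IsIdempotentElem (Matrix.toLin' (γ⁻¹ • e)) := by
      show _ * _ = _
      rw [Module.End.mul_eq_comp, ← Matrix.toLin'_mul, smul_mul_smul_comm, h, smul_smul]
      congr 2
      field_simp
    have h2 := (LinearMap.IsIdempotentElem.isProj_range _ h1).trace
    rw [Matrix.trace_toLin'_eq, Matrix.trace_smul, smul_eq_mul] at h2
    exact ⟨_, by rw [← h2]; field_simp⟩

theorem core {y : Matrix n n ℂ} {R : ℕ → Matrix n n ℂ} {k : ℕ} (hk : 2 ≤ k) {r ζ η : ℂ} (hr : r ≠ 0)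
    (hζ : ζ ^ (2 * k) = 1) (hζ2 : ζ ^ 2 ≠ 1) (h0 : R 0 = 0) (hk0 : R k = 0)
    (hrec : ∀ j, y * R (j + 1) = R (j + 2) + r ^ 2 • R j)
    (hη : ∀ Y : Matrix n n ℂ, y * Y = (r * (ζ + ζ⁻¹)) • Y → R 1 * R 1 * Y = η • Y)
    (htr : ∀ j, 2 ≤ j → j < k → (R j * R 1).trace = 0) :
    ∃ N : ℕ, (ζ - ζ⁻¹) ^ 2 * (R 1 * R 1).trace = N * (-2 * k * η) := by
  have hζ0 : ζ ≠ 0 := by
    rintro rfl
    rw [zero_pow (by omega)] at hζ
    exact zero_ne_one hζ
  have hζ1 : ζ - ζ⁻¹ ≠ 0 := by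
    intro h
    apply hζ2
    field_simp at h
    linear_combination h
  let c : ℕ → ℂ := fun j => (ζ ^ j - ζ⁻¹ ^ j) / r ^ j
  have hc : ∀ j, c j + r ^ 2 * c (j + 2) = r * (ζ + ζ⁻¹) * c (j + 1) := by
    intro j
    simp only [c, inv_pow]
    field_simp
    ring
  have h1 : ∀ l, y * ∑ j ∈ Finset.range (l + 1), c j • R j =
      (r * (ζ + ζ⁻¹)) • ∑ j ∈ Finset.range (l + 1), c j • R j + c l • R (l + 1) - (r ^ 2 * c (l + 1)) • R l := by
    intro l
    induction l with
    | zero => simp [h0, c]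
    | succ l ih =>
      rw [Finset.sum_range_succ _ (l + 1), mul_add, ih, mul_smul_comm, hrec]
      have := hc l
      have e : c l = r * (ζ + ζ⁻¹) * c (l + 1) - r ^ 2 * c (l + 2) := by linear_combination this
      rw [e]
      module
  obtain ⟨l, rfl⟩ : ∃ l, k = l + 1 := ⟨k - 1, by omega⟩
  set e₀ := ∑ j ∈ Finset.range (l + 1), c j • R j with he₀
  have hck : c (l + 1) = 0 := by
    simp only [c, inv_pow]
    rw [div_eq_zero_iff]
    left
    field_simp
    rw [← pow_mul, mul_comm, hζ, sub_self, mul_zero]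
  have h2 : y * e₀ = (r * (ζ + ζ⁻¹)) • e₀ := by
    rw [he₀, h1, hk0, hck]; simp
  have h3 : R 1 * (R 1 * e₀ * R 1) = η • (e₀ * R 1) := by
    rw [← smul_mul_assoc, ← hη _ h2]; simp only [mul_assoc]
  let d : ℕ → ℂ := fun j => r ^ j * (ζ ^ j - ζ⁻¹ ^ j) / (r * (ζ - ζ⁻¹))
  have h4 : ∀ j, R j * (R 1 * e₀ * R 1) = (d j * η) • (e₀ * R 1) := by
    intro j
    induction j using Nat.twoStepInduction with
    | zero => simp [h0, d]
    | one =>
      rw [h3]
      congr 1
      simp only [d, pow_one]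
      field_simp
    | more j ih1 ih2 =>
      have e : R (j + 2) = y * R (j + 1) - r ^ 2 • R j := by rw [hrec]; simp
      rw [e, sub_mul, mul_assoc y, ih2, smul_mul_assoc, ih1, mul_smul_comm, ← mul_assoc y, h2, smul_mul_assoc,
        smul_smul, smul_smul, ← sub_smul]
      congr 1
      simp only [d, inv_pow]
      field_simp
      ring
  have h5 : ∑ j ∈ Finset.range (l + 1), c j * d j = -2 * (l + 1 : ℕ) / (r * (ζ - ζ⁻¹)) := by
    have e1 : ∀ j, c j * d j = ((ζ ^ 2) ^ j + (ζ⁻¹ ^ 2) ^ j - 2) / (r * (ζ - ζ⁻¹)) := by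
      intro j
      simp only [c, d, inv_pow]
      rw [← pow_mul, mul_comm 2 j, pow_mul]
      field_simp
      ring
    have e2 : ∑ j ∈ Finset.range (l + 1), (ζ ^ 2) ^ j = 0 := by
      rw [geom_sum_eq hζ2, ← pow_mul, hζ]; simp
    have e3 : ∑ j ∈ Finset.range (l + 1), (ζ⁻¹ ^ 2) ^ j = 0 := by
      rw [geom_sum_eq (by rwa [inv_pow, Ne, inv_eq_one]), ← pow_mul, inv_pow, hζ]; simp
    simp only [e1, ← Finset.sum_div, Finset.sum_sub_distrib, Finset.sum_add_distrib, e2, e3]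
    simp [mul_comm]
  have h6 : e₀ * R 1 * (e₀ * R 1) = (-2 * (l + 1 : ℕ) / (r * (ζ - ζ⁻¹)) * η) • (e₀ * R 1) := by
    rw [← h5, Finset.sum_mul _ _ η, Finset.sum_smul, mul_assoc, ← mul_assoc (R 1)]
    generalize R 1 * e₀ * R 1 = X at h4
    conv_lhs => rw [he₀]
    rw [Finset.sum_mul]
    refine Finset.sum_congr rfl fun j _ => ?_
    rw [smul_mul_assoc, h4, smul_smul, mul_assoc (c j)]
  obtain ⟨N, hN⟩ := trace_of_sq h6
  refine ⟨N, ?_⟩
  rw [he₀, Finset.sum_mul, Matrix.trace_sum, Finset.sum_eq_single 1] at hN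
  · simp only [smul_mul_assoc, Matrix.trace_smul, smul_eq_mul, c, pow_one] at hN
    field_simp at hN ⊢
    linear_combination hN
  · intro j hj hj1
    rw [smul_mul_assoc, Matrix.trace_smul]
    rcases Nat.eq_zero_or_pos j with rfl | h
    · simp [h0]
    · rw [htr j (by omega) (Finset.mem_range.1 hj), smul_zero]
  · intro h
    exact absurd (Finset.mem_range.2 (by omega)) h

theorem totient_le_two {k : ℕ} (hk : 0 < k) {ω : ℂ} (hω : IsPrimitiveRoot ω k) {ρ : ℚ} (h : ω + ω⁻¹ = ρ) :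
    k = 1 ∨ k = 2 ∨ k = 3 ∨ k = 4 ∨ k = 6 := by
  have h0 : ω ≠ 0 := hω.ne_zero hk.ne'
  have h1 : Nat.totient k ≤ 2 := by
    have h2 : Polynomial.aeval ω (Polynomial.X ^ 2 - Polynomial.C ρ * Polynomial.X + 1 : Polynomial ℚ) = 0 := by
      simp only [map_add, map_sub, map_pow, Polynomial.aeval_X, map_mul, Polynomial.aeval_C, map_one, eq_ratCast, ← h]
      field_simp
      ring
    have h3 : (Polynomial.X ^ 2 - Polynomial.C ρ * Polynomial.X + 1 : Polynomial ℚ).natDegree = 2 := by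
      compute_degree!
    have h4 := Polynomial.natDegree_le_of_dvd (minpoly.dvd ℚ ω h2) (by
      intro h; rw [h] at h3; simp at h3)
    rwa [← Polynomial.cyclotomic_eq_minpoly_rat hω hk, Polynomial.natDegree_cyclotomic, h3] at h4
  by_contra hcon
  have key : ∀ x, 1 < x → x < k - 1 → ¬ k.Coprime x := by
    intro x h2 h3 h4
    have : ({1, x, k - 1} : Finset ℕ) ⊆ (Finset.range k).filter (Nat.Coprime k) := by
      intro z hz
      simp only [Finset.mem_insert, Finset.mem_singleton] at hz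
      rw [Finset.mem_filter, Finset.mem_range]
      rcases hz with rfl | rfl | rfl
      · exact ⟨by omega, by simp⟩
      · exact ⟨by omega, h4⟩
      · refine ⟨by omega, ?_⟩
        obtain ⟨l, rfl⟩ : ∃ l, k = l + 1 := ⟨k - 1, by omega⟩
        simp
    have h5 := Finset.card_le_card this
    rw [Finset.card_eq_three.2 ⟨1, x, k - 1, by omega, by omega, by omega, rfl⟩, ← Nat.totient_eq_card_coprime] at h5
    omega
  have hodd : ∀ x d, Odd x → k = 2 * x + 2 ^ d → k.Coprime x := by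
    rintro x d hx rfl
    rw [Nat.coprime_mul_right_add_left]
    exact (Nat.coprime_two_left.2 hx).pow_left d
  rcases Nat.even_or_odd' k with ⟨a, h | h⟩
  · rcases Nat.even_or_odd' a with ⟨b, h' | h'⟩
    · exact key (a - 1) (by omega) (by omega) (hodd _ 1 ⟨b - 1, by omega⟩ (by omega))
    · exact key (a - 2) (by omega) (by omega) (hodd _ 2 ⟨b - 1, by omega⟩ (by omega))
  · exact key 2 (by omega) (by omega) (Nat.coprime_two_right.2 ⟨a, h⟩)

/-- alternating products -/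
def alt {M : Type*} [Monoid M] : M → M → ℕ → M
  | _, _, 0 => 1
  | x, y, j + 1 => x * alt y x j

theorem alt_zero {M : Type*} [Monoid M] (x y : M) : alt x y 0 = 1 := rfl

theorem alt_succ {M : Type*} [Monoid M] (x y : M) (j : ℕ) : alt x y (j + 1) = x * alt y x j := rfl

theorem alt_even {M : Type*} [Monoid M] (x y : M) (j : ℕ) : alt x y (2 * j) = (x * y) ^ j := by
  induction j with
  | zero => simp [alt_zero]
  | succ j ih => rw [show 2 * (j + 1) = 2 * j + 1 + 1 by ring, alt_succ, alt_succ, ih, pow_succ', mul_assoc]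

theorem alt_odd {M : Type*} [Monoid M] (x y : M) (j : ℕ) : alt x y (2 * j + 1) = x * (y * x) ^ j := by
  rw [alt_succ, alt_even]

section Main

variable [Nonempty n] {a b : Matrix n n ℂ} {s t : ℕ} (hs : 2 ≤ s) (ht : 2 ≤ t)
  (ha : a * a = ((s : ℂ) - 1) • a + (s : ℂ) • 1) (hb : b * b = ((t : ℂ) - 1) • b + (t : ℂ) • 1)
  (ha0 : a.trace = 0) (hb0 : b.trace = 0) (hab0 : (a * b).trace = 0)

include hs ha hb ha0 hb0 hab0 in
theorem odd_case {m : ℕ} (hm : 2 ≤ m) (hst : t = s) (hbr : alt a b m = alt b a m)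
    (htr : ∀ j, 2 ≤ j → j < m → ((alt a b j - alt b a j) * (a - b)).trace = 0) : m = 2 ∨ m = 3 ∨ m = 4 ∨ m = 6 := by
  subst hst
  have ha' : ∀ X, a * (a * X) = ((t : ℂ) - 1) • (a * X) + (t : ℂ) • X := fun X => by
    rw [← mul_assoc, ha]; simp [add_mul]
  have hb' : ∀ X, b * (b * X) = ((t : ℂ) - 1) • (b * X) + (t : ℂ) • X := fun X => by
    rw [← mul_assoc, hb]; simp [add_mul]
  obtain ⟨r, hr⟩ := IsAlgClosed.exists_eq_mul_self (t : ℂ)
  have ht0 : (t : ℂ) ≠ 0 := by exact_mod_cast (by omega : t ≠ 0)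
  have hr0 : r ≠ 0 := by rintro rfl; exact ht0 (by simpa using hr)
  have hζ := Complex.isPrimitiveRoot_exp (2 * m) (by omega)
  set ζ := Complex.exp (2 * Real.pi * Complex.I / (2 * m : ℕ))
  have hζ0 : ζ ≠ 0 := hζ.ne_zero (by omega)
  obtain ⟨N, hN⟩ := core (y := ((t : ℂ) - 1) • 1 - a - b) (R := fun j => alt a b j - alt b a j) hm (r := r) (ζ := ζ)
    (η := (t + 1) ^ 2 - (r * (ζ + ζ⁻¹)) ^ 2) hr0 hζ.pow_eq_one (hζ.pow_ne_one_of_pos_of_lt (by omega) (by omega))
    (by simp [alt_zero]) (by simp [hbr]) (by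
      intro j
      simp only [alt_succ, mul_sub, sub_mul, ha', hb', smul_mul_assoc, one_mul, sq, ← hr]
      module) (by
      intro Y hY
      have e : (alt a b 1 - alt b a 1) * (alt a b 1 - alt b a 1) =
          ((t : ℂ) + 1) ^ 2 • 1 - (((t : ℂ) - 1) • 1 - a - b) * (((t : ℂ) - 1) • 1 - a - b) := by
        simp only [alt_succ, alt_zero, mul_sub, sub_mul, ha, hb, smul_mul_assoc, mul_smul_comm, one_mul, mul_one]
        module
      rw [e, sub_mul, mul_assoc, hY, mul_smul_comm, hY, smul_mul_assoc, one_mul]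
      module) (by simpa [alt_succ, alt_zero] using htr)
  have e1 : ((alt a b 1 - alt b a 1) * (alt a b 1 - alt b a 1)).trace = 2 * t * Fintype.card n := by
    simp only [alt_succ, alt_zero, mul_sub, sub_mul, ha, hb, mul_one, Matrix.trace_sub, Matrix.trace_add,
      Matrix.trace_smul, ha0, hb0, hab0, Matrix.trace_mul_comm b a, Matrix.trace_one, smul_eq_mul]
    ring
  rw [e1] at hN
  have hC : (Fintype.card n : ℂ) ≠ 0 := by exact_mod_cast Fintype.card_ne_zero
  have h1 : (ζ ^ 2 + (ζ ^ 2)⁻¹) * (t * (Fintype.card n - N * m)) =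
      2 * t * Fintype.card n - N * m * (t ^ 2 + 1) := by
    have e2 : ζ * ζ⁻¹ = 1 := mul_inv_cancel₀ hζ0
    rw [← inv_pow]
    generalize ζ⁻¹ = ζ' at *
    rw [mul_pow, sq r, ← hr] at hN
    linear_combination (1 / 2) * hN + (2 * t * Fintype.card n + 2 * N * m * t) * e2
  have h2 : (Fintype.card n : ℂ) - N * m ≠ 0 := by
    intro h
    rw [h, ← sub_eq_zero.1 h] at h1
    have : ((t : ℂ) - 1) ^ 2 * Fintype.card n = 0 := by linear_combination h1
    have h3 : (t : ℂ) = 1 := by simpa [hC, sub_eq_zero] using this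
    have : t = 1 := by exact_mod_cast h3
    omega
  have := totient_le_two (k := m) (by omega) (hζ.pow (by omega) rfl)
    (ρ := (2 * t * Fintype.card n - N * m * (t ^ 2 + 1)) / (t * (Fintype.card n - N * m))) (by
      push_cast
      rw [eq_div_iff (mul_ne_zero ht0 h2), h1])
  omega

include hs ht ha hb ha0 hb0 hab0 in
theorem even_case {k : ℕ} (hk : 2 ≤ k) (hbr : (a * b) ^ k = (b * a) ^ k) (htr0 : (a * b * (a * b)).trace = 0)
    (htr : ∀ j, 2 ≤ j → j < k → (((a * b) ^ j - (b * a) ^ j) * (a * b - b * a)).trace = 0) :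
    k = 2 ∨ k = 3 ∨ k = 4 := by
  have ha' : ∀ X, a * (a * X) = ((s : ℂ) - 1) • (a * X) + (s : ℂ) • X := fun X => by
    rw [← mul_assoc, ha]; simp [add_mul]
  have hb' : ∀ X, b * (b * X) = ((t : ℂ) - 1) • (b * X) + (t : ℂ) • X := fun X => by
    rw [← mul_assoc, hb]; simp [add_mul]
  obtain ⟨r, hr⟩ := IsAlgClosed.exists_eq_mul_self ((s : ℂ) * t)
  have hs0 : (s : ℂ) ≠ 0 := by exact_mod_cast (by omega : s ≠ 0)
  have ht0 : (t : ℂ) ≠ 0 := by exact_mod_cast (by omega : t ≠ 0)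
  have hr0 : r ≠ 0 := by rintro rfl; exact mul_ne_zero hs0 ht0 (by simpa using hr)
  have hC : (Fintype.card n : ℂ) ≠ 0 := by exact_mod_cast Fintype.card_ne_zero
  have e1 : (((a * b) ^ 1 - (b * a) ^ 1) * ((a * b) ^ 1 - (b * a) ^ 1)).trace = -2 * (s * t) * Fintype.card n := by
    have e2 : (b * a * (b * a)).trace = 0 := by
      rw [← htr0, mul_assoc b, Matrix.trace_mul_comm]; simp only [mul_assoc]
    have e3 : (a * b * (b * a)).trace = s * t * Fintype.card n := by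
      rw [← mul_assoc, Matrix.trace_mul_comm]
      simp only [mul_assoc, ha', hb, mul_add, mul_smul_comm, mul_one, Matrix.trace_add, Matrix.trace_smul, ha0, hb0,
        hab0, Matrix.trace_one, smul_eq_mul, ha]
      ring
    simp only [pow_one, mul_sub, sub_mul, Matrix.trace_sub, htr0, e2, e3, Matrix.trace_mul_comm (b * a) (a * b)]
    ring
  have step : ∀ ζ : ℂ, ζ ^ (2 * k) = 1 → ζ ^ 2 ≠ 1 → ∃ N : ℕ, N ≠ 0 ∧
      (4 * (s * t) - (r * (ζ + ζ⁻¹)) ^ 2) * Fintype.card n =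
        N * ((s * t + 1 - r * (ζ + ζ⁻¹)) * (r * (ζ + ζ⁻¹) + s + t)) := by
    intro ζ h1 h2
    have hζ0 : ζ ≠ 0 := by
      rintro rfl
      rw [zero_pow (by omega)] at h1
      exact zero_ne_one h1
    obtain ⟨N, hN⟩ := core (y := a * b + b * a - ((s : ℂ) - 1) • b - ((t : ℂ) - 1) • a + (((s : ℂ) - 1) * (t - 1)) • 1)
      (R := fun j => (a * b) ^ j - (b * a) ^ j) hk (r := r) (ζ := ζ)
      (η := (r * (ζ + ζ⁻¹) - s * t - 1) * (r * (ζ + ζ⁻¹) + s + t)) hr0 h1 h2 (by simp) (by simp [hbr]) (by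
        intro j
        simp only [pow_succ', mul_assoc, mul_sub, sub_mul, add_mul, ha', hb', smul_mul_assoc, one_mul, mul_add,
          mul_smul_comm, pow_zero, mul_one, ← hr]
        module) (by
        intro Y hY
        set y := a * b + b * a - ((s : ℂ) - 1) • b - ((t : ℂ) - 1) • a + (((s : ℂ) - 1) * (t - 1)) • 1 with hy
        have e : ((a * b) ^ 1 - (b * a) ^ 1) * ((a * b) ^ 1 - (b * a) ^ 1) =
            y * y - (((s : ℂ) - 1) * (t - 1)) • y - (((s : ℂ) * t + 1) * (s + t)) • 1 := by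
          simp only [hy, pow_one, mul_assoc, mul_sub, sub_mul, add_mul, ha', hb', smul_mul_assoc, one_mul, mul_add,
            mul_smul_comm, mul_one, ha, hb]
          module
        rw [e, sub_mul, sub_mul, mul_assoc, hY, mul_smul_comm, hY, smul_mul_assoc, smul_mul_assoc, hY, one_mul]
        module) (by simpa using htr)
    rw [e1] at hN
    have e2 : ζ * ζ⁻¹ = 1 := mul_inv_cancel₀ hζ0
    have e3 : 4 * (s * t) - (r * (ζ + ζ⁻¹)) ^ 2 = -(s * t) * (ζ - ζ⁻¹) ^ 2 := by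
      rw [mul_pow, sq r, ← hr]
      linear_combination (-4 * s * t) * e2
    refine ⟨N * k, ?_, ?_⟩
    · intro h
      rw [Nat.mul_eq_zero] at h
      rcases h with rfl | h
      · simp only [Nat.cast_zero, zero_mul, mul_eq_zero, pow_eq_zero_iff (two_ne_zero), hs0, ht0, hC, sub_eq_zero,
          or_false, neg_eq_zero, OfNat.ofNat_ne_zero] at hN
        apply h2
        rw [sq]
        nth_rewrite 2 [hN]
        exact e2
      · omega
    · rw [e3]
      push_cast
      linear_combination (1 / 2) * hN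
  have rat : ∀ ζ : ℂ, ζ ^ (2 * k) = 1 → ζ ^ 2 ≠ 1 → ∃ ρ : ℚ, r * (ζ + ζ⁻¹) = ρ := by
    intro ζ h1 h2
    obtain ⟨N, hN0, hN⟩ := step ζ h1 h2
    obtain ⟨N', hN0', hN'⟩ := step (-ζ) (by rw [pow_mul, neg_sq, ← pow_mul, h1]) (by rwa [neg_sq])
    rw [show r * (-ζ + (-ζ)⁻¹) = -(r * (ζ + ζ⁻¹)) by rw [inv_neg]; ring] at hN'
    generalize r * (ζ + ζ⁻¹) = u at *
    have hN1 : (N : ℂ) ≠ 0 := by exact_mod_cast hN0
    have hN1' : (N' : ℂ) ≠ 0 := by exact_mod_cast hN0'
    have h3 : u ^ 2 * (2 * N * N' - (N + N') * Fintype.card n) =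
        2 * N * N' * ((s * t + 1) * (s + t)) - 4 * (s * t) * ((N + N') * Fintype.card n) := by
      linear_combination N' * hN + N * hN'
    have h4 : (2 * N * N' - (N + N') * Fintype.card n : ℂ) ≠ 0 := by
      intro h
      rw [h, ← sub_eq_zero.1 h] at h3
      have h5 : (2 * N * N' : ℂ) * ((s * t + 1) * (s + t) - 4 * (s * t)) = 0 := by linear_combination -h3
      have h6 : ((s * t + 1) * (s + t) : ℂ) = 4 * (s * t) := by simpa [hN1, hN1', sub_eq_zero] using h5
      have h7 : (s * t + 1) * (s + t) = 4 * (s * t) := by exact_mod_cast h6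
      nlinarith [Nat.mul_le_mul hs ht]
    have h5 : (N : ℂ) * ((s - 1) * (t - 1)) ≠ 0 := by
      refine mul_ne_zero hN1 (mul_ne_zero ?_ ?_) <;> rw [sub_ne_zero] <;> norm_cast <;> omega
    let σ : ℚ := (2 * N * N' * ((s * t + 1) * (s + t)) - 4 * (s * t) * ((N + N') * Fintype.card n)) /
      (2 * N * N' - (N + N') * Fintype.card n)
    have h6 : u ^ 2 = σ := by
      simp only [σ]
      push_cast
      rw [eq_div_iff h4, h3]
    refine ⟨((4 * (s * t) - σ) * Fintype.card n - N * ((s * t + 1) * (s + t) - σ)) / (N * ((s - 1) * (t - 1))), ?_⟩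
    push_cast
    rw [eq_div_iff h5, ← h6]
    linear_combination -hN
  have hζ := Complex.isPrimitiveRoot_exp (2 * k) (by omega)
  set ζ := Complex.exp (2 * Real.pi * Complex.I / (2 * k : ℕ))
  have hζ0 : ζ ≠ 0 := hζ.ne_zero (by omega)
  have e2 : ζ * ζ⁻¹ = 1 := mul_inv_cancel₀ hζ0
  obtain ⟨ρ, hρ⟩ := rat ζ hζ.pow_eq_one (hζ.pow_ne_one_of_pos_of_lt (by omega) (by omega))
  have h1 := totient_le_two (k := k) (by omega) (hζ.pow (by omega) rfl) (ρ := ρ ^ 2 / (s * t) - 2) (by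
    push_cast
    rw [← hρ, mul_pow, sq r, ← hr, ← inv_pow, mul_div_cancel_left₀ _ (mul_ne_zero hs0 ht0)]
    linear_combination (-2) * e2)
  have h2 : k ≠ 6 := by
    rintro rfl
    obtain ⟨ρ', hρ'⟩ := rat (ζ ^ 2) (by rw [← pow_mul, mul_comm, pow_mul, hζ.pow_eq_one, one_pow])
      (by rw [← pow_mul]; exact hζ.pow_ne_one_of_pos_of_lt (by omega) (by omega))
    have h3 : ζ ^ 4 - ζ ^ 2 + 1 = 0 := by
      have h4 : (ζ ^ 6 - 1) * (ζ ^ 2 + 1) * (ζ ^ 4 - ζ ^ 2 + 1) = 0 := by linear_combination hζ.pow_eq_one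
      refine (mul_eq_zero.1 h4).resolve_left (mul_ne_zero ?_ ?_)
      · exact sub_ne_zero.2 (hζ.pow_ne_one_of_pos_of_lt (by omega) (by omega))
      · intro h
        apply hζ.pow_ne_one_of_pos_of_lt (l := 4) (by omega) (by omega)
        linear_combination (ζ ^ 2 - 1) * h
    have h4 : ζ ^ 2 + (ζ ^ 2)⁻¹ = 1 := by
      field_simp
      linear_combination h3
    rw [h4, mul_one] at hρ'
    have h5 : (ρ : ℂ) ^ 2 = 3 * ρ' ^ 2 := by
      rw [← hρ, ← hρ', ← inv_pow] at *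
      linear_combination r ^ 2 * h4 + 2 * r ^ 2 * e2
    have h6 : ρ ^ 2 = 3 * ρ' ^ 2 := by exact_mod_cast h5
    have h7 : ρ' ≠ 0 := by rintro rfl; exact hr0 (by simpa using hρ')
    have h8 : IsSquare (3 : ℚ) := ⟨ρ / ρ', by field_simp; linear_combination -h6⟩
    norm_num at h8
  omega

end Main

end Cfsg.Agent.H6.FH
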