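import Cfsg.Agent.H6.BN
import Cfsg.Agent.H6.FHAlg
import Cfsg.Agent.H6.Tori

/-! The Feit–Higman theorem for finite groups with a (B,N)-pair of rank two. -/

set_option autoImplicit false

namespace Cfsg.Agent.H6.FH

open Cfsg.Agent.H6.BN Matrix

section Dihedral

variable {W : Type*} [Group W] {s t : W} (hs : s * s = 1) (ht : t * t = 1) (hs1 : s ≠ 1) (ht1 : t ≠ 1)

include hs ht hs1 ht1 in
theorem notMem_zpowers : s ∉ Subgroup.zpowers (s * t) := by
  rintro ⟨i, hi⟩
  have h1 : Commute (s * t) s := by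
    have := Commute.self_zpow (s * t) i
    simp only at hi
    rwa [hi] at this
  have h2 : s * t = t * s := by
    have : s * (t * s) = s * (s * t) := by rw [← mul_assoc]; exact h1
    exact (mul_left_cancel this).symm
  have h3 : (s * t) ^ (2 : ℤ) = 1 := by
    rw [zpow_two, mul_assoc, ← mul_assoc t, ← h2, mul_assoc, ht, mul_one, hs]
  simp only at hi
  rcases Int.even_or_odd' i with ⟨j, rfl | rfl⟩
  · rw [_root_.zpow_mul, h3, _root_.one_zpow] at hi
    exact hs1 hi.symm
  · rw [_root_.zpow_add, _root_.zpow_mul, h3, _root_.one_zpow, one_mul, zpow_one] at hi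
    exact ht1 (by simpa using hi)

include hs ht in
theorem swap_eq_inv : t * s = (s * t)⁻¹ := by
  rw [_root_.mul_inv_rev, inv_eq_iff_mul_eq_one.2 hs, inv_eq_iff_mul_eq_one.2 ht]

include hs ht in
theorem orderOf_swap : orderOf (t * s) = orderOf (s * t) := by rw [swap_eq_inv hs ht, orderOf_inv]

include hs ht hs1 ht1 in
theorem card_dihedral (h : Subgroup.closure {s, t} = ⊤) : Nat.card W = 2 * orderOf (s * t) := by
  rw [← Nat.card_zpowers, ← Subgroup.card_top]
  apply Grp.card_eq_two_mul le_top (Subgroup.mem_top s) (notMem_zpowers hs ht hs1 ht1)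
  intro y hy
  rw [← h] at hy
  have hsi := inv_eq_iff_mul_eq_one.2 hs
  have hti := inv_eq_iff_mul_eq_one.2 ht
  have key : ∀ x ∈ ({s, t} : Set W), ∀ y, (y ∈ Subgroup.zpowers (s * t) ∨ y * s ∈ Subgroup.zpowers (s * t)) →
      (y * x ∈ Subgroup.zpowers (s * t) ∨ y * x * s ∈ Subgroup.zpowers (s * t)) := by
    rintro x (rfl | rfl) y (h | h)
    · right; rwa [mul_assoc, hs, mul_one]
    · left; exact h
    · right; rw [mul_assoc, swap_eq_inv hs ht]
      exact Subgroup.mul_mem _ h (Subgroup.inv_mem _ (Subgroup.mem_zpowers _))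
    · left
      have := Subgroup.mul_mem _ h (Subgroup.mem_zpowers _)
      rwa [mul_assoc, ← mul_assoc s, hs, one_mul] at this
  induction hy using Subgroup.closure_induction_right with
  | one => exact Or.inl (Subgroup.one_mem _)
  | mul_right y _ x hx ih => exact key x hx y ih
  | mul_inv_cancel y _ x hx ih =>
    have : x⁻¹ = x := by rcases hx with rfl | rfl <;> assumption
    rw [this]; exact key x hx y ih

include hs ht hs1 ht1 in
theorem alt_ne_one {l : ℕ} (h0 : 0 < l) (hl : l < 2 * orderOf (s * t)) : alt s t l ≠ 1 := by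
  rcases Nat.even_or_odd' l with ⟨j, rfl | rfl⟩
  · rw [alt_even]
    exact pow_ne_one_of_lt_orderOf (by omega) (by omega)
  · rw [alt_odd, swap_eq_inv hs ht, inv_pow, Ne, mul_inv_eq_one]
    intro h
    have := Subgroup.pow_mem _ (Subgroup.mem_zpowers (s * t)) j
    rw [← h] at this
    exact notMem_zpowers hs ht hs1 ht1 this

include hs ht in
theorem alt_eq_iff (j : ℕ) : alt s t j = alt t s j ↔ (s * t) ^ j = 1 := by
  rcases Nat.even_or_odd' j with ⟨j, rfl | rfl⟩
  · rw [alt_even, alt_even, swap_eq_inv hs ht, inv_pow, eq_inv_iff_mul_eq_one, ← pow_add, two_mul]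
  · rw [alt_odd, alt_odd, ← mul_right_inj s, ← mul_assoc, ← mul_assoc, hs, one_mul, ← pow_succ',
      swap_eq_inv hs ht, inv_pow, inv_eq_iff_mul_eq_one, ← pow_add]
    rw [show j + (j + 1) = 2 * j + 1 by ring]

end Dihedral

theorem alt_succ' {M : Type*} [Monoid M] (j : ℕ) : ∀ x y : M, ∃ r, (r = x ∨ r = y) ∧ alt x y (j + 1) = alt x y j * r ∧
    alt y x (j + 2) = alt y x (j + 1) * r := by
  induction j with
  | zero => exact fun x y => ⟨x, Or.inl rfl, by simp [alt_succ, alt_zero], by simp [alt_succ, alt_zero]⟩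
  | succ j ih =>
    intro x y
    obtain ⟨r, h1, h2, h3⟩ := ih y x
    exact ⟨r, h1.symm, h3, by rw [alt_succ y x (j + 2), h3, alt_succ y x (j + 1), mul_assoc]⟩

variable {G : Type*} [Group G] {P : BNPair G}

theorem mul_alt {s t : W P} (hs : s ∈ SW P) (ht : t ∈ SW P) (j : ℕ) (hj : j < orderOf (s * t)) :
    ∀ g ∈ C P s, ∀ g' ∈ C P (alt t s j), g * g' ∈ C P (alt s t (j + 1)) := by
  induction j with
  | zero =>
    intro g hg g' hg'
    simpa [alt_succ, alt_zero] using mem_C_mul hg P.B.one_mem (mem_C_one.1 hg')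
  | succ j ih =>
    intro g hg g' hg'
    obtain ⟨r, h1, h2, h3⟩ := alt_succ' j t s
    have hr : r ∈ SW P := by rcases h1 with rfl | rfl <;> assumption
    rcases mul_mem_C hs hg hg' with h | h
    · exact h
    rw [h2] at hg'
    obtain ⟨x, hx, hx'⟩ := exists_factor hg'
    rcases mul_mem_C' hr (ih (by omega) g hg x hx) hx' with h4 | h4 <;> rw [mul_assoc, mul_inv_cancel_left] at h4
    · rwa [h3]
    · exact absurd ((alt_eq_iff (SW_mul_self hs) (SW_mul_self ht) _).1 (eq_of_mem_C h4 h))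
        (pow_ne_one_of_lt_orderOf (by omega) hj)

theorem out_mk_left (w : W P) (g y : G) : (QuotientGroup.mk g : G ⧸ P.B).out⁻¹ * y ∈ C P w ↔ g⁻¹ * y ∈ C P w := by
  obtain ⟨b, hb⟩ := QuotientGroup.mk_out_eq_mul P.B g
  rw [hb, ← mem_C_mul_iff b.2 P.B.one_mem]
  simp [mul_assoc]

theorem out_mk_right (w : W P) (g y : G) : y * (QuotientGroup.mk g : G ⧸ P.B).out ∈ C P w ↔ y * g ∈ C P w := by
  obtain ⟨b, hb⟩ := QuotientGroup.mk_out_eq_mul P.B g
  rw [hb, ← mem_C_mul_iff P.B.one_mem (P.B.inv_mem b.2)]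
  simp [mul_assoc]

theorem eq_iff_mem_C (x y : G ⧸ P.B) : x = y ↔ x.out⁻¹ * y.out ∈ C P 1 := by
  rw [mem_C_one, ← QuotientGroup.eq, QuotientGroup.out_eq', QuotientGroup.out_eq']

open Classical in
/-- the adjacency matrix of a Bruhat cell -/
noncomputable def T (w : W P) : Matrix (G ⧸ P.B) (G ⧸ P.B) ℂ :=
  fun x y => if x.out⁻¹ * y.out ∈ C P w then 1 else 0

variable [Fintype (G ⧸ P.B)] [DecidableEq (G ⧸ P.B)]

omit [Fintype (G ⧸ P.B)] in
theorem T_one : T (1 : W P) = 1 := by
  ext x y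
  simp only [T, Matrix.one_apply, ← eq_iff_mem_C]

omit [DecidableEq (G ⧸ P.B)] in
theorem trace_T_mul {w w' : W P} (h : w' * w ≠ 1) : (T w * T w').trace = 0 := by
  refine Finset.sum_eq_zero fun x _ => Finset.sum_eq_zero fun y _ => ?_
  simp only [T, mul_ite, mul_one, mul_zero, ite_eq_right_iff, one_ne_zero, imp_false]
  intro h1 h2
  apply h
  rw [eq_of_mem_C h1 (by simpa using inv_mem_C h2), inv_mul_cancel]

omit [DecidableEq (G ⧸ P.B)] in
theorem T_mul {s w : W P} (hs : s ∈ SW P) (h : ∀ g ∈ C P s, ∀ g' ∈ C P w, g * g' ∈ C P (s * w)) :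
    T s * T w = T (s * w) := by
  ext x z
  simp only [Matrix.mul_apply, T, mul_ite, mul_one, mul_zero]
  split_ifs with h1
  · obtain ⟨g, hg, hg'⟩ := exists_factor h1
    have e1 : (QuotientGroup.mk (x.out * g) : G ⧸ P.B).out⁻¹ * z.out ∈ C P w := by
      rw [out_mk_left]; simpa [mul_assoc] using hg'
    have e2 : x.out⁻¹ * (QuotientGroup.mk (x.out * g) : G ⧸ P.B).out ∈ C P s := by
      rw [out_mk_right]; simpa using hg
    rw [Finset.sum_eq_single (QuotientGroup.mk (x.out * g)), if_pos e1, if_pos e2]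
    · intro y _ hy
      simp only [ite_eq_right_iff, one_ne_zero, imp_false]
      intro h2 h3
      have h4 := inv_mem_C h3
      rw [SW_inv hs] at h4
      rcases mul_mem_C hs h4 e2 with h5 | h5
      · rw [SW_mul_self hs] at h5
        exact hy ((eq_iff_mem_C _ _).2 (by simpa [mul_assoc] using h5))
      · have h6 := eq_of_mem_C h2 (by simpa [mul_assoc] using h _ h5 _ e1)
        exact SW_ne_one hs (by simpa using h6)
    · simp
  · refine Finset.sum_eq_zero fun y _ => ?_
    simp only [ite_eq_right_iff, one_ne_zero, imp_false]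
    intro h2 h3
    exact h1 (by simpa [mul_assoc] using h _ h3 _ h2)

theorem T_alt {s t : W P} (hs : s ∈ SW P) (ht : t ∈ SW P) (j : ℕ) (hj : j ≤ orderOf (s * t)) :
    T (alt s t j) = alt (T s) (T t) j := by
  induction j generalizing s t with
  | zero => exact T_one
  | succ j ih =>
    rw [alt_succ, alt_succ, ← ih ht hs (by rw [orderOf_swap (SW_mul_self hs) (SW_mul_self ht)]; omega),
      T_mul hs (mul_alt hs ht j (by omega))]

theorem T_sq {s : W P} (hs : s ∈ SW P) : ∃ q : ℕ, 2 ≤ q ∧ T s * T s = ((q : ℂ) - 1) • T s + (q : ℂ) • 1 ∧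
    T s *ᵥ (fun _ => 1) = (q : ℂ) • fun _ => 1 := by
  classical
  let r : G ⧸ P.B → G ⧸ P.B → Prop := fun x y => x.out⁻¹ * y.out ∈ C P s ∨ x.out⁻¹ * y.out ∈ C P 1
  have hmul : ∀ g g', (g ∈ C P s ∨ g ∈ C P 1) → (g' ∈ C P s ∨ g' ∈ C P 1) → (g * g' ∈ C P s ∨ g * g' ∈ C P 1) := by
    rintro g g' (h | h) (h' | h')
    · rcases mul_mem_C hs h h' with h1 | h1
      · rw [SW_mul_self hs] at h1; exact Or.inr h1
      · exact Or.inl h1
    · exact Or.inl (by simpa using mem_C_mul h P.B.one_mem (mem_C_one.1 h'))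
    · exact Or.inl (by simpa using mem_C_mul h' (mem_C_one.1 h) P.B.one_mem)
    · exact Or.inr (mem_C_one.2 (P.B.mul_mem (mem_C_one.1 h) (mem_C_one.1 h')))
  have htrans : ∀ x y z, r x y → r y z → r x z := fun x y z h1 h2 => by
    simpa [r, mul_assoc] using hmul _ _ h1 h2
  have hsymm : ∀ x y, r x y → r y x := by
    rintro x y (h | h)
    · left; simpa [SW_inv hs] using inv_mem_C h
    · right; simpa using inv_mem_C h
  have hE : ∀ x y, (T s + 1) x y = if r x y then 1 else 0 := by
    intro x y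
    rw [← T_one, Matrix.add_apply]
    simp only [T, r]
    by_cases h1 : x.out⁻¹ * y.out ∈ C P s
    · rw [if_pos h1, if_neg (fun h2 => SW_ne_one hs (eq_of_mem_C h1 h2)), if_pos (Or.inl h1), add_zero]
    · simp [h1]
  let o : G ⧸ P.B := QuotientGroup.mk 1
  have ho : ∀ g, r o (QuotientGroup.mk g) ↔ (g ∈ C P s ∨ g ∈ C P 1) := by
    intro g
    simp only [r, o, out_mk_left, out_mk_right, inv_one, one_mul]
  have hcard : ∀ x, (Finset.univ.filter (r x)).card = (Finset.univ.filter (r o)).card := by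
    intro x
    symm
    refine Finset.card_bijective (fun y => x.out • y) (MulAction.bijective _) fun y => ?_
    induction y using QuotientGroup.induction_on with
    | H g =>
      simp only [Finset.mem_filter, Finset.mem_univ, true_and, ho, MulAction.Quotient.smul_mk, smul_eq_mul]
      simp only [r, out_mk_right, inv_mul_cancel_left]
  obtain ⟨g, hg, g', hg', hgg⟩ := exists_thick hs
  have hn : ∀ g ∈ C P s, g ∉ P.B := fun g h1 h2 => SW_ne_one hs (eq_of_mem_C h1 (mem_C_one.2 h2))
  have h3 : 3 ≤ (Finset.univ.filter (r o)).card := by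
    rw [Nat.succ_le_iff, Finset.two_lt_card_iff]
    refine ⟨o, QuotientGroup.mk g, QuotientGroup.mk (g * g'), ?_, ?_, ?_, ?_, ?_, ?_⟩
    · simpa using (ho 1).2 (Or.inr (mem_C_one.2 P.B.one_mem))
    · simpa using (ho g).2 (Or.inl hg)
    · simpa only [Finset.mem_filter, Finset.mem_univ, true_and] using (ho _).2 (hmul _ _ (Or.inl hg) (Or.inl hg'))
    · rw [Ne, QuotientGroup.eq]; simpa using hn g hg
    · rw [Ne, QuotientGroup.eq]; simpa using hgg
    · rw [Ne, QuotientGroup.eq]; simpa using hn g' hg'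
  obtain ⟨q, hq⟩ : ∃ q, (Finset.univ.filter (r o)).card = q + 1 := ⟨_, (Nat.succ_pred_eq_of_pos (by omega)).symm⟩
  have h4 : (T s + 1) * (T s + 1) = ((q : ℂ) + 1) • (T s + 1) := by
    ext x z
    rw [Matrix.mul_apply, Matrix.smul_apply]
    simp only [hE]
    by_cases h : r x z
    · rw [if_pos h, smul_eq_mul, mul_one]
      have : ∀ y, ((if r x y then 1 else 0) * if r y z then 1 else 0 : ℂ) = if r x y then 1 else 0 := by
        intro y
        by_cases h' : r x y
        · rw [if_pos h', if_pos (htrans _ _ _ (hsymm _ _ h') h), mul_one]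
        · simp [h']
      simp only [this]
      rw [Finset.sum_boole, hcard, hq]
      push_cast; rfl
    · rw [if_neg h, smul_zero]
      refine Finset.sum_eq_zero fun y _ => ?_
      simp only [mul_ite, mul_one, mul_zero, ite_eq_right_iff, one_ne_zero, imp_false]
      exact fun h1 h2 => h (htrans _ _ _ h2 h1)
  have h5 : (T s + 1) *ᵥ (fun _ => 1) = ((q : ℂ) + 1) • fun _ => 1 := by
    ext x
    simp only [Matrix.mulVec, dotProduct, hE, mul_one]
    rw [Finset.sum_boole, hcard, hq]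
    simp
  refine ⟨q, by omega, ?_, ?_⟩
  · rw [add_mul, mul_add, mul_add, mul_one, one_mul, one_mul] at h4
    rw [← sub_eq_zero] at h4 ⊢
    rw [← h4]; module
  · rw [Matrix.add_mulVec, Matrix.one_mulVec, add_smul, one_smul] at h5
    exact add_right_cancel h5

theorem alt_mulVec {n : Type*} [Fintype n] [DecidableEq n] {a b : Matrix n n ℂ} {p q : ℂ} {v : n → ℂ}
    (ha : a *ᵥ v = p • v) (hb : b *ᵥ v = q • v) (j : ℕ) : alt a b j *ᵥ v = alt p q j • v := by
  induction j generalizing a b p q with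
  | zero => simp [alt_zero]
  | succ j ih => rw [alt_succ, alt_succ, ← Matrix.mulVec_mulVec, ih hb ha, Matrix.mulVec_smul, ha, smul_smul, mul_comm]

theorem order_cases {s t : W P} (hs : s ∈ SW P) (ht : t ∈ SW P) (hst : s ≠ t) (hm0 : 0 < orderOf (s * t)) :
    orderOf (s * t) = 2 ∨ orderOf (s * t) = 3 ∨ orderOf (s * t) = 4 ∨ orderOf (s * t) = 6 ∨ orderOf (s * t) = 8 := by
  have s2 := SW_mul_self hs
  have t2 := SW_mul_self ht
  have s1 := SW_ne_one hs
  have t1 := SW_ne_one ht
  have hsw := orderOf_swap s2 t2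
  have hst1 : s * t ≠ 1 := fun h => hst (by rw [← mul_left_inj t, h, t2])
  have hm1 : orderOf (s * t) ≠ 1 := by simpa using hst1
  by_cases hm2 : orderOf (s * t) = 2
  · exact Or.inl hm2
  obtain ⟨p, hp, ha, ha1⟩ := T_sq hs
  obtain ⟨q, hq, hb, hb1⟩ := T_sq ht
  have h0 : ∀ w : W P, w ≠ 1 → (T w).trace = 0 := fun w hw => by
    simpa [T_one] using trace_T_mul (w := w) (w' := 1) (by simpa using hw)
  have hab0 : (T s * T t).trace = 0 := trace_T_mul (by rw [swap_eq_inv s2 t2]; simpa only [Ne, inv_eq_one] using hst1)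
  have hbr : alt (T s) (T t) (orderOf (s * t)) = alt (T t) (T s) (orderOf (s * t)) := by
    rw [← T_alt hs ht _ le_rfl, ← T_alt ht hs _ hsw.ge, (alt_eq_iff s2 t2 _).2 (pow_orderOf_eq_one _)]
  have : Nonempty (G ⧸ P.B) := ⟨QuotientGroup.mk 1⟩
  rcases Nat.even_or_odd' (orderOf (s * t)) with ⟨k, hk | hk⟩
  · have e1 : ∀ j ≤ k, (T s * T t) ^ j = T ((s * t) ^ j) := fun j hj => by
      rw [← alt_even, ← alt_even, T_alt hs ht _ (by omega)]
    have e2 : ∀ j ≤ k, (T t * T s) ^ j = T ((s * t)⁻¹ ^ j) := fun j hj => by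
      rw [← swap_eq_inv s2 t2, ← alt_even, ← alt_even, T_alt ht hs _ (by omega)]
    have e3 : T s * T t = T (s * t) := by simpa using e1 1 (by omega)
    have e4 : T t * T s = T (s * t)⁻¹ := by simpa only [pow_one] using e2 1 (by omega)
    have hne : ∀ j, 0 < j → j ≤ k → (s * t) ^ j ≠ 1 := fun j h1 h2 => pow_ne_one_of_lt_orderOf (by omega) (by omega)
    have := even_case hp hq ha hb (h0 s s1) (h0 t t1) hab0 (k := k) (by omega)
      (by rw [← alt_even, ← alt_even, ← hk, hbr])
      (by rw [e3]; exact trace_T_mul (by rw [← sq]; exact hne 2 (by omega) (by omega))) (by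
        intro j h1 h2
        obtain ⟨i, rfl⟩ : ∃ i, j = i + 1 := ⟨j - 1, by omega⟩
        rw [e1 _ h2.le, e2 _ h2.le, e3, e4, sub_mul, mul_sub, mul_sub, Matrix.trace_sub, Matrix.trace_sub,
          Matrix.trace_sub, trace_T_mul, trace_T_mul, trace_T_mul, trace_T_mul]
        · simp
        · rw [← pow_succ', inv_pow, Ne, inv_eq_one]; exact hne _ (by omega) (by omega)
        · rw [pow_succ', mul_inv_cancel_left, inv_pow, Ne, inv_eq_one]; exact hne _ (by omega) (by omega)
        · rw [pow_succ', inv_mul_cancel_left]; exact hne _ (by omega) (by omega)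
        · rw [← pow_succ']; exact hne _ (by omega) (by omega))
    omega
  · have hpq : q = p := by
      have h1 := congrArg (fun A => (A *ᵥ fun _ => (1 : ℂ)) (Classical.arbitrary _)) hbr
      simp only [alt_mulVec ha1 hb1, alt_mulVec hb1 ha1] at h1
      simp only [hk, alt_odd, Pi.smul_apply, smul_eq_mul, mul_one, mul_comm (q : ℂ) p] at h1
      have h2 : ((p : ℂ) * q) ^ k ≠ 0 := by
        refine pow_ne_zero _ (mul_ne_zero ?_ ?_) <;> norm_cast <;> omega
      exact_mod_cast (mul_right_cancel₀ h2 h1).symm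
    have := odd_case hp ha hb (h0 s s1) (h0 t t1) hab0 (m := orderOf (s * t)) (by omega) hpq hbr (by
      intro j h1 h2
      obtain ⟨i, rfl⟩ : ∃ i, j = i + 1 := ⟨j - 1, by omega⟩
      rw [← T_alt hs ht _ h2.le, ← T_alt ht hs _ (by omega), sub_mul, mul_sub, mul_sub, Matrix.trace_sub,
        Matrix.trace_sub, Matrix.trace_sub, trace_T_mul, trace_T_mul, trace_T_mul, trace_T_mul]
      · simp
      · rw [alt_succ, ← mul_assoc, t2, one_mul]; exact alt_ne_one s2 t2 s1 t1 (by omega) (by omega)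
      · rw [← alt_succ]; exact alt_ne_one s2 t2 s1 t1 (by omega) (by omega)
      · rw [← alt_succ]; exact alt_ne_one t2 s2 t1 s1 (by omega) (by omega)
      · rw [alt_succ, ← mul_assoc, s2, one_mul]; exact alt_ne_one t2 s2 t1 s1 (by omega) (by omega))
    omega

end Cfsg.Agent.H6.FH
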