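import Cfsg.Agent.H6.SUPair
import Cfsg.Agent.H9.Arith

/-!
`SU₄`: non-degenerate points and pairs of totally singular lines.
-/

set_option autoImplicit false
set_option linter.unusedSectionVars false
set_option linter.unusedVariables false

namespace Cfsg.Agent.H6.SU

open Module Cfsg.Agent.Form Cfsg.Agent.H7
open scoped MatrixGroups

section abstract

variable {F : Type*} [Field F] {σ : F →+* F} {hσ : ∀ a, σ (σ a) = a}
  {V : Type*} [AddCommGroup V] [Module F V] {S : PQ (FP.unit σ hσ) V} {M : Subgroup (V ≃ₗ[F] V)}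
  [FiniteDimensional F V] [Finite F]

theorem nondeg_max4 (hne : ∃ a, σ a ≠ a) (hS : S.Nondeg) (h5 : 4 ≤ finrank F V) {W : Submodule F V}
    (hW : S.NondegOn W) (hdim : 2 * finrank F W < finrank F V) (hM : M ≤ sisom S)
    (hH : ∀ g ∈ sisom S, (∀ w ∈ W, g w ∈ W) → g ∈ M) :
    (∀ g ∈ M, ∀ w ∈ W, g w ∈ W) ∨ sisom S ≤ M := by
  have hU := hW.perp hS
  have hd := hS.finrank_perp W
  have hE : EF S M (S.perp W) := fun d hd w hw q hq =>
    ⟨hq, hH _ (eich_mem_sisom S _ _ _ hq) fun x hx => by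
      rw [eich_ap, S.mem_perp'.1 hd x hx, S.mem_perp'.1 hw x hx]; simpa using hx⟩
  obtain ⟨Y, h1, h2, h3⟩ := core hne hU (by omega) hE
  have h4 : S.perp Y ≤ W := by rw [← hS.perp_perp W]; exact S.perp_anti h1
  by_cases h : ∃ r ∈ Y, r ∈ W ∧ r ≠ 0
  · right
    obtain ⟨r, hrY, hrW, hr0⟩ := h
    refine Full.sisom_le hne hS (by omega) (h2.mono ?_)
    have key : ∀ z ∈ W, S.B r z ≠ 0 → z ∈ Y := by
      intro z hz hrz
      obtain ⟨c, hc0, hc⟩ := exists_tauOK hne S z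
      obtain ⟨z', hz', hzz⟩ := exists_B_self_ne_unit hne S hU (by
        intro h; rw [h, finrank_bot] at hd; omega)
      obtain ⟨k, hk, c', e⟩ := exists_fix_det hS (S.tau_mem z c hc) hzz
      have k1 : ∀ x ∈ W, k x = x + (c * S.B x z) • z := fun x hx => by
        rw [e, S.mem_perp'.1 hz' x hx]; simp
      have k2 : ∀ x ∈ W, k x ∈ W := fun x hx => by
        rw [k1 x hx]; exact W.add_mem hx (W.smul_mem _ hz)
      have hkM := hH k hk k2
      obtain ⟨u, hu, hu0, huu⟩ := exists_vec_norm hne hU (by omega) (c := -S.B r r)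
        (by rw [map_neg, Bs])
      have a1 := S.mem_perp.1 hu r hrW
      have a2 := S.B_comm_zero a1
      have c1 := (h2 (u + r) (Y.add_mem (h1 hu) hrY) (by simp [a1, a2, huu])).map hkM hk.1
      rcases h3 _ c1 with h5 | h5
      · have m : u + (c' * S.B u z') • z' ∈ S.perp W := add_mem hu (Submodule.smul_mem _ _ hz')
        have k3 : k u ∈ Y := by
          rw [e, S.tau_apply_of_perp _ _ _ (S.mem_perp.1 m z hz)]; exact h1 m
        rw [map_add, k1 r hrW] at h5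
        have := Y.smul_mem (c * S.B r z)⁻¹ (Y.sub_mem (Y.sub_mem h5 k3) hrY)
        rwa [add_sub_cancel_left, add_sub_cancel_left, smul_smul,
          inv_mul_cancel₀ (mul_ne_zero hc0 hrz), one_smul] at this
      · exfalso
        have := (stab_iff_of_le k W k2 _).2 (h4 h5)
        exact hu0 (hW u (by simpa using W.sub_mem this hrW) (S.mem_perp.1 hu))
    rw [← hW.isCompl.sup_eq_top]
    refine sup_le (fun z hz => ?_) h1
    by_cases hrz : S.B r z = 0
    · obtain ⟨z0, hz0, h0⟩ : ∃ z0 ∈ W, S.B r z0 ≠ 0 := by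
        by_contra hc; push Not at hc; exact hr0 (hW r hrW hc)
      simpa using Y.sub_mem (key _ (W.add_mem hz hz0) (by simpa [hrz] using h0)) (key _ hz0 h0)
    · exact key z hz hrz
  left
  push Not at h
  have hY : Y ≤ S.perp W := by
    intro y hy
    have : y ∈ W ⊔ S.perp W := by rw [hW.isCompl.sup_eq_top]; trivial
    obtain ⟨w, hw, u, hu, rfl⟩ := Submodule.mem_sup.1 this
    rw [h w (by simpa using Y.sub_mem hy (h1 hu)) hw, zero_add]; exact hu
  intro g hg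
  have hgi := (hM hg).1
  have f1 : finrank F ((S.perp W).map (g : V →ₗ[F] V)) = finrank F (S.perp W) :=
    LinearEquiv.finrank_map_eq g _
  rcases ((h2.mono h1).map hg hgi).le_or hne h3 ((PQ.nondegOn_map_iff hgi _).2 hU) (by omega)
    with h5 | h5
  · have e := Submodule.eq_of_le_of_finrank_eq (h5.trans hY) f1
    rw [PQ.map_perp hgi] at e
    exact fun w hw => hS.perp_inj e ▸ Submodule.mem_map_of_mem hw
  · have := Submodule.finrank_mono (h5.trans h4)
    omega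

/-- A pair of complementary totally singular lines whose stabiliser lies in `M`. -/
structure PR2 (S : PQ (FP.unit σ hσ) V) (M : Subgroup (V ≃ₗ[F] V)) (A B : Submodule F V) : Prop where
  tsA : ∀ x ∈ A, ∀ y ∈ A, S.B x y = 0
  tsB : ∀ x ∈ B, ∀ y ∈ B, S.B x y = 0
  compl : IsCompl A B
  dim : finrank F A = finrank F B
  two : finrank F A = 2
  mem : ∀ g ∈ sisom S, ((∀ x ∈ A, g x ∈ A) ∨ (∀ x ∈ A, g x ∈ B)) →
    ((∀ x ∈ B, g x ∈ A) ∨ (∀ x ∈ B, g x ∈ B)) → g ∈ M

variable {A B : Submodule F V}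

theorem PR2.symm (h : PR2 S M A B) : PR2 S M B A :=
  ⟨h.tsB, h.tsA, h.compl.symm, h.dim.symm, h.dim ▸ h.two,
    fun g hg h1 h2 => h.mem g hg h2.symm h1.symm⟩

theorem PR2.dec (h : PR2 S M A B) (v : V) : ∃ x ∈ A, ∃ y ∈ B, v = x + y := by
  have : v ∈ A ⊔ B := by rw [h.compl.sup_eq_top]; trivial
  obtain ⟨x, hx, y, hy, e⟩ := Submodule.mem_sup.1 this
  exact ⟨x, hx, y, hy, e.symm⟩

theorem PR2.eq_zero (h : PR2 S M A B) {x : V} (h1 : x ∈ A) (h2 : x ∈ B) : x = 0 :=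
  (Submodule.disjoint_def.1 h.compl.disjoint) x h1 h2

theorem PR2.perp_eq (hS : S.Nondeg) (h : PR2 S M A B) : S.perp A = A := by
  symm
  apply Submodule.eq_of_le_of_finrank_eq h.tsA
  have h1 := hS.finrank_perp A
  have h2 := Submodule.finrank_add_eq_of_isCompl h.compl
  have := h.dim
  omega

theorem PR2.he (h : PR2 S M A B) {a b : V} (ha : a ∈ A) (hb : b ∈ B) (hab : S.B b a = 0) :
    HE S M a b 0 := by
  have hq : S.EichOK a b 0 := eichOK_iff.2 ⟨h.tsA a ha a ha, hab, by simp [h.tsB b hb b hb]⟩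
  refine ⟨hq, h.mem _ (eich_mem_sisom S _ _ _ hq) (Or.inl fun x hx => ?_) (Or.inr fun x hx => ?_)⟩
  · rw [eich_ap, h.tsA x hx a ha]
    simpa using A.add_mem hx (A.smul_mem _ ha)
  · rw [eich_ap, h.tsB x hx b hb]
    simpa using B.sub_mem hx (B.smul_mem _ hb)

theorem PR2.exists_dual (hS : S.Nondeg) (h : PR2 S M A B) {X : Submodule F V} (hX : X ≤ A) {x : V}
    (hx : x ∈ A) (hxX : x ∉ X) (c : F) : ∃ b ∈ B, b ∈ S.perp X ∧ S.B x b = c := by
  obtain ⟨z, hz, e⟩ := hS.exists_perp_eq hxX c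
  obtain ⟨p, hp, b, hb, rfl⟩ := h.dec z
  refine ⟨b, hb, fun y hy => ?_, by simpa [h.tsA x hx p hp] using e⟩
  simpa [h.tsA p hp y (hX hy)] using hz y hy

theorem PR2.trans (hS : S.Nondeg) (h : PR2 S M A B) {d d' : V} (hd : d ∈ A) (hd' : d' ∈ A)
    (h0 : d ≠ 0) (h0' : d' ≠ 0) : ∃ g ∈ M, g ∈ S.isom ∧ g d = d' := by
  have key : ∀ d ∈ A, ∀ d' ∈ A, d ∉ F ∙ (d' - d) → ∃ g ∈ M, g ∈ S.isom ∧ g d = d' := by
    intro d hd d' hd' hm
    obtain ⟨b, hb, h1, h2⟩ := h.exists_dual hS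
      (by rw [Submodule.span_singleton_le_iff_mem]; exact A.sub_mem hd' hd) hd hm 1
    obtain ⟨g, hg, hg', e⟩ := (h.he (A.sub_mem hd' hd) hb (S.mem_perp_span_singleton.1 h1)).exists
    exact ⟨g, hg, hg', by rw [e, h2, h.tsA d hd _ (A.sub_mem hd' hd)]; simp⟩
  have ind : ∀ x y : V, x ∉ F ∙ y → y ≠ 0 → x ∉ F ∙ (y - x) ∧ y ∉ F ∙ (x - y) := by
    intro x y hxy hy
    constructor
    · intro hm
      obtain ⟨c, hc⟩ := Submodule.mem_span_singleton.1 hm
      by_cases h1 : 1 + c = 0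
      · have : c = -1 := by linear_combination h1
        rw [this] at hc
        exact hy (by simpa using hc)
      · refine hxy (Submodule.mem_span_singleton.2 ⟨(1 + c)⁻¹ * c, ?_⟩)
        have : c • y = (1 + c) • x := by rw [add_smul, one_smul]; nth_rewrite 1 [← hc]; module
        rw [mul_smul, this, smul_smul, inv_mul_cancel₀ h1, one_smul]
    · intro hm
      obtain ⟨c, hc⟩ := Submodule.mem_span_singleton.1 hm
      have hc0 : c ≠ 0 := by rintro rfl; exact hy (by simpa using hc.symm)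
      refine hxy (Submodule.mem_span_singleton.2 ⟨c⁻¹ * (1 + c), ?_⟩)
      have : (1 + c) • y = c • x := by rw [add_smul, one_smul]; nth_rewrite 1 [← hc]; module
      rw [mul_smul, this, smul_smul, inv_mul_cancel₀ hc0, one_smul]
  have hlt : ∀ x : V, ∃ z ∈ A, z ∉ F ∙ x := fun x => exists_mem_notMem_of_finrank_lt (by
    have h2 := finrank_span_singleton_le (F := F) x
    have := h.two
    omega)
  obtain ⟨z, hz, hz1, hz2⟩ := exists_not_not A.toAddSubgroup (F ∙ d).toAddSubgroup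
    (F ∙ d').toAddSubgroup (hlt d) (hlt d')
  obtain ⟨g, hg, hg', e⟩ := key d hd z hz (ind z d hz1 h0).2
  obtain ⟨k, hk, hk', e'⟩ := key z hz d' hd' (ind z d' hz2 h0').1
  exact ⟨k * g, M.mul_mem hk hg, S.isom.mul_mem hk' hg', by rw [LinearEquiv.mul_apply, e, e']⟩

theorem PR2.exists_swap (hne : ∃ a, σ a ≠ a) (hS : S.Nondeg) (h : PR2 S M A B) :
    ∃ g ∈ M, g ∈ S.isom ∧ ∀ x ∈ A, g x ∈ B := by
  classical
  let e := Module.finBasis F A
  let p : V →ₗ[F] A := A.projectionOnto B h.compl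
  choose f hf using fun i => hS.exists_lin ((e.coord i).comp p)
  have f1 : ∀ i x, S.B x (f i) = e.repr (p x) i := fun i x => LinearMap.congr_fun (hf i) x
  have f2 : ∀ i, f i ∈ B := fun i => by
    rw [← h.symm.perp_eq hS, PQ.mem_perp']
    intro y hy
    rw [f1, Submodule.projectionOnto_apply_right _ ⟨y, hy⟩]; simp
  have f3 : ∀ i (x : A), S.B x (f i) = e.repr x i := fun i x => by
    rw [f1, Submodule.projectionOnto_apply_left]
  have f4 : ∀ i j, S.B (e i) (f j) = if i = j then 1 else 0 := fun i j => by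
    rw [f3, e.repr_self, Finsupp.single_apply]
  have f5 : ∀ i j, S.B (f j) (e i) = if i = j then 1 else 0 := fun i j => by
    rw [← Bs, f4]; split_ifs <;> simp
  have a1 : ∀ i j, S.B (e i : V) (e j) = 0 := fun i j => h.tsA _ (e i).2 _ (e j).2
  have a2 : ∀ i j, S.B (f i) (f j) = 0 := fun i j => h.tsB _ (f2 i) _ (f2 j)
  have cs : ∀ v, S.B v v = 0 → Ctr S (sisom S) v := fun v hv =>
    ⟨sing hv, fun c hc => tau_mem_sisom S (sing hv) c hc⟩
  obtain ⟨c, hc0, hc⟩ := exists_tr_zero hne hσ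
  obtain ⟨g, hg, eg⟩ := exists_prod (sisom S) (fun i => (c • S.lin (e i) - S.lin (f i)).smulRight (e i : V)
      - (c⁻¹ • S.lin (f i) + S.lin (e i)).smulRight (f i)) Finset.univ (fun i => by
      obtain ⟨n, hn, -, en⟩ := exists_n (cs _ (a1 i i)) (cs _ (a2 i i)) (by simp [f4]) hc0
        (by linear_combination hc)
      exact ⟨n, hn, fun x => by rw [en]; simp [add_sub_assoc]⟩)
    (fun i j hij x => by simp [a1, a2, f4, f5, hij, hij.symm])
  simp only [LinearMap.sub_apply, LinearMap.smulRight_apply, LinearMap.add_apply,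
    LinearMap.smul_apply, PQ.lin_apply, smul_eq_mul] at eg
  have g1 : ∀ x ∈ A, g x ∈ B := by
    intro x hx
    have e1 : x = ∑ i, S.B x (f i) • (e i : V) := by
      have := congrArg Subtype.val (e.sum_repr ⟨x, hx⟩)
      simp only [Submodule.coe_sum, Submodule.coe_smul] at this
      rw [← this]
      exact Finset.sum_congr rfl fun i _ => by rw [this, f3 i ⟨x, hx⟩]
    have : g x = ∑ i, (-(c⁻¹ * S.B x (f i))) • f i := by
      rw [eg]
      nth_rewrite 1 [e1]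
      rw [← Finset.sum_add_distrib]
      refine Finset.sum_congr rfl fun i _ => ?_
      rw [h.tsA x hx _ (e i).2]; module
    rw [this]
    exact B.sum_mem fun i _ => B.smul_mem _ (f2 i)
  have g2 : ∀ y ∈ B, g y ∈ A := by
    intro y hy
    have e1 : y = ∑ i, S.B y (e i) • f i := by
      rw [← sub_eq_zero]
      refine h.eq_zero ?_ (B.sub_mem hy (B.sum_mem fun i _ => B.smul_mem _ (f2 i)))
      refine (h.perp_eq hS).le ?_
      intro x hx
      have := congrArg Subtype.val (e.sum_repr ⟨x, hx⟩)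
      simp only [Submodule.coe_sum, Submodule.coe_smul] at this
      rw [← this, S.B_sum_right]
      refine Finset.sum_eq_zero fun i _ => ?_
      simp [S.B_sum_left, f5]
    have : g y = ∑ i, (c * S.B y (e i)) • (e i : V) := by
      rw [eg]
      nth_rewrite 1 [e1]
      rw [← Finset.sum_add_distrib]
      refine Finset.sum_congr rfl fun i _ => ?_
      rw [h.tsB y hy _ (f2 i)]; module
    rw [this]
    exact A.sum_mem fun i _ => A.smul_mem _ (e i).2
  exact ⟨g, h.mem g hg (Or.inr g1) (Or.inl g2), hg.1, g1⟩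

theorem PR2.full (hne : ∃ a, σ a ≠ a) (hS : S.Nondeg) (h : PR2 S M A B) {d : V} (hd : d ∈ A)
    (h0 : d ≠ 0) (hc : Ctr S M d) : Full S M ⊤ := by
  have key : ∀ {A B}, PR2 S M A B → ∀ d ∈ A, d ≠ 0 → Ctr S M d → ∀ x ∈ A, Ctr S M x := by
    intro A B h d hd h0 hc x hx
    by_cases hx0 : x = 0
    · rw [hx0]; exact ctr_zero
    obtain ⟨g, hg, hg', e⟩ := h.trans hS hd hx h0 hx0
    rw [← e]; exact hc.map hg hg'
  have hA := key h d hd h0 hc
  obtain ⟨g, hg, hg', g1⟩ := h.exists_swap hne hS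
  have hB := key h.symm (g d) (g1 d hd) (by simpa using h0) (hc.map hg hg')
  have k : ∀ x ∈ A, ∀ y ∈ B, S.B x y ≠ 0 → S.B (x + y) (x + y) = 0 → Ctr S M (x + y) :=
    fun x hx y hy h1 h2 => Ctr.add1 (hA x hx) (hB y hy) h1 h2
  intro v _ hv
  obtain ⟨x, hx, y, hy, rfl⟩ := h.dec v
  by_cases hxy : S.B x y = 0
  swap
  · exact k x hx y hy hxy hv
  by_cases hy0 : y = 0
  · rw [hy0, add_zero]; exact hA x hx
  obtain ⟨l, hl0, hl⟩ := exists_tr_zero hne hσ
  obtain ⟨x', hx', -, e⟩ := h.symm.exists_dual hS (X := ⊥) bot_le hy (by simpa using hy0) l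
  have e' : S.B x' y = σ l := by rw [← e, Bs]
  have c1 := k (x - x') (A.sub_mem hx hx') y hy (by simpa [hxy, e'] using hl0) (by
    simp only [PQ.B_add_left, PQ.B_add_right, h.tsA _ (A.sub_mem hx hx') _ (A.sub_mem hx hx'),
      h.tsB y hy y hy, PQ.B_sub_left (y := x') (z := y), PQ.B_sub_right (x := y), hxy, e, e',
      S.B_comm_zero hxy]
    linear_combination -hl)
  have c2 := Ctr.add1 c1 (hA x' hx') (by
    simpa [h.tsA x hx x' hx', h.tsA x' hx' x' hx', e] using hl0) (by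
    rwa [show x - x' + y + x' = x + y by abel])
  rwa [show x - x' + y + x' = x + y by abel] at c2

/-- `M` contains the given element of the unipotent radical of the line spanned by `u, w`. -/
def RD (S : PQ (FP.unit σ hσ) V) (M : Subgroup (V ≃ₗ[F] V)) (u w : V) (α β γ δ : F) : Prop :=
  ∃ g ∈ M, ∀ v, g v = v + S.B v u • (α • u + γ • w) + S.B v w • (δ • u + β • w)

theorem RD.swap {u w : V} {α β γ δ : F} (h : RD S M u w α β γ δ) : RD S M w u β α δ γ := by
  obtain ⟨g, hg, e⟩ := h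
  exact ⟨g, hg, fun v => by rw [e]; module⟩

theorem RD.conj {u w : V} {α β γ δ : F} (h : RD S M u w α β γ δ) {g : V ≃ₗ[F] V} (hg : g ∈ M)
    (hg' : g ∈ S.isom) : RD S M (g u) (g w) α β γ δ := by
  obtain ⟨k, hk, e⟩ := h
  refine ⟨g * k * g⁻¹, M.mul_mem (M.mul_mem hg hk) (M.inv_mem hg), fun x => ?_⟩
  have : ∀ d, S.B x (g d) = S.B (g.symm x) d := fun d => by rw [← PQ.B_isom hg' (g.symm x) d]; simp
  simp [LinearEquiv.mul_apply, e, this]

theorem RD.sub {u w : V} {α β γ δ α' β' γ' δ' : F} (h : RD S M u w α β γ δ)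
    (h' : RD S M u w α' β' γ' δ') (uu : S.B u u = 0) (wu : S.B w u = 0) (ww : S.B w w = 0) :
    RD S M u w (α - α') (β - β') (γ - γ') (δ - δ') := by
  obtain ⟨g, hg, e⟩ := h
  obtain ⟨k, hk, e'⟩ := h'
  have uw := S.B_comm_zero wu
  refine ⟨k⁻¹ * g, M.mul_mem (M.inv_mem hk) hg, fun x => ?_⟩
  apply k.injective
  rw [LinearEquiv.mul_apply, e' (x + _ + _)]
  simp only [LinearEquiv.coe_inv, LinearEquiv.apply_symm_apply, e, PQ.B_add_left, PQ.B_smul_left, uu,
    wu, uw, ww]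
  module

theorem HE.rd {u w : V} {x y z t γ : F} (h : HE S M (x • u + y • w) (γ • (z • u + t • w)) 0) :
    RD S M u w (σ γ * σ z * x - γ * σ x * z) (σ γ * σ t * y - γ * σ y * t)
      (σ γ * σ z * y - γ * σ x * t) (σ γ * σ t * x - γ * σ y * z) := by
  obtain ⟨g, hg, -, e⟩ := h.exists
  refine ⟨g, hg, fun v => ?_⟩
  rw [e]
  simp only [PQ.B_add_right, Bsr]
  module

/-- A totally singular line with two distinguished points. -/
structure TL (S : PQ (FP.unit σ hσ) V) (M : Subgroup (V ≃ₗ[F] V)) (u w : V) : Prop where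
  uu : S.B u u = 0
  wu : S.B w u = 0
  ww : S.B w w = 0
  ind : ∀ x y : F, x • u + y • w = 0 → x = 0 ∧ y = 0
  he : ∀ γ : F, HE S M u (γ • w) 0
  ng : ∀ α β γ δ, RD S M u w α β γ δ → α = 0 ∧ β = 0
  perp : ∀ v, S.B v u = 0 → S.B v w = 0 → ∃ x y : F, v = x • u + y • w

theorem TL.symm {u w : V} (h : TL S M u w) : TL S M w u :=
  ⟨h.ww, S.B_comm_zero h.wu, h.uu, fun x y e => (h.ind y x (by rw [add_comm, e])).symm,
    he_swap_all h.he, fun α β γ δ e => (h.ng _ _ _ _ e.swap).symm, fun v h1 h2 => by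
      obtain ⟨x, y, e⟩ := h.perp v h2 h1
      exact ⟨y, x, by rw [e, add_comm]⟩⟩

theorem TL.conj {u w : V} (h : TL S M u w) {g : V ≃ₗ[F] V} (hg : g ∈ M) (hg' : g ∈ S.isom) :
    TL S M (g u) (g w) := by
  refine ⟨by rw [PQ.B_isom hg', h.uu], by rw [PQ.B_isom hg', h.wu], by rw [PQ.B_isom hg', h.ww],
    fun x y e => h.ind x y (g.injective (by simpa using e)),
    fun γ => by simpa using (h.he γ).conj hg hg', fun α β γ δ e => h.ng α β γ δ ?_, fun v h1 h2 => ?_⟩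
  · simpa using e.conj (M.inv_mem hg) (inv_mem hg')
  · obtain ⟨x, y, e⟩ := h.perp (g.symm v) (by rw [← PQ.B_isom hg']; simpa using h1)
      (by rw [← PQ.B_isom hg']; simpa using h2)
    exact ⟨x, y, by simpa using congrArg g e⟩

theorem TL.key (hne : ∃ a, σ a ≠ a) {u w : V} (h : TL S M u w) {x y z t : F}
    (he : ∀ γ : F, HE S M (x • u + y • w) (γ • (z • u + t • w)) 0) (h0 : z • u + t • w ≠ 0) :
    x = 0 ∨ y = 0 := by
  have aux : ∀ p r : F, (∀ γ : F, σ γ * σ r * p - γ * σ p * r = 0) → p = 0 ∨ r = 0 := by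
    intro p r hp
    by_contra hc
    push Not at hc
    obtain ⟨θ, hθ⟩ := hne
    have h1 := σ_ne (σ := σ) hc.1
    have h2 := σ_ne (σ := σ) hc.2
    have := hp (θ / (σ p * r))
    rw [map_div₀, map_mul, hσ] at this
    have h3 := hc.1
    have h4 := hc.2
    field_simp at this
    exact hθ (by linear_combination this)
  rcases aux x z fun γ => (h.ng _ _ _ _ (he γ).rd).1 with h1 | h1
  · exact Or.inl h1
  rcases aux y t fun γ => (h.ng _ _ _ _ (he γ).rd).2 with h2 | h2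
  · exact Or.inr h2
  exact absurd (by simp [h1, h2]) h0

theorem TL.no_tr (hne : ∃ a, σ a ≠ a) {u w : V} (h : TL S M u w) {x y p r c : F} (hp : p ≠ 0)
    (h0 : x ≠ 0 ∨ y ≠ 0) (h1 : x * p + y * r = 0) (hc : c ≠ 0) {k : V ≃ₗ[F] V} (hk : k ∈ M)
    (hk' : k ∈ S.isom) (e1 : k u = u + (c * p) • (x • u + y • w))
    (e2 : k w = w + (c * r) • (x • u + y • w)) : 1 + c * p * x = 0 := by
  have hy : y ≠ 0 := by
    rintro rfl
    simp [hp] at h0 h1
    exact h0 h1
  have h2 := (h.conj hk hk').he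
  have h3 : k w ≠ 0 := fun h4 => one_ne_zero (h.ind 0 1 (by simpa using h4)).2
  rw [show k u = (1 + c * p * x) • u + (c * p * y) • w by rw [e1]; module] at h2
  rw [show k w = (c * r * x) • u + (1 + c * r * y) • w by rw [e2]; module] at h2 h3
  exact (h.key hne h2 h3).resolve_right (mul_ne_zero (mul_ne_zero hc hp) hy)

theorem exists_iso2 (hne : ∃ a, σ a ≠ a) (hσ : ∀ a, σ (σ a) = a) {α β γ : F} (hα : α + σ α = 0)
    (hβ : β + σ β = 0) : ∃ x y : F, (x ≠ 0 ∨ y ≠ 0) ∧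
      x * σ x * α + x * σ y * γ - y * σ x * σ γ + y * σ y * β = 0 := by
  by_cases h0 : β = 0
  · exact ⟨0, 1, Or.inr one_ne_zero, by simp [h0]⟩
  have e1 : σ α = -α := by linear_combination hα
  have e2 : σ β = -β := by linear_combination hβ
  obtain ⟨s, hs⟩ := exists_norm hne hσ (c := γ / β * σ (γ / β) - α / β) (by
    rw [map_sub, map_mul, hσ, map_div₀ σ α, e1, e2, neg_div_neg_eq, mul_comm])
  refine ⟨1, s - γ / β, Or.inl one_ne_zero, ?_⟩
  rw [map_div₀, e2] at hs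
  rw [map_sub, map_div₀, e2, map_one]
  field_simp at hs ⊢
  linear_combination hs

theorem PR2.exists_perp (h : PR2 S M A B) (a : V) : ∃ b ∈ B, b ≠ 0 ∧ S.B b a = 0 := by
  have h1 := finrank_le_finrank_inf_ker B (S.lin a)
  obtain ⟨b, hb, hb0⟩ := exists_mem_notMem_of_finrank_lt (U := B ⊓ LinearMap.ker (S.lin a)) (W := ⊥) (by
    have := h.dim
    have := h.two
    rw [finrank_bot]; omega)
  exact ⟨b, hb.1, by simpa using hb0, hb.2⟩

theorem PR2.meet (hne : ∃ a, σ a ≠ a) (ht : ∃ t : F, σ t = t ∧ t ≠ 0 ∧ t ^ 2 ≠ 1) (h : PR2 S M A B)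
    {u w : V} (hl : TL S M u w) : ∃ x y : F, (x ≠ 0 ∨ y ≠ 0) ∧ x • u + y • w ∈ B := by
  by_contra hc
  push Not at hc
  obtain ⟨u1, hu1, u2, hu2, eu⟩ := h.dec u
  obtain ⟨w1, hw1, w2, hw2, ew⟩ := h.dec w
  have uu := hl.uu
  have wu := hl.wu
  have ww := hl.ww
  have uw := S.B_comm_zero wu
  have k1 := uu
  have k2 := wu
  have k3 := ww
  rw [eu] at k1 k2
  rw [ew] at k2 k3
  simp only [PQ.B_add_left, PQ.B_add_right, h.tsA _ hu1 _ hu1, h.tsA _ hw1 _ hu1, h.tsA _ hw1 _ hw1,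
    h.tsB _ hu2 _ hu2, h.tsB _ hw2 _ hu2, h.tsB _ hw2 _ hw2] at k1 k2 k3
  obtain ⟨x, y, hxy, e⟩ := exists_iso2 hne hσ (α := S.B u1 u2) (β := S.B w1 w2) (γ := S.B u1 w2)
    (by rw [Bs]; linear_combination k1) (by rw [Bs]; linear_combination k3)
  have ha : x • u1 + y • w1 ∈ A := A.add_mem (A.smul_mem _ hu1) (A.smul_mem _ hw1)
  have hb : x • u2 + y • w2 ∈ B := B.add_mem (B.smul_mem _ hu2) (B.smul_mem _ hw2)
  have hab : S.B (x • u1 + y • w1) (x • u2 + y • w2) = 0 := by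
    simp only [PQ.B_add_left, PQ.B_add_right, PQ.B_smul_left, Bsr]
    rw [Bs] at e
    linear_combination e + y * σ x * k2
  have hd : x • u + y • w = (x • u1 + y • w1) + (x • u2 + y • w2) := by rw [eu, ew]; module
  have d1 : S.B u (x • u + y • w) = 0 := by simp [uu, uw]
  have d2 : S.B w (x • u + y • w) = 0 := by simp [wu, ww]
  generalize x • u1 + y • w1 = a at ha hab hd
  generalize x • u2 + y • w2 = b at hb hab hd
  obtain ⟨b0, hb0, hb00, hba, hk⟩ : ∃ b0 ∈ B, b0 ≠ 0 ∧ S.B b0 a = 0 ∧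
      ∀ v, S.B v (a + b) = 0 → S.B v b0 • a - S.B v a • b0 = S.B v b0 • (a + b) := by
    by_cases hb0 : b = 0
    · obtain ⟨b0, h1, h2, h3⟩ := h.exists_perp a
      exact ⟨b0, h1, h2, h3, fun v hv => by
        rw [hb0, add_zero] at hv ⊢; rw [hv]; simp⟩
    · refine ⟨b, hb, hb0, S.B_comm_zero hab, fun v hv => ?_⟩
      rw [PQ.B_add_right] at hv
      rw [show S.B v a = -S.B v b by linear_combination hv]; module
  have hz : x * S.B u b0 + y * S.B w b0 = 0 := by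
    have : S.B (x • u + y • w) b0 = 0 := by rw [hd]; simp [S.B_comm_zero hba, h.tsB b hb b0 hb0]
    simpa using this
  have hk' : ∀ c : F, σ c = c → ∃ k ∈ M, k ∈ S.isom ∧ k u = u + (c * S.B u b0) • (x • u + y • w) ∧
      k w = w + (c * S.B w b0) • (x • u + y • w) := by
    intro c hcr
    obtain ⟨k, h1, h2, h3⟩ := (h.he ha (B.smul_mem c hb0) (by simp [hba])).exists
    have : ∀ v, S.B v (x • u + y • w) = 0 → k v = v + (c * S.B v b0) • (x • u + y • w) := by
      intro v hv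
      rw [hd] at hv ⊢
      rw [h3, mul_smul, ← hk v hv, Bsr, hcr]; module
    exact ⟨k, h1, h2, this u d1, this w d2⟩
  obtain ⟨t, t1, t2, t3⟩ := ht
  have t4 : t - 1 ≠ 0 := fun h5 => t3 (by rw [sub_eq_zero.1 h5]; simp)
  obtain ⟨k, a1, a2, a3, a4⟩ := hk' 1 (map_one σ)
  obtain ⟨m, b1, b2, b3, b4⟩ := hk' t t1
  by_cases hp : S.B u b0 = 0
  · by_cases hr : S.B w b0 = 0
    · obtain ⟨p, r, e'⟩ := hl.perp b0 (S.B_comm_zero hp) (S.B_comm_zero hr)
      refine hc p r ?_ (e' ▸ hb0)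
      by_contra h5
      push Not at h5
      exact hb00 (by simp [e', h5.1, h5.2])
    · rw [add_comm (x • u)] at a3 a4 b3 b4
      have c1 := hl.symm.no_tr hne hr hxy.symm (by rw [add_comm]; exact hz) one_ne_zero a1 a2 a4 a3
      have c2 := hl.symm.no_tr hne hr hxy.symm (by rw [add_comm]; exact hz) t2 b1 b2 b4 b3
      exact t4 (by linear_combination t * c1 - c2)
  · have c1 := hl.no_tr hne hp hxy hz one_ne_zero a1 a2 a3 a4
    have c2 := hl.no_tr hne hp hxy hz t2 b1 b2 b3 b4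
    exact t4 (by linear_combination t * c1 - c2)

theorem PR2.ng_aux (hne : ∃ a, σ a ≠ a) (hS : S.Nondeg) (h : PR2 S M A B) (hM : M ≤ sisom S)
    (ht : ∃ t : F, σ t = t ∧ t ≠ 0 ∧ t ^ 2 ≠ 1) {a b : V} (ha : a ∈ A) (hb : b ∈ B) (ha0 : a ≠ 0)
    (hb0 : b ≠ 0) (hba : S.B b a = 0) (hB : ¬ Ctr S M b) {α β γ δ : F} (hr : RD S M a b α β γ δ) :
    β = 0 := by
  by_contra hβ
  have aa := h.tsA a ha a ha
  have bb := h.tsB b hb b hb
  obtain ⟨a', ha', -, e1⟩ := h.symm.exists_dual hS (X := ⊥) bot_le hb (by simpa using hb0) 1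
  obtain ⟨b', hb', -, e2⟩ := h.exists_dual hS (X := ⊥) bot_le ha (by simpa using ha0) 1
  have e3 : S.B a' b = 1 := by rw [← Bs, e1, map_one]
  have e4 : S.B b' a = 1 := by rw [← Bs, e2, map_one]
  have f1 := h.tsA a' ha' a ha
  have f2 := h.tsA a ha a' ha'
  have f3 := h.tsB b' hb' b hb
  have f4 := h.tsB b hb b' hb'
  have hab := S.B_comm_zero hba
  obtain ⟨r1, r2⟩ : β + σ β = 0 ∧ γ + σ δ = 0 := by
    obtain ⟨g, hg, e⟩ := hr
    have k1 := PQ.B_isom (hM hg).1 a' a'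
    have k2 := PQ.B_isom (hM hg).1 b' a'
    simp only [e, PQ.B_add_left, PQ.B_add_right, PQ.B_smul_left, Bsr, e1, e2, e3, e4, f1, f2, f3, f4,
      aa, bb, hab, hba, map_one, map_zero] at k1 k2
    exact ⟨by linear_combination k1, by linear_combination k2⟩
  have k1 := HE.rd (S := S) (M := M) (u := a) (w := b) (x := 1) (y := 0) (z := 0) (t := 1) (γ := -γ)
    (by simpa using h.he ha (B.smul_mem (-γ) hb) (by simp [hba]))
  have k2 : RD S M a b α β 0 0 := by
    have r3 : δ + σ γ = 0 := by rw [← hσ δ, ← map_add, add_comm, r2, map_zero]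
    convert hr.sub k1 aa hba bb using 1 <;> simp
    exact r3.symm
  obtain ⟨t, t1, t2, t3⟩ := ht
  have cs : ∀ v, S.B v v = 0 → Ctr S (sisom S) v := fun v hv =>
    ⟨sing hv, fun c hc => tau_mem_sisom S (sing hv) c hc⟩
  obtain ⟨g, hg, hg', e⟩ := exists_torus hne (cs a' (h.tsA _ ha' _ ha')) (cs b bb) e3 (a := t⁻¹)
    (by rw [map_inv₀, t1]) (inv_ne_zero t2)
  have hgM := h.mem g hg (Or.inl fun x hx => by
      rw [e, h.tsA x hx a' ha']; simpa using A.add_mem hx (A.smul_mem _ ha'))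
    (Or.inr fun x hx => by
      rw [e, h.tsB x hx b hb]; simpa using B.add_mem hx (B.smul_mem _ hb))
  have k3 := k2.conj hgM hg'
  rw [show g a = a by rw [e, hab, f2]; simp, show g b = t • b by rw [e, bb, e1, inv_inv]; module] at k3
  have k4 : RD S M a b α (t ^ 2 * β) 0 0 := by
    obtain ⟨m, hm, e'⟩ := k3
    exact ⟨m, hm, fun v => by rw [e', Bsr, t1]; module⟩
  obtain ⟨m, hm, e'⟩ := k4.sub k2 aa hba bb
  refine hB (ctr_of_ht hne bb (c := (t ^ 2 - 1) * β) ?_ (mul_ne_zero (sub_ne_zero.2 t3) hβ)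
    ⟨m, hm, fun v => by rw [e']; module⟩
    fun c hc => h.symm.trans hS hb (B.smul_mem c hb) hb0 (smul_ne_zero hc hb0))
  rw [map_mul, map_sub, map_pow, t1, map_one]
  linear_combination (t ^ 2 - 1) * r1

theorem PR2.tl (hne : ∃ a, σ a ≠ a) (hS : S.Nondeg) (h : PR2 S M A B) (hM : M ≤ sisom S)
    (ht : ∃ t : F, σ t = t ∧ t ≠ 0 ∧ t ^ 2 ≠ 1) {a b : V} (ha : a ∈ A) (hb : b ∈ B) (ha0 : a ≠ 0)
    (hb0 : b ≠ 0) (hba : S.B b a = 0) (hA : ¬ Ctr S M a) (hB : ¬ Ctr S M b) : TL S M a b := by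
  have aa := h.tsA a ha a ha
  have bb := h.tsB b hb b hb
  have hab := S.B_comm_zero hba
  have ind : ∀ x y : F, x • a + y • b = 0 → x = 0 ∧ y = 0 := by
    intro x y e
    have h1 : x • a = 0 := h.eq_zero (A.smul_mem _ ha) (by
      rw [eq_neg_of_add_eq_zero_left e]; exact B.neg_mem (B.smul_mem _ hb))
    rw [h1, zero_add] at e
    exact ⟨by simpa [ha0] using h1, by simpa [hb0] using e⟩
  refine ⟨aa, hba, bb, ind, fun γ => h.he ha (B.smul_mem γ hb) (by simp [hba]),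
    fun α β γ δ e => ⟨h.symm.ng_aux hne hS hM ht hb ha hb0 ha0 hab hA e.swap,
      h.ng_aux hne hS hM ht ha hb ha0 hb0 hba hB e⟩, fun v h1 h2 => ?_⟩
  have f1 : finrank F (Submodule.span F {a, b}) = 2 := by
    have := finrank_span_eq_card (LinearIndependent.pair_iff.2 ind)
    rwa [Matrix.range_cons, Matrix.range_cons, Matrix.range_empty, Set.union_empty,
      Set.singleton_union] at this
  have f2 := hS.finrank_perp (Submodule.span F {a, b})
  have f3 := Submodule.finrank_add_eq_of_isCompl h.compl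
  have f4 : Submodule.span F {a, b} = S.perp (Submodule.span F {a, b}) := by
    apply Submodule.eq_of_le_of_finrank_eq
    · rw [Submodule.span_le]
      rintro x (rfl | rfl) <;> refine S.mem_perp_span.2 ?_ <;> rintro y (rfl | rfl) <;> assumption
    · have := h.dim
      have := h.two
      omega
  have : v ∈ Submodule.span F {a, b} := by
    rw [f4]; refine S.mem_perp_span.2 ?_; rintro y (rfl | rfl) <;> assumption
  obtain ⟨x, y, e⟩ := Submodule.mem_span_pair.1 this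
  exact ⟨x, y, e.symm⟩

theorem PR2.map_mem (hne : ∃ a, σ a ≠ a) (hS : S.Nondeg) (h : PR2 S M A B) (hM : M ≤ sisom S)
    (ht : ∃ t : F, σ t = t ∧ t ≠ 0 ∧ t ^ 2 ≠ 1)
    (hA : ∀ d ∈ A, d ≠ 0 → ¬ Ctr S M d) (hB : ∀ d ∈ B, d ≠ 0 → ¬ Ctr S M d) {g : V ≃ₗ[F] V}
    (hg : g ∈ M) {d : V} (hd : d ∈ A) : g d ∈ A ∨ g d ∈ B := by
  by_cases h0 : d = 0
  · simp [h0]
  obtain ⟨b, hb, hb0, hbd⟩ := h.exists_perp d
  have hl := (h.tl hne hS hM ht hd hb h0 hb0 hbd (hA d hd h0) (hB b hb hb0)).conj hg (hM hg).1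
  generalize g d = u at hl
  generalize g b = w at hl
  obtain ⟨x, y, hxy, m1⟩ := h.symm.meet hne ht hl
  obtain ⟨z, t, hzt, m2⟩ := h.meet hne ht hl
  have n1 : x • u + y • w ≠ 0 := fun e => by have := hl.ind _ _ e; tauto
  have n2 : z • u + t • w ≠ 0 := fun e => by have := hl.ind _ _ e; tauto
  have hp : S.B (z • u + t • w) (x • u + y • w) = 0 := by
    simp [hl.uu, hl.wu, hl.ww, S.B_comm_zero hl.wu]
  have hl' := h.tl hne hS hM ht m1 m2 n1 n2 hp (hA _ m1 n1) (hB _ m2 n2)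
  obtain ⟨p, r, e1⟩ := hl'.perp u (by simp [hl.uu, S.B_comm_zero hl.wu])
    (by simp [hl.uu, S.B_comm_zero hl.wu])
  obtain ⟨p', r', e2⟩ := hl'.perp w (by simp [hl.wu, hl.ww]) (by simp [hl.wu, hl.ww])
  have hw0 : w ≠ 0 := fun h4 => one_ne_zero (hl.ind 0 1 (by simpa using h4)).2
  have he := hl.he
  generalize x • u + y • w = a at *
  generalize z • u + t • w = b at *
  rw [e1, e2] at he
  rcases hl'.key hne he (e2 ▸ hw0) with h5 | h5
  · right; rw [e1, h5, zero_smul, zero_add]; exact B.smul_mem _ m2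
  · left; rw [e1, h5, zero_smul, add_zero]; exact A.smul_mem _ m1

theorem PR2.max (hne : ∃ a, σ a ≠ a) (hS : S.Nondeg) (h : PR2 S M A B) (hM : M ≤ sisom S)
    (ht : ∃ t : F, σ t = t ∧ t ≠ 0 ∧ t ^ 2 ≠ 1) :
    (∀ g ∈ M, ((∀ x ∈ A, g x ∈ A) ∨ (∀ x ∈ A, g x ∈ B)) ∧
      ((∀ x ∈ B, g x ∈ A) ∨ (∀ x ∈ B, g x ∈ B))) ∨ sisom S ≤ M := by
  have h4 : 4 ≤ finrank F V := by
    have h2 := Submodule.finrank_add_eq_of_isCompl h.compl
    have := h.dim
    have := h.two
    omega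
  by_cases hA : ∀ d ∈ A, d ≠ 0 → ¬ Ctr S M d
  swap
  · push Not at hA
    obtain ⟨d, hd, h0, hc⟩ := hA
    exact Or.inr ((h.full hne hS hd h0 hc).sisom_le hne hS h4)
  by_cases hB : ∀ d ∈ B, d ≠ 0 → ¬ Ctr S M d
  swap
  · push Not at hB
    obtain ⟨d, hd, h0, hc⟩ := hB
    exact Or.inr ((h.symm.full hne hS hd h0 hc).sisom_le hne hS h4)
  have key : ∀ (g : V ≃ₗ[F] V) (C : Submodule F V), (∀ x ∈ C, g x ∈ A ∨ g x ∈ B) →
      (∀ x ∈ C, g x ∈ A) ∨ (∀ x ∈ C, g x ∈ B) := by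
    intro g C hC
    by_contra hc
    push Not at hc
    obtain ⟨x, hx, h1, h2⟩ := exists_not_not C.toAddSubgroup
      (A.comap (g : V →ₗ[F] V)).toAddSubgroup (B.comap (g : V →ₗ[F] V)).toAddSubgroup hc.1 hc.2
    exact (hC x hx).elim h1 h2
  exact Or.inl fun g hg => ⟨key g A fun x hx => h.map_mem hne hS hM ht hA hB hg hx,
    key g B fun x hx => (h.symm.map_mem hne hS hM ht hB hA hg hx).symm⟩

end abstract

variable {F : Type*} [Field F] [Fintype F] {q : ℕ} (hF : Fintype.card F = q ^ 2) {n : ℕ}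

include hF in
theorem exists_real_sq (h4 : 4 ≤ q) :
    ∃ t : F, (frobQ hF : F →+* F) t = t ∧ t ≠ 0 ∧ t ^ 2 ≠ 1 := by
  obtain ⟨γ, h0, -, h1⟩ := H9.Arith.exists_gen hF
  refine ⟨γ ^ (q + 1), ?_, pow_ne_zero _ h0, fun h => ?_⟩
  · change (γ ^ (q + 1)) ^ q = _
    rw [pow_succ, mul_pow, pow_q_pow_q hF, mul_comm]
  · rw [← pow_mul, h1] at h
    have h2 := Nat.le_of_dvd (by omega) h
    obtain ⟨k, rfl⟩ : ∃ k, q = k + 4 := ⟨q - 4, by omega⟩
    have : (k + 4) ^ 2 = k ^ 2 + 8 * k + 16 := by ring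
    omega

include hF in
/-- an element of norm one and multiplicative order `q + 1` -/
theorem exists_norm_one_ord : ∃ a : F, a * (frobQ hF : F →+* F) a = 1 ∧ ∀ m : ℕ, a ^ m = 1 ↔ (q + 1) ∣ m := by
  obtain ⟨γ, h0, -, h1⟩ := H9.Arith.exists_gen hF
  have h2 := two_le_of_card_sq hF
  obtain ⟨k, rfl⟩ : ∃ k, q = k + 1 := ⟨q - 1, by omega⟩
  have e : (k + 1) ^ 2 - 1 = k * (k + 1 + 1) := by
    rw [Nat.sub_eq_iff_eq_add (Nat.one_le_pow _ _ (by omega))]; ring
  have h3 : ∀ m : ℕ, (γ ^ k) ^ m = 1 ↔ (k + 1 + 1) ∣ m := fun m => by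
    rw [← pow_mul, h1, e, Nat.mul_dvd_mul_iff_left (by omega)]
  refine ⟨γ ^ k, ?_, h3⟩
  change γ ^ k * (γ ^ k) ^ (k + 1) = 1
  rw [← pow_succ', h3]

include hF in
theorem geo_nondeg4 (hn : 4 ≤ n) (W : Submodule F (Fin n → F)) (hW0 : W ≠ ⊥)
    (hW : Geo.IsNondegenerateOn (hermForm n F q) W) (hdim : 2 * finrank F W < n) :
    Geo.IsMaximalIn (GU n F q ⊓ Geo.specialLinear (Fin n) F)
      (Geo.subspaceStabilizer W ⊓ (GU n F q ⊓ Geo.specialLinear (Fin n) F)) := by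
  have hW' : (std hF n).NondegOn W := ((std hF n).nondegOn_iff_geo W).2 hW
  refine max_of hF _ (mem_stab_iff W) (SU_not_le_subspaceStabilizer hF (by omega) hW0 ?_)
    fun M h1 h2 => nondeg_max4 (std_ne hF) (std_nondeg hF n) (by simpa using hn) hW'
      (by simpa using hdim) h1 h2
  intro h
  rw [h] at hdim
  simp at hdim
  omega

include hF in
theorem geo_pair2 (hq : 4 ≤ q) (D : Fin 2 → Submodule F (Fin n → F))
    (hD : Geo.IsMDecomposition 2 D) (hts : ∀ i, Geo.IsTotallySingularFor (hermForm n F q) (D i)) :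
    Geo.IsMaximalIn (GU n F q ⊓ Geo.specialLinear (Fin n) F)
      (Geo.decompositionStabilizer D ⊓ (GU n F q ⊓ Geo.specialLinear (Fin n) F)) := by
  have hn := card_eq_of_isMDecomposition hD
  rw [Fintype.card_fin] at hn
  have hc : IsCompl (D 0) (D 1) := by
    constructor
    · exact hD.indep.pairwiseDisjoint (by decide)
    · rw [codisjoint_iff, eq_top_iff, ← hD.iSup_eq_top, iSup_le_iff, Fin.forall_fin_two]
      exact ⟨le_sup_left, le_sup_right⟩
  refine max_of hF (fun g => ∀ i, ∃ j, ∀ x ∈ D i, g x ∈ D j) (mem_decomp_iff hD)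
    (SU_not_le_decompositionStabilizer hF (by omega) (by omega) hD) fun M h1 h3 => ?_
  have h : PR2 (std hF n) M (D 0) (D 1) := ⟨hts 0, hts 1, hc, by rw [hD.finrank_eq, hD.finrank_eq],
    hD.finrank_eq _, fun g hg a b => h3 g hg (by
      simpa [Fin.forall_fin_two, Fin.exists_fin_two] using ⟨a, b⟩)⟩
  refine (h.max (std_ne hF) (std_nondeg hF n) h1 (exists_real_sq hF hq)).imp_left fun h5 g hg => ?_
  simpa [Fin.forall_fin_two, Fin.exists_fin_two] using h5 g hg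

end Cfsg.Agent.H6.SU
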