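import Cfsg.Agent.H6.SUSub

/-!
Maximality of the subfield subgroups of odd prime index in `SU_n(q)`, `n ≥ 4`.
-/

set_option autoImplicit false
set_option linter.unusedSectionVars false
set_option linter.unusedVariables false

namespace Cfsg.Agent.H6.SU

open Module Cfsg.Agent.Form Cfsg.Agent.H7
open scoped MatrixGroups Matrix

section abstract

variable {E : Type*} [Field E] {τ : E →+* E} {hτ : ∀ a, τ (τ a) = a} {W : Type*} [AddCommGroup W]
  [Module E W] {T : PQ (FP.unit τ hτ) W} [FiniteDimensional E W]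
  {F : Type*} [Field F] {σ : F →+* F} {hσ : ∀ a, σ (σ a) = a}
  {V : Type*} [AddCommGroup V] [Module F V] {S : PQ (FP.unit σ hσ) V} {M : Subgroup (V ≃ₗ[F] V)}
  [Algebra E F] {φ : W →+ V} [FiniteDimensional F V] [Finite F] [Finite E]

omit [Finite F] in
/-- the torus of a hyperbolic pair -/
theorem exists_dil2 (S : PQ (FP.unit σ hσ) V) {d e : V} (hd : S.B d d = 0) (he : S.B e e = 0)
    (hde : S.B d e = 1) {a : F} (ha : a ≠ 0) : ∃ g ∈ S.isom, (LinearEquiv.det g : F) = a * (σ a)⁻¹ ∧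
      ∀ x, g x = x + ((a - 1) * S.B x e) • d + (((σ a)⁻¹ - 1) * S.B x d) • e := by
  have hed : S.B e d = 1 := by rw [← Bs, hde, map_one]
  have ha' := σ_ne (σ := σ) ha
  obtain ⟨g, h1, e1⟩ := exists_dilat (φ := (a - 1) • S.lin e) (v := d) (by simpa [hde] using ha)
  obtain ⟨k, h2, e2⟩ := exists_dilat (φ := ((σ a)⁻¹ - 1) • S.lin d) (v := e) (by simpa [hed] using ha)
  have e3 : ∀ x, (g * k) x = x + ((a - 1) * S.B x e) • d + (((σ a)⁻¹ - 1) * S.B x d) • e := by
    intro x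
    rw [LinearEquiv.mul_apply, e1, e2]
    simp only [LinearMap.smul_apply, PQ.lin_apply, smul_eq_mul, PQ.B_add_left, PQ.B_smul_left, he]
    module
  refine ⟨g * k, (S.unit_mem_isom _).2 fun x y => ?_, ?_, e3⟩
  · simp only [e3, PQ.B_add_left, PQ.B_add_right, PQ.B_smul_left, Bsr, hd, he, hde, hed, map_mul,
      map_sub, map_one, map_inv₀, hσ, Bs]
    field_simp
    ring
  · rw [map_mul, Units.val_mul, h1, h2]; simp [hde, hed]

theorem exists_sq_sub {K : Type*} [Field K] [Finite K] (s : K) : ∃ a b : K, s = a ^ 2 - b ^ 2 := by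
  by_cases h2 : (2 : K) = 0
  · have : CharP K 2 := CharTwo.of_one_ne_zero_of_two_eq_zero one_ne_zero h2
    obtain ⟨a, ha⟩ := FiniteField.isSquare_of_char_two (ringChar.eq K 2) s
    exact ⟨a, 0, by rw [ha]; ring⟩
  · exact ⟨(s + 1) / 2, (s - 1) / 2, by field_simp; ring⟩

/-- the data of a unitary rational structure whose normaliser lies in `M` -/
structure SB4 (S : PQ (FP.unit σ hσ) V) (M : Subgroup (V ≃ₗ[F] V)) (T : PQ (FP.unit τ hτ) W)
    (φ : W →+ V) : Prop where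
  rs : RS S T φ 1
  ne : ∃ a, τ a ≠ a
  simple : ∀ A : Subalgebra E F, A = ⊥ ∨ A = ⊤
  quad : ∀ (γ : F) (a b c : E), a ≠ 0 →
    algebraMap E F a * γ ^ 2 + algebraMap E F b * γ + algebraMap E F c = 0 →
      γ ∈ (algebraMap E F).fieldRange
  four : 4 ≤ finrank E W
  le : M ≤ sisom S
  mem : ∀ g ∈ sisom S, NR φ g → g ∈ M

theorem SB4.B_eq (h : SB4 S M T φ) (x y : W) : S.B (φ x) (φ y) = algebraMap E F (T.B x y) := by
  rw [h.rs.B_eq, one_mul]

theorem SB4.σ_eq (h : SB4 S M T φ) (c : E) : σ (algebraMap E F c) = algebraMap E F (τ c) := h.rs.σ_eq c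

theorem SB4.sp (h : SB4 S M T φ) : SP T 2 := sp_of_trP (trP h.ne) T

theorem SB4.σ_mem (h : SB4 S M T φ) {a : F} (ha : a ∈ (algebraMap E F).fieldRange) :
    σ a ∈ (algebraMap E F).fieldRange := by
  obtain ⟨r, rfl⟩ := ha
  exact ⟨τ r, (h.σ_eq r).symm⟩

theorem SB4.lift (h : SB4 S M T φ) {u y : W} {q : E} (hq : T.EichOK u y q) :
    HE S M (φ u) (φ y) (algebraMap E F q) ∧ ∀ (h' : S.EichOK (φ u) (φ y) (algebraMap E F q)) w,
      S.eich _ _ _ h' (φ w) = φ (T.eich u y q hq w) := by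
  have e : ∀ (h' : S.EichOK (φ u) (φ y) (algebraMap E F q)) w,
      S.eich _ _ _ h' (φ w) = φ (T.eich u y q hq w) := fun h' w => by
    rw [eich_ap, eich_ap]
    simp [h.rs.smul, h.B_eq]
  have h1 : S.EichOK (φ u) (φ y) (algebraMap E F q) :=
    eichOK_iff.2 ⟨h.rs.sing hq.sing, h.rs.B0 hq.perp, by
      rw [h.σ_eq, h.B_eq, ← (eichOK_iff.1 hq).2.2, map_add]⟩
  exact ⟨⟨h1, h.mem _ (eich_mem_sisom S _ _ _ h1) (h.rs.nr_of_map fun w => ⟨_, e h1 w⟩)⟩, e⟩

theorem SB4.ei (h : SB4 S M T φ) {u y : W} (hu : T.B u u = 0) (hy : T.B y u = 0) :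
    Ei S M (φ u) (φ y) := (h.lift (exists_eichOK T hu hy)).1.ei

theorem SB4.tr (h : SB4 S M T φ) {c : E} (hc : c + τ c = 0) :
    algebraMap E F c + σ (algebraMap E F c) = 0 := by rw [h.σ_eq, ← map_add, hc, map_zero]

theorem SB4.ht (h : SB4 S M T φ) {u : W} (hu : T.B u u = 0) {c : E} (hc : c + τ c = 0) :
    HT S M (φ u) (algebraMap E F c) := by
  have := (h.lift (u := u) (y := 0) (q := -c) (eichOK_iff.2 ⟨hu, by simp, by
    rw [map_neg]; simp; linear_combination -hc⟩)).1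
  rw [map_zero] at this
  simpa using this.ht

theorem SB4.fill (h : SB4 S M T φ) {u : W} (hu : T.B u u = 0) (hu0 : u ≠ 0) {d : F} {y₀ : W}
    (h1 : T.B y₀ u = 0) (h2 : y₀ ∉ E ∙ u) (h3 : Ei S M (φ u) (d • φ y₀)) {y : W} (hy : T.B y u = 0) :
    Ei S M (φ u) (d • φ y) := by
  have hT := h.rs.ndT
  have h4 := h.four
  have hd1 := finrank_span_singleton_le (F := E) u
  let A : AddSubgroup W :=
    { carrier := {y | Ei S M (φ u) (d • φ y)}
      zero_mem' := by simpa using ei_zero (h.rs.B0 hu)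
      add_mem' := fun {a b} ha hb => (Ei.add ha hb).congr (by simp)
      neg_mem' := fun {a} ha => (Ei.neg ha).congr (by simp) }
  let Y : Submodule E W :=
    { carrier := {y | ∀ s : E, s • y ∈ A}
      zero_mem' := fun s => by simp
      add_mem' := fun {a b} ha hb s => by rw [smul_add]; exact A.add_mem (ha s) (hb s)
      smul_mem' := fun c a ha s => by rw [smul_smul]; exact ha _ }
  obtain ⟨c, hc0, hc⟩ := exists_tr_zero h.ne hτ
  have tr : ∀ x, T.B x x = 0 → T.B x u = 0 → ∀ y ∈ A, (c * T.B y x) • x ∈ A := by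
    intro x hx hxu y hy
    obtain ⟨g, hg, hg', e⟩ := (h.ht hx hc).exists (h.rs.B0 hx) (h.tr hc)
    have := Ei.conj hy hg hg'
    rw [e, e, h.rs.B0 (T.B_comm_zero hxu), mul_zero, zero_smul, add_zero] at this
    refine (this.sub hy).congr ?_
    rw [h.rs.smul, PQ.B_smul_left, h.B_eq, map_mul]; module
  have tor : ∀ e ∈ A, T.B e e = 0 → T.B e u = 0 → e ∉ E ∙ u → e ∈ Y := by
    intro e he hee heu he'
    obtain ⟨e', p1, p2, p3⟩ := hT.exists_hyperbolic_perp (sing hee) he' (T.mem_perp_span_singleton.2 heu)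
    obtain ⟨u', q1, q2, q3⟩ := hT.exists_hyperbolic_perp (sing hu) (notMem_span_swap he' hu0)
      (T.mem_perp_span_singleton.2 (T.B_comm_zero heu))
    have p1 := T.B_comm_zero (T.mem_perp_span_singleton.1 p1)
    have q1 := T.B_comm_zero (T.mem_perp_span_singleton.1 q1)
    have sq : ∀ a : E, a ^ 2 • e ∈ A := by
      intro a
      by_cases ha : a = 0
      · simp [ha]
      have ha' := (map_ne_zero (algebraMap E F)).2 ha
      obtain ⟨g, g1, g2, g3⟩ := exists_dil2 S (h.rs.B0 hu) (h.rs.sing q2) (d := φ u) (e := φ u')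
        (by rw [h.B_eq, q3, map_one]) (σ_ne (σ := σ) ha')
      obtain ⟨k, k1, k2, k3⟩ := exists_dil2 S (h.rs.B0 hee) (h.rs.sing p2) (d := φ e) (e := φ e')
        (by rw [h.B_eq, p3, map_one]) ha'
      rw [hσ] at g2 g3
      have m1 : g * k ∈ sisom S := ⟨mul_mem g1 k1, Units.ext (by
        have := σ_ne (σ := σ) ha'
        rw [map_mul, Units.val_mul, g2, k2]; field_simp; rfl)⟩
      have r1 : ∀ w, ∃ w', g (φ w) = φ w' := fun w =>
        ⟨w + ((τ a - 1) * T.B w u') • u + ((a⁻¹ - 1) * T.B w u) • u', by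
          simp [g3, h.rs.smul, h.B_eq, h.σ_eq]⟩
      have r2 : ∀ w, ∃ w', k (φ w) = φ w' := fun w =>
        ⟨w + ((a - 1) * T.B w e') • e + (((τ a)⁻¹ - 1) * T.B w e) • e', by
          simp [k3, h.rs.smul, h.B_eq, h.σ_eq]⟩
      have m2 := h.mem _ m1 (h.rs.nr_of_map fun w => by
        obtain ⟨w', e1⟩ := r2 w
        obtain ⟨w'', e2⟩ := r1 w'
        exact ⟨w'', by rw [LinearEquiv.mul_apply, e1, e2]⟩)
      have := Ei.conj he m2 m1.1
      rw [show (g * k) (φ u) = σ (algebraMap E F a) • φ u by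
          simp [k3, g3, h.B_eq, p1, q3, hu, T.B_comm_zero heu, sub_smul],
        show (g * k) (d • φ e) = (d * algebraMap E F a) • φ e by
          simp [k3, g3, h.B_eq, p3, q1, hee, heu, sub_smul, smul_smul]] at this
      refine (this.smul_left (σ_ne ha')).congr ?_
      rw [hσ, h.rs.smul, map_pow]; module
    intro s
    obtain ⟨a, b, rfl⟩ := exists_sq_sub s
    rw [sub_smul]; exact A.sub_mem (sq a) (sq b)
  have step : ∀ y ∈ A, T.B y u = 0 → ∀ x, T.B x x = 0 → T.B x u = 0 → T.B x y ≠ 0 → x ∈ Y := by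
    intro y hy hyu x hx hxu hxy
    have k := mul_ne_zero hc0 (ne_swap hxy)
    have := Y.smul_mem (c * T.B y x)⁻¹ (tor _ (tr x hx hxu y hy) (by simp [hx]) (by simp [hxu]) (by
      intro hm
      obtain ⟨r, hr⟩ := Submodule.mem_span_singleton.1 hm
      have := congrArg (fun v => T.B v y) hr
      simp [T.B_comm_zero hyu, hc0, hxy, ne_swap hxy] at this))
    rwa [smul_smul, inv_mul_cancel₀ k, one_smul] at this
  have := h.sp.perp_le hT (by omega) (sing hu) hu0 (Y := Y) (fun z hz hzu => by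
    by_cases hm : z ∈ E ∙ u
    · obtain ⟨r, rfl⟩ := Submodule.mem_span_singleton.1 hm
      intro s
      exact (ei_self (h.rs.B0 hu) (d * algebraMap E F (s * r))).congr (by
        rw [smul_smul, h.rs.smul, smul_smul])
    obtain ⟨x, hx, x1, x2, x3⟩ := (trP h.ne).exists_sing_perp_ne_ne hT h2 hm (by omega)
    have hxu := T.mem_perp_span_singleton.1 hx
    exact step x (by simpa using step y₀ h3 h1 x x1.B_self hxu x2 1) hxu z hz.B_self hzu (ne_swap x3)) hy
  have h5 := this 1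
  rwa [one_smul] at h5

/-- the scalars `d` such that all `d φ(y)` are Eichler vectors at `φ(u)` -/
def SB4.A (h : SB4 S M T φ) (u : W) (hu : T.B u u = 0) : Submodule E F where
  carrier := {d | ∀ y, T.B y u = 0 → Ei S M (φ u) (d • φ y)}
  zero_mem' := fun y hy => by simpa using ei_zero (h.rs.B0 hu)
  add_mem' := fun {a b} ha hb y hy => ((ha y hy).add (hb y hy)).congr (add_smul _ _ _)
  smul_mem' := fun c d hd y hy => (hd (c • y) (by simp [hy])).congr (by
    rw [h.rs.smul, Algebra.smul_def, smul_smul, mul_comm])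

theorem SB4.mem_A_of_mul (h : SB4 S M T φ) {u : W} {hu : T.B u u = 0} {c : E} (hc : c ≠ 0) {d : F}
    (hd : algebraMap E F c * d ∈ h.A u hu) : d ∈ h.A u hu := by
  have := (h.A u hu).smul_mem c⁻¹ hd
  rwa [Algebra.smul_def, map_inv₀, inv_mul_cancel_left₀ ((map_ne_zero _).2 hc)] at this

theorem SB4.B_mem_A (h : SB4 S M T φ) {u : W} (hu : T.B u u = 0) (hu0 : u ≠ 0) {v : V}
    (hv : Ei S M (φ u) v) {x : W} (hx : T.B x u = 0) : S.B v (φ x) ∈ h.A u hu := by
  let Y : Submodule E W :=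
    { carrier := {x | S.B v (φ x) ∈ h.A u hu}
      zero_mem' := by simp
      add_mem' := fun {a b} ha hb => by
        simpa using (h.A u hu).add_mem ha hb
      smul_mem' := fun c x hx => by
        have := (h.A u hu).smul_mem (τ c) hx
        rw [Algebra.smul_def, ← h.σ_eq] at this
        simpa [h.rs.smul] using this }
  refine h.sp.perp_le h.rs.ndT (by have := h.four; omega) (sing hu) hu0 (Y := Y) (fun x hs hx => ?_) hx
  by_cases hm : x ∈ E ∙ u
  · obtain ⟨c, rfl⟩ := Submodule.mem_span_singleton.1 hm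
    refine Y.smul_mem c ?_
    change S.B v (φ u) ∈ h.A u hu
    rw [hv.wd]; exact zero_mem _
  obtain ⟨c, hc0, hc⟩ := exists_tr_zero h.ne hτ
  obtain ⟨g, hg, hg', e⟩ := (h.ht hs.B_self hc).exists (h.rs.sing hs) (h.tr hc)
  have := hv.conj hg hg'
  rw [e, e, h.rs.B0 (T.B_comm_zero hx), mul_zero, zero_smul, add_zero] at this
  change S.B v (φ x) ∈ h.A u hu
  exact h.mem_A_of_mul hc0 fun y hy => h.fill hu hu0 hx hm ((this.sub hv).congr (by abel)) hy

theorem SB4.exists_perp (h : SB4 S M T φ) (u : W) : ∃ y, T.B y y = 0 ∧ T.B y u = 0 ∧ y ∉ E ∙ u := by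
  obtain ⟨y, hy, h1, h2⟩ := h.sp.exists_notMem h.rs.ndT (E ∙ u) (E ∙ u) (by
    have := finrank_span_singleton_le (F := E) u; have := h.four; omega)
  exact ⟨y, h2.B_self, T.mem_perp_span_singleton.1 hy, h1⟩

theorem SB4.A_le (h : SB4 S M T φ) {u u' : W} (hu : T.B u u = 0) (hu0 : u ≠ 0) (hu' : T.B u' u' = 0)
    (hu0' : u' ≠ 0) {d : F} (hd : d ∈ h.A u hu) : d ∈ h.A u' hu' := by
  have hT := T.nondegOn_top.2 h.rs.ndT
  obtain ⟨p, -, hp, h1, h2⟩ := exists_sing_on h.ne hT (by have := h.four; simp; omega)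
    (notMem_perp hT (x := u) trivial hu0) (notMem_perp hT (x := u') trivial hu0')
  have hc : T.B u' p / T.B u p ≠ 0 := div_ne_zero h2 h1
  obtain ⟨w, q, hE, -, e⟩ := exists_eich_map T (sing hp) (x := (T.B u' p / T.B u p) • u) (y := u')
    (by simp [h1]) (by simpa [h1] using h2) (sub_mem (sing hu') ((sing hu).smul _))
  set c := T.B u' p / T.B u p
  obtain ⟨k1, k2⟩ := h.lift hE
  obtain ⟨y, -, hy, hy'⟩ := h.exists_perp u
  have a1 : Ei S M (φ (c • u)) (d • φ y) := by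
    rw [h.rs.smul]
    refine Ei.smul_left' ?_ ((map_ne_zero _).2 hc)
    have := (h.A u hu).smul_mem (τ c) hd y hy
    rwa [Algebra.smul_def, ← h.σ_eq, mul_smul] at this
  have a2 := a1.conj k1.2 (S.eich_mem _ _ _ _)
  rw [LinearEquiv.map_smul, k2, k2, e] at a2
  refine fun z hz => h.fill hu' hu0' ?_ (fun hm => hy' ?_) a2 hz
  · rw [← e, PQ.B_isom (T.eich_mem _ _ _ _)]; simp [hy]
  · obtain ⟨s, hs⟩ := Submodule.mem_span_singleton.1 hm
    rw [← e, ← map_smul, (T.eich _ _ _ hE).injective.eq_iff] at hs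
    rw [← hs]
    exact Submodule.smul_mem _ _ (Submodule.smul_mem _ _ (Submodule.mem_span_singleton_self _))

theorem SB4.mul_mem_A (h : SB4 S M T φ) {u : W} (hu : T.B u u = 0) (hu0 : u ≠ 0) {s s' t : F}
    (hs : s ∈ h.A u hu) (hs' : s' ∈ h.A u hu) (ht : t ∈ h.A u hu) :
    (s * σ s' - s' * σ s) * t ∈ h.A u hu := by
  have hT := h.rs.ndT
  obtain ⟨x, hx, hxu, hxu'⟩ := h.exists_perp u
  have hx0 : x ≠ 0 := by rintro rfl; exact hxu' (zero_mem _)
  obtain ⟨w, hw, hxw⟩ := hT.exists_perp_eq hxu' 1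
  have hwu := T.mem_perp_span_singleton.1 hw
  have hwx : T.B w x = 1 := by rw [← Bs, hxw, map_one]
  obtain ⟨y, -, hy, hy'⟩ := h.exists_perp x
  obtain ⟨z, hz, hyz⟩ := hT.exists_perp_eq hy' 1
  have hzy : T.B z y = 1 := by rw [← Bs, hyz, map_one]
  have k := (h.A_le hu hu0 hx hx0 hs y hy).comm
    (h.A_le hu hu0 hx hx0 hs' z (T.mem_perp_span_singleton.1 hz))
  simp only [PQ.B_smul_left, Bsr, h.B_eq, hyz, hzy, map_one, mul_one] at k
  obtain ⟨g, hg, hg', e⟩ := k.exists (h.rs.B0 hx) (by simp only [map_sub, map_mul, hσ]; ring)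
  have := (ht w hwu).conj hg hg'
  rw [e, e, h.rs.B0 (T.B_comm_zero hxu), mul_zero, zero_smul, add_zero] at this
  refine fun y hy => h.fill hu hu0 hxu hxu' ((this.sub (ht w hwu)).congr ?_) hy
  simp [h.B_eq, hwx, mul_comm]

theorem SB4.A_dich (h : SB4 S M T φ) {u : W} (hu : T.B u u = 0) (hu0 : u ≠ 0) :
    (∀ d ∈ h.A u hu, d ∈ (algebraMap E F).fieldRange) ∨ ∀ d, d ∈ h.A u hu := by
  have m : ∀ c : E, algebraMap E F c ∈ h.A u hu := fun c y hy =>
    (h.ei hu (y := c • y) (by simp [hy])).congr (h.rs.smul _ _).symm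
  let R : Subalgebra E F :=
    { carrier := {r | ∀ t ∈ h.A u hu, r * t ∈ h.A u hu}
      mul_mem' := fun {a b} ha hb t ht => by rw [mul_assoc]; exact ha _ (hb t ht)
      add_mem' := fun {a b} ha hb t ht => by rw [add_mul]; exact add_mem (ha t ht) (hb t ht)
      algebraMap_mem' := fun c t ht => by rw [← Algebra.smul_def]; exact Submodule.smul_mem _ c ht }
  rcases h.simple R with e | e
  · left
    intro d hd
    have key : ∀ c : E, ∃ r, algebraMap E F r = d * σ (algebraMap E F c) - algebraMap E F c * σ d :=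
      fun c => by
        have : d * σ (algebraMap E F c) - algebraMap E F c * σ d ∈ R :=
          fun t ht => h.mul_mem_A hu hu0 hd (m c) ht
        rwa [e, Algebra.mem_bot] at this
    obtain ⟨θ, hθ⟩ := h.ne
    obtain ⟨r, hr⟩ := key θ
    obtain ⟨r', hr'⟩ := key 1
    have h4 : algebraMap E F (τ θ - θ) ≠ 0 := (map_ne_zero _).2 (sub_ne_zero.2 hθ)
    refine ⟨(r - θ * r') / (τ θ - θ), ?_⟩
    rw [map_div₀, div_eq_iff h4, map_sub, map_sub, map_mul, hr, hr', h.σ_eq, map_one, map_one]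
    ring
  · right
    intro d
    have : d ∈ R := e ▸ Algebra.mem_top
    simpa using this _ (m 1)

theorem SB4.top_of_ei (hne : ∃ a, σ a ≠ a) (h : SB4 S M T φ) {u : W} (hu : T.B u u = 0) (hu0 : u ≠ 0)
    {v : V} (hv : Ei S M (φ u) v) (hv' : ∀ w (t : F), v ≠ φ w + t • φ u) : sisom S ≤ M := by
  have hT := h.rs.ndT
  have hA : ∀ d, d ∈ h.A u hu := by
    refine (h.A_dich hu hu0).resolve_left fun e => ?_
    obtain ⟨w, t, e'⟩ := h.rs.rat_mod hu hu0 (v := v) fun y hy => by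
      obtain ⟨r, hr⟩ := e _ (h.B_mem_A hu hu0 hv hy)
      exact ⟨τ r, by rw [one_mul, ← h.σ_eq, hr, Bs]⟩
    exact hv' w t e'
  have par : ∀ u, T.B u u = 0 → u ≠ 0 → Par S M (φ u) := by
    intro x hx hx0
    have hA' := fun d => h.A_le hu hu0 hx hx0 (hA d)
    obtain ⟨p, hp⟩ := hT.exists_eq hx0 1
    let N : Submodule F V :=
      { carrier := {v | ∀ d : F, Ei S M (φ x) (d • (v - S.B v (φ x) • φ p))}
        zero_mem' := fun d => by simpa using ei_zero (h.rs.B0 hx)
        add_mem' := fun {a b} ha hb d => ((ha d).add (hb d)).congr (by simp only [PQ.B_add_left]; module)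
        smul_mem' := fun c a ha d => (ha (d * c)).congr (by simp only [PQ.B_smul_left]; module) }
    have hN : ∀ v, S.B v (φ x) = 0 → ∀ d : F, Ei S M (φ x) (d • v) := fun v hv d => by
      have := h.rs.span N (fun w d => (hA' d (w - T.B w x • p) (by simp [hp])).congr (by
        rw [map_sub, h.rs.smul, h.B_eq])) v d
      simpa [hv] using this
    obtain ⟨y, -, hy, hy'⟩ := h.exists_perp x
    obtain ⟨z, hz, hyz⟩ := hT.exists_perp_eq hy' 1
    have hc : Ctr S M (φ x) := ctr_of_ei hne (hN _ (h.rs.B0 hy))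
      (h.ei hx (T.mem_perp_span_singleton.1 hz)) (by rw [h.B_eq, hyz, map_one]; exact one_ne_zero)
    exact ⟨h.rs.B0 hx, fun w q hq => Ei.he (by simpa using hN w hq.perp 1) hc (eichOK_iff.1 hq).2.2⟩
  obtain ⟨f, hf, huf⟩ := hT.exists_hyperbolic (sing hu) hu0
  have h6 := h.four
  refine Full.sisom_le hne h.rs.nd (by rw [h.rs.finrank_eq]; omega) (full_of_par hne h.rs.nd
    (by rw [h.rs.finrank_eq]; omega) (par f hf.B_self (by rintro rfl; simp at huf)) (par u hu hu0) ?_)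
  rw [h.B_eq, huf, map_one]; exact one_ne_zero

theorem SB4.mem_of_norms (h : SB4 S M T φ) {l μ : F} (h1 : μ * σ μ ∈ (algebraMap E F).fieldRange)
    (h2 : ∀ s : E, (l + algebraMap E F s * μ) * σ (l + algebraMap E F s * μ) ∈
      (algebraMap E F).fieldRange) : μ * σ l ∈ (algebraMap E F).fieldRange := by
  set R := (algebraMap E F).fieldRange
  have m : ∀ s, algebraMap E F s ∈ R := fun s => ⟨s, rfl⟩
  have h3 : l * σ l ∈ R := by simpa using h2 0
  have key : ∀ s, algebraMap E F s * (μ * σ l) + algebraMap E F (τ s) * (l * σ μ) ∈ R := fun s => by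
    convert R.sub_mem (R.sub_mem (h2 s) h3) (R.mul_mem (R.mul_mem (m s) (m (τ s))) h1) using 1
    rw [map_add, map_mul, h.σ_eq]; ring
  obtain ⟨θ, hθ⟩ := h.ne
  have h4 : algebraMap E F (θ - τ θ) ≠ 0 := (map_ne_zero _).2 fun e => hθ (by linear_combination -e)
  convert R.div_mem (R.sub_mem (key θ) (R.mul_mem (m (τ θ)) (key 1))) (m (θ - τ θ)) using 1
  rw [eq_div_iff h4]; simp only [map_one, map_sub]; ring

theorem SB4.norm_mem (h : SB4 S M T φ) (hG : NG S M T φ) {v : V} {c : E} (hc0 : c ≠ 0)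
    (hc : c + τ c = 0) (hv : S.B v v = 0) (hT : HT S M v (algebraMap E F c)) {a z : W}
    (ha : T.B a a = 0) (ha0 : a ≠ 0) (hav : S.B (φ a) v = 0) (hz : T.B a z = 0) :
    S.B v (φ z) * σ (S.B v (φ z)) ∈ (algebraMap E F).fieldRange := by
  obtain ⟨g, hg, hg', e⟩ := hT.exists hv (h.tr hc)
  have h1 := h.ei ha (T.B_comm_zero hz)
  have h2 := h1.conj hg hg'
  rw [e, e, hav, mul_zero, zero_smul, add_zero] at h2
  obtain ⟨w, t, e'⟩ := hG a ha ha0 _ ((h2.sub h1).congr (w' := (algebraMap E F c * S.B (φ z) v) • v)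
    (by abel))
  have h3 := congrArg (fun x => S.B x (φ z)) e'
  simp only [PQ.B_smul_left, PQ.B_add_left, h.B_eq, hz, map_zero, mul_zero, add_zero] at h3
  refine ⟨T.B w z / c, ?_⟩
  have := (map_ne_zero (algebraMap E F)).2 hc0
  rw [map_div₀, ← h3, Bs]; field_simp

theorem SB4.rat_plane (h : SB4 S M T φ) (hG : NG S M T φ) {a y : W} (ha : T.B a a = 0) (ha0 : a ≠ 0)
    (hy : T.B y y = 0) (hya : T.B y a = 0) (hy' : y ∉ E ∙ a) {l μ : F} {c : E} (hc0 : c ≠ 0)
    (hc : c + τ c = 0) (hT : HT S M (l • φ a + μ • φ y) (algebraMap E F c)) :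
    ∃ (b : F) (w : W), l • φ a + μ • φ y = b • φ w := by
  by_cases hl : l = 0
  · exact ⟨μ, y, by simp [hl]⟩
  have hay := T.B_comm_zero hya
  obtain ⟨z₂, hz₂, e₂⟩ := h.rs.ndT.exists_perp_eq hy' 1
  obtain ⟨z₁, hz₁, e₁⟩ := h.rs.ndT.exists_perp_eq (notMem_span_swap hy' ha0) 1
  have f₂ := T.B_comm_zero (T.mem_perp_span_singleton.1 hz₂)
  have f₁ := T.B_comm_zero (T.mem_perp_span_singleton.1 hz₁)
  have hv : S.B (l • φ a + μ • φ y) (l • φ a + μ • φ y) = 0 := by simp [h.B_eq, ha, hy, hya, hay]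
  have k1 := h.norm_mem hG hc0 hc hv hT ha ha0 (by simp [h.B_eq, ha, hay]) f₂
  have k2 := fun s : E => h.norm_mem hG hc0 hc hv hT (a := y - s • a) (z := z₁ + τ s • z₂)
    (by simp [ha, hy, hya, hay]) (fun e => hy' (by
      rw [sub_eq_zero.1 e]; exact Submodule.smul_mem _ _ (Submodule.mem_span_singleton_self _)))
    (by simp [h.B_eq, h.rs.smul, ha, hy, hya, hay]) (by simp [e₁, e₂, f₁, f₂, hτ])
  simp only [map_add, PQ.B_add_left, PQ.B_add_right, PQ.B_smul_left, h.rs.smul, Bsr, h.B_eq, e₁, e₂,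
    f₁, f₂, map_one, map_zero, mul_zero, mul_one, add_zero, zero_add, h.σ_eq, hτ] at k1 k2
  have k3 := h.mem_of_norms k1 (l := l) (by simpa only [map_add] using k2)
  obtain ⟨r, hr⟩ := (algebraMap E F).fieldRange.div_mem k3 (by simpa using k2 0 :
    l * σ l ∈ (algebraMap E F).fieldRange)
  refine ⟨l, a + r • y, ?_⟩
  have := σ_ne (σ := σ) hl
  rw [map_add, h.rs.smul, hr, smul_add, smul_smul]
  congr 2; field_simp

theorem SB4.ratio_mem (h : SB4 S M T φ) (hG : NG S M T φ) {x : V} {c : E} (hc0 : c ≠ 0)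
    (hc : c + τ c = 0) (hx : S.B x x = 0) (hT : HT S M x (algebraMap E F c)) {a y : W}
    (ha : T.B a a = 0) (hy : T.B y y = 0) (hya : T.B y a = 0) (hax : S.B (φ a) x ≠ 0) :
    S.B (φ y) x / S.B (φ a) x ∈ (algebraMap E F).fieldRange := by
  set R := (algebraMap E F).fieldRange
  have m : ∀ s, algebraMap E F s ∈ R := fun s => ⟨s, rfl⟩
  have ha0 : a ≠ 0 := by rintro rfl; simp at hax
  by_cases hy' : y ∈ E ∙ a
  · obtain ⟨s, rfl⟩ := Submodule.mem_span_singleton.1 hy'
    simpa [h.rs.smul, hax] using m s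
  by_contra hγ
  set γ := S.B (φ y) x / S.B (φ a) x with hγ'
  have e0 : S.B (φ y) x = γ * S.B (φ a) x := by rw [hγ', div_mul_cancel₀ _ hax]
  set β := S.B (φ a) x with hβ
  have e1 : S.B x (φ a) = σ β := (Bs _ _ _).symm
  have e2 : S.B x (φ y) = σ γ * σ β := by rw [← Bs, e0, map_mul]
  have hay := T.B_comm_zero hya
  have hc0' := (map_ne_zero (algebraMap E F)).2 hc0
  let K := M ⊓ fixAll {φ y - γ • φ a}
  set κ := algebraMap E F c ^ 2 * (β * σ β) with hκ
  have hκ0 : κ ≠ 0 := mul_ne_zero (pow_ne_zero 2 hc0') (mul_ne_zero hax (σ_ne hax))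
  let B' := {b : F | ∃ k ∈ K, ∃ t' : F, k (φ a) = φ a ∧ k ((algebraMap E F c * β) • x) =
    (algebraMap E F c * β) • x + b • φ a + t' • (φ y - γ • φ a)}
  have key : ∀ s t : E, κ * ((algebraMap E F s + algebraMap E F t * γ) *
      σ (algebraMap E F s + algebraMap E F t * γ)) ∈ B' := fun s t => by
    have hs : T.B (s • a + t • y) (s • a + t • y) = 0 := by simp [ha, hy, hya, hay]
    obtain ⟨g, hg, -, e⟩ := (h.ht hs hc).exists (h.rs.B0 hs) (h.tr hc)
    refine ⟨g, ⟨hg, by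
      rintro _ rfl; simp [e, h.B_eq, h.rs.smul, ha, hy, hya, hay]⟩,
      κ * σ (algebraMap E F s + algebraMap E F t * γ) * algebraMap E F t, by
        simp [e, h.B_eq, h.rs.smul, ha, hay], ?_⟩
    simp only [e, hκ, map_add, map_mul, h.rs.smul, PQ.B_add_right, PQ.B_smul_left, Bsr, e1, e2]
    module
  have add : ∀ b ∈ B', ∀ b' ∈ B', b + b' ∈ B' := by
    rintro b ⟨k, hk, t, k1, k2⟩ b' ⟨k', hk', t', k1', k2'⟩
    refine ⟨k * k', K.mul_mem hk hk', t + t', by rw [LinearEquiv.mul_apply, k1', k1], ?_⟩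
    rw [LinearEquiv.mul_apply, k2', map_add, map_add, k2, map_smul, map_smul, k1, hk.2 _ rfl]
    module
  obtain ⟨s, hs⟩ : ∃ s : E, (γ + algebraMap E F s * 1) * σ (γ + algebraMap E F s * 1) ∉ R := by
    by_contra hc
    push Not at hc
    have := h.σ_mem (h.mem_of_norms (μ := 1) (by simp) hc)
    exact hγ (by rwa [one_mul, hσ] at this)
  have b0 : (0 : F) ∈ B' := by simpa using key 0 0
  have b1 : κ ∈ B' := by simpa using key 1 0
  have b2 := key s 1
  rw [map_one, one_mul, add_comm, ← mul_one (algebraMap E F s)] at b2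
  generalize (γ + algebraMap E F s * 1) * σ (γ + algebraMap E F s * 1) = ν at hs b2
  have n0 : ν ≠ 0 := by rintro rfl; exact hs R.zero_mem
  have h4 := four_le_ncard b0 b1 b2 (add _ b1 _ b2) hκ0.symm (mul_ne_zero hκ0 n0).symm
    (fun e => hs (by
      rw [show ν = -1 from mul_left_cancel₀ hκ0 (by linear_combination -e)]; exact R.neg_mem R.one_mem))
    (fun e => hs (by rw [show ν = 1 from mul_left_cancel₀ hκ0 (by linear_combination -e)]; exact R.one_mem))
    (by simp [hκ0, n0]) (by simp [hκ0])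
  obtain ⟨g, hg, -, eg⟩ := hT.exists hx (h.tr hc)
  have main : ∀ b ∈ B', b ≠ 0 → b = 1 := by
    intro b hb hb0
    obtain ⟨k, ⟨hk, hk'⟩, u, e⟩ := plane_mod (K := K) (r := φ y - γ • φ a) (fun k hk => hk.2 _ rfl) h4
      ⟨g, ⟨hg, by rintro _ rfl; simp [eg, e0, ← hβ]⟩, by rw [eg], by simp [eg, hx]⟩ hb0 hb
    have er : k (φ y - γ • φ a) = φ y - γ • φ a := hk' _ rfl
    have hki := (h.le hk).1
    have rat : ∀ s t : E, ∃ (b : F) (w : W), k (φ (s • a + t • y)) = b • φ w := fun s t => by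
      have e' : k (φ (s • a + t • y)) = ((algebraMap E F s + algebraMap E F t * γ) * (b - u * γ) -
          algebraMap E F t * γ) • φ a + ((algebraMap E F s + algebraMap E F t * γ) * u +
            algebraMap E F t) • φ y := by
        have : φ (s • a + t • y) = (algebraMap E F s + algebraMap E F t * γ) • φ a +
            algebraMap E F t • (φ y - γ • φ a) := by simp only [map_add, h.rs.smul]; module
        rw [this, map_add, map_smul, map_smul, e, er]; module
      rw [e']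
      refine h.rat_plane hG ha ha0 hy hya hy' hc0 hc ?_
      rw [← e']
      exact (h.ht (by simp [ha, hy, hya, hay]) hc).conj hk hki
    obtain ⟨l1, a', r1⟩ := rat 1 0
    obtain ⟨l2, y', r2⟩ := rat 0 1
    obtain ⟨l3, z', r3⟩ := rat 1 1
    simp only [one_smul, zero_smul, add_zero, zero_add] at r1 r2 r3
    obtain ⟨r, hr⟩ := h.rs.same_scalar ha0 hy' r1 r2 r3
    obtain ⟨z₂, hz₂, e₂⟩ := h.rs.ndT.exists_perp_eq hy' 1
    obtain ⟨z₁, hz₁, e₁⟩ := h.rs.ndT.exists_perp_eq (notMem_span_swap hy' ha0) 1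
    have f₂ := T.B_comm_zero (T.mem_perp_span_singleton.1 hz₂)
    have f₁ := T.B_comm_zero (T.mem_perp_span_singleton.1 hz₁)
    rw [map_sub, map_smul, r1, r2, hr] at er
    rw [r1] at e
    have p1 := congrArg (fun v => S.B v (φ z₁)) er
    have p2 := congrArg (fun v => S.B v (φ z₂)) er
    have p3 := congrArg (fun v => S.B v (φ z₁)) e
    have p4 := congrArg (fun v => S.B v (φ z₂)) e
    simp only [PQ.B_sub_left, PQ.B_add_left, PQ.B_smul_left, h.B_eq, e₁, e₂, f₁, f₂, map_one,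
      map_zero, mul_zero, mul_one, sub_zero, zero_sub, zero_add] at p1 p2 p3 p4
    have hl1 : l1 ≠ 0 := by rintro rfl; simp at p2
    have q : algebraMap E F (T.B a' z₂) * γ ^ 2 + algebraMap E F (T.B a' z₁ - r * T.B y' z₂) * γ +
        algebraMap E F (-(r * T.B y' z₁)) = 0 := by
      apply mul_left_cancel₀ hl1
      simp only [map_sub, map_mul, map_neg]
      linear_combination -p1 - γ * p2
    have q1 : T.B a' z₂ = 0 := by
      by_contra hq; exact hγ (h.quad γ _ _ _ hq q)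
    have q2 : T.B a' z₁ - r * T.B y' z₂ = 0 := by
      by_contra hq
      have := (map_ne_zero (algebraMap E F)).2 hq
      refine hγ ⟨r * T.B y' z₁ / (T.B a' z₁ - r * T.B y' z₂), ?_⟩
      rw [map_div₀, div_eq_iff this]
      rw [q1, map_neg] at q
      linear_combination -q + (γ ^ 2) * map_zero (algebraMap E F)
    rw [sub_eq_zero] at q2
    rw [q1, map_zero] at p2 p4
    rw [q2, map_mul] at p3
    linear_combination -p3 + p2 - γ * p4
  have := main _ b2 (mul_ne_zero hκ0 n0)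
  rw [main _ b1 hκ0, one_mul] at this
  exact hs (this ▸ R.one_mem)

theorem SB4.orbit_rat (h : SB4 S M T φ) (hG : NG S M T φ) {g : V ≃ₗ[F] V} (hg : g ∈ M) {u₀ : W}
    (hu₀ : T.B u₀ u₀ = 0) : ∃ (b : F) (w : W), g (φ u₀) = b • φ w := by
  set R := (algebraMap E F).fieldRange
  have hgi := (h.le hg).1
  have hT := h.rs.ndT
  have h6 := h.four
  obtain ⟨c, hc0, hc⟩ := exists_tr_zero h.ne hτ
  have hx : S.B (g (φ u₀)) (g (φ u₀)) = 0 := by rw [PQ.B_isom hgi, h.rs.B0 hu₀]
  have hx' := (h.ht hu₀ hc).conj hg hgi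
  generalize g (φ u₀) = x at hx hx'
  by_cases h0 : x = 0
  · exact ⟨0, 0, by simp [h0]⟩
  let Y : F → Submodule E W := fun β =>
    { carrier := {y | S.B (φ y) x * β ∈ R}
      zero_mem' := by simp
      add_mem' := fun {a b} ha hb => by simpa [add_mul] using R.add_mem ha hb
      smul_mem' := fun c y hy => by
        simpa [h.rs.smul, mul_assoc] using R.mul_mem (⟨c, rfl⟩ : algebraMap E F c ∈ R) hy }
  obtain ⟨a, ha, hax⟩ : ∃ a, T.B a a = 0 ∧ S.B (φ a) x ≠ 0 := by
    by_contra hc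
    push Not at hc
    let Z : Submodule E W :=
      { carrier := {y | S.B (φ y) x = 0}
        zero_mem' := by simp
        add_mem' := fun {a b} ha hb => by simpa [add_mul] using congrArg₂ (· + ·) ha hb
        smul_mem' := fun c y hy => by simpa [h.rs.smul] using Or.inr hy }
    exact h0 (h.rs.eq_zero fun y => h.sp.le_of_sing (T.nondegOn_top.2 hT) (by rw [finrank_top]; omega)
      (Y := Z) (fun y _ hy => hc y hy.B_self) trivial)
  have key : ∀ a', T.B a' a' = 0 → S.B (φ a') x ≠ 0 → a' ∈ Y (S.B (φ a) x)⁻¹ → ∀ y, T.B y a' = 0 →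
      y ∈ Y (S.B (φ a) x)⁻¹ := fun a' h1 h2 h3 y hy =>
    h.sp.perp_le hT (by omega) (sing h1) (by rintro rfl; simp at h2) (fun z hz hz' => by
      have := R.mul_mem (h.ratio_mem hG hc0 hc hx hx' h1 hz.B_self hz' h2) h3
      rwa [← mul_assoc, div_mul_cancel₀ _ h2] at this) hy
  have m1 : a ∈ Y (S.B (φ a) x)⁻¹ := show _ ∈ R by rw [mul_inv_cancel₀ hax]; exact R.one_mem
  obtain ⟨a', h1, h2, h3, h4⟩ : ∃ a', T.B a' a' = 0 ∧ S.B (φ a') x ≠ 0 ∧ T.B a' a = 0 ∧ a' ∉ E ∙ a := by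
    obtain ⟨y, y1, y2, y3⟩ := h.exists_perp a
    by_cases hy : S.B (φ y) x = 0
    · refine ⟨y + a, by simp [y1, y2, ha, T.B_comm_zero y2], by simpa [hy] using hax, by simp [y2, ha],
        fun hm => y3 ?_⟩
      simpa using Submodule.sub_mem _ hm (Submodule.mem_span_singleton_self a)
    · exact ⟨y, y1, hy, y2, y3⟩
  obtain ⟨w, hw⟩ := h.rs.rat (v := σ (S.B (φ a) x)⁻¹ • x) fun y => by
    obtain ⟨p, p', e1, e2, rfl⟩ := mem_sup_perp hT h4 (by rintro rfl; simp at hax) y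
    obtain ⟨r, hr⟩ := (Y _).add_mem (key a ha hax m1 p e1) (key a' h1 h2 (key a ha hax m1 a' h3) p' e2)
    exact ⟨r, by rw [Bsr, hσ, one_mul, hr, mul_comm]⟩
  refine ⟨σ (S.B (φ a) x), w, ?_⟩
  rw [← hw, smul_smul, ← map_mul, mul_inv_cancel₀ hax, map_one, one_smul]

theorem SB4.max (hne : ∃ a, σ a ≠ a) (h : SB4 S M T φ) : (∀ g ∈ M, NR φ g) ∨ sisom S ≤ M := by
  by_cases hG : NG S M T φ
  · exact Or.inl fun g hg => h.rs.nr_of_sing h.sp (by have := h.four; omega)
      fun y hy => h.orbit_rat hG hg hy.B_self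
  · unfold NG at hG
    push Not at hG
    obtain ⟨u, h1, h2, v, h3, h4⟩ := hG
    exact Or.inr (h.top_of_ei hne h1 h2 h3 h4)

end abstract

variable {F : Type*} [Field F] [Fintype F] {q : ℕ} (hF : Fintype.card F = q ^ 2) {n : ℕ}

include hF in
theorem geo_sub4 (hn : 4 ≤ n) (F₀ : Subfield F) (r : ℕ) (hr : r.Prime) (hro : Odd r)
    (hcard : Fintype.card F = Nat.card F₀ ^ r) (P : GL (Fin n) F)
    (hP : Geo.IsFormRationalStructure (hermForm n F q) F₀ 1 P) :
    Geo.IsMaximalIn (GU n F q ⊓ Geo.specialLinear (Fin n) F)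
      (Geo.subfieldSubgroup F₀ P ⊓ (GU n F q ⊓ Geo.specialLinear (Fin n) F)) := by
  let τ : F₀ →+* F₀ := ((frobQ hF : F →+* F).comp F₀.subtype).codRestrict F₀ fun x => F₀.pow_mem x.2 q
  have hτ' : ∀ c, (frobQ hF : F →+* F) (algebraMap F₀ F c) = algebraMap F₀ F (τ c) := fun _ => rfl
  have hσ := unit_invol (isUnitaryForm_hermForm hF n)
  have hτ : ∀ a, τ (τ a) = a := fun a => Subtype.ext (hσ a)
  have hrk := finrank_subfield_of_card hcard
  have hs := fun A => (Subalgebra.isSimpleOrder_of_finrank_prime F₀ F (hrk ▸ hr)).eq_bot_or_eq_top A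
  have hq := quad_of_odd (E := F₀) (F := F) (hrk ▸ hro)
  have hne : ∃ a, τ a ≠ a := by
    by_contra hc
    push Not at hc
    obtain ⟨θ, hθ⟩ := std_ne hF
    let A : Subalgebra F₀ F :=
      { carrier := {x | (frobQ hF : F →+* F) x = x}
        mul_mem' := fun {a b} ha hb => by
          change _ = _ at ha hb ⊢; rw [map_mul, ha, hb]
        add_mem' := fun {a b} ha hb => by
          change _ = _ at ha hb ⊢; rw [map_add, ha, hb]
        algebraMap_mem' := fun c => by change _ = _; rw [hτ', hc] }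
    rcases hs A with e | e
    · have m1 : θ + (frobQ hF : F →+* F) θ ∈ A := by
        change _ = _; rw [map_add, hσ, add_comm]
      have m2 : θ * (frobQ hF : F →+* F) θ ∈ A := by
        change _ = _; rw [map_mul, hσ, mul_comm]
      rw [e, Algebra.mem_bot] at m1 m2
      obtain ⟨b, hb⟩ := m1
      obtain ⟨c, hc'⟩ := m2
      obtain ⟨t, rfl⟩ := hq θ 1 (-b) c one_ne_zero (by rw [map_neg, hb, hc', map_one]; ring)
      exact hθ (by rw [hτ', hc])
    · exact hθ (show θ ∈ A from e ▸ Algebra.mem_top)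
  let f : (Fin n → F₀) → (Fin n → F₀) → F₀ := fun x y =>
    ⟨(std hF n).B (ratMap F₀ P x) (ratMap F₀ P y), by
      have := hP _ _ (fun i => (x i).2) (fun i => (y i).2)
      rwa [one_mul] at this⟩
  have hf : ∀ x y, (f x y : F) = (std hF n).B (ratMap F₀ P x) (ratMap F₀ P y) := fun _ _ => rfl
  obtain ⟨θ, hθ⟩ := exists_tr_one hne hτ
  let T : PQ (FP.unit τ hτ) (Fin n → F₀) := PQ.ofHerm τ hτ θ hθ f
    (fun x y v => Subtype.ext (by rw [AddMemClass.coe_add, hf, hf, hf, map_add, PQ.B_add_left]))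
    (fun c x v => Subtype.ext (by rw [MulMemClass.coe_mul, hf, hf, ratMap_smul, PQ.B_smul_left]; rfl))
    (fun v w => Subtype.ext (Bs (std hF n) _ _).symm)
  have h : RS (std hF n) T (ratMap F₀ P) 1 :=
    ⟨ratMap_smul F₀ P, fun x y => by rw [one_mul]; rfl, ratMap_span F₀ P, ratMap_inj F₀ P,
      std_nondeg hF n, one_ne_zero, hτ'⟩
  exact max_of hF _ (mem_subfield_iff F₀ P)
    (SU_not_le_subfieldSubgroup hF (by omega) (ne_top_of_card hr.two_le hcard) P)
    fun M h1 h3 => SB4.max (std_ne hF) ⟨h, hne, hs, hq, by simpa using hn, h1, h3⟩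

end Cfsg.Agent.H6.SU
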