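import Cfsg.Agent.H6.SUOrth
import Cfsg.Agent.H6.SU4A
import Cfsg.Agent.H6.SU4B
import Cfsg.Agent.H9.FClass

/-!
Maximality of the normaliser of `SO_n(q)` in `SU_n(q)`, `q ≥ 5` odd, `n ≥ 4`.
-/

set_option autoImplicit false
set_option linter.unusedSectionVars false
set_option linter.unusedVariables false

namespace Cfsg.Agent.H6.SU

open Module Cfsg.Agent.Form Cfsg.Agent.H7
open scoped MatrixGroups Matrix

section abstract

variable {E : Type*} [Field E] {W : Type*} [AddCommGroup W] [Module E W]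
  {T : PQ (FP.orth E) W} [FiniteDimensional E W]
  {F : Type*} [Field F] {σ : F →+* F} {hσ : ∀ a, σ (σ a) = a}
  {V : Type*} [AddCommGroup V] [Module F V] {S : PQ (FP.unit σ hσ) V} {M : Subgroup (V ≃ₗ[F] V)}
  [Algebra E F] {φ : W →+ V} [FiniteDimensional F V] [Finite F] [Finite E]

/-- the data of an orthogonal rational structure whose normaliser lies in `M` -/
structure OR4 (S : PQ (FP.unit σ hσ) V) (M : Subgroup (V ≃ₗ[F] V)) (T : PQ (FP.orth E) W)
    (φ : W →+ V) : Prop where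
  rs : RS S T φ 1
  real : ∀ a, σ a = a → ∃ r, a = algebraMap E F r
  two : (2 : F) ≠ 0
  four : 4 ≤ finrank E W
  le : M ≤ sisom S
  mem : ∀ g ∈ sisom S, NR φ g → g ∈ M

theorem OR4.two' (h : OR4 S M T φ) : (2 : E) ≠ 0 := fun h0 => h.two (by
  rw [← map_ofNat (algebraMap E F) 2, h0, map_zero])

theorem OR4.B_eq (h : OR4 S M T φ) (x y : W) : S.B (φ x) (φ y) = algebraMap E F (T.B x y) := by
  rw [h.rs.B_eq, one_mul]

theorem OR4.σ_eq (h : OR4 S M T φ) (c : E) : σ (algebraMap E F c) = algebraMap E F c := h.rs.σ_eq c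

theorem OR4.lift (h : OR4 S M T φ) {u y : W} {q : E} (hq : T.EichOK u y q) :
    HE S M (φ u) (φ y) (algebraMap E F q) ∧ ∀ (h' : S.EichOK (φ u) (φ y) (algebraMap E F q)) w,
      S.eich _ _ _ h' (φ w) = φ (T.eich u y q hq w) := by
  have e : ∀ (h' : S.EichOK (φ u) (φ y) (algebraMap E F q)) w,
      S.eich _ _ _ h' (φ w) = φ (T.eich u y q hq w) := fun h' w => by
    rw [eich_ap, PQ.eich_apply]
    simp [h.rs.smul, h.B_eq]
  have h1 : S.EichOK (φ u) (φ y) (algebraMap E F q) :=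
    eichOK_iff.2 ⟨h.rs.sing hq.sing, h.rs.B0 hq.perp, by
      rw [h.σ_eq, h.B_eq, T.B_self_of hq.qw]; simp⟩
  exact ⟨⟨h1, h.mem _ (eich_mem_sisom S _ _ _ h1) (h.rs.nr_of_map fun w => ⟨_, e h1 w⟩)⟩, e⟩

theorem OR4.he (h : OR4 S M T φ) {u y : W} (hu : T.Sing u) (hy : T.B y u = 0) :
    HE S M (φ u) (φ y) (algebraMap E F (T.Q y)) := (h.lift ⟨hu, hy, by simp⟩).1

theorem OR4.ctr_all (h : OR4 S M T φ) {x y : W} (hx : T.Sing x) (hx0 : x ≠ 0) (hc : Ctr S M (φ x))
    (hy : T.Sing y) : Ctr S M (φ y) := by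
  by_cases hy0 : y = 0
  · rw [hy0, map_zero]; exact ctr_zero
  obtain ⟨d, hd, h1, h2⟩ := orth_exists_sing_ne_ne h.two' h.rs.ndT (by have := h.four; omega) hx hx0 hy0
  obtain ⟨w, q, hE, -, e⟩ := exists_eich_map T hd (x := (T.B y d / T.B x d) • x) (y := y)
    (by simp [h1]) (by simpa [h1] using h2) (sub_mem hy (hx.smul _))
  obtain ⟨k1, k2⟩ := h.lift hE
  rw [← e, ← k2 k1.1, h.rs.smul]
  exact (hc.smul _).map k1.2 (S.eich_mem _ _ _ _)

theorem OR4.top_of_ctr (hne : ∃ a, σ a ≠ a) (h3 : ∃ a : F, σ a = a ∧ a ≠ 0 ∧ a ≠ 1) (h : OR4 S M T φ)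
    {e : W} (he : T.Sing e) (he0 : e ≠ 0) (hc : Ctr S M (φ e)) : sisom S ≤ M := by
  have h6 := h.four
  have hT := h.rs.ndT
  have hall := fun y => h.ctr_all he he0 hc (y := y)
  obtain ⟨f, hf, hef⟩ := hT.exists_hyperbolic he he0
  have hfe : T.B f e = 1 := by rw [T.orth_B_swap, hef]
  have hN := T.nondegOn_span_pair he hf (by rw [hef]; exact one_ne_zero)
  have hd := T.finrank_span_pair_of_hyperbolic he (w := f) (by rw [hef]; exact one_ne_zero)
  have hd' := hT.finrank_perp (Submodule.span E {e, f})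
  obtain ⟨w, hw, hww⟩ := exists_B_self_ne_orth h.two' T (hN.perp hT) (by
    intro h; rw [h, finrank_bot] at hd'; omega)
  have a1 := T.mem_perp_span.1 hw e (by simp)
  have a2 := T.mem_perp_span.1 hw f (by simp)
  have b1 : S.B (φ e) (φ f) ≠ 0 := by rw [h.B_eq, hef, map_one]; exact one_ne_zero
  have b2 : S.B (φ w) (φ w) ≠ 0 := by rwa [Ne, h.rs.B0_iff]
  have b3 : φ w ∈ S.perp (Submodule.span F {φ e, φ f}) := S.mem_perp_span.2 (by
    rintro x (rfl | rfl)
    exacts [h.rs.B0 a1, h.rs.B0 a2])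
  have n1 : φ w ∉ Submodule.span F {φ e, φ f} := fun hm => b2 (b3 _ hm)
  have hU := (S.nondegOn_span_pair (sing (h.rs.sing he)) (sing (h.rs.sing hf)) b1).sup
    (S.nondegOn_span_singleton b2) (by rwa [Submodule.span_singleton_le_iff_mem])
  have hd3 : finrank F (Submodule.span F {φ e, φ f} ⊔ F ∙ φ w : Submodule F V) = 3 := by
    have h1 := finrank_sup_span_le (Submodule.span F {φ e, φ f}) (φ w)
    have h2 := Submodule.finrank_lt_finrank_of_lt (s := Submodule.span F {φ e, φ f})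
      (t := Submodule.span F {φ e, φ f} ⊔ F ∙ φ w) (lt_of_le_of_ne le_sup_left fun h =>
        n1 (h ▸ Submodule.mem_sup_right (Submodule.mem_span_singleton_self _)))
    rw [S.finrank_span_pair_of_hyperbolic (sing (h.rs.sing he)) b1] at h1 h2; omega
  have m1 : φ e ∈ Submodule.span F {φ e, φ f} := Submodule.subset_span (by simp)
  have m2 : φ f ∈ Submodule.span F {φ e, φ f} := Submodule.subset_span (by simp)
  have e1 : φ (f + w - T.Q w • e) = (φ f - algebraMap E F (T.Q w) • φ e) + φ w := by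
    rw [map_sub, map_add, h.rs.smul]; abel
  have m3 := Submodule.sub_mem _ m2 (Submodule.smul_mem _ (algebraMap E F (T.Q w)) m1)
  have hF := full_three hne hU hd3 (Submodule.mem_sup_left m1) (Submodule.mem_sup_left m2)
    (x := φ (f + w - T.Q w • e))
    (by rw [e1]; exact Submodule.add_mem_sup m3 (Submodule.mem_span_singleton_self _))
    hc (hall f hf) (hall _ (by
      rw [T.orth_sing, T.orth_Q_sub, T.orth_Q_add, T.orth_Q_smul, (T.orth_sing _).1 he,
        (T.orth_sing _).1 hf]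
      simp [T.B_comm_zero a2, a1, hfe])) b1 (fun hm => n1 (by
      rw [e1] at hm; simpa using Submodule.sub_mem _ hm m3))
  obtain ⟨Y, y1, y2, y3⟩ := core hne hU hd3.ge (hF.ef hne h3 hU)
  have key : ∀ x y, φ x ∈ Y → T.Sing y → T.B y x ≠ 0 → φ y ∈ Y := fun x y hx hy hyx =>
    (y3 _ (hall y hy)).resolve_right fun hm => hyx (h.rs.B0_iff.1 (hm _ hx))
  let Y₀ : Submodule E W :=
    { carrier := {y | φ y ∈ Y}
      add_mem' := fun {a b} ha hb => by
        change φ (a + b) ∈ Y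
        rw [map_add]; exact Y.add_mem ha hb
      zero_mem' := by change φ 0 ∈ Y; simp
      smul_mem' := fun c x hx => by
        change φ (c • x) ∈ Y
        rw [h.rs.smul]; exact Y.smul_mem _ hx }
  have hY : ⊤ ≤ Y₀ := (sp_orth T).le_of_sing (T.nondegOn_top.2 hT) (by rw [finrank_top]; omega) (by
    intro y _ hy
    by_cases hy0 : y = 0
    · rw [hy0]; exact Y₀.zero_mem
    obtain ⟨d, hd, h1, h2⟩ := orth_exists_sing_ne_ne h.two' hT (by omega) he he0 hy0
    exact key d y (key e d (y1 (Submodule.mem_sup_left m1)) hd fun h => h1 (T.B_comm_zero h)) hy h2)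
  refine Full.sisom_le hne h.rs.nd (by rw [h.rs.finrank_eq]; omega) (y2.mono fun v _ => ?_)
  exact h.rs.span Y (fun w => hY Submodule.mem_top) v

theorem OR4.rat_of_ei (h : OR4 S M T φ) {u : W} (hu : T.Sing u) (hu0 : u ≠ 0) (hc : ¬ Ctr S M (φ u))
    {v : V} (hv : Ei S M (φ u) v) : ∃ (w : W) (t : F), v = φ w + t • φ u := by
  refine h.rs.rat_mod hu.B_self hu0 fun y hy => ?_
  simp only [one_mul]
  refine h.real _ ?_
  by_contra h1
  refine hc (ctr_iff.2 ⟨hv.dd, fun c hc => ?_⟩)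
  have h2 : S.B (φ y) v - σ (S.B (φ y) v) ≠ 0 := fun h => h1 (by linear_combination -h)
  have h3 : σ (S.B (φ y) v) - S.B (φ y) v ≠ 0 := fun h => h1 (by linear_combination h)
  obtain ⟨r, hr⟩ := h.real (c / (S.B (φ y) v - σ (S.B (φ y) v))) (by
    rw [map_div₀, map_sub, hσ, show σ c = -c by linear_combination hc]; field_simp; ring)
  have := (h.he hu (y := r • y) (by simp [hy])).ei.comm hv
  convert this using 1
  rw [h.rs.smul, PQ.B_smul_left, Bsr, h.σ_eq, ← hr, ← Bs S (φ y) v]; field_simp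

theorem RS.eq_smul_of_perp {P : FP E} {T : PQ P W} {κ : F} (h : RS S T φ κ) {u : W} (hu0 : u ≠ 0) {v : V}
    (hv : ∀ y, T.B y u = 0 → S.B (φ y) v = 0) : ∃ t : F, v = t • φ u := by
  obtain ⟨p, hp⟩ := h.ndT.exists_eq hu0 1
  refine ⟨σ (S.B (φ p) v / κ), sub_eq_zero.1 (h.eq_zero fun y => ?_)⟩
  have e1 := hv (y - T.B y u • p) (by simp [hp])
  rw [map_sub, h.smul, PQ.B_sub_left, PQ.B_smul_left] at e1
  rw [PQ.B_sub_right, Bsr, hσ, h.B_eq y u]
  have := h.κ_ne
  field_simp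
  linear_combination e1

theorem OR4.map (h : OR4 S M T φ) {g : V ≃ₗ[F] V} (hg : g ∈ M) :
    OR4 S M T ((g : V →ₗ[F] V).toAddMonoidHom.comp φ) := by
  have hgs := h.le hg
  refine ⟨⟨fun c w => by simp [h.rs.smul], fun x y => by simp [PQ.B_isom hgs.1, h.rs.B_eq],
    fun N hN v => ?_, g.injective.comp h.rs.inj, h.rs.nd, h.rs.κ_ne, h.rs.σ_eq⟩, h.real, h.two, h.four,
    h.le, fun k hk ⟨c, hc, e⟩ => ?_⟩
  · simpa using h.rs.span (N.comap (g : V →ₗ[F] V)) hN (g.symm v)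
  · have := h.mem (g⁻¹ * k * g) (mul_mem (mul_mem (inv_mem hgs) hk) hgs) ⟨c, hc, fun y => by
      obtain ⟨w, hw⟩ := e y
      refine ⟨w, g.injective ?_⟩
      simpa using hw⟩
    simpa [mul_assoc] using mul_mem (mul_mem hg this) (inv_mem hg)

/-- a non-trivial transvection at a rational singular point gives all of them -/
theorem OR4.eq_zero_of_ht (hne : ∃ a, σ a ≠ a) (h : OR4 S M T φ) {u : W} (hu : T.Sing u) (hu0 : u ≠ 0)
    (hc : ¬ Ctr S M (φ u)) {c : F} (hc' : c + σ c = 0) (hT : HT S M (φ u) c) : c = 0 := by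
  by_contra h0
  have uu := h.rs.sing hu
  obtain ⟨f, hf, huf⟩ := h.rs.ndT.exists_hyperbolic hu hu0
  have cs : ∀ v, S.B v v = 0 → Ctr S (sisom S) v := fun v hv =>
    ⟨sing hv, fun c hc => tau_mem_sisom S (sing hv) c hc⟩
  have sq : ∀ a : E, HT S M (φ u) (algebraMap E F (a ^ 2) * c) := by
    intro a
    by_cases ha : a = 0
    · simpa [ha] using ht_zero (φ u)
    obtain ⟨g, g1, g2, g3⟩ := exists_torus hne (cs _ uu) (cs _ (h.rs.sing hf)) (d := φ u) (e := φ f)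
      (by rw [h.B_eq, huf, map_one]) (h.σ_eq a) ((map_ne_zero _).2 ha)
    have m := h.mem g g1 (h.rs.nr_of_map fun w =>
      ⟨w + ((a - 1) * T.B w f) • u + ((a⁻¹ - 1) * T.B w u) • f, by simp [g3, h.rs.smul, h.B_eq]⟩)
    have := hT.conj m g2
    rw [show g (φ u) = algebraMap E F a • φ u by
      simp [g3, h.B_eq, huf, hu.B_self, sub_smul]] at this
    convert this.smul using 1
    rw [h.σ_eq, map_pow, sq]
  refine hc (ctr_iff.2 ⟨uu, fun c' hc'' => ?_⟩)
  obtain ⟨r, hr⟩ := h.real (c' / c) (by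
    rw [map_div₀, show σ c' = -c' by linear_combination hc'', show σ c = -c by linear_combination hc',
      neg_div_neg_eq])
  obtain ⟨a, b, rfl⟩ := exists_sq_sub r
  convert (sq a).sub (sq b) uu using 1
  rw [← sub_mul, ← map_sub, ← hr, div_mul_cancel₀ _ h0]

theorem OR4.rat_of_he (hne : ∃ a, σ a ≠ a) (h : OR4 S M T φ) {u : W} (hu : T.Sing u) (hu0 : u ≠ 0)
    (hc : ¬ Ctr S M (φ u)) {z : V} {q : F} (hq : σ q = q) (hz : HE S M (φ u) z q) : ∃ w, z = φ w := by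
  obtain ⟨w, t, rfl⟩ := h.rat_of_ei hu hu0 hc hz.ei
  have uu := h.rs.sing hu
  have h1 : T.B w u = 0 := h.rs.B0_iff.1 (by simpa [uu] using hz.wd)
  have h2 := (h.he hu h1).add (he_self uu t)
  have h3 := h.eq_zero_of_ht hne hu hu0 hc (by
    have e1 := hz.tr
    have e2 := h2.tr
    rw [map_sub]; linear_combination e2 - e1) (hz.ht_sub h2)
  rw [PQ.B_smul_left, h.rs.B0 (T.B_comm_zero h1)] at h3
  have h4 := congrArg σ h3
  simp only [map_sub, map_add, map_mul, hσ, hq, h.σ_eq, map_zero] at h4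
  obtain ⟨r, rfl⟩ := h.real t (mul_left_cancel₀ h.two (by linear_combination h3 - h4))
  exact ⟨w + r • u, by rw [map_add, h.rs.smul]⟩

theorem OR4.refl2 (h : OR4 S M T φ) {c d : W} (hc : T.B c c ≠ 0) (hd : T.B d d ≠ 0) :
    ∃ k ∈ M, k ∈ S.isom ∧ ∀ x, k x = x - (2 * S.B x (φ d) / S.B (φ d) (φ d)) • φ d -
      (2 * S.B (x - (2 * S.B x (φ d) / S.B (φ d) (φ d)) • φ d) (φ c) / S.B (φ c) (φ c)) • φ c := by
  have key : ∀ c, T.B c c ≠ 0 → ∃ g ∈ S.isom, (LinearEquiv.det g : F) = -1 ∧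
      (∀ x, g x = x - (2 * S.B x (φ c) / S.B (φ c) (φ c)) • φ c) ∧ ∀ w, ∃ w', g (φ w) = φ w' := by
    intro c hc
    obtain ⟨g, g1, g2, g3⟩ := exists_refl S (z := φ c) (by rwa [Ne, h.rs.B0_iff]) (δ := -1) (by simp)
    have e : ∀ x, g x = x - (2 * S.B x (φ c) / S.B (φ c) (φ c)) • φ c := fun x => by
      rw [g3]; match_scalars <;> ring
    exact ⟨g, g1, g2, e, fun w => ⟨w - (2 * T.B w c / T.B c c) • c, by
      simp [e, h.rs.smul, h.B_eq, map_ofNat]⟩⟩
  obtain ⟨g, g1, g2, g3, g4⟩ := key c hc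
  obtain ⟨k, k1, k2, k3, k4⟩ := key d hd
  refine ⟨g * k, h.mem _ ⟨mul_mem g1 k1, Units.ext (by
    rw [map_mul, Units.val_mul, g2, k2]; simp)⟩ (h.rs.nr_of_map fun w => ?_), mul_mem g1 k1,
    fun x => by rw [LinearEquiv.mul_apply, g3, k3]⟩
  obtain ⟨w', e1⟩ := k4 w
  obtain ⟨w'', e2⟩ := g4 w'
  exact ⟨w'', by rw [LinearEquiv.mul_apply, e1, e2]⟩

theorem OR4.core2 (hne : ∃ a, σ a ≠ a) (h5 : ∃ s : E, s ≠ 0 ∧ s ^ 2 ≠ 1) (h : OR4 S M T φ)
    (hc : ∀ u, T.Sing u → u ≠ 0 → ¬ Ctr S M (φ u)) {u f : W} (hu : T.Sing u) (hf : T.Sing f)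
    (huf : T.B u f = 1) {k : V ≃ₗ[F] V} (hk : k ∈ M) {a b : F} (hb : b + σ b = 0) (hb0 : b ≠ 0)
    (e1 : k (φ u) = a • φ u + b • φ f) (e2 : ∀ y, T.B y u = 0 → T.B y f = 0 → k (φ y) = φ y) :
    False := by
  have hki := (h.le hk).1
  have hT := h.rs.ndT
  have hfu : T.B f u = 1 := by rw [T.orth_B_swap, huf]
  have hf0 : f ≠ 0 := by rintro rfl; simp at huf
  have uu := h.rs.sing hu
  have ff := h.rs.sing hf
  have uf : S.B (φ u) (φ f) = 1 := by rw [h.B_eq, huf, map_one]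
  have fu : S.B (φ f) (φ u) = 1 := by rw [h.B_eq, hfu, map_one]
  have hσb : σ b = -b := by linear_combination hb
  have hN := T.nondegOn_span_pair hu hf (by rw [huf]; exact one_ne_zero)
  have hd := T.finrank_span_pair_of_hyperbolic hu (w := f) (by rw [huf]; exact one_ne_zero)
  have hd' := hT.finrank_perp (Submodule.span E {u, f})
  have val : ∀ c : E, ∃ y, T.B y u = 0 ∧ T.B y f = 0 ∧ T.Q y = c := fun c => by
    obtain ⟨y, hy, e⟩ := H9.FClass.exists_value (hN.perp hT) (by have := h.four; omega) c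
    exact ⟨y, T.mem_perp_span.1 hy u (by simp), T.mem_perp_span.1 hy f (by simp), e⟩
  have hE : ∀ y, T.B y u = 0 → T.B y f = 0 →
      HE S M (a • φ u + b • φ f) (φ y) (algebraMap E F (T.Q y)) := fun y h1 h2 => by
    have := (h.he hu h1).conj hk hki
    rwa [e1, e2 y h1 h2] at this
  by_cases ha : a = 0
  · obtain ⟨y, y1, y2, y3⟩ := val 1
    have k1 := hE y y1 y2
    rw [ha, zero_smul, zero_add] at k1
    have k2 := (k1.ei.smul_left hb0).comm (h.he hf y2).ei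
    have k3 : S.B (φ y) (φ y) = 2 := by rw [h.B_eq, T.orth_B_self, y3, mul_one, map_ofNat]
    rw [PQ.B_smul_left, Bsr, hσ, k3, hσb] at k2
    have := h.eq_zero_of_ht hne hf hf0 (hc f hf hf0) (by
      simp only [map_sub, map_mul, map_neg, hσb, map_ofNat]; ring) k2
    exact mul_ne_zero (mul_ne_zero h.two h.two) hb0 (by linear_combination -this)
  have har : σ a = a := by
    have := PQ.B_isom hki (φ u) (φ u)
    simp only [e1, PQ.B_add_left, PQ.B_add_right, PQ.B_smul_left, Bsr, uu, ff, uf, fu, hσb] at this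
    exact mul_left_cancel₀ hb0 (by linear_combination this)
  obtain ⟨r, rfl⟩ := h.real a har
  have hr : r ≠ 0 := by rintro rfl; simp at ha
  set c := b / algebraMap E F r with hcdef
  have hc0 : c ≠ 0 := div_ne_zero hb0 ha
  have hσc : σ c = -c := by rw [hcdef, map_div₀, hσb, h.σ_eq, neg_div]
  have tok : S.TauOK (φ f) c := tauOK_of ff (by rw [hσc]; ring)
  set t := S.tau (φ f) c tok with ht
  have ti : t ∈ S.isom := S.tau_mem _ _ _
  have t1 : ∀ x, t x = x + (c * S.B x (φ f)) • φ f := S.tau_apply _ _ _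
  let K : Subgroup (V ≃ₗ[F] V) := M ⊓ M.comap (MulAut.conj t).toMonoidHom
  have key : ∀ d w q, HE S M d w q → HE S M (t d) (t w) q → HE S K d w q := by
    intro d w q h1 h2
    refine ⟨h1.1, h1.2, ?_⟩
    change t * _ * t⁻¹ ∈ M
    rw [S.conj_eich _ _ _ h1.1 ti]
    exact h2.2
  have K1 : ∀ y, T.B y f = 0 → HE S K (φ f) (φ y) (algebraMap E F (T.Q y)) := fun y hy =>
    key _ _ _ (h.he hf hy) (by simpa [t1, ff, h.rs.B0 hy] using h.he hf hy)
  have K2 : ∀ y, T.B y u = 0 → T.B y f = 0 → HE S K (φ u) (φ y) (algebraMap E F (T.Q y)) := by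
    intro y h1 h2
    refine key _ _ _ (h.he hu h1) ?_
    have k1 := hE (r⁻¹ • y) (by simp [h1]) (by simp [h2])
    have k2 := HE.smul_left' (a := (algebraMap E F r)⁻¹) (w := φ y) (q := algebraMap E F (T.Q y))
      (k1.congr rfl (by rw [h.rs.smul, map_inv₀, map_inv₀, h.σ_eq]) (by
        rw [T.orth_Q_smul, map_inv₀, h.σ_eq, map_mul, map_pow, map_inv₀, sq]))
      (by simp [h.rs.B0 h1, h.rs.B0 h2]) (h.he hu h1).tr
    refine k2.congr ?_ (by simp [t1, h.rs.B0 h2]) rfl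
    rw [t1, uf, hcdef]
    match_scalars <;> field_simp
  have m : ∀ y, T.B y u = 0 → T.B y f = 0 → T.Q y ≠ 0 →
      ∃ g ∈ K, g (φ f) = (-algebraMap E F (T.Q y)) • φ u := by
    intro y h1 h2 h3
    obtain ⟨g, g1, -, g2⟩ := (K2 y h1 h2).exists
    obtain ⟨l, l1, -, l2⟩ := (K1 ((T.Q y)⁻¹ • y) (by simp [h2])).exists
    refine ⟨l * g, K.mul_mem l1 g1, ?_⟩
    have h4 := (map_ne_zero (algebraMap E F)).2 h3
    rw [LinearEquiv.mul_apply, g2, l2]
    simp only [PQ.B_add_left, PQ.B_sub_left, PQ.B_smul_left, Bsr, h.rs.smul, h.B_eq, h.σ_eq, huf, hfu,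
      hf.B_self, h2, T.B_comm_zero h1, T.B_comm_zero h2, T.orth_B_self y, T.orth_Q_smul, map_mul,
      map_pow, map_inv₀, map_ofNat, map_zero, map_one]
    match_scalars <;> field_simp <;> ring
  obtain ⟨s, hs0, hs⟩ := h5
  obtain ⟨y, y1, y2, y3⟩ := val 1
  obtain ⟨z, z1, z2, z3⟩ := val s
  obtain ⟨g, g1, g2⟩ := m y y1 y2 (by rw [y3]; exact one_ne_zero)
  obtain ⟨l, l1, l2⟩ := m z z1 z2 (by rwa [z3])
  have n1 : g⁻¹ * l ∈ K := K.mul_mem (K.inv_mem g1) l1
  have n2 : (g⁻¹ * l) (φ f) = algebraMap E F s • φ f := by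
    apply g.injective
    rw [map_smul, g2, y3, LinearEquiv.mul_apply, l2, z3]; simp
  generalize g⁻¹ * l = p at n1 n2
  have pi := (h.le n1.1).1
  have n3 : t * p * t⁻¹ * p⁻¹ ∈ M := M.mul_mem n1.2 (M.inv_mem n1.1)
  have n4 : HT S M (φ f) (c * (1 - algebraMap E F s ^ 2)) := by
    refine ⟨_, n3, fun x => ?_⟩
    rw [show t * p * t⁻¹ * p⁻¹ = t * (p * t⁻¹ * p⁻¹) by group, ht, S.tau_inv, S.conj_tau _ _ _ pi,
      LinearEquiv.mul_apply, PQ.tau_apply, PQ.tau_apply, n2]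
    simp only [PQ.B_add_left, PQ.B_smul_left, Bsr, ff, h.σ_eq, FP.unit_ε, FP.unit_σ, hσc]
    module
  have n5 := h.eq_zero_of_ht hne hf hf0 (hc f hf hf0) (by
    simp only [map_mul, map_sub, map_pow, map_one, h.σ_eq, hσc]; ring) n4
  rw [mul_eq_zero, sub_eq_zero, ← map_pow, ← map_one (algebraMap E F)] at n5
  exact n5.elim hc0 fun e => hs ((algebraMap E F).injective e).symm

theorem OR4.ts_case (hne : ∃ a, σ a ≠ a) {ψ : W →+ V} (h : OR4 S M T φ) (h' : OR4 S M T ψ) {u : W}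
    (hu : T.Sing u) (hu0 : u ≠ 0) (hc : ¬ Ctr S M (ψ u)) {a b : W} (aa : T.B a a = 0) (ba : T.B b a = 0)
    (bb : T.B b b = 0) {θ : F} (hθ : σ θ ≠ θ) (e : ψ u = φ a + θ • φ b) :
    ∃ (c : F) (w : W), ψ u = c • φ w := by
  have s : ∀ x, T.B x x = 0 → T.Q x = 0 := fun x hx => by
    rw [T.orth_B_self] at hx
    exact (mul_eq_zero.1 hx).resolve_left h.two'
  have ab := T.B_comm_zero ba
  obtain ⟨g, g1, g2, g3⟩ := (h.he ((T.orth_sing a).2 (s a aa)) ba).exists
  rw [s b bb, map_zero] at g3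
  have key : ∀ y, T.B y u = 0 → S.B (ψ y) (φ b) = 0 := by
    intro y hy
    have k1 := (h'.he hu hy).ei
    have k2 := k1.conj g1 g2
    have k3 : S.B (ψ y) (φ a) = -(σ θ * S.B (ψ y) (φ b)) := by
      have := h'.rs.B0 hy
      rw [e, PQ.B_add_right, Bsr] at this
      linear_combination this
    rw [show g (ψ u) = ψ u by simp [g3, e, h.rs.B0 aa, h.rs.B0 ab, h.rs.B0 ba, h.rs.B0 bb]] at k2
    have k4 := ((k2.sub k1).congr (w' := S.B (ψ y) (φ b) • φ a - S.B (ψ y) (φ a) • φ b) (by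
      rw [g3]; module)).comm k1
    have f1 : S.B (φ b) (ψ y) = σ (S.B (ψ y) (φ b)) := (Bs _ _ _).symm
    have f2 : S.B (φ a) (ψ y) = σ (S.B (ψ y) (φ a)) := (Bs _ _ _).symm
    simp only [PQ.B_sub_left, PQ.B_sub_right, PQ.B_smul_left, Bsr] at k4
    rw [f1, f2, k3] at k4
    simp only [map_neg, map_mul, hσ] at k4
    have k5 := h'.eq_zero_of_ht hne hu hu0 hc (by
      simp only [map_neg, map_mul, map_sub, map_add, hσ, map_zero]; ring) k4
    have k6 : (2 * (σ θ - θ)) * (S.B (ψ y) (φ b) * σ (S.B (ψ y) (φ b))) = 0 := by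
      linear_combination k5
    simpa [h.two, sub_eq_zero, hθ] using k6
  obtain ⟨t, ht⟩ := h'.rs.eq_smul_of_perp hu0 key
  by_cases h0 : t = 0
  · rw [h0, zero_smul] at ht
    exact ⟨1, a, by simp [e, ht]⟩
  · exact ⟨t⁻¹, b, by rw [ht, smul_smul, inv_mul_cancel₀ h0, one_smul]⟩

theorem OR4.nd_case (hne : ∃ a, σ a ≠ a) (h5 : ∃ s : E, s ≠ 0 ∧ s ^ 2 ≠ 1) {ψ : W →+ V}
    (h : OR4 S M T φ) (h' : OR4 S M T ψ) (hc : ∀ u, T.Sing u → u ≠ 0 → ¬ Ctr S M (ψ u)) {u : W}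
    (hu : T.Sing u) (hu0 : u ≠ 0) {x b : W} (bb : T.B b b ≠ 0) {α β : F} (hαβ : α * σ β ≠ β * σ α)
    (e : ψ u = α • φ x + β • φ b) : False := by
  obtain ⟨a, β, ab, hαβ, e⟩ : ∃ (a : W) (β : F), T.B a b = 0 ∧ α * σ β ≠ β * σ α ∧
      ψ u = α • φ a + β • φ b := by
    refine ⟨x - (T.B x b / T.B b b) • b, β + α * algebraMap E F (T.B x b / T.B b b), by simp [bb],
      fun k => hαβ ?_, by rw [e, map_sub, h.rs.smul]; module⟩
    rw [map_add, map_mul, h.σ_eq] at k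
    linear_combination k
  have ba := T.B_comm_zero ab
  have hα : α ≠ 0 := by rintro rfl; simp at hαβ
  have hβ : β ≠ 0 := by rintro rfl; simp at hαβ
  have uu := h'.rs.sing hu
  set A := algebraMap E F (T.B a a) with hA
  set B := algebraMap E F (T.B b b) with hB
  have Baa : S.B (φ a) (φ a) = A := h.B_eq _ _
  have Bbb : S.B (φ b) (φ b) = B := h.B_eq _ _
  have Bab := h.rs.B0 ab
  have Bba := h.rs.B0 ba
  have σA : σ A = A := h.σ_eq _
  have σB : σ B = B := h.σ_eq _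
  have hB0 : B ≠ 0 := (map_ne_zero _).2 bb
  have n0 : α * σ α * A + β * σ β * B = 0 := by
    have := uu
    simp only [e, PQ.B_add_left, PQ.B_add_right, PQ.B_smul_left, Bsr, Baa, Bbb, Bab, Bba] at this
    linear_combination this
  have hA0 : A ≠ 0 := fun k => by
    rw [k] at n0
    simp [hβ, hB0] at n0
  have aa : T.B a a ≠ 0 := fun k => hA0 (by rw [hA, k, map_zero])
  obtain ⟨k, k1, k2, k3⟩ := h.refl2 aa bb
  have dec : ∀ y, T.B y u = 0 → ∃ s : E, S.B (ψ (y - s • u)) (φ a) = 0 ∧ S.B (ψ (y - s • u)) (φ b) = 0 := by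
    intro y hy
    have j1 := (h'.he hu hy).conj k1 k2
    rw [show k (ψ u) = (-1 : F) • ψ u by
      rw [k3, e]
      simp only [PQ.B_add_left, PQ.B_sub_left, PQ.B_smul_left, Baa, Bbb, Bab, Bba]
      match_scalars <;> field_simp <;> ring] at j1
    have j0 := h'.rs.B0 hy
    obtain ⟨w, hw⟩ := h'.rat_of_he hne hu hu0 (hc u hu hu0) (by simp [h.σ_eq])
      (j1.smul_left uu (by simpa using j1.wd))
    rw [e, PQ.B_add_right, Bsr, Bsr] at j0
    have j2 : ψ (y + w) = (2 * S.B (ψ y) (φ a) / (α * A)) • ψ u := by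
      rw [map_add, ← hw, k3, e]
      simp only [PQ.B_sub_left, PQ.B_smul_left, Baa, Bbb, Bba, map_neg, map_one]
      match_scalars
      · ring
      · have := σ_ne (σ := σ) hβ
        field_simp
        apply mul_left_cancel₀ this
        linear_combination 2 * ((α * A) * j0 - S.B (ψ y) (φ a) * n0)
      · field_simp; ring
    obtain ⟨s, hs⟩ := Submodule.mem_span_singleton.1 (h'.rs.mem_span_of j2)
    rw [← hs, h'.rs.smul, ← sub_eq_zero, ← sub_smul, smul_eq_zero, sub_eq_zero] at j2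
    have j3 := j2.resolve_right (h'.rs.ne_zero hu0)
    have j4 : S.B (ψ (y - (s / 2) • u)) (φ a) = 0 := by
      rw [map_sub, h'.rs.smul, e, map_div₀, j3, map_ofNat]
      simp only [PQ.B_add_left, PQ.B_sub_left, PQ.B_smul_left, Baa, Bba]
      have := h.two
      field_simp; ring
    refine ⟨s / 2, j4, ?_⟩
    have j5 := h'.rs.B0 (x := y - (s / 2) • u) (y := u) (by simp [hy, hu.B_self])
    rw [e, PQ.B_add_right, Bsr, Bsr, j4] at j5
    simpa [hβ] using j5
  let Y : Submodule E W :=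
    { carrier := {y | S.B (ψ y) (φ a) = 0 ∧ S.B (ψ y) (φ b) = 0}
      zero_mem' := by simp
      add_mem' := fun {x y} hx hy => by simp [hx.1, hx.2, hy.1, hy.2]
      smul_mem' := fun c x hx => by simp [h'.rs.smul, hx.1, hx.2] }
  obtain ⟨f, f1, hf, huf⟩ := h'.rs.ndT.exists_hyperbolic_perp (X := Y) hu (fun hm => by
      have := hm.1
      simp [e, Baa, Bba, hα, hA0] at this) (T.mem_perp'.2 fun y hy =>
      h'.rs.B0_iff.1 (by simp [e, hy.1, hy.2]))
  have hY : ∀ y, T.B y u = 0 → T.B y f = 0 → y ∈ Y := fun y h1 h2 => by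
    obtain ⟨s, hs⟩ := dec y h1
    have := T.mem_perp'.1 f1 _ hs
    simp only [PQ.B_sub_left, PQ.B_smul_left, h2, huf, mul_one, zero_sub, neg_eq_zero] at this
    rw [this, zero_smul, sub_zero] at hs
    exact hs
  obtain ⟨γ, δ, ef⟩ : ∃ γ δ : F, ψ f = γ • φ a + δ • φ b := by
    obtain ⟨t, ht⟩ := h'.rs.eq_smul_of_perp hu0
      (v := ψ f - (S.B (ψ f) (φ a) / A) • φ a - (S.B (ψ f) (φ b) / B) • φ b) fun y hy => by
        obtain ⟨s, hs⟩ := dec y hy
        rw [show ψ y = ψ (y - s • u) + algebraMap E F s • ψ u by simp [h'.rs.smul], PQ.B_add_left,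
          PQ.B_smul_left, PQ.B_sub_right, PQ.B_sub_right, Bsr, Bsr, hs.1, hs.2,
          h'.rs.B0 (T.mem_perp'.1 f1 _ hs), e]
        simp only [PQ.B_add_left, PQ.B_sub_right, PQ.B_smul_left, Bsr, Baa, Bbb, Bab, Bba, map_div₀,
          σA, σB, Bs]
        field_simp; ring
    exact ⟨S.B (ψ f) (φ a) / A + t * α, S.B (ψ f) (φ b) / B + t * β, by
      rw [sub_sub, sub_eq_iff_eq_add] at ht
      nth_rewrite 1 [ht]
      rw [e]; module⟩
  have uf : S.B (ψ u) (ψ f) = 1 := by rw [h'.B_eq, huf, map_one]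
  have fu : S.B (ψ f) (ψ u) = 1 := by rw [← Bs, uf, map_one]
  have ff := h'.rs.sing hf
  have lin : ∀ p r : F, p • φ a + r • φ b = S.B (p • φ a + r • φ b) (ψ f) • ψ u +
      S.B (p • φ a + r • φ b) (ψ u) • ψ f := by
    intro p r
    obtain ⟨t, ht⟩ := h'.rs.eq_smul_of_perp hu0
      (v := p • φ a + r • φ b - S.B (p • φ a + r • φ b) (ψ u) • ψ f) fun y hy => by
        obtain ⟨s, hs⟩ := dec y hy
        rw [show ψ y = ψ (y - s • u) + algebraMap E F s • ψ u by simp [h'.rs.smul], PQ.B_add_left,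
          PQ.B_smul_left, PQ.B_sub_right, PQ.B_sub_right, Bsr, Bsr, Bs, uf,
          h'.rs.B0 (T.mem_perp'.1 f1 _ hs)]
        simp [-map_sub, hs.1, hs.2]
    have := congrArg (fun v => S.B v (ψ f)) ht
    simp only [PQ.B_sub_left, PQ.B_smul_left (a := t), PQ.B_smul_left (y := ψ f) (x := ψ f), ff, uf,
      mul_zero, sub_zero, mul_one] at this
    rw [this, ← ht]; abel
  obtain ⟨t, t0, t1⟩ : ∃ t : E, t ≠ 0 ∧ T.B a a + t ^ 2 * T.B b b ≠ 0 := by
    obtain ⟨s, s0, s1⟩ := h5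
    by_contra hcon
    push Not at hcon
    have e1 := hcon 1 one_ne_zero
    have e2 := hcon s s0
    exact mul_ne_zero (sub_ne_zero.2 s1) bb (by linear_combination e2 - e1)
  have cc : T.B (a + t • b) (a + t • b) = T.B a a + t ^ 2 * T.B b b := by simp [ab, ba]; ring
  obtain ⟨l, l1, l2, l3⟩ := h.refl2 aa (cc ▸ t1)
  rw [h.B_eq (a + t • b), cc, map_add, map_add, map_mul, map_pow, h.rs.smul, ← hA, ← hB] at l3
  have t2 : A + algebraMap E F t ^ 2 * B ≠ 0 := by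
    have := (map_ne_zero (algebraMap E F)).2 t1
    rwa [map_add, map_mul, map_pow] at this
  have t3 := (map_ne_zero (algebraMap E F)).2 t0
  have σt := h.σ_eq t
  generalize algebraMap E F t = τ at l3 t2 t3 σt
  have e3 : l (ψ u) = (2 * (α * A + β * τ * B) / (A + τ ^ 2 * B) - α) • φ a +
      (β - 2 * (α * A + β * τ * B) / (A + τ ^ 2 * B) * τ) • φ b := by
    rw [l3, e]
    simp only [PQ.B_add_left, PQ.B_add_right, PQ.B_sub_left, PQ.B_smul_left, Bsr, Baa, Bbb, Bab, Bba, σt]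
    match_scalars <;> field_simp <;> ring
  have e4 : S.B (l (ψ u)) (ψ u) = 2 * τ * A * B / (A + τ ^ 2 * B) * (β * σ α - α * σ β) := by
    rw [e3, e]
    simp only [PQ.B_add_left, PQ.B_add_right, PQ.B_smul_left, Bsr, Baa, Bbb, Bab, Bba]
    field_simp
    linear_combination (A - τ ^ 2 * B) * n0
  refine h'.core2 hne h5 hc hu hf huf l1 (a := S.B (l (ψ u)) (ψ f)) (b := S.B (l (ψ u)) (ψ u)) ?_ ?_
    (by rw [e3]; exact lin _ _) fun y y1 y2 => ?_
  · rw [e4]
    simp only [map_mul, map_div₀, map_add, map_sub, map_pow, map_ofNat, hσ, σt, σA, σB]; ring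
  · rw [e4]
    exact mul_ne_zero (div_ne_zero (mul_ne_zero (mul_ne_zero (mul_ne_zero h.two t3) hA0) hB0) t2)
      (sub_ne_zero.2 hαβ.symm)
  · obtain ⟨m1, m2⟩ := hY y y1 y2
    simp [l3, m1, m2]

theorem OR4.orbit_rat (hne : ∃ a, σ a ≠ a) (h5 : ∃ s : E, s ≠ 0 ∧ s ^ 2 ≠ 1) (h : OR4 S M T φ)
    (hc : ∀ u, T.Sing u → u ≠ 0 → ¬ Ctr S M (φ u)) {g : V ≃ₗ[F] V} (hg : g ∈ M) {u : W}
    (hu : T.Sing u) : ∃ (b : F) (w : W), g (φ u) = b • φ w := by
  by_cases hu0 : u = 0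
  · exact ⟨0, 0, by simp [hu0]⟩
  have hgi := (h.le hg).1
  have h' := h.map hg
  have hc' : ∀ u, T.Sing u → u ≠ 0 → ¬ Ctr S M (((g : V →ₗ[F] V).toAddMonoidHom.comp φ) u) :=
    fun u h1 h2 h3 => hc u h1 h2 (by simpa using h3.map (inv_mem hg) (inv_mem hgi))
  obtain ⟨θ, hθ⟩ := id hne
  obtain ⟨a, b, e⟩ := h.rs.exists_comb h.real hθ (g (φ u))
  by_cases bb : T.B b b = 0
  swap
  · exact (h.nd_case hne h5 h' hc' hu hu0 bb (x := a) (α := 1) (β := θ) (by simpa using hθ)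
      (by simpa using e)).elim
  by_cases aa : T.B a a = 0
  swap
  · exact (h.nd_case hne h5 h' hc' hu hu0 aa (x := b) (α := θ) (β := 1) (by simpa using hθ.symm)
      (by simpa [add_comm] using e)).elim
  by_cases ba : T.B b a = 0
  · exact h.ts_case hne h' hu hu0 (hc' u hu hu0) aa ba bb hθ e
  · refine (h.nd_case hne h5 h' hc' hu hu0 (b := a + b) (x := b) (α := θ - 1) (β := 1) ?_
      (by simpa using hθ.symm) (by
        change g (φ u) = _
        rw [e, map_add]; module)).elim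
    simp only [PQ.B_add_left, PQ.B_add_right, aa, bb, T.orth_B_swap b a]
    simpa [← two_mul, h.two'] using ba

theorem OR4.nr (h : OR4 S M T φ) {g : V ≃ₗ[F] V} (hgi : g ∈ S.isom)
    (hg : ∀ y, T.Sing y → ∃ (b : F) (y' : W), g (φ y) = b • φ y') : NR φ g := by
  have h4 := h.four
  have hT := h.rs.ndT
  obtain ⟨u, -, hu0, hu⟩ := sp_orth T ⊤ (by rw [finrank_top]; omega)
  obtain ⟨c, hc, hp⟩ := h.rs.exists_pre hu0 (hg u hu)
  have key : ∀ y ∈ h.rs.pre g c, ∀ z, T.Sing z → T.B y z ≠ 0 → z ∈ h.rs.pre g c := by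
    rintro y ⟨w, hw⟩ z hz hyz
    obtain ⟨b, z', e⟩ := hg z hz
    have e1 := congrArg (fun v => S.B v (g (φ z))) hw
    simp only [PQ.B_smul_left, PQ.B_isom hgi] at e1
    rw [e, Bsr, h.B_eq, h.B_eq] at e1
    have e2 := congrArg σ e1
    simp only [map_mul, h.σ_eq, hσ] at e2
    obtain ⟨r, hr⟩ := h.real (c * b) (mul_right_cancel₀ ((map_ne_zero (algebraMap E F)).2 hyz) (by
      rw [map_mul]; linear_combination σ b * e2 - b * e1))
    exact ⟨r • z', by rw [e, smul_smul, hr, h.rs.smul]⟩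
  refine ⟨c, hc, fun y => (sp_orth T).le_of_sing (T.nondegOn_top.2 hT) (by rw [finrank_top]; omega)
    (Y := h.rs.pre g c) (fun z _ hz => ?_) trivial⟩
  by_cases hz0 : z = 0
  · rw [hz0]; exact zero_mem _
  obtain ⟨d, hd, h1, h2⟩ := orth_exists_sing_ne_ne h.two' hT (by omega) hu hu0 hz0
  exact key d (key u hp d hd h1) z hz fun k => h2 (T.B_comm_zero k)

theorem OR4.max (hne : ∃ a, σ a ≠ a) (h5 : ∃ a : F, σ a = a ∧ a ≠ 0 ∧ a ^ 2 ≠ 1) (h : OR4 S M T φ) :
    (∀ g ∈ M, NR φ g) ∨ sisom S ≤ M := by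
  obtain ⟨a, a1, a2, a3⟩ := h5
  by_cases hc : ∀ u, T.Sing u → u ≠ 0 → ¬ Ctr S M (φ u)
  · obtain ⟨s, rfl⟩ := h.real a a1
    exact Or.inl fun g hg => h.nr (h.le hg).1 fun y hy => h.orbit_rat hne
      ⟨s, by rintro rfl; simp at a2, fun k => a3 (by rw [← map_pow, k, map_one])⟩ hc hg hy
  · push Not at hc
    obtain ⟨u, h1, h2, h4⟩ := hc
    exact Or.inr (h.top_of_ctr hne ⟨a, a1, a2, by rintro rfl; simp at a3⟩ h1 h2 h4)

end abstract

variable {F : Type*} [Field F] [Fintype F] {q : ℕ} (hF : Fintype.card F = q ^ 2) {n : ℕ}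

include hF in
theorem geo_orth4 (hn : 4 ≤ n) (hodd : Odd q) (hq5 : 5 ≤ q) (F₀ : Subfield F)
    (hcard : Fintype.card F = Nat.card F₀ ^ 2) (P : GL (Fin n) F)
    (hP : Geo.IsFormRationalStructure (hermForm n F q) F₀ 1 P) :
    Geo.IsMaximalIn (GU n F q ⊓ Geo.specialLinear (Fin n) F)
      (Geo.subfieldSubgroup F₀ P ⊓ (GU n F q ⊓ Geo.specialLinear (Fin n) F)) := by
  have h2 : (2 : F) ≠ 0 := by
    intro h
    have h1 : ((q ^ 2 : ℕ) : F) = 0 := by rw [← hF]; exact FiniteField.cast_card_eq_zero F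
    obtain ⟨k, rfl⟩ := hodd
    push_cast at h1
    rw [h] at h1
    simp at h1
  have h2' : (2 : F₀) ≠ 0 := fun h => h2 (by
    rw [← map_ofNat (algebraMap F₀ F) 2, h, map_zero])
  let f : (Fin n → F₀) → (Fin n → F₀) → F₀ := fun x y =>
    ⟨(std hF n).B (ratMap F₀ P x) (ratMap F₀ P y), by
      have := hP _ _ (fun i => (x i).2) (fun i => (y i).2)
      rwa [one_mul] at this⟩
  have hf : ∀ x y, (f x y : F) = (std hF n).B (ratMap F₀ P x) (ratMap F₀ P y) := fun _ _ => rfl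
  have a1 : ∀ x y v, f (x + y) v = f x v + f y v := fun x y v => Subtype.ext (by
    rw [AddMemClass.coe_add, hf, hf, hf, map_add, PQ.B_add_left])
  have a2 : ∀ (c : F₀) x v, f (c • x) v = c * f x v := fun c x v => Subtype.ext (by
    rw [MulMemClass.coe_mul, hf, hf, ratMap_smul, PQ.B_smul_left]; rfl)
  have a3 : ∀ v w, f v w = f w v := fun v w => Subtype.ext (by
    have := frob_half hF hcard (f w v)
    change (frobQ hF : F →+* F) (f w v) = f w v at this
    rw [← this, hf, hf, Bs])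
  let T : PQ (FP.orth F₀) (Fin n → F₀) :=
    { B := f
      B_add_left := a1
      B_smul_left := a2
      B_swap := fun x y => by simp [a3 y x]
      Q := fun x => f x x / 2
      Q_add := fun x y => by
        rw [FP.orth_mem, a1, a3 x (x + y), a3 y (x + y), a1, a1, a3 y x]; field_simp; ring
      Q_smul := fun a x => by
        rw [FP.orth_mem, a2, a3 x, a2, FP.orth_σ]; field_simp; ring
      B_self := fun x => by simp only [FP.orth_ε, FP.orth_σ]; field_simp; ring }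
  have h : RS (std hF n) T (ratMap F₀ P) 1 :=
    ⟨ratMap_smul F₀ P, fun x y => by rw [one_mul]; rfl, ratMap_span F₀ P, ratMap_inj F₀ P,
      std_nondeg hF n, one_ne_zero, frob_half hF hcard⟩
  have hq := two_le_of_card_sq hF
  exact max_of hF _ (mem_subfield_iff F₀ P)
    (SU_not_le_subfieldSubgroup hF (by omega) (ne_top_of_card le_rfl hcard) P)
    fun M h1 h3 => OR4.max (std_ne hF) (exists_real_sq hF (by omega))
      ⟨h, real_half hF hcard, h2, by simpa using hn, h1, h3⟩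

end Cfsg.Agent.H6.SU
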