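import Cfsg.Agent.H6.SUMono3
import Cfsg.Agent.H6.SU4A
import Cfsg.Agent.H7.Sp5

/-!
The monomial subgroup is maximal in `SU₄(q)`, `q ≠ 3`.
-/

set_option autoImplicit false
set_option linter.unusedSectionVars false
set_option linter.unusedVariables false

namespace Cfsg.Agent.H6.SU

open Module Cfsg.Agent.Form Cfsg.Agent.H7
open scoped MatrixGroups

section abstract

variable {F : Type*} [Field F] {σ : F →+* F} {hσ : ∀ a, σ (σ a) = a}
  {V : Type*} [AddCommGroup V] [Module F V] {S : PQ (FP.unit σ hσ) V} {M : Subgroup (V ≃ₗ[F] V)}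
  {ι : Type*} [Fintype ι] [DecidableEq ι] {e : ι → V} [FiniteDimensional F V] [Finite F]

theorem ON.det_dg (h : ON S e) {g : V ≃ₗ[F] V} {t : ι → F}
    (hg : ∀ x i, S.B (g x) (e i) = t i * S.B x (e i)) : (LinearEquiv.det g : F) = ∏ i, t i := by
  obtain ⟨c, hc⟩ := exists_basis_of_orthogonal S e (fun i => by rw [h.self]; exact one_ne_zero)
    (fun i j => h.ne) (fun x => by
      rw [← h.sum x]
      exact Submodule.sum_mem _ fun i _ => Submodule.smul_mem _ _ (Submodule.subset_span ⟨i, rfl⟩))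
  have e1 : ∀ j, g (c j) = t j • c j := fun j => h.ext fun i => by
    rw [hg, hc, PQ.B_smul_left, h.B_e]; split_ifs with hij <;> simp [hij]
  rw [LinearEquiv.coe_det, ← LinearMap.det_toMatrix c, ← Matrix.det_diagonal]
  congr 1
  ext i j
  rw [LinearMap.toMatrix_apply, LinearEquiv.coe_coe, e1, Matrix.diagonal_apply]
  by_cases hij : i = j <;> simp [hij]

theorem MS.exists_diag (h : MS S M e) (t : ι → F) (ht : ∀ i, t i * σ (t i) = 1) (hp : ∏ i, t i = 1) :
    ∃ g ∈ M, g ∈ S.isom ∧ ∀ x i, S.B (g x) (e i) = t i * S.B x (e i) := by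
  obtain ⟨g, g1, g2, g3⟩ := h.on.exists_dg t ht
  exact ⟨g, h.mem g ⟨g1, Units.ext (by rw [h.on.det_dg g3, hp]; rfl)⟩ g2, g1, g3⟩

theorem ON.finrank_eq (h : ON S e) : finrank F V = Fintype.card ι := by
  rw [← Finset.card_univ, ← h.cs_finrank, show cs S e Finset.univ = ⊤ from
    eq_top_iff.2 fun x _ i hi => absurd (Finset.mem_univ i) hi, finrank_top]

/-- the case `q = 2` -/
structure TW4 (S : PQ (FP.unit σ hσ) V) (M : Subgroup (V ≃ₗ[F] V)) (e : ι → V) : Prop
    extends MS S M e where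
  ne : ∃ a, σ a ≠ a
  real : ∀ a : F, σ a = a → a ≠ 0 → a = 1
  four : Fintype.card ι = 4

theorem TW4.two (h : TW4 S M e) : (2 : F) = 0 := by
  by_contra h2
  exact one_ne_zero (α := F) (by linear_combination h.real 2 (map_ofNat σ 2) h2)

theorem TW4.norm (h : TW4 S M e) {a : F} (ha : a ≠ 0) : a * σ a = 1 :=
  h.real _ (by rw [map_mul, hσ, mul_comm]) (mul_ne_zero ha (σ_ne ha))

theorem TW4.out (h : TW4 S M e) (l : List ι) (hl : l.length ≤ 3 := by simp) : ∃ x, x ∉ l :=
  exists_notMem_list l (by have := h.four; omega)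

theorem TW4.exists_omega (h : TW4 S M e) : ∃ δ : F, δ * σ δ = 1 ∧ δ + σ δ = 1 ∧ δ ≠ 1 ∧ σ δ ≠ 1 := by
  obtain ⟨δ, d1, d2⟩ := exists_norm_one_ne h.ne hσ
  exact ⟨δ, d1, h.real _ (by rw [map_add, hσ, add_comm]) fun h0 => d2 (by
    linear_combination h0 - δ * h.two), by rintro rfl; simp at d2,
    fun h0 => d2 (by rw [← hσ δ, h0]; simp)⟩

theorem TW4.ctr_pair (h : TW4 S M e) {k l : ι} (hkl : k ≠ l) {α : F} (hα : α * σ α = 1) :
    Ctr S M (e k + α • e l) := by
  obtain ⟨h1, h2⟩ := h.ht_pair h.two hkl hα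
  refine ctr_iff.2 ⟨h1, fun c hc => ?_⟩
  by_cases h0 : c = 0
  · rw [h0]; exact ht_zero _
  · rwa [h.real c (by linear_combination hc - c * h.two) h0]

theorem TW4.exists_fourth (h : TW4 S M e) {w : V} (hw : S.B w w = 0) {a b c : ι} (hab : a ≠ b)
    (hac : a ≠ c) (hbc : b ≠ c) (ha : S.B w (e a) ≠ 0) (hb : S.B w (e b) ≠ 0) (hc : S.B w (e c) ≠ 0) :
    ∃ d, d ∉ ({a, b, c} : Finset ι) ∧ S.B w (e d) ≠ 0 := by
  by_contra hcon
  push Not at hcon
  rw [h.on.B_cs (s := {a, b, c}) hcon, Finset.sum_insert (by simp [hab, hac]), Finset.sum_pair hbc,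
    h.norm ha, h.norm hb, h.norm hc] at hw
  exact one_ne_zero (α := F) (by linear_combination hw - h.two)

theorem TW4.cube (h : TW4 S M e) {c : F} (hc : c ≠ 0) : c ^ 3 = 1 := by
  have h1 := h.norm hc
  by_cases h0 : c + σ c = 0
  · rw [h.real c (by linear_combination h0 - c * h.two) hc, one_pow]
  · have := h.real _ (by rw [map_add, hσ, add_comm]) h0
    linear_combination (c ^ 2 + c) * this - (c + 1) * h1 - h.two

theorem TW4.top_of_three (h : TW4 S M e) {w : V} (hw : Ctr S M w) {a b c : ι} (hab : a ≠ b)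
    (hac : a ≠ c) (hbc : b ≠ c) (ha : S.B w (e a) ≠ 0) (hb : S.B w (e b) ≠ 0) (hc : S.B w (e c) ≠ 0) :
    sisom S ≤ M := by
  obtain ⟨d, hd', hd⟩ := h.exists_fourth hw.1.B_self hab hac hbc ha hb hc
  have h4 := h.four
  have hu : insert d ({a, b, c} : Finset ι) = Finset.univ := Finset.eq_univ_of_card _ (by
    rw [Finset.card_insert_of_notMem hd', Finset.card_eq_three.2 ⟨a, b, c, hab, hac, hbc, rfl⟩, h4])
  have h0 : ∀ i, S.B w (e i) ≠ 0 := fun i => by
    have := hu ▸ Finset.mem_univ i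
    simp only [Finset.mem_insert, Finset.mem_singleton] at this
    rcases this with rfl | rfl | rfl | rfl <;> assumption
  refine Full.sisom_le h.ne h.on.nd (by rw [h.on.finrank_eq, h4]) fun y _ hyy => ?_
  by_cases hy' : ∀ i, S.B y (e i) ≠ 0
  · have n1 : ∀ i, S.B y (e i) / S.B w (e i) ≠ 0 := fun i => div_ne_zero (hy' i) (h0 i)
    have n2 : ∏ i, S.B y (e i) / S.B w (e i) ≠ 0 := Finset.prod_ne_zero_iff.2 fun i _ => n1 i
    obtain ⟨g, g1, g2, g3⟩ := h.exists_diag
      (fun i => (∏ i, S.B y (e i) / S.B w (e i))⁻¹ * (S.B y (e i) / S.B w (e i)))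
      (fun i => h.norm (mul_ne_zero (inv_ne_zero n2) (n1 i))) (by
        rw [Finset.prod_mul_distrib, Finset.prod_const, Finset.card_univ, h4, pow_succ,
          h.cube (inv_ne_zero n2), one_mul, inv_mul_cancel₀ n2])
    refine Ctr.of_smul (a := (∏ i, S.B y (e i) / S.B w (e i))⁻¹) ?_ (inv_ne_zero n2)
    convert hw.map g1 g2 using 1
    exact h.on.ext fun i => by rw [g3, PQ.B_smul_left, mul_assoc, div_mul_cancel₀ _ (h0 i)]
  push Not at hy'
  obtain ⟨i, hi'⟩ := hy'
  obtain ⟨k, l, j, a1, a2, a3, e1⟩ := Finset.card_eq_three.1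
    (show (Finset.univ.erase i).card = 3 by
      rw [Finset.card_erase_of_mem (Finset.mem_univ i), Finset.card_univ, h4])
  refine h.full_of_ctr h.ne a1 a2 a3 (m := i) (by rw [← e1]; simp) (h.ctr_pair a1 (α := 1) (by simp))
    (add_mem (h.on.e_mem (by simp)) (Submodule.smul_mem _ _ (h.on.e_mem (by simp))))
    (by simp [h.on.B_e, a1.symm]) (by simp [h.on.B_e, a1]) y (fun x hx => ?_) hyy
  rw [← e1] at hx
  rw [show x = i by simpa using hx, hi']

theorem TW4.max (h : TW4 S M e) : (∀ g ∈ M, Mono e g) ∨ sisom S ≤ M := by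
  classical
  by_cases hc : ∃ w, Ctr S M w ∧ ∃ a b c, a ≠ b ∧ a ≠ c ∧ b ≠ c ∧ S.B w (e a) ≠ 0 ∧ S.B w (e b) ≠ 0 ∧
      S.B w (e c) ≠ 0
  · obtain ⟨w, hw, a, b, c, a1, a2, a3, a4, a5, a6⟩ := hc
    exact Or.inr (h.top_of_three hw a1 a2 a3 a4 a5 a6)
  refine Or.inl fun g hg k => ?_
  have hgi := (h.le hg).1
  obtain ⟨δ, d1, d2, d3, d4⟩ := h.exists_omega
  have key : ∀ l, k ≠ l → ∀ s : Finset ι, (∀ i ∈ s, S.B (g (e k)) (e i) ≠ 0 ∨ S.B (g (e l)) (e i) ≠ 0) →
      s.card ≤ 3 := by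
    intro l hkl s hs
    let Z : F → Finset ι := fun α => s.filter fun i => S.B (g (e k)) (e i) + α * S.B (g (e l)) (e i) = 0
    have z1 : ∀ α : F, α * σ α = 1 → s.card ≤ (Z α).card + 2 := by
      intro α hα
      rw [← Finset.card_filter_add_card_filter_not (s := s)
        (fun i => S.B (g (e k)) (e i) + α * S.B (g (e l)) (e i) = 0)]
      refine Nat.add_le_add_left (not_lt.1 fun hlt => hc ⟨_, (h.ctr_pair hkl hα).map hg hgi, ?_⟩) _
      obtain ⟨a, b, c, ha, hb, hc, a1, a2, a3⟩ := Finset.two_lt_card_iff.1 hlt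
      exact ⟨a, b, c, a1, a2, a3, by simpa using (Finset.mem_filter.1 ha).2,
        by simpa using (Finset.mem_filter.1 hb).2, by simpa using (Finset.mem_filter.1 hc).2⟩
    have z2 : ∀ α β : F, α ≠ β → Disjoint (Z α) (Z β) := by
      intro α β hαβ
      rw [Finset.disjoint_left]
      intro i h1 h2
      obtain ⟨h3, h4⟩ := Finset.mem_filter.1 h1
      have h5 := (Finset.mem_filter.1 h2).2
      have h6 : S.B (g (e l)) (e i) = 0 := mul_left_cancel₀ (sub_ne_zero.2 hαβ) (by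
        linear_combination h4 - h5)
      rw [h6, mul_zero, add_zero] at h4
      exact (hs i h3).elim (· h4) (· h6)
    have d5 : δ ≠ σ δ := fun h0 => one_ne_zero (α := F) (by linear_combination -d2 - h0 + δ * h.two)
    have := Finset.card_le_card (show Z 1 ∪ Z δ ∪ Z (σ δ) ⊆ s from Finset.union_subset
      (Finset.union_subset (Finset.filter_subset _ _) (Finset.filter_subset _ _)) (Finset.filter_subset _ _))
    rw [Finset.card_union_of_disjoint (Finset.disjoint_union_left.2 ⟨z2 _ _ d4.symm, z2 _ _ d5⟩),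
      Finset.card_union_of_disjoint (z2 _ _ d3.symm)] at this
    have := z1 1 (by simp)
    have := z1 δ d1
    have := z1 (σ δ) (by rw [hσ, mul_comm, d1])
    omega
  by_contra hE
  obtain ⟨a, b, hab, ha, hb⟩ := h.on.two_of_not_isE (by simpa using h.on.e_ne k) hE
  obtain ⟨c, hc', hc''⟩ : ∃ c, c ∉ ({a, b} : Finset ι) ∧ S.B (g (e k)) (e c) ≠ 0 := by
    by_contra hcon
    push Not at hcon
    have := PQ.B_isom hgi (e k) (e k)
    rw [h.on.B_cs (s := {a, b}) hcon, Finset.sum_pair hab, h.norm ha, h.norm hb, h.on.self] at this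
    exact one_ne_zero (α := F) (by linear_combination this)
  simp only [Finset.mem_insert, Finset.mem_singleton, not_or] at hc'
  obtain ⟨d, hd⟩ := h.out [a, b, c]
  simp only [List.mem_cons, List.not_mem_nil, or_false, not_or] at hd
  have hcard : ({d, c, a, b} : Finset ι).card = 4 := by
    rw [Finset.card_insert_of_notMem (by simp [hd]), Finset.card_eq_three.2 ⟨c, a, b, hc'.1, hc'.2,
      hab, rfl⟩]
  obtain ⟨l, hl⟩ := h.on.exists_ne (v := g.symm (e d)) (by simpa using h.on.e_ne d)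
  rw [← PQ.B_isom hgi, LinearEquiv.apply_symm_apply] at hl
  by_cases hkl : k = l
  · obtain ⟨l', hl'⟩ := h.out [k]
    have := key l' (by rintro rfl; simp at hl') {d, c, a, b} (by
      simp only [Finset.mem_insert, Finset.mem_singleton]
      rintro i (rfl | rfl | rfl | rfl)
      exacts [Or.inl (hkl ▸ ne_swap hl), Or.inl hc'', Or.inl ha, Or.inl hb])
    omega
  · have := key l hkl {d, c, a, b} (by
      simp only [Finset.mem_insert, Finset.mem_singleton]
      rintro i (rfl | rfl | rfl | rfl)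
      exacts [Or.inr (ne_swap hl), Or.inl hc'', Or.inl ha, Or.inl hb])
    omega

/-- `M` contains a scalar multiple of the homology along `v` -/
def HR (S : PQ (FP.unit σ hσ) V) (M : Subgroup (V ≃ₗ[F] V)) (v : V) (a : F) : Prop :=
  ∃ k ∈ M, ∀ x, k x = σ a • (x + ((a ^ 4 - 1) * S.B x v) • v)

theorem HR.conj {v : V} {a : F} (h : HR S M v a) {g : V ≃ₗ[F] V} (hg : g ∈ M) (hg' : g ∈ S.isom) :
    HR S M (g v) a := by
  obtain ⟨k, hk, e1⟩ := h
  refine ⟨g * k * g⁻¹, M.mul_mem (M.mul_mem hg hk) (M.inv_mem hg), fun x => ?_⟩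
  have : S.B x (g v) = S.B (g.symm x) v := by rw [← PQ.B_isom hg' (g.symm x) v]; simp
  simp [LinearEquiv.mul_apply, e1, this]

/-- the rigid situation in dimension four -/
structure R4 (S : PQ (FP.unit σ hσ) V) (M : Subgroup (V ≃ₗ[F] V)) (e : ι → V) : Prop
    extends MS S M e where
  ne : ∃ a, σ a ≠ a
  three : ∃ a : F, σ a = a ∧ a ≠ 0 ∧ a ≠ 1
  rig : Rigid M e
  four : Fintype.card ι = 4

theorem R4.out (h : R4 S M e) (l : List ι) (hl : l.length ≤ 3 := by simp) : ∃ x, x ∉ l :=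
  exists_notMem_list l (by have := h.four; omega)

theorem R4.hr (h : R4 S M e) (i : ι) {a : F} (ha : a * σ a = 1) : HR S M (e i) a := by
  obtain ⟨g, g1, -, g3⟩ := h.exists_diag (fun j => if j = i then a ^ 3 else σ a) (fun j => by
    split_ifs
    · rw [map_pow, ← mul_pow, ha, one_pow]
    · rw [hσ, mul_comm, ha]) (by
    rw [← Finset.mul_prod_erase _ _ (Finset.mem_univ i), if_pos rfl,
      Finset.prod_congr rfl (fun j hj => if_neg (Finset.ne_of_mem_erase hj)), Finset.prod_const,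
      Finset.card_erase_of_mem (Finset.mem_univ i), Finset.card_univ, h.four, ← mul_pow, ha, one_pow])
  refine ⟨g, g1, fun x => h.on.ext fun j => ?_⟩
  rw [g3]
  split_ifs with hj
  · simp only [hj, PQ.B_smul_left, PQ.B_add_left, h.on.self]
    linear_combination (-a ^ 3 * S.B x (e i)) * ha
  · simp [h.on.ne (Ne.symm hj)]

theorem R4.entry_ne (h : R4 S M e) {a : F} (ha : a * σ a = 1) (ha4 : a ^ 4 ≠ 1) {g : V ≃ₗ[F] V}
    (hg : g ∈ M) (hM : ¬ Mono e g) (j m : ι) : S.B (g (e j)) (e m) ≠ 0 := by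
  intro h0
  have hgi := (h.le hg).1
  have ha0 : σ a ≠ 0 := right_ne_zero_of_mul_eq_one ha
  have hδ := sub_ne_zero.2 ha4
  obtain ⟨k, hk, ek⟩ := (h.hr j ha).conj hg hgi
  have km := h.rig k hk m ⟨m, σ a, by simp [ek, S.B_comm_zero h0]⟩
  obtain ⟨i, b, hib, hi, hb⟩ := h.on.two_of_not_isE (v := g (e j)) (by simpa using h.on.e_ne j)
    fun h' => hM (h.rig g hg j h')
  have key : ∀ i b, i ≠ b → S.B (g (e j)) (e i) ≠ 0 → S.B (g (e j)) (e b) ≠ 0 →
      1 + (a ^ 4 - 1) * (S.B (g (e j)) (e i) * σ (S.B (g (e j)) (e i))) = 0 ∧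
      ∀ c, c ≠ i → c ≠ b → S.B (g (e j)) (e c) = 0 := by
    intro i b hib hi hb
    obtain ⟨l, c', e1⟩ := km i
    have p := fun c => congrArg (fun x => S.B x (e c)) e1
    simp only [ek, PQ.B_smul_left, PQ.B_add_left] at p
    have hl : l = b := by
      by_contra hl
      have := p b
      simp [h.on.ne hl, h.on.ne hib, ha0, hδ, hb, ne_swap hi] at this
    subst hl
    refine ⟨mul_left_cancel₀ ha0 ?_, fun c c1 c2 => ?_⟩
    · have := p i
      rw [h.on.self, h.on.ne hib.symm, ← Bs S (g (e j)) (e i)] at this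
      linear_combination this
    · have := p c
      simpa [h.on.ne c1.symm, h.on.ne c2.symm, ha0, hδ, ne_swap hi] using this
  obtain ⟨n1, z1⟩ := key i b hib hi hb
  obtain ⟨n2, -⟩ := key b i hib.symm hb hi
  obtain ⟨k', hk'⟩ := h.out [i, b]
  obtain ⟨l', hl'⟩ := h.out [i, b, k']
  simp only [List.mem_cons, List.not_mem_nil, or_false, not_or] at hk' hl'
  obtain ⟨j', hj'⟩ := h.on.exists_ne (v := g.symm (e k')) (by simpa using h.on.e_ne k')
  rw [← PQ.B_isom hgi, LinearEquiv.apply_symm_apply] at hj'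
  have z2 := (h.two_zeros_aux h.ne h.three h.rig hg (Ne.symm hl'.2.2) (z1 k' hk'.1 hk'.2)
    (z1 l' hl'.1 hl'.2.1) j').resolve_right fun h' => hj' (S.B_comm_zero h'.1)
  obtain ⟨t, ht, -, -, et⟩ := h.exists_tor hib ha
  obtain ⟨j'', c, e2⟩ := h.rig (g⁻¹ * t * g) (M.mul_mem (M.mul_mem (M.inv_mem hg) ht) hg) j'
    ⟨j', 1, by simp [et, z2 i (Ne.symm hk'.1) (Ne.symm hl'.1), z2 b (Ne.symm hk'.2) (Ne.symm hl'.2.1)]⟩ j
  have e3 : t (g (e j)) = c • g (e j'') := by rw [← map_smul, ← e2]; simp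
  rw [et] at e3
  by_cases hj : j'' = j
  · subst hj
    have p1 := congrArg (fun x => S.B x (e i)) e3
    have p2 := congrArg (fun x => S.B x (e b)) e3
    simp only [PQ.B_add_left, PQ.B_smul_left, h.on.self, h.on.ne hib, h.on.ne hib.symm] at p1 p2
    have q1 : a = c := mul_right_cancel₀ hi (by linear_combination p1)
    have q2 : σ a = c := mul_right_cancel₀ hb (by linear_combination p2)
    rw [q2, ← q1] at ha
    exact ha4 (by linear_combination (a ^ 2 + 1) * ha)
  · have p1 := congrArg (fun x => S.B x (g (e j))) e3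
    have p2 := PQ.B_isom hgi (e j) (e j)
    rw [h.on.B_cs (s := {i, b}) (fun c hc => z1 c (by simp at hc; tauto) (by simp at hc; tauto)),
      Finset.sum_pair hib, h.on.self] at p2
    simp only [PQ.B_add_left, PQ.B_smul_left, PQ.B_isom hgi, h.on.self, h.on.ne hj,
      ← Bs S (g (e j)) (e _)] at p1
    have q0 := mul_ne_zero hi (σ_ne (σ := σ) hi)
    simp only [mul_assoc] at p1
    generalize S.B (g (e j)) (e i) * σ (S.B (g (e j)) (e i)) = x at *
    generalize S.B (g (e j)) (e b) * σ (S.B (g (e j)) (e b)) = y at *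
    have q1 : y = x := mul_left_cancel₀ hδ (by linear_combination n2 - n1)
    rw [q1] at p1 p2
    have q2 : a + σ a = 0 := mul_right_cancel₀ q0 (by linear_combination p1 + p2)
    exact ha4 (by linear_combination (a ^ 3 - a) * q2 - (a ^ 2 - 1) * ha)

theorem R4.eq_one (h : R4 S M e) {v : V} (hv : ∀ i, S.B v (e i) ≠ 0) {i : ι} {k : V ≃ₗ[F] V}
    (hk : k ∈ M) (hfix : ∀ x, S.B x (e i) = 0 → S.B x v = 0 → k x = x) {c : F}
    (hc : k (e i) = c • e i) : k = 1 := by
  have km := h.rig k hk i ⟨i, c, hc⟩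
  have key : ∀ b d, b ≠ i → d ≠ i → b ≠ d → k (e b) = e b ∨ ∃ μ : F, k (e b) = μ • e d := by
    intro b d h1 h2 h3
    obtain ⟨l, μ, e1⟩ := km b
    obtain ⟨l', μ', e2⟩ := km d
    by_cases hl : l = d
    · exact Or.inr ⟨μ, hl ▸ e1⟩
    left
    have := hfix (S.B (e d) v • e b - S.B (e b) v • e d) (by simp [h.on.ne h1, h.on.ne h2])
      (by simp [mul_comm])
    rw [map_sub, map_smul, map_smul, e2] at this
    have p := congrArg (fun x => S.B x (e d)) this
    simp only [e1, PQ.B_sub_left, PQ.B_smul_left, h.on.ne hl, h.on.ne h3, h.on.self] at p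
    have q1 : μ' * S.B (e l') (e d) = 1 := mul_left_cancel₀ (ne_swap (hv b)) (by linear_combination -p)
    have q2 : l' = d := by
      by_contra h4
      simp [h.on.ne h4] at q1
    rw [q2, h.on.self, mul_one] at q1
    rw [q1, q2, one_smul, sub_left_inj] at this
    exact smul_right_injective V (ne_swap (hv d)) this
  have fix : ∀ b, b ≠ i → k (e b) = e b := by
    intro b hb
    obtain ⟨d, hd⟩ := h.out [i, b]
    obtain ⟨d', hd'⟩ := h.out [i, b, d]
    simp only [List.mem_cons, List.not_mem_nil, or_false, not_or] at hd hd'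
    refine (key b d hb hd.1 (Ne.symm hd.2)).elim id fun ⟨μ, e1⟩ =>
      (key b d' hb hd'.1 (Ne.symm hd'.2.1)).elim id fun ⟨μ', e2⟩ => ?_
    have := congrArg (fun x => S.B x (e d)) (e1.symm.trans e2)
    simp [h.on.self, h.on.ne hd'.2.2, h.on.coeff_ne e1] at this
  have e1 : ∀ x, k x = x + ((c - 1) • S.lin (e i)) x • e i := fun x => by
    change _ = (LinearMap.id + ((c - 1) • S.lin (e i)).smulRight (e i) : V →ₗ[F] V) x
    rw [← h.on.sum x, map_sum, map_sum]
    refine Finset.sum_congr rfl fun b _ => ?_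
    rw [map_smul, map_smul]
    congr 1
    by_cases hb : b = i
    · simp [hb, hc, h.on.self, sub_smul]
    · simp [fix b hb, h.on.ne hb]
  have e2 := det_of_rank_one e1
  rw [(mem_sisom.1 (h.le hk)).2] at e2
  have e3 : 1 = c := by simpa [h.on.self] using e2
  ext x
  rw [e1, ← e3]; simp

theorem R4.not_gen (h : R4 S M e) {a : F} (ha : a * σ a = 1) (ha8 : a ^ 8 ≠ 1) {v : V}
    (hv : ∀ i, S.B v (e i) ≠ 0) (hr : HR S M v a) : False := by
  have : Finite V := Module.finite_of_finite F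
  have : Finite (V ≃ₗ[F] V) := Finite.of_injective _ DFunLike.coe_injective
  have ha0 : σ a ≠ 0 := right_ne_zero_of_mul_eq_one ha
  have ha4 : a ^ 4 - 1 ≠ 0 := fun h0 => ha8 (by linear_combination (a ^ 4 + 1) * h0)
  obtain ⟨i, -⟩ := h.out []
  obtain ⟨b, hb⟩ := h.out [i]
  have hbi : b ≠ i := by simpa using hb
  obtain ⟨ρ, hρ, eρ⟩ := h.hr i ha
  obtain ⟨τ, hτ, eτ⟩ := hr
  let K := M ⊓ fixAll {x | S.B x (e i) = 0 ∧ S.B x v = 0}
  have e2 : ∀ x, (ρ * ρ) x = σ a ^ 2 • (x + ((a ^ 8 - 1) * S.B x (e i)) • e i) := fun x => by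
    rw [LinearEquiv.mul_apply, eρ, eρ]
    simp only [PQ.B_smul_left, PQ.B_add_left, h.on.self]
    module
  have sc : ∀ (p r : V ≃ₗ[F] V) (s : F) x, s ≠ 0 → p x = s • x → r x = s • x → (p * r⁻¹) x = x := by
    intro p r s x hs h1 h2
    have : r⁻¹ x = s⁻¹ • x := r.symm_apply_eq.2 (by
      rw [map_smul, h2, smul_smul, inv_mul_cancel₀ hs, one_smul])
    rw [LinearEquiv.mul_apply, this, map_smul, h1, smul_smul, inv_mul_cancel₀ hs, one_smul]
  let f : K → K := fun k => ⟨k * (ρ * ρ) * (k : V ≃ₗ[F] V)⁻¹ * (ρ * ρ)⁻¹,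
    M.mul_mem (M.mul_mem (M.mul_mem k.2.1 (M.mul_mem hρ hρ)) (M.inv_mem k.2.1))
      (M.inv_mem (M.mul_mem hρ hρ)), fun x hx => sc _ _ (σ a ^ 2) x (pow_ne_zero _ ha0) (by
        rw [LinearEquiv.mul_apply, LinearEquiv.mul_apply, (K.inv_mem k.2).2 x hx, e2, hx.1, map_smul]
        simp [k.2.2 x hx]) (by simp [-LinearEquiv.mul_apply, e2, hx.1])⟩
  have hinj : Function.Injective f := by
    intro k k' hkk
    have e3 := mul_right_cancel (congrArg Subtype.val hkk)
    have m := K.mul_mem (K.inv_mem k'.2) k.2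
    have e4 : (k' : V ≃ₗ[F] V)⁻¹ * k * (ρ * ρ) = (ρ * ρ) * ((k' : V ≃ₗ[F] V)⁻¹ * k) := by
      calc _ = (k' : V ≃ₗ[F] V)⁻¹ * (k * (ρ * ρ) * (k : V ≃ₗ[F] V)⁻¹) * k := by group
        _ = _ := by rw [e3]; group
    refine Subtype.ext (inv_mul_eq_one.1 ?_).symm
    generalize (k' : V ≃ₗ[F] V)⁻¹ * k = p at m e4
    refine h.eq_one hv m.1 (i := i) (fun x h1 h2 => m.2 x ⟨h1, h2⟩) (c := S.B (p (e i)) (e i)) ?_
    have e5 := LinearEquiv.congr_fun e4 (e i)
    rw [LinearEquiv.mul_apply p, LinearEquiv.mul_apply _ p, e2, e2, h.on.self, map_smul, map_add,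
      map_smul] at e5
    have e6 := add_left_cancel (smul_right_injective V (pow_ne_zero 2 ha0) e5)
    rw [mul_one, mul_smul] at e6
    exact smul_right_injective V (sub_ne_zero.2 ha8) e6
  obtain ⟨k, hk⟩ := Finite.injective_iff_surjective.1 hinj ⟨τ * ρ⁻¹, M.mul_mem hτ (M.inv_mem hρ),
    fun x hx => sc _ _ (σ a) x ha0 (by simp [eτ, hx.2]) (by simp [eρ, hx.1])⟩
  have e3 : (k : V ≃ₗ[F] V) * (ρ * ρ) * (k : V ≃ₗ[F] V)⁻¹ = τ * ρ := by
    have := congrArg Subtype.val hk
    simp only [f] at this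
    rw [mul_inv_eq_iff_eq_mul.1 this]; group
  have e4 : ∀ x, ∃ c : F, τ (ρ x) = σ a ^ 2 • (x + c • (k : V ≃ₗ[F] V) (e i)) := fun x =>
    ⟨_, by rw [← LinearEquiv.mul_apply, ← e3, LinearEquiv.mul_apply, LinearEquiv.mul_apply, e2]; simp; rfl⟩
  obtain ⟨c, p1⟩ := e4 (e b)
  obtain ⟨c', p2⟩ := e4 (e i)
  generalize (k : V ≃ₗ[F] V) (e i) = u at p1 p2
  rw [eτ, eρ] at p1 p2
  have q1 := congrArg (fun x => S.B x (e b)) p1
  have q2 := congrArg (fun x => S.B x (e i)) p1
  have q3 := congrArg (fun x => S.B x (e b)) p2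
  have q4 := congrArg (fun x => S.B x (e i)) p2
  simp only [PQ.B_smul_left, PQ.B_add_left, h.on.self, h.on.ne hbi, h.on.ne hbi.symm] at q1 q2 q3 q4
  have r1 := mul_ne_zero (mul_ne_zero (pow_ne_zero 2 ha0) (pow_ne_zero 2 ha4))
    (mul_ne_zero (ne_swap (hv b)) (hv b))
  have r2 : σ a ^ 2 * (σ a ^ 2 * (a ^ 4 - 1) ^ 2 * (S.B (e b) v * S.B v (e b))) = 0 := by
    linear_combination (σ a ^ 2 * c' * S.B u (e i)) * q1 - (σ a ^ 2 * c' * S.B u (e b)) * q2
      + (σ a ^ 2 * (a ^ 4 - 1) * S.B (e b) v * S.B v (e b)) * q4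
      - (σ a ^ 2 * (a ^ 4 - 1) * S.B (e b) v * S.B v (e i)) * q3
  exact mul_ne_zero (pow_ne_zero 2 ha0) r1 r2

theorem R4.norm_seven (h : R4 S M e) {a : F} (ha : a * σ a = 1) (ha4 : a ^ 4 = -1) (h7 : (7 : F) = 0)
    (hr7 : ∀ x, σ x = x → x ^ 7 = x) {v : V} (hv : ∀ i, S.B v (e i) ≠ 0) (hvv : S.B v v = 1)
    (hr : HR S M v a) (i : ι) : S.B v (e i) * σ (S.B v (e i)) = 2 := by
  have ha0 : σ a ≠ 0 := right_ne_zero_of_mul_eq_one ha
  have key : ∀ i, S.B v (e i) * σ (S.B v (e i)) = 1 ∨ S.B v (e i) * σ (S.B v (e i)) = 2 := by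
    intro i
    obtain ⟨ρ, hρ, eρ⟩ := h.hr i ha
    obtain ⟨τ, hτ, eτ⟩ := hr
    have ey : ∀ x, (τ * ρ⁻¹) x = x - (2 * S.B x (e i)) • e i -
        (2 * S.B (x - (2 * S.B x (e i)) • e i) v) • v := fun x => by
      have : ρ⁻¹ x = a • (x - (2 * S.B x (e i)) • e i) := ρ.symm_apply_eq.2 (by
        simp only [eρ, ha4, PQ.B_smul_left, PQ.B_sub_left, h.on.self]
        match_scalars
        · linear_combination -ha
        · ring)
      rw [LinearEquiv.mul_apply, this, map_smul, eτ, ha4, smul_smul, ha]; module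
    have hy := M.mul_mem hτ (M.inv_mem hρ)
    generalize τ * ρ⁻¹ = y at ey hy
    have fx : ∀ (m : ℕ) x, S.B x (e i) = 0 → S.B x v = 0 → (y ^ m) x = x := by
      intro m x h1 h2
      induction m with
      | zero => rfl
      | succ m ih => rw [pow_succ', LinearEquiv.mul_apply, ih, ey]; simp [h1, h2]
    have no : ∀ m : ℕ, (y ^ m) (e i) ≠ (-1 : F) • e i := fun m hm => by
      have := h.eq_one hv (M.pow_mem hy m) (fx m) hm
      rw [this] at hm
      have := congrArg (fun x => S.B x (e i)) hm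
      simp only [LinearEquiv.coe_one, id, PQ.B_smul_left, h.on.self] at this
      exact one_ne_zero (α := F) (by linear_combination 4 * this - h7)
    have n0 := mul_ne_zero (hv i) (σ_ne (σ := σ) (hv i))
    have n1 := hr7 (S.B v (e i) * σ (S.B v (e i))) (by rw [map_mul, hσ, mul_comm])
    have y2 : y (y (e i)) = (4 * (S.B v (e i) * σ (S.B v (e i))) - 2) • y (e i) - e i := by
      simp only [ey, PQ.B_sub_left, PQ.B_smul_left, h.on.self, hvv, Bs]
      module
    generalize S.B v (e i) * σ (S.B v (e i)) = n at n0 n1 y2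
    have p2 : (y ^ 2) (e i) = (4 * n - 2) • y (e i) - e i := y2
    have p3 : (y ^ 3) (e i) = ((4 * n - 2) ^ 2 - 1) • y (e i) - (4 * n - 2) • e i := by
      rw [pow_succ', LinearEquiv.mul_apply, p2, map_sub, map_smul, y2]; module
    have p4 : (y ^ 4) (e i) = ((4 * n - 2) ^ 3 - 2 * (4 * n - 2)) • y (e i) -
        ((4 * n - 2) ^ 2 - 1) • e i := by
      rw [pow_succ', LinearEquiv.mul_apply, p3, map_sub, map_smul, map_smul, y2]; module
    have n2 : (n - 1) * (n - 2) * (n - 3) * (n - 4) * (n - 5) * (n - 6) = 0 := by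
      apply mul_left_cancel₀ n0
      linear_combination n1 + (-3 * n ^ 6 + 25 * n ^ 5 - 105 * n ^ 4 + 232 * n ^ 3 - 252 * n ^ 2
        + 103 * n) * h7
    simp only [mul_eq_zero, sub_eq_zero] at n2
    rcases n2 with ((((rfl | rfl) | rfl) | rfl) | rfl) | rfl
    · exact Or.inl rfl
    · exact Or.inr rfl
    · refine (no 4 ?_).elim
      rw [p4]; match_scalars
      · linear_combination 140 * h7
      · linear_combination (-14) * h7
    · refine (no 2 ?_).elim
      rw [p2]; match_scalars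
      · linear_combination 2 * h7
      · ring
    · refine (no 4 ?_).elim
      rw [p4]; match_scalars
      · linear_combination 828 * h7
      · linear_combination (-46) * h7
    · refine (no 3 ?_).elim
      rw [p3]; match_scalars
      · linear_combination 69 * h7
      · linear_combination (-3) * h7
  obtain ⟨b, hb⟩ := h.out [i]
  obtain ⟨c, hc⟩ := h.out [i, b]
  obtain ⟨d, hd⟩ := h.out [i, b, c]
  simp only [List.mem_cons, List.not_mem_nil, or_false, not_or] at hb hc hd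
  have hu : ({d, c, b, i} : Finset ι) = Finset.univ := Finset.eq_univ_of_card _ (by
    rw [Finset.card_insert_of_notMem (by simp [hd]), Finset.card_eq_three.2 ⟨c, b, i, hc.2, hc.1, hb, rfl⟩,
      h.four])
  rw [h.on.B_sum, ← hu, Finset.sum_insert (by simp [hd]), Finset.sum_insert (by simp [hc]),
    Finset.sum_pair hb] at hvv
  refine (key i).resolve_left fun k1 => one_ne_zero (α := F) ?_
  rcases key b with k2 | k2 <;> rcases key c with k3 | k3 <;> rcases key d with k4 | k4 <;>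
    rw [k1, k2, k3, k4] at hvv
  · linear_combination 5 * hvv - 2 * h7
  · linear_combination 2 * hvv - h7
  · linear_combination 2 * hvv - h7
  · linear_combination 3 * hvv - 2 * h7
  · linear_combination 2 * hvv - h7
  · linear_combination 3 * hvv - 2 * h7
  · linear_combination 3 * hvv - 2 * h7
  · linear_combination -hvv + h7

theorem R4.mono (h : R4 S M e) {a : F} (ha : a * σ a = 1) (ha4 : a ^ 4 ≠ 1)
    (h8 : a ^ 8 ≠ 1 ∨ ((7 : F) = 0 ∧ ∀ x, σ x = x → x ^ 7 = x)) {g : V ≃ₗ[F] V} (hg : g ∈ M) :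
    Mono e g := by
  by_contra hM
  obtain ⟨j, -⟩ := h.out []
  have hgi := (h.le hg).1
  by_cases ha8 : a ^ 8 = 1
  swap
  · exact h.not_gen ha ha8 (h.entry_ne ha ha4 hg hM j) ((h.hr j ha).conj hg hgi)
  obtain ⟨h7, hr7⟩ := h8.resolve_left (not_not.2 ha8)
  have a4 : a ^ 4 = -1 := mul_left_cancel₀ (sub_ne_zero.2 ha4) (by linear_combination ha8)
  have key : ∀ g ∈ M, ¬ Mono e g → ∀ i, S.B (g (e j)) (e i) * σ (S.B (g (e j)) (e i)) = 2 :=
    fun g hg hM => h.norm_seven ha a4 h7 hr7 (h.entry_ne ha ha4 hg hM j)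
      (by rw [PQ.B_isom (h.le hg).1, h.on.self]) ((h.hr j ha).conj hg (h.le hg).1)
  obtain ⟨s, hs, hs'⟩ : ∃ s : F, s * σ s = 1 ∧ s + σ s = -3 := by
    have ha0 : a ≠ 0 := left_ne_zero_of_mul_eq_one ha
    have : (a + σ a - 3) * (a + σ a + 3) = 0 := mul_left_cancel₀ (pow_ne_zero 2 ha0) (by
      linear_combination a4 + (2 * a ^ 2 + a * σ a + 1) * ha - a ^ 2 * h7)
    rcases mul_eq_zero.1 this with h1 | h1
    · exact ⟨-a, by simpa using ha, by rw [map_neg]; linear_combination -h1⟩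
    · exact ⟨a, ha, by linear_combination h1⟩
  obtain ⟨b, hb⟩ := h.out [j]
  obtain ⟨t, ht, -, -, et⟩ := h.exists_tor (show b ≠ j by simpa using hb) hs
  have hG := M.mul_mem (M.mul_mem (M.inv_mem hg) ht) hg
  have e1 : S.B ((g⁻¹ * t * g) (e j)) (e j) = -2 := by
    rw [← PQ.B_isom hgi]
    have k1 := key g hg hM b
    have k2 := key g hg hM j
    simp only [LinearEquiv.mul_apply, LinearEquiv.coe_inv, LinearEquiv.apply_symm_apply, et,
      PQ.B_add_left, PQ.B_smul_left, PQ.B_isom hgi, h.on.self, ← Bs S (g (e j)) (e _)]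
    linear_combination (s - 1) * k1 + (σ s - 1) * k2 + 2 * hs' - h7
  by_cases hm : Mono e (g⁻¹ * t * g)
  · obtain ⟨l, c, e2⟩ := hm j
    have e3 := PQ.B_isom (h.le hG).1 (e j) (e j)
    rw [e2] at e1 e3
    by_cases hl : l = j
    · simp only [hl, PQ.B_smul_left, Bsr, h.on.self, mul_one] at e1 e3
      rw [e1, map_neg, map_ofNat] at e3
      exact one_ne_zero (α := F) (by linear_combination 5 * e3 - 2 * h7)
    · rw [PQ.B_smul_left, h.on.ne hl] at e1
      exact one_ne_zero (α := F) (by linear_combination 4 * e1 - h7)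
  · have := key _ hG hm j
    rw [e1, map_neg, map_ofNat] at this
    exact one_ne_zero (α := F) (by linear_combination 4 * this - h7)

end abstract

variable {F : Type*} [Field F] [Fintype F] {q : ℕ} (hF : Fintype.card F = q ^ 2) {n : ℕ}

include hF in
theorem geo_mono4 (hn : n = 4) (hq : q ≠ 3) {t : ℕ} (D : Fin t → Submodule F (Fin n → F))
    (hD : Geo.IsNondegenerateMDecomposition (hermForm n F q) 1 D) :
    Geo.IsMaximalIn (GU n F q ⊓ Geo.specialLinear (Fin n) F)
      (Geo.decompositionStabilizer D ⊓ (GU n F q ⊓ Geo.specialLinear (Fin n) F)) := by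
  obtain ⟨π, h⟩ := exists_od hF hD
  have ht := card_eq_of_isMDecomposition hD.decomp
  rw [Fintype.card_fin, mul_one] at ht
  choose b b1 b2 b3 b4 using fun i =>
    exists_orthonormal_unit (std_ne hF) (std hF n) 1 (D i) (h.nd i) (h.dim i)
  have hon : ON (std hF n) (fun i => b i 0) := ⟨fun i j => by
    split_ifs with hij
    · rw [hij, b2]
    · exact h.orth i j hij _ (b1 i 0) _ (b1 j 0), fun x => by
    conv_rhs => rw [← h.pr.sum x]
    refine Finset.sum_congr rfl fun i _ => ?_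
    rw [h.B_eq x (b1 i 0)]
    simpa using (b4 i _ (h.pr.mem i x)).symm⟩
  refine max_of hF (Mono fun i => b i 0) (fun g => ?_)
    (SU_not_le_decompositionStabilizer hF (by omega) (by omega) hD.decomp)
    fun M h1 h3 => ?_
  · rw [mem_decomp_iff hD.decomp]
    refine forall_congr' fun i => exists_congr fun j => ⟨fun h' => ⟨_, by
      simpa using b4 j _ (h' _ (b1 i 0))⟩, fun ⟨c, hc⟩ x hx => ?_⟩
    rw [b4 i x hx, Fin.sum_univ_one, map_smul, hc]
    exact Submodule.smul_mem _ _ (Submodule.smul_mem _ _ (b1 j 0))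
  have h4 : Fintype.card (Fin t) = 4 := by rw [Fintype.card_fin, ← ht, hn]
  have h2 := two_le_of_card_sq hF
  by_cases hq2 : q = 2
  · refine TW4.max ⟨⟨hon, h1, h3⟩, std_ne hF, fun a ha h0 => mul_left_cancel₀ h0 ?_, h4⟩
    subst hq2
    change a ^ 2 = a at ha
    linear_combination ha
  have hM : MS (std hF n) M fun i => b i 0 := ⟨hon, h1, h3⟩
  have hr := exists_real hF (by omega)
  obtain ⟨a, a1, a2⟩ := exists_norm_one_ord hF
  refine (hM.rigid_or (std_ne hF) hr h4.ge).imp_left fun hR g hg =>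
    R4.mono ⟨hM, std_ne hF, hr, hR, h4⟩ a1 (fun h5 => ?_) ?_ hg
  · have := Nat.le_of_dvd (by omega) ((a2 4).1 h5)
    omega
  by_cases hq7 : q = 7
  · subst hq7
    refine Or.inr ⟨?_, fun x hx => hx⟩
    have := FiniteField.cast_card_eq_zero F
    rw [hF, Nat.cast_pow] at this
    exact_mod_cast pow_eq_zero_iff two_ne_zero |>.1 this
  · refine Or.inl fun h5 => ?_
    have h6 := (a2 8).1 h5
    have := Nat.le_of_dvd (by omega) h6
    obtain ⟨k, rfl⟩ : ∃ k, q = k + 4 := ⟨q - 4, by omega⟩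
    have : k = 0 ∨ k = 1 ∨ k = 2 := by omega
    rcases this with rfl | rfl | rfl <;> simp at h6

end Cfsg.Agent.H6.SU
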