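import Cfsg.Agent.H6.SUMono3
import Cfsg.Agent.H7.OmX1

/-!
Unitary groups: field extension subgroups, first part (set-up and counting lemmas).
-/

set_option autoImplicit false
set_option linter.unusedSectionVars false
set_option linter.unusedVariables false

namespace Cfsg.Agent.H6.SU

open Module Cfsg.Agent.Form Cfsg.Agent.H7

section general

variable {F : Type*} [Field F] {σ : F →+* F} {hσ : ∀ a, σ (σ a) = a}
  {V : Type*} [AddCommGroup V] [Module F V]

/-- the fixed field of an involution -/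
abbrev Fx (σ : F →+* F) : Subfield F := σ.eqLocusField (RingHom.id F)

theorem fx_eq (c : Fx σ) : σ c = c := c.2

theorem finrank_fx (hne : ∃ a, σ a ≠ a) (hσ : ∀ a, σ (σ a) = a) : finrank (Fx σ) F = 2 := by
  obtain ⟨θ, hθ⟩ := hne
  have h1 : θ - σ θ ≠ 0 := fun h => hθ (by linear_combination -h)
  have h2 : σ θ - θ ≠ 0 := fun h => hθ (by linear_combination h)
  let L : (Fx σ × Fx σ) →ₗ[Fx σ] F :=
    { toFun := fun p => p.1 + θ * p.2
      map_add' := fun a b => by simp; ring
      map_smul' := fun c a => by simp [Subfield.smul_def]; ring }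
  have hL : Function.Bijective L := by
    constructor
    · rw [injective_iff_map_eq_zero]
      rintro ⟨a, b⟩ h
      change (a : F) + θ * b = 0 at h
      have h' := congrArg σ h
      rw [map_add, map_mul, fx_eq, fx_eq, map_zero] at h'
      have hb : (b : F) = 0 := by
        have : (θ - σ θ) * b = 0 := by linear_combination h - h'
        exact (mul_eq_zero.1 this).resolve_left h1
      have ha : (a : F) = 0 := by rw [hb] at h; simpa using h
      exact Prod.ext (Subtype.ext ha) (Subtype.ext hb)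
    · intro c
      have k : σ ((c - σ c) / (θ - σ θ)) = (c - σ c) / (θ - σ θ) := by
        rw [map_div₀, map_sub, map_sub, hσ, hσ]; field_simp; ring
      refine ⟨(⟨c - θ * ((c - σ c) / (θ - σ θ)), ?_⟩, ⟨_, k⟩), by simp [L]⟩
      change σ _ = _
      rw [map_sub, map_mul, k, RingHom.id_apply]; field_simp; ring
  rw [← (LinearEquiv.ofBijective L hL).finrank_eq]; simp

theorem det_of_sq [Finite F] {g : V ≃ₗ[F] V} (h : ∀ x, g (g x - x) = g x - x) :
    LinearEquiv.det g = 1 := by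
  obtain ⟨p, hp⟩ := CharP.exists F
  have := Fact.mk (CharP.char_is_prime F p)
  have key : ∀ n : ℕ, ∀ x, (g ^ n) x = x + (n : F) • (g x - x) := by
    intro n
    induction n with
    | zero => simp
    | succ n ih => intro x; rw [pow_succ', LinearEquiv.mul_apply, ih, map_add, map_smul, h]; push_cast; module
  have h1 : g ^ p = 1 := by ext x; simp [key]
  have h2 : (LinearEquiv.det g : F) ^ p = 1 := by
    rw [← Units.val_pow_eq_pow_val, ← map_pow, h1]; simp
  exact Units.ext (frobenius_inj F p (by simpa [frobenius_def] using h2))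

variable {S : PQ (FP.unit σ hσ) V} [FiniteDimensional F V] [Finite F]

/-- `SU` is transitive on singular points. -/
theorem exists_line (hne : ∃ a, σ a ≠ a) (hS : S.Nondeg) (h2 : 2 ≤ finrank F V) {u v : V}
    (hu : S.B u u = 0) (hu0 : u ≠ 0) (hv : S.B v v = 0) (hv0 : v ≠ 0) :
    ∃ k ∈ sisom S, ∃ a : F, k v = a • u := by
  have key : ∀ u v : V, S.B u u = 0 → S.B v v = 0 → S.B v u ≠ 0 → ∃ k ∈ sisom S, ∃ a : F, a ≠ 0 ∧
      k v = a • u := by
    intro u v hu hv h
    obtain ⟨a, ha0, ha⟩ := exists_sing_comb hne hv hu h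
    obtain ⟨h1, h2⟩ := S.exists_tau (u := v) (v := -(a • u))
      ((S.unit_Q_sub_mem S _ _).2 (by simp [hu, hv])) (by simp [hv, ha0, h])
    refine ⟨_, tau_mem_sisom S (sing ?_) _ h1, -a, neg_ne_zero.2 ha0, by rw [h2, neg_smul]⟩
    rw [show -(a • u) - v = -(v + a • u) by abel, S.B_neg_left, S.B_neg_right, neg_neg, ha]
  obtain ⟨z, -, hz, h1, h3⟩ := exists_sing_on hne (S.nondegOn_top.2 hS) (by rwa [finrank_top])
    (x := v) (y := u) (by simpa [hS.perp_top] using hv0) (by simpa [hS.perp_top] using hu0)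
  obtain ⟨k, hk, a, ha, e⟩ := key z v hz hv h1
  obtain ⟨k', hk', a', -, e'⟩ := key u z hu hz (ne_swap h3)
  exact ⟨k' * k, mul_mem hk' hk, a * a', by rw [LinearEquiv.mul_apply, e, map_smul, e', smul_smul]⟩

/-- `SU` is transitive on singular vectors in dimension at least three. -/
theorem exists_vec (hne : ∃ a, σ a ≠ a) (hS : S.Nondeg) (h3 : 3 ≤ finrank F V) {u v : V}
    (hu : S.B u u = 0) (hu0 : u ≠ 0) (hv : S.B v v = 0) (hv0 : v ≠ 0) :
    ∃ k ∈ sisom S, k v = u := by
  obtain ⟨g, hg, e⟩ := hS.witt_step ⊥ (u := v) (v := u) (by simpa using hv0) (by simpa using hu0)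
    (by simp) ((S.unit_Q_sub_mem S _ _).2 (by rw [hu, hv]))
  obtain ⟨w, -, hw, hvw⟩ := exists_partner_on (S.nondegOn_top.2 hS) (u := v) trivial hv0 hv
  obtain ⟨z, -, hz, h1, -⟩ := exists_nonsing_perp hne (S.nondegOn_top.2 hS) (by rwa [finrank_top])
    (e := v) (f := w) trivial trivial hv hw (by rw [hvw]; exact one_ne_zero)
  obtain ⟨k, hk, c, ek⟩ := exists_fix_det hS (S.gen_le_isom _ hg) hz
  exact ⟨k, hk, by simp [ek, S.B_comm_zero h1, e]⟩

end general

variable {F K : Type*} [Field F] [Field K] [Algebra F K] {V : Type*} [AddCommGroup V] [Module F V]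
  [Module K V] [IsScalarTower F K V] {σ : F →+* F} {hσ : ∀ a, σ (σ a) = a} {ρ : K →+* K}
  {hρ : ∀ a, ρ (ρ a) = a}

/-- An odd degree extension of fields with involution, with a compatible trace form. -/
structure XF (σ : F →+* F) (ρ : K →+* K) (τ : K →ₗ[F] F) : Prop where
  ne : ∃ a, σ a ≠ a
  σσ : ∀ a, σ (σ a) = a
  ρρ : ∀ a, ρ (ρ a) = a
  tau : τ ≠ 0
  alg : ∀ c, ρ (algebraMap F K c) = algebraMap F K (σ c)
  tr : ∀ k, τ (ρ k) = σ (τ k)
  prime : (finrank F K).Prime
  three : 3 ≤ finrank F K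

variable {τ : K →ₗ[F] F}

theorem XF.smul (h : XF σ ρ τ) (c : F) (k : K) : ρ (c • k) = σ c • ρ k := by
  rw [Algebra.smul_def, Algebra.smul_def, map_mul, h.alg]

theorem XF.neK (h : XF σ ρ τ) : ∃ a, ρ a ≠ a := by
  obtain ⟨a, ha⟩ := h.ne
  exact ⟨algebraMap F K a, fun e => ha ((algebraMap F K).injective (by rw [← h.alg, e]))⟩

theorem XF.fin (h : XF σ ρ τ) : FiniteDimensional F K :=
  Module.finite_of_finrank_pos (by have := h.three; omega)

theorem XF.ext (h : XF σ ρ τ) {a b : K} (e : ∀ k, τ (k * a) = τ (k * b)) : a = b :=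
  sub_eq_zero.1 (eq_zero_of_tau h.tau fun k => by rw [mul_sub, map_sub, e, sub_self])

/-- A `ρ`-invariant subspace is spanned by its skew elements. -/
theorem XF.le_of_minus (h : XF σ ρ τ) {U W : Submodule F K} (hU : ∀ k ∈ U, ρ k ∈ U)
    (hW : ∀ k ∈ U, k + ρ k = 0 → k ∈ W) : U ≤ W := by
  obtain ⟨θ, hθ⟩ := h.ne
  have h1 : θ - σ θ ≠ 0 := fun h => hθ (by linear_combination -h)
  have h2 : σ θ - θ ≠ 0 := fun h => hθ (by linear_combination h)
  intro k hk
  have m1 : (θ - σ θ)⁻¹ • (k + ρ k) ∈ U := U.smul_mem _ (U.add_mem hk (hU k hk))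
  have e1 : ρ ((θ - σ θ)⁻¹ • (k + ρ k)) = -((θ - σ θ)⁻¹ • (k + ρ k)) := by
    rw [h.smul, map_inv₀, map_sub, h.σσ, map_add, h.ρρ, ← neg_smul, ← inv_neg, neg_sub, add_comm]
  have m2 := hW _ m1 (by rw [e1, add_neg_cancel])
  have m3 := hW _ (U.sub_mem hk (U.smul_mem θ m1)) (by
    rw [map_sub, h.smul θ, e1]
    have : (k + ρ k) - ((θ - σ θ) * (θ - σ θ)⁻¹) • (k + ρ k) = 0 := by
      rw [mul_inv_cancel₀ h1, one_smul, sub_self]
    rw [← this]; module)
  simpa using W.add_mem m3 (W.smul_mem θ m2)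

theorem XF.exists_minus (h : XF σ ρ τ) {U W : Submodule F K} (hU : ∀ k ∈ U, ρ k ∈ U)
    (hW : ¬ U ≤ W) : ∃ k ∈ U, k + ρ k = 0 ∧ k ∉ W := by
  by_contra hc
  push Not at hc
  exact hW (h.le_of_minus hU hc)

theorem XF.eq_zero (h : XF σ ρ τ) {a : K} (e : ∀ k, k + ρ k = 0 → τ (k * a) = 0) : a = 0 :=
  eq_zero_of_tau h.tau fun k =>
    h.le_of_minus (U := ⊤) (W := LinearMap.ker (τ ∘ₗ LinearMap.mulRight F a)) (fun _ _ => trivial)
      (fun k _ hk => e k hk) (Submodule.mem_top (x := k))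

theorem XF.tr_minus (h : XF σ ρ τ) {κ m : K} (hκ : κ + ρ κ = 0) (hm : ρ m = m) :
    τ (κ * m) + σ (τ (κ * m)) = 0 := by
  rw [← h.tr, ← map_add, map_mul, hm, ← add_mul, hκ, zero_mul, map_zero]

theorem XF.exists_tau (h : XF σ ρ τ) {m : K} (hm : ρ m = m) (h0 : m ≠ 0) {c : F} (hc : c + σ c = 0) :
    ∃ κ, κ + ρ κ = 0 ∧ τ (κ * m) = c := by
  obtain ⟨κ, hκ, h1⟩ : ∃ κ, κ + ρ κ = 0 ∧ τ (κ * m) ≠ 0 := by
    by_contra hc
    push Not at hc
    exact h0 (h.eq_zero hc)
  have h2 := h.tr_minus hκ hm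
  refine ⟨(c / τ (κ * m)) • κ, ?_, by rw [smul_mul_assoc, map_smul, smul_eq_mul, div_mul_cancel₀ _ h1]⟩
  rw [h.smul, map_div₀, eq_neg_of_add_eq_zero_right hc, eq_neg_of_add_eq_zero_right h2, neg_div_neg_eq,
    ← smul_add, hκ, smul_zero]

/-- The symmetric elements of trace zero. -/
def XF.E0 (h : XF σ ρ τ) : Submodule (Fx σ) K where
  carrier := {k | ρ k = k ∧ τ k = 0}
  add_mem' ha hb := ⟨by rw [map_add, ha.1, hb.1], by rw [map_add, ha.2, hb.2, add_zero]⟩
  zero_mem' := by simp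
  smul_mem' c k hk := by
    change ρ ((c : F) • k) = (c : F) • k ∧ τ ((c : F) • k) = 0
    rw [h.smul, fx_eq, hk.1, map_smul, hk.2, smul_zero]; simp

theorem XF.finrank_fx (h : XF σ ρ τ) (W : Type*) [AddCommGroup W] [Module F W] :
    finrank (Fx σ) W = 2 * finrank F W := by
  rw [← Module.finrank_mul_finrank (Fx σ) F W, SU.finrank_fx h.ne h.σσ]

theorem XF.finK (h : XF σ ρ τ) (W : Type*) [AddCommGroup W] [Module F W] [FiniteDimensional F W] :
    FiniteDimensional (Fx σ) W := by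
  have : FiniteDimensional (Fx σ) F :=
    Module.finite_of_finrank_pos (by rw [SU.finrank_fx h.ne h.σσ]; omega)
  exact Module.Finite.trans F W

theorem XF.finrank_E0 (h : XF σ ρ τ) : finrank (Fx σ) h.E0 + 1 ≤ finrank F K := by
  have := h.fin
  have := h.finK K
  have := h.finK (LinearMap.ker τ)
  obtain ⟨θ, hθ⟩ := h.ne
  have h1 : θ - σ θ ≠ 0 := fun h => hθ (by linear_combination -h)
  let L : (h.E0 × h.E0) →ₗ[Fx σ] LinearMap.ker τ :=
    { toFun := fun p => ⟨p.1 + θ • p.2, by simp [p.1.2.2, p.2.2.2]⟩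
      map_add' := fun a b => Subtype.ext (by simp; abel)
      map_smul' := fun c a => Subtype.ext (by simp [Subfield.smul_def, smul_comm θ]) }
  have hL : Function.Injective L := by
    rw [injective_iff_map_eq_zero]
    rintro ⟨a, b⟩ e
    have e : (a : K) + θ • (b : K) = 0 := congrArg Subtype.val e
    have e' := congrArg ρ e
    rw [map_add, h.smul, a.2.1, b.2.1, map_zero] at e'
    have hb : (b : K) = 0 := by
      have : (θ - σ θ) • (b : K) = 0 := by linear_combination (norm := module) e - e'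
      exact (smul_eq_zero.1 this).resolve_left h1
    have ha : (a : K) = 0 := by rw [hb] at e; simpa using e
    exact Prod.ext (Subtype.ext ha) (Subtype.ext hb)
  have a0 := LinearMap.finrank_le_finrank_of_injective hL
  have a1 := LinearMap.finrank_range_add_finrank_ker τ
  have a2 : finrank F (LinearMap.range τ) = 1 := by
    rw [Module.Dual.range_eq_top_of_ne_zero h.tau]; simp
  rw [finrank_prod, h.finrank_fx (LinearMap.ker τ)] at a0
  omega

/-- The Hermitian trace form on the extension field. -/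
noncomputable def XF.hK (h : XF σ ρ τ) (hσ : ∀ a, σ (σ a) = a) : PQ (FP.unit σ hσ) K :=
  PQ.ofHerm σ hσ (exists_tr_one h.ne hσ).choose (exists_tr_one h.ne hσ).choose_spec
    (fun x y => τ (x * ρ y)) (fun x y v => by simp [add_mul]) (fun c x v => by simp)
    (fun v w => by rw [← h.tr, map_mul ρ, h.ρρ, mul_comm])

theorem XF.hK_B (h : XF σ ρ τ) (x y : K) : (h.hK hσ).B x y = τ (x * ρ y) := rfl

theorem XF.hK_nd (h : XF σ ρ τ) : (h.hK hσ).Nondeg := fun x hx =>
  eq_zero_of_tau h.tau fun k => by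
    have := hx (ρ k)
    rwa [h.hK_B, h.ρρ, mul_comm] at this

/-- The unitary space `S` is obtained from `f` by restriction of scalars. -/
structure XH (τ : K →ₗ[F] F) (f : PQ (FP.unit ρ hρ) V) (S : PQ (FP.unit σ hσ) V) : Prop
    extends XF σ ρ τ where
  nd : f.Nondeg
  B : ∀ x y, S.B x y = τ (f.B x y)
  two : 2 ≤ finrank K V

variable {f : PQ (FP.unit ρ hρ) V} {S : PQ (FP.unit σ hσ) V} {M : Subgroup (V ≃ₗ[F] V)}

theorem XH.finV (h : XH τ f S) : FiniteDimensional K V :=
  Module.finite_of_finrank_pos (by have := h.two; omega)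

theorem XH.finF (h : XH τ f S) : FiniteDimensional F V :=
  have := h.fin
  have := h.finV
  Module.Finite.trans K V

theorem XH.nondeg (h : XH τ f S) : S.Nondeg := fun x hx =>
  h.nd x fun y => eq_zero_of_tau h.tau fun k => by
    simpa [h.B, Bsr, h.ρρ] using hx (ρ k • y)

theorem XH.B_smul (h : XH τ f S) (k : K) (x y : V) : S.B (k • x) y = S.B x (ρ k • y) := by
  simp [h.B, h.ρρ]

theorem XH.res_isom (h : XH τ f S) {g : V ≃ₗ[K] V} (hg : g ∈ f.isom) : g.restrictScalars F ∈ S.isom :=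
  (S.unit_mem_isom _).2 fun x y => by
    rw [h.B, h.B]; exact congrArg τ (PQ.B_isom hg x y)

theorem XH.res_mem (h : XH τ f S) {g : V ≃ₗ[K] V} (hg : g ∈ sisom f) : g.restrictScalars F ∈ sisom S := by
  refine ⟨h.res_isom hg.1, Units.ext ?_⟩
  have h1 : (LinearEquiv.det g : K) = 1 := by rw [(mem_sisom.1 hg).2]; rfl
  rw [LinearEquiv.coe_det] at h1 ⊢
  have := LinearMap.det_restrictScalars (R := F) (f := (g : V →ₗ[K] V))
  rw [h1, map_one] at this
  exact this

/-- The functional `x ↦ f(x,u)` as an `F`-linear map. -/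
def fl (F : Type*) [Field F] [Algebra F K] [Module F V] [IsScalarTower F K V] (f : PQ (FP.unit ρ hρ) V)
    (u : V) : V →ₗ[F] K := (f.lin u).restrictScalars F

@[simp] theorem fl_apply (u x : V) : fl F f u x = f.B x u := rfl

theorem XH.f_eq_zero (h : XH τ f S) {x y : V} (e : ∀ k : K, S.B (k • x) y = 0) : f.B x y = 0 :=
  eq_zero_of_tau h.tau fun k => by simpa [h.B] using e k

theorem XH.mem_span_of_perp (h : XH τ f S) {u y : V} (hy : ∀ w, f.B w u = 0 → S.B w y = 0) :
    ∃ k : K, y = k • u := by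
  have := h.finV
  have : y ∈ f.perp (f.perp (K ∙ u)) := f.mem_perp'.2 fun w hw => h.f_eq_zero fun k =>
    hy (k • w) (by simp [f.mem_perp_span_singleton.1 hw])
  rw [h.nd.perp_perp] at this
  obtain ⟨k, hk⟩ := Submodule.mem_span_singleton.1 this
  exact ⟨k, hk.symm⟩

/-- The norm form along an `F`-linear map, as a bilinear map over the small field. -/
def XH.bil (h : XH τ f S) (j : K →ₗ[F] V) : K →ₗ[Fx σ] K →ₗ[Fx σ] K :=
  LinearMap.mk₂ (Fx σ) (fun a b => f.B (j a) (j b)) (fun a a' b => by simp)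
    (fun c a b => by
      change f.B (j ((c : F) • a)) _ = (c : F) • _
      rw [map_smul, ← algebraMap_smul K, f.B_smul_left, Algebra.smul_def])
    (fun a b b' => by simp)
    (fun c a b => by
      change f.B _ (j ((c : F) • b)) = (c : F) • _
      rw [map_smul, ← algebraMap_smul K, Bsr, h.alg, fx_eq, Algebra.smul_def])

theorem XH.bil_apply (h : XH τ f S) (j : K →ₗ[F] V) (a b : K) : h.bil j a b = f.B (j a) (j b) := rfl

variable [Finite F]

/-- A totally singular `r`-space contains a vector singular over the extension field. -/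
theorem XH.exists_sing (h : XH τ f S) (j : K →ₗ[F] V) (hj : ∀ a b, S.B (j a) (j b) = 0) :
    ∃ b, b ≠ 0 ∧ f.B (j b) (j b) = 0 := by
  have := h.fin
  have := h.finK K
  have h1 := h.finrank_E0
  obtain ⟨b, hb, e⟩ := exists_zero_quad (h.bil j) 0 h.E0 (fun w => by
    rw [h.bil_apply]
    exact ⟨by simp [Bs], by simpa [h.B] using hj w w⟩) (by rw [h.finrank_fx K]; omega)
  exact ⟨b, hb, by simpa [h.bil_apply] using e⟩

theorem XH.exists_pair (h : XH τ f S) (j : K →ₗ[F] V) (hj : ∀ a b, S.B (j a) (j b) = 0) {u : V}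
    (hu : f.B u u = 0) {δ₀ δ : K} (h0 : δ₀ ≠ 0) (e0 : j δ₀ = δ • u) {a₀ : K} (ha₀ : f.B (j a₀) u ≠ 0) :
    ∃ a a', a ≠ a' ∧ f.B (j a) u ≠ 0 ∧ f.B (j a) u = f.B (j a') u ∧
      f.B (j a) (j a) = f.B (j a') (j a') := by
  have := h.fin
  have := h.finK K
  have h1 := h.finrank_E0
  by_contra hc
  push Not at hc
  let N : Submodule (Fx σ) K := (LinearMap.ker (fl F f u ∘ₗ j)).restrictScalars (Fx σ)
  have hN : ∀ a, a ∈ N ↔ f.B (j a) u = 0 := fun a => Iff.rfl
  have hE : ∀ a b, f.B (j a) (j b) + f.B (j b) (j a) ∈ h.E0 := fun a b =>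
    ⟨by rw [map_add, Bs, Bs, add_comm], by rw [map_add, ← h.B, ← h.B, hj, hj, add_zero]⟩
  let L : K →ₗ[Fx σ] h.E0 := LinearMap.codRestrict _ (h.bil j δ₀ + (h.bil j).flip δ₀) (hE δ₀)
  have a1 : LinearMap.ker L ≤ N := fun a ha => by
    by_contra hn
    have e : f.B (j δ₀) (j a) + f.B (j a) (j δ₀) = 0 := congrArg Subtype.val ha
    refine hc a (a + δ₀) (by simpa using h0) hn (by simp [e0, hu]) ?_
    have : f.B (j δ₀) (j δ₀) = 0 := by simp [e0, hu]
    simp only [map_add, PQ.B_add_left, PQ.B_add_right, this]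
    linear_combination -e
  have a2 := LinearMap.finrank_range_add_finrank_ker L
  have a3 := Submodule.finrank_mono a1
  have a4 := Submodule.finrank_le (LinearMap.range L)
  have : Finite K := Module.finite_of_finite F
  have a5 := Nat.card_le_card_of_injective (α := N) (β := h.E0)
    (fun y => ⟨f.B (j (a₀ + y)) (j (a₀ + y)), by rw [Bs], by rw [← h.B, hj]⟩) fun y y' e => by
      by_contra hy
      exact hc (a₀ + y) (a₀ + y') (fun e' => hy (Subtype.ext (add_left_cancel e')))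
        (by simpa [(hN _).1 y.2] using ha₀) (by simp [(hN _).1 y.2, (hN _).1 y'.2])
        (congrArg Subtype.val e)
  rw [Module.natCard_eq_pow_finrank (K := Fx σ), Module.natCard_eq_pow_finrank (K := Fx σ) (V := h.E0),
    Nat.pow_le_pow_iff_right Finite.one_lt_card] at a5
  rw [h.finrank_fx K] at a2
  have a6 := a3.trans a5
  omega

end Cfsg.Agent.H6.SU
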