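import Cfsg.Agent.H6.SUExt1

/-!
Unitary groups: field extension subgroups, second part (stabiliser of a point).
-/

set_option autoImplicit false
set_option linter.unusedSectionVars false
set_option linter.unusedVariables false

namespace Cfsg.Agent.H6.SU

open Module Cfsg.Agent.Form Cfsg.Agent.H7

variable {F K : Type*} [Field F] [Field K] [Algebra F K] {V : Type*} [AddCommGroup V] [Module F V]
  [Module K V] [IsScalarTower F K V] {σ : F →+* F} {hσ : ∀ a, σ (σ a) = a} {ρ : K →+* K}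
  {hρ : ∀ a, ρ (ρ a) = a} {τ : K →ₗ[F] F} {f : PQ (FP.unit ρ hρ) V} {S : PQ (FP.unit σ hσ) V}
  {M : Subgroup (V ≃ₗ[F] V)} [Finite F]

theorem XH.partner (h : XH τ f S) {u : V} (hu : f.B u u = 0) (hu0 : u ≠ 0) :
    ∃ x, f.B x x = 0 ∧ f.B x u = 1 ∧ f.B u x = 1 := by
  have := h.finV
  obtain ⟨x, -, h1, h2⟩ := exists_partner_on (f.nondegOn_top.2 h.nd) (u := u) trivial hu0 hu
  exact ⟨x, h1, by rw [← Bs, h2, map_one], h2⟩

theorem XH.perp_inv (h : XH τ f S) {u : V} {g : V ≃ₗ[F] V} (hgL : ∀ w, f.B w u = 0 → f.B (g w) u = 0)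
    (w : V) (hw : f.B w u = 0) : f.B (g.symm w) u = 0 := by
  have := h.finF
  exact (stabSub (LinearMap.ker (fl F f u))).inv_mem (x := g) hgL w hw

theorem XH.exists_isom (h : XH τ f S) (G : V →ₗ[F] V) (hG : ∀ x y, S.B (G x) (G y) = S.B x y) :
    ∃ g ∈ S.isom, ∀ x, g x = G x := by
  have := h.finF
  have hi : Function.Injective G := by
    rw [injective_iff_map_eq_zero]
    exact fun x hx => h.nondeg x fun y => by rw [← hG, hx, S.B_zero_left]
  exact ⟨LinearEquiv.ofInjectiveEndo G hi, (S.unit_mem_isom _).2 hG, fun _ => rfl⟩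

theorem XH.exists_semi (h : XH τ f S) {u : V} (hu : f.B u u = 0) (hu0 : u ≠ 0) {g : V ≃ₗ[F] V}
    (hg : g ∈ S.isom) (hgL : ∀ w, f.B w u = 0 → f.B (g w) u = 0)
    (hE : ∀ w q (e : f.EichOK u w q), KLin K (g⁻¹ * (f.eich u w q e).restrictScalars F * g)) :
    ∃ g₀ ∈ S.isom, KSemi K g₀ ∧ ∀ w, f.B w u = 0 → g₀ w = g w := by
  obtain ⟨x, hxx, hx, hux⟩ := h.partner hu hu0
  let α : K →ₗ[F] K := fl F f u ∘ₗ (g : V →ₗ[F] V) ∘ₗ
    (LinearMap.toSpanSingleton K V (g.symm x)).restrictScalars F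
  have hα : ∀ k, α k = f.B (g (k • g.symm x)) u := fun k => rfl
  have star : ∀ w q (e : f.EichOK u w q) (k : K), g (k • g.symm ((f.B x w - q) • u - w)) =
      (f.B (g (k • g.symm x)) w - q * α k) • u - α k • w := fun w q e k => by
    have := congrArg g (hE w q e k (g.symm x))
    simp only [LinearEquiv.mul_apply, LinearEquiv.coe_inv, LinearEquiv.apply_symm_apply,
      LinearEquiv.restrictScalars_apply, eich_ap, hx, ← hα, mul_one, one_smul] at this
    rw [add_sub_assoc x, map_add g.symm, smul_add, map_add g] at this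
    linear_combination (norm := module) -this
  have s1 : ∀ k q : K, g (k • g.symm (q • u)) = (α k * q) • u := fun k q => by
    have := h.le_of_minus (U := ⊤) (W := LinearMap.ker ((g : V →ₗ[F] V) ∘ₗ
      (LinearMap.lsmul K V k).restrictScalars F ∘ₗ (g.symm : V →ₗ[F] V) ∘ₗ
      (LinearMap.toSpanSingleton K V u).restrictScalars F -
      (LinearMap.toSpanSingleton K V (α k • u)).restrictScalars F)) (fun _ _ => trivial)
      (fun q _ hq => by
        have := star 0 (-q) (eichOK_iff.2 ⟨hu, by simp, by simp; linear_combination -hq⟩) k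
        simp only [PQ.B_zero_right, zero_sub, neg_neg, sub_zero, neg_mul, smul_zero] at this
        change g (k • g.symm (q • u)) - q • α k • u = 0
        rw [this, smul_smul, sub_self]) (Submodule.mem_top (x := q))
    change g (k • g.symm (q • u)) - q • α k • u = 0 at this
    rw [sub_eq_zero.1 this, smul_smul, mul_comm]
  have s2 : ∀ (k : K) w, f.B w u = 0 →
      g (k • g.symm w) = α k • w - f.B (g (k • g.symm x) - α k • x) w • u := fun k w e => by
    have := star w _ (exists_eichOK f hu e) k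
    rw [map_sub g.symm, smul_sub, map_sub g, s1] at this
    simp only [PQ.B_sub_left, PQ.B_smul_left]
    linear_combination (norm := module) -this
  have s3 : ∀ (k : K) w, f.B w u = 0 → g (k • g.symm w) = α k • w := fun k w e => by
    obtain ⟨θ, hθ⟩ := h.ne
    have e1 := s2 k (θ • w) (by rw [← algebraMap_smul K, f.B_smul_left, e, mul_zero])
    rw [map_smul g.symm, smul_comm k θ, map_smul g, s2 k w e, ← algebraMap_smul K θ w,
      ← algebraMap_smul K θ, Bsr, h.alg] at e1
    have e2 : ((algebraMap F K (σ θ) - algebraMap F K θ) * f.B (g (k • g.symm x) - α k • x) w) • u = 0 := by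
      linear_combination (norm := module) e1
    have e3 : algebraMap F K (σ θ) - algebraMap F K θ ≠ 0 := fun e =>
      hθ ((algebraMap F K).injective (sub_eq_zero.1 e))
    rw [s2 k w e, (mul_eq_zero.1 ((smul_eq_zero.1 e2).resolve_right hu0)).resolve_left e3]; simp
  have h3 : ∀ (k : K) w, f.B w u = 0 → g (k • w) = α k • g w := fun k w e => by
    have := s3 k (g w) (hgL w e)
    rwa [g.symm_apply_apply] at this
  have hm : ∀ k l, α (k * l) = α k * α l := fun k l => by
    have e1 := s1 k (α l)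
    rw [← s3 l u hu, g.symm_apply_apply, ← mul_smul, s3 _ u hu] at e1
    exact smul_left_injective K hu0 e1
  have hc : ∀ k, ρ (α k) = α (ρ k) := fun k => by
    have : α (ρ k) = ρ (α (ρ (ρ k))) := h.ext fun l => by
      have e1 : τ (l * α (ρ k)) = S.B (g (ρ k • g.symm x)) (ρ l • u) := by simp [h.B, hα, h.ρρ]
      rw [e1, PQ.B_isom_symm hg, h.B_smul, ← PQ.B_isom hg, g.apply_symm_apply, s1]
      simp [h.B, h.ρρ, hx, mul_comm]
    rw [this, h.ρρ]
  have hgx : f.B (g x) u ≠ 0 := fun e => by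
    have := h.perp_inv hgL _ e
    rw [g.symm_apply_apply, hx] at this
    exact one_ne_zero this
  obtain ⟨η, hη⟩ := f.exists_sing_add (sing hu) hgx 0
  have hη := (sing_of_zero_sub hη).B_self
  let G : V →ₗ[F] V := (LinearMap.toSpanSingleton K V (g x + η • u)).restrictScalars F ∘ₗ α ∘ₗ fl F f u +
    (g : V →ₗ[F] V) ∘ₗ (LinearMap.id - (LinearMap.toSpanSingleton K V x).restrictScalars F ∘ₗ fl F f u)
  have hG : ∀ v, G v = α (f.B v u) • (g x + η • u) + g (v - f.B v u • x) := fun v => rfl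
  have p : ∀ v, f.B (v - f.B v u • x) u = 0 := fun v => by simp [hx]
  obtain ⟨g₀, hg₀, e⟩ := h.exists_isom G fun v v' => by
    have q1 : ∀ (a : K) w, f.B w u = 0 → S.B (α a • (g x + η • u)) (g w) = S.B (a • x) w :=
      fun a w e => by
        rw [h.B_smul, hc, ← h3 _ w e, S.B_add_left, PQ.B_isom hg, h.B_smul a, h.B (η • u)]
        simp [f.B_comm_zero (hgL _ (show f.B (ρ a • w) u = 0 by simp [e]))]
    have q1' : ∀ (a : K) w, f.B w u = 0 → S.B (g w) (α a • (g x + η • u)) = S.B w (a • x) :=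
      fun a w e => by rw [← Bs, q1 a w e, Bs]
    have q2 : ∀ (a b : K) y, f.B y y = 0 → S.B (a • y) (b • y) = 0 := fun a b y e => by simp [h.B, e]
    rw [hG, hG, S.B_add_left, S.B_add_right, S.B_add_right, q2 _ _ _ hη, q1 _ _ (p v'), q1' _ _ (p v),
      PQ.B_isom hg]
    simp only [PQ.B_sub_left, PQ.B_sub_right, q2 _ _ _ hxx]
    ring
  refine ⟨g₀, hg₀, fun k => ⟨α k, fun v => ?_⟩, fun w hw => by simp [e, hG, hw]⟩
  rw [e, e, hG, hG, f.B_smul_left, hm, mul_smul k, ← smul_sub, h3 k _ (p v), smul_add (α k), mul_smul]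

theorem XH.fix_add (h : XH τ f S) {u : V} {g : V ≃ₗ[F] V} (hg : g ∈ S.isom)
    (hf : ∀ w, f.B w u = 0 → g w = w) (y : V) : ∃ k : K, g y - y = k • u :=
  h.mem_span_of_perp fun w e => by
    rw [S.B_sub_right, sub_eq_zero]
    conv_lhs => rw [← hf w e]
    exact PQ.B_isom hg w y

/-- `M` contains the normaliser of the extension field. -/
structure XM (τ : K →ₗ[F] F) (f : PQ (FP.unit ρ hρ) V) (S : PQ (FP.unit σ hσ) V)
    (M : Subgroup (V ≃ₗ[F] V)) : Prop extends XH τ f S where
  le : M ≤ sisom S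
  mem : ∀ g ∈ sisom S, KSemi K g → g ∈ M

theorem XM.iso (h : XM τ f S M) {g : V ≃ₗ[F] V} (hg : g ∈ M) : g ∈ S.isom := (h.le hg).1

theorem XM.res (h : XM τ f S M) {g : V ≃ₗ[K] V} (hg : g ∈ sisom f) : g.restrictScalars F ∈ M :=
  h.mem _ (h.res_mem hg) (kLin_res g).semi

theorem XM.eich (h : XM τ f S M) {u w : V} {q : K} (e : f.EichOK u w q) :
    (f.eich u w q e).restrictScalars F ∈ M := h.res (eich_mem_sisom f u w q e)

theorem XM.perp_of_dz (h : XM τ f S M) {u : V} (hu : f.B u u = 0) {g : V ≃ₗ[F] V} (hg : g ∈ M)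
    (h1 : dz K u g = ⊤) (w : V) (e : f.B w u = 0) : f.B (g w) u = 0 := by
  have := h.fin
  have := h.finV
  have := h.finF
  refine f.B_comm_zero (h.f_eq_zero fun k => S.B_comm_zero ?_)
  obtain ⟨k', e'⟩ := mem_dz.1 (dz_inv_top h1 ▸ Submodule.mem_top : k ∈ dz K u g⁻¹)
  rw [PQ.B_isom_symm (h.iso hg), show g.symm (k • u) = k' • u from e']
  simp [h.B, e]

/-- The stabiliser of a point of the extension space. -/
theorem XM.semi_of_stab (h : XM τ f S M) {u : V} (hu : f.B u u = 0) (hu0 : u ≠ 0)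
    (hY : ∀ y ∈ M, (∀ w, f.B w u = 0 → y w = w) → KLin K y) {g : V ≃ₗ[F] V} (hg : g ∈ M)
    (h1 : dz K u g = ⊤) : KSemi K g := by
  have := h.fin
  have := h.finV
  have := h.finF
  have key : ∀ g ∈ M, (∀ w, f.B w u = 0 → f.B (g w) u = 0) →
      (∀ w q (e : f.EichOK u w q), KLin K (g⁻¹ * (f.eich u w q e).restrictScalars F * g)) →
      KSemi K g := by
    intro g hg a1 a2
    obtain ⟨g₀, b1, b2, b3⟩ := h.exists_semi hu hu0 (h.iso hg) a1 a2
    have c1 : ∀ w, f.B w u = 0 → (g₀⁻¹ * g) w = w := fun w e => by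
      rw [LinearEquiv.mul_apply, ← b3 w e]; exact g₀.symm_apply_apply w
    have c2 : LinearEquiv.det (g₀⁻¹ * g) = 1 := det_of_sq fun y => by
      obtain ⟨k, hk⟩ := h.fix_add (mul_mem (inv_mem b1) (h.iso hg)) c1 y
      rw [hk, c1 _ (by simp [hu])]
    rw [map_mul, (mem_sisom.1 (h.le hg)).2, mul_one, map_inv, inv_eq_one] at c2
    have := b2.mul (hY _ (M.mul_mem (M.inv_mem (h.mem _ ⟨b1, c2⟩ b2)) hg) c1).semi
    rwa [mul_inv_cancel_left] at this
  have hgL := h.perp_of_dz hu hg h1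
  refine key g hg hgL fun w q e => ?_
  have hn : g⁻¹ * (f.eich u w q e).restrictScalars F * g ∈ M :=
    M.mul_mem (M.mul_mem (M.inv_mem hg) (h.eich e)) hg
  have n1 : ∀ k : K, (g⁻¹ * (f.eich u w q e).restrictScalars F * g) (k • u) = k • u := fun k => by
    obtain ⟨k', e'⟩ := mem_dz.1 (h1 ▸ Submodule.mem_top : k ∈ dz K u g)
    simp [LinearEquiv.mul_apply, e', f.B_comm_zero e.perp, LinearEquiv.symm_apply_eq, hu]
  have n2 : ∀ y, f.B y u = 0 → ∃ k : K, (g⁻¹ * (f.eich u w q e).restrictScalars F * g) y = y + k • u :=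
    fun y e' => by
      obtain ⟨k', e''⟩ := mem_dz.1 (dz_inv_top h1 ▸ Submodule.mem_top : f.B (g y) w ∈ dz K u g⁻¹)
      exact ⟨k', by
        rw [← e'']; simp [LinearEquiv.mul_apply, hgL y e']⟩
  generalize g⁻¹ * (f.eich u w q e).restrictScalars F * g = n at hn n1 n2
  have n3 : KSemi K n := key n hn (fun y e' => by
    obtain ⟨k, e''⟩ := n2 y e'
    simp [e'', e', hu]) fun w' q' e' => by
      have := (hY _ (M.mul_mem (M.mul_mem (M.mul_mem (M.inv_mem hn) (h.eich e')) hn)
        (M.inv_mem (h.eich e'))) fun y e'' => by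
          obtain ⟨k, e3⟩ := n2 y e''
          have e4 : ((f.eich u w' q' e').restrictScalars F)⁻¹ y = y - f.B y w' • u := by
            rw [LinearEquiv.coe_inv, LinearEquiv.symm_apply_eq]
            simp [e'', f.B_comm_zero e'.perp, hu]
          rw [LinearEquiv.mul_apply, e4, LinearEquiv.mul_apply, map_sub, n1, e3, LinearEquiv.mul_apply,
            LinearEquiv.coe_inv, LinearEquiv.symm_apply_eq, e3]
          simp [e'', f.B_comm_zero e'.perp, hu]).mul (kLin_res (f.eich u w' q' e'))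
      rwa [inv_mul_cancel_right] at this
  intro k v
  obtain ⟨k', e'⟩ := n3 k
  have := e' u
  rw [n1, ← one_smul K u, n1, one_smul] at this
  rw [e', smul_left_injective K hu0 this]

omit [Finite F] in
/-- A semilinear map with a large fixed space is linear. -/
theorem klin_of_fix [FiniteDimensional F V] [FiniteDimensional K V] (hp : (finrank F K).Prime)
    {t : V ≃ₗ[F] V} (ht : KSemi K t) (X : Submodule F V) (hX : ∀ x ∈ X, t x = x)
    (hd : finrank K V < finrank F X) : KLin K t := by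
  let A : Subalgebra F K :=
    { carrier := {k | ∀ v, t (k • v) = k • t v}
      mul_mem' := fun ha hb v => by rw [mul_smul, ha, hb, mul_smul]
      add_mem' := fun ha hb v => by rw [add_smul, map_add, ha, hb, add_smul]
      algebraMap_mem' := fun c v => by rw [algebraMap_smul, algebraMap_smul, map_smul] }
  rcases (Subalgebra.isSimpleOrder_of_finrank_prime F K hp).eq_bot_or_eq_top A with hA | hA
  swap
  · exact fun k => (hA ▸ Algebra.mem_top : k ∈ A)
  exfalso
  choose α hα using ht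
  have key : ∀ (n : ℕ) (v : Fin n → V), (∀ i, t (v i) = v i) → LinearIndependent F v →
      LinearIndependent K v := by
    intro n
    induction n with
    | zero => exact fun v _ _ => linearIndependent_empty_type
    | succ n ih =>
      intro v hv hl
      rw [linearIndependent_finSucc] at hl ⊢
      have h1 := ih _ (fun i => hv i.succ) hl.1
      refine ⟨h1, fun hm => hl.2 ?_⟩
      obtain ⟨c, hc⟩ := (Submodule.mem_span_range_iff_exists_fun K).1 hm
      have h2 := congrArg t hc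
      rw [map_sum, hv 0, ← hc] at h2
      have h3 : ∀ i, t (Fin.tail v i) = Fin.tail v i := fun i => hv i.succ
      simp only [hα, h3] at h2
      have h4 := Fintype.linearIndependent_iffₛ.1 h1 _ _ h2
      have h5 : ∀ i, ∃ a : F, algebraMap F K a = c i := fun i =>
        Algebra.mem_bot.1 (hA ▸ (fun w => by rw [hα, h4 i]) : c i ∈ (⊥ : Subalgebra F K))
      choose a ha using h5
      exact (Submodule.mem_span_range_iff_exists_fun F).2
        ⟨a, by rw [← hc]; exact Finset.sum_congr rfl fun i _ => by rw [← ha, algebraMap_smul]⟩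
  have := (key _ (fun i => (finBasis F X i : V)) (fun i => hX _ (finBasis F X i).2)
    ((finBasis F X).linearIndependent.map' X.subtype X.ker_subtype)).fintype_card_le_finrank
  rw [Fintype.card_fin] at this
  omega

omit [Finite F] in
theorem exists_extr [FiniteDimensional F K] [FiniteDimensional K V] [FiniteDimensional F V] {u : V}
    {G : Subgroup (V ≃ₗ[F] V)}
    (hex : ∃ g ∈ G, dz K u g ≠ ⊤ ∧ dz K u g ≠ ⊥) :
    ∃ g ∈ G, dz K u g ≠ ⊤ ∧ dz K u g ≠ ⊥ ∧ ∀ E ∈ G, (∀ k : K, E (k • u) = k • u) →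
      ∀ a a' : K, a ∉ dz K u g → E (g (a • u)) = g (a' • u) → dz K u (g⁻¹ * E * g) = ⊤ := by
  obtain ⟨g₀, hg₀, a1, a2⟩ := hex
  obtain ⟨g, ⟨hg, b1⟩, hmax⟩ := (measure fun g => finrank F K - finrank F (dz K u g)).wf.has_min
    {g | g ∈ G ∧ dz K u g ≠ ⊤} ⟨g₀, hg₀, a1⟩
  have hmax' : ∀ g' ∈ G, finrank F (dz K u g) < finrank F (dz K u g') → dz K u g' = ⊤ := fun g' hg' e => by
    by_contra e'
    refine hmax g' ⟨hg', e'⟩ ?_
    have := Submodule.finrank_le (dz K u g')
    change finrank F K - finrank F (dz K u g') < finrank F K - finrank F (dz K u g)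
    omega
  have b2 : dz K u g ≠ ⊥ := fun e => a1 (hmax' g₀ hg₀ (by
    rw [e, finrank_bot]; exact Nat.pos_of_ne_zero fun e' => a2 (Submodule.finrank_eq_zero.1 e')))
  refine ⟨g, hg, b1, b2, fun E hE e1 a a' ha e2 => hmax' _ (G.mul_mem (G.mul_mem (G.inv_mem hg) hE) hg)
    (Submodule.finrank_lt_finrank_of_lt (SetLike.lt_iff_le_and_exists.2 ⟨fun c hc => ?_, a, ?_, ha⟩))⟩
  · obtain ⟨k, hk⟩ := mem_dz.1 hc
    exact mem_dz.2 ⟨c, by simp [LinearEquiv.mul_apply, hk, e1, LinearEquiv.symm_apply_eq]⟩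
  · exact mem_dz.2 ⟨a', by simp [LinearEquiv.mul_apply, e2]⟩

/-- the `F`-linear parametrisation of the image of a point -/
def jm (K : Type*) [Field K] [Algebra F K] [Module K V] [IsScalarTower F K V] (u : V) (g : V ≃ₗ[F] V) :
    K →ₗ[F] V := (g : V →ₗ[F] V) ∘ₗ (LinearMap.toSpanSingleton K V u).restrictScalars F

omit [Finite F] in
theorem jm_apply (u : V) (g : V ≃ₗ[F] V) (b : K) : jm K u g b = g (b • u) := rfl

theorem XM.jm_ts (h : XM τ f S M) {u : V} (hu : f.B u u = 0) {g : V ≃ₗ[F] V} (hg : g ∈ M) (a b : K) :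
    S.B (jm K u g a) (jm K u g b) = 0 := by
  rw [jm_apply, jm_apply, PQ.B_isom (h.iso hg)]; simp [h.B, hu]

/-- If no new elements centralise the hyperplane, `M` normalises the field. -/
theorem XM.semi (h : XM τ f S M) (h33 : ¬ (finrank K V = 3 ∧ finrank F K = 3)) {u : V}
    (hu : f.B u u = 0) (hu0 : u ≠ 0) (hY : ∀ y ∈ M, (∀ w, f.B w u = 0 → y w = w) → KLin K y)
    {g : V ≃ₗ[F] V} (hg : g ∈ M) : KSemi K g := by
  have := h.fin
  have := h.finV
  have := h.finF
  have : Finite K := Module.finite_of_finite F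
  obtain ⟨b, hb0, hb⟩ := h.exists_sing _ (h.jm_ts hu hg)
  rw [jm_apply] at hb
  obtain ⟨k, hk, a, e⟩ := exists_line h.neK h.nd h.two hu hu0 hb (by simp [hb0, hu0])
  have m1 := M.mul_mem (h.res hk) hg
  by_cases h1 : dz K u (k.restrictScalars F * g) = ⊤
  · have := (kLin_res (F := F) k).inv.semi.mul (h.semi_of_stab hu hu0 hY m1 h1)
    rwa [inv_mul_cancel_left] at this
  exfalso
  obtain ⟨g, hg, b1, b2, b3⟩ := exists_extr (G := M) ⟨_, m1, h1, fun e' => hb0 (by
    have : b ∈ dz K u (k.restrictScalars F * g) := mem_dz.2 ⟨a, e⟩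
    rwa [e'] at this)⟩
  obtain ⟨δ₀, c1, c2⟩ := Submodule.exists_mem_ne_zero_of_ne_bot b2
  obtain ⟨δ, c3⟩ := mem_dz.1 c1
  by_cases hφ : ∀ a : K, f.B (g (a • u)) u = 0
  · obtain ⟨κ, hκ0, hκ⟩ := exists_tr_zero h.neK hρ
    have e1 := eichOK_iff.2 (⟨hu, by simp, by simpa using hκ⟩ : f.B u u = 0 ∧ f.B 0 u = 0 ∧
      κ + ρ κ = f.B 0 0)
    have ht : ∀ y, (g⁻¹ * (f.eich u 0 κ e1).restrictScalars F * g) y =
        y - g.symm ((κ * f.B (g y) u) • u) := fun y => by
      simp [LinearEquiv.mul_apply, sub_eq_add_neg]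
    have t1 : ∀ a : K, (g⁻¹ * (f.eich u 0 κ e1).restrictScalars F * g) (a • u) = a • u := fun a => by
      simp [ht, hφ]
    have t2 := h.semi_of_stab hu hu0 hY (M.mul_mem (M.mul_mem (M.inv_mem hg) (h.eich e1)) hg)
      (eq_top_iff.2 fun a _ => mem_dz.2 ⟨a, t1 a⟩)
    obtain ⟨x, hx⟩ := h.nd.exists_eq hu0 (δ / κ)
    refine b1 (eq_top_iff.2 fun l _ => mem_dz.2 ⟨κ * f.B (g ((l / δ₀) • g.symm x)) u, ?_⟩)
    obtain ⟨k', hk'⟩ := t2 (l / δ₀)
    have e2 := hk' u
    have t1' := t1 1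
    rw [one_smul] at t1'
    rw [t1, t1'] at e2
    have e3 := hk' (g.symm x)
    rw [← smul_left_injective K hu0 e2, ht, ht, smul_sub, sub_right_inj, g.apply_symm_apply, hx,
      mul_div_cancel₀ _ hκ0, ← c3, g.symm_apply_apply, smul_smul, div_mul_cancel₀ _ c2,
      LinearEquiv.symm_apply_eq] at e3
    exact e3.symm
  push Not at hφ
  obtain ⟨a₀, ha₀⟩ := hφ
  obtain ⟨a, a', d1, d2, d3, d4⟩ := h.exists_pair _ (h.jm_ts hu hg) hu c2 c3 ha₀
  simp only [jm_apply] at d2 d3 d4
  obtain ⟨w, q, e1, -, e2⟩ := exists_eich_map f (sing hu) d3 d2 ((f.unit_Q_sub_mem f _ _).2 d4.symm)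
  have t0 : ∀ k : K, (f.eich u w q e1).restrictScalars F (k • u) = k • u := fun k => by
    simp [f.B_comm_zero e1.perp, hu]
  have t1 := b3 _ (h.eich e1) t0 a a' (fun e => by
    obtain ⟨k, hk⟩ := mem_dz.1 e
    exact d2 (by simp [hk, hu])) e2
  have t2 := h.semi_of_stab hu hu0 hY (M.mul_mem (M.mul_mem (M.inv_mem hg) (h.eich e1)) hg) t1
  let X := f.perp (Submodule.span K {u, w})
  have x1 : 1 ≤ finrank K X := Nat.pos_of_ne_zero fun e => hu0 (by
    have : u ∈ X := f.mem_perp_span.2 (by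
      rintro _ (rfl | rfl)
      exacts [hu, f.B_comm_zero e1.perp])
    rwa [Submodule.finrank_eq_zero.1 e] at this)
  have x2 : finrank K V ≤ finrank K X + 2 := by
    classical
    have a1 := h.nd.finrank_perp (Submodule.span K {u, w})
    have a2 : finrank K (Submodule.span K {u, w}) ≤ 2 :=
      (finrank_span_le_card (R := K) ({u, w} : Set V)).trans (by
        rw [Set.toFinset_insert, Set.toFinset_singleton]; exact Finset.card_le_two)
    change _ + finrank K X = _ at a1
    omega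
  have t3 := klin_of_fix h.prime t2 ((X.restrictScalars F).map (g.symm : V →ₗ[F] V)) (by
    rintro _ ⟨y, hy, rfl⟩
    have y1 := f.mem_perp_span.1 hy u (by simp)
    have y2 := f.mem_perp_span.1 hy w (by simp)
    simp [LinearEquiv.mul_apply, y1, y2]) (by
    rw [LinearEquiv.finrank_map_eq]
    change _ < finrank F X
    rw [← Module.finrank_mul_finrank F K X]
    have := h.three
    have := h.two
    by_cases h3 : finrank K V = 3
    · have : 4 ≤ finrank F K := by omega
      nlinarith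
    · by_cases h2 : finrank K V = 2
      · nlinarith
      · have : 2 ≤ finrank K X := by omega
        nlinarith)
  have e3 := t3 (a / δ₀) (δ₀ • u)
  rw [smul_smul, div_mul_cancel₀ _ c2] at e3
  simp only [LinearEquiv.mul_apply, c3, t0, LinearEquiv.coe_inv] at e3
  rw [LinearEquiv.restrictScalars_apply, e2, ← c3, g.symm_apply_apply, g.symm_apply_apply, smul_smul,
    div_mul_cancel₀ _ c2] at e3
  exact d1 (smul_left_injective K hu0 e3).symm

end Cfsg.Agent.H6.SU
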