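import Cfsg.Agent.H6.SUExt2

/-!
Unitary groups: field extension subgroups, third part (producing transvections).
-/

set_option autoImplicit false
set_option linter.unusedSectionVars false
set_option linter.unusedVariables false

namespace Cfsg.Agent.H6.SU

open Module Cfsg.Agent.Form Cfsg.Agent.H7

variable {F K : Type*} [Field F] [Field K] [Algebra F K] {V : Type*} [AddCommGroup V] [Module F V]
  [Module K V] [IsScalarTower F K V] {σ : F →+* F} {hσ : ∀ a, σ (σ a) = a} {ρ : K →+* K}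
  {hρ : ∀ a, ρ (ρ a) = a} {τ : K →ₗ[F] F} {f : PQ (FP.unit ρ hρ) V} {S : PQ (FP.unit σ hσ) V}
  {M : Subgroup (V ≃ₗ[F] V)} [Finite F]

theorem finrank_map_mul {κ : K} (hκ : κ ≠ 0) (Φ : Submodule F K) :
    finrank F (Φ.map (LinearMap.mulLeft F κ)) = finrank F Φ :=
  (Submodule.equivMapOfInjective (LinearMap.mulLeft F κ) (mul_right_injective₀ hκ) Φ).finrank_eq.symm

theorem exists_comb_of_two [FiniteDimensional F V] {Φ : Submodule F V} (h2 : finrank F Φ ≤ 2) {x y : V}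
    (hx : x ∈ Φ) (hy : y ∈ Φ) (h0 : x ≠ 0) (hxy : y ∉ F ∙ x) {z : V} (hz : z ∈ Φ) :
    ∃ a b : F, z = a • x + b • y := by
  have h1 := Submodule.finrank_lt_finrank_of_lt (s := F ∙ x) (t := (F ∙ x) ⊔ F ∙ y)
    (lt_of_le_of_ne le_sup_left fun h =>
      hxy (h ▸ Submodule.mem_sup_right (Submodule.mem_span_singleton_self _)))
  rw [finrank_span_singleton h0] at h1
  have h3 : (F ∙ x) ⊔ (F ∙ y) = Φ := Submodule.eq_of_le_of_finrank_le
    (sup_le ((Submodule.span_singleton_le_iff_mem _ _).2 hx) ((Submodule.span_singleton_le_iff_mem _ _).2 hy))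
    (by omega)
  obtain ⟨_, h4, _, h5, rfl⟩ := Submodule.mem_sup.1 (h3 ▸ hz : z ∈ (F ∙ x) ⊔ (F ∙ y))
  obtain ⟨a, rfl⟩ := Submodule.mem_span_singleton.1 h4
  obtain ⟨b, rfl⟩ := Submodule.mem_span_singleton.1 h5
  exact ⟨a, b, rfl⟩

theorem XF.conj_zero (h : XF σ ρ τ) {k : K} (e : τ k = 0) : τ (ρ k) = 0 := by rw [h.tr, e, map_zero]

theorem XF.rank_one (h : XF σ ρ τ) (h5 : finrank F K ≤ 5) {Φ : Submodule F K}
    (KP : ∀ κ, κ + ρ κ = 0 → ∀ z ∈ Φ, z ≠ 0 → (∀ y ∈ Φ, τ (κ * z * ρ y) = 0) →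
      ∀ z' ∈ Φ, ∀ y ∈ Φ, τ (κ * z' * ρ y) = 0)
    {κ₀ : K} (h0 : κ₀ ≠ 0) (hκ₀ : ∀ z ∈ Φ, ∀ y ∈ Φ, τ (κ₀ * z * ρ y) = 0) : finrank F Φ ≤ 1 := by
  have := h.fin
  by_contra hc
  have a1 := (h.hK_nd (hσ := h.σσ)).finrank_perp Φ
  have hD : ∀ κ, (∀ z ∈ Φ, ∀ y ∈ Φ, τ (κ * z * ρ y) = 0) →
      Φ.map (LinearMap.mulLeft F κ) ≤ (h.hK h.σσ).perp Φ := by
    rintro κ hκ _ ⟨z, hz, rfl⟩ y hy
    exact hκ z hz y hy
  have a2 := Submodule.finrank_mono (hD _ hκ₀)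
  rw [finrank_map_mul h0] at a2
  have a3 : finrank F K ≠ 4 := fun e => absurd (e ▸ h.prime) (by decide)
  have comb : ∀ (κ x y : K), x ∈ Φ → y ∈ Φ → x ≠ 0 → y ∉ F ∙ x → κ + ρ κ = 0 → τ (κ * x * ρ x) = 0 →
      τ (κ * x * ρ y) = 0 → ∀ z ∈ Φ, ∀ y ∈ Φ, τ (κ * z * ρ y) = 0 := by
    intro κ x y hx hy hx0 hxy hκ e1 e2
    refine KP κ hκ x hx hx0 fun z hz => ?_
    obtain ⟨a, b, rfl⟩ := exists_comb_of_two (by omega) hx hy hx0 hxy hz
    simp [h.smul, mul_add, e1, e2]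
  obtain ⟨x, hx, hx0⟩ := exists_mem_notMem_of_finrank_lt (U := Φ) (W := ⊥) (by rw [finrank_bot]; omega)
  rw [Submodule.mem_bot] at hx0
  obtain ⟨y, hy, hxy⟩ := exists_mem_notMem_of_finrank_lt (U := Φ) (W := F ∙ x)
    (by rw [finrank_span_singleton hx0]; omega)
  let L : K →ₗ[F] F × F × F := (τ ∘ₗ LinearMap.mulRight F (x * ρ x)).prod
    ((τ ∘ₗ LinearMap.mulRight F (x * ρ y)).prod (τ ∘ₗ LinearMap.mulRight F (y * ρ x)))
  have hL : ∀ κ, κ ∈ LinearMap.ker L ↔ τ (κ * x * ρ x) = 0 ∧ τ (κ * x * ρ y) = 0 ∧ τ (κ * y * ρ x) = 0 :=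
    fun κ => by simp [L, mul_assoc]
  have hL' : ∀ κ ∈ LinearMap.ker L, ρ κ ∈ LinearMap.ker L := fun κ hκ => by
    obtain ⟨e1, e2, e3⟩ := (hL κ).1 hκ
    refine (hL _).2 ⟨?_, ?_, ?_⟩
    · convert h.conj_zero e1 using 2; simp [h.ρρ]; ring
    · convert h.conj_zero e3 using 2; simp [h.ρρ]; ring
    · convert h.conj_zero e2 using 2; simp [h.ρρ]; ring
  have b1 := LinearMap.finrank_range_add_finrank_ker L
  have b2 := Submodule.finrank_le (LinearMap.range L)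
  simp only [finrank_prod, finrank_self] at b2
  obtain ⟨κ₁, c1, c2, c3⟩ := h.exists_minus (W := ⊥) hL' fun e => by
    have := Submodule.finrank_mono e
    rw [finrank_bot] at this; omega
  rw [Submodule.mem_bot] at c3
  obtain ⟨κ₂, d1, d2, d3⟩ := h.exists_minus (W := F ∙ κ₁) hL' fun e => by
    have := Submodule.finrank_mono e
    rw [finrank_span_singleton c3] at this; omega
  have d4 : κ₂ ≠ 0 := by rintro rfl; exact d3 (zero_mem _)
  have e1 := hD _ (comb κ₁ x y hx hy hx0 hxy c2 ((hL _).1 c1).1 ((hL _).1 c1).2.1)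
  have e2 := hD _ (comb κ₂ x y hx hy hx0 hxy d2 ((hL _).1 d1).1 ((hL _).1 d1).2.1)
  have e3 := Submodule.finrank_sup_add_finrank_inf_eq (Φ.map (LinearMap.mulLeft F κ₁))
    (Φ.map (LinearMap.mulLeft F κ₂))
  have e4 := Submodule.finrank_mono (sup_le e1 e2)
  rw [finrank_map_mul c3, finrank_map_mul d4] at e3
  obtain ⟨_, ⟨⟨z', hz', rfl⟩, z, hz, e5⟩, e6⟩ := exists_mem_notMem_of_finrank_lt
    (U := Φ.map (LinearMap.mulLeft F κ₁) ⊓ Φ.map (LinearMap.mulLeft F κ₂)) (W := ⊥)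
    (by rw [finrank_bot]; omega)
  change κ₂ * z = κ₁ * z' at e5
  have hz0 : z ≠ 0 := by
    rintro rfl
    exact e6 (by rw [Submodule.mem_bot]; change κ₁ * z' = 0; rw [← e5, mul_zero])
  obtain ⟨t, ht⟩ : ∃ t, t = κ₂ / κ₁ := ⟨_, rfl⟩
  have t1 : z' = t * z := by rw [ht]; field_simp; linear_combination -e5
  have t2 : ρ t = t := by
    rw [ht, map_div₀, eq_neg_of_add_eq_zero_right c2, eq_neg_of_add_eq_zero_right d2, neg_div_neg_eq]
  have t3 : ∀ a : F, t ≠ algebraMap F K a := fun a e => d3 (Submodule.mem_span_singleton.2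
    ⟨a, by rw [Algebra.smul_def, ← e, ht, div_mul_cancel₀ _ c3]⟩)
  have t4 : z' ∉ F ∙ z := fun hm => by
    obtain ⟨a, ha⟩ := Submodule.mem_span_singleton.1 hm
    rw [t1, Algebra.smul_def] at ha
    exact t3 a (mul_right_cancel₀ hz0 ha).symm
  let N : K →ₗ[F] F × F := (τ ∘ₗ LinearMap.mulRight F (z * ρ z)).prod
    (τ ∘ₗ LinearMap.mulRight F (z * ρ z'))
  have hN : ∀ κ, κ ∈ LinearMap.ker N ↔ τ (κ * z * ρ z) = 0 ∧ τ (κ * z * ρ z') = 0 :=
    fun κ => by simp [N, mul_assoc]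
  have f1 := LinearMap.finrank_range_add_finrank_ker N
  have f2 := Submodule.finrank_le (LinearMap.range N)
  simp only [finrank_prod, finrank_self] at f2
  obtain ⟨a, ha⟩ := mem_bot_of_prime h.prime (D := LinearMap.ker N) (c := t) (fun e => by
    rw [e, finrank_bot] at f1; omega) (fun e => mul_ne_zero hz0 (σ_ne hz0)
      (eq_zero_of_tau h.tau fun k => by
        rw [← mul_assoc]; exact ((hN k).1 (e ▸ Submodule.mem_top)).1)) fun δ hδ =>
    h.le_of_minus (U := LinearMap.ker N) (W := (LinearMap.ker N).comap (LinearMap.mulRight F t))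
      (fun κ hκ => by
        obtain ⟨g1, g2⟩ := (hN κ).1 hκ
        refine (hN _).2 ⟨?_, ?_⟩
        · convert h.conj_zero g1 using 2; simp [h.ρρ]; ring
        · convert h.conj_zero g2 using 2; simp [h.ρρ, t1, t2]; ring)
      (fun κ hκ hκ' => by
        obtain ⟨g1, g2⟩ := (hN κ).1 hκ
        have g3 := comb κ z z' hz hz' hz0 t4 hκ' g1 g2 z' hz' z' hz'
        refine (hN _).2 ⟨?_, ?_⟩
        · convert g2 using 2; simp [t1, t2]; ring
        · convert g3 using 2; simp only [t1, t2, map_mul, LinearMap.mulRight_apply]; ring) hδ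
  exact t3 a ha

variable [FiniteDimensional F K] [FiniteDimensional K V] [FiniteDimensional F V]

/-- the transvection over the extension field -/
def ktv (F : Type*) [Field F] [Algebra F K] [Module F V] [IsScalarTower F K V] (f : PQ (FP.unit ρ hρ) V)
    {u : V} (hu : f.B u u = 0) {κ : K} (hκ : κ + ρ κ = 0) : V ≃ₗ[F] V :=
  (f.tau u κ (tauOK_of hu hκ)).restrictScalars F

theorem ktv_ap {u : V} (hu : f.B u u = 0) {κ : K} (hκ : κ + ρ κ = 0) (v : V) :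
    ktv F f hu hκ v = v + (κ * f.B v u) • u := rfl

theorem XM.ktv_mem (h : XM τ f S M) {u : V} (hu : f.B u u = 0) {κ : K} (hκ : κ + ρ κ = 0) :
    ktv F f hu hκ ∈ M := h.res (tau_mem_sisom f (sing hu) _ _)

/-- `M` induces a transvection on the point `K u`. -/
def TT (τ : K →ₗ[F] F) (ρ : K →+* K) (M : Subgroup (V ≃ₗ[F] V)) (u : V) (γ δ : K) : Prop :=
  ∃ t ∈ M, ∀ b : K, t (b • u) = b • u + τ (b * ρ γ) • δ • u

/-- `M` contains an element of rank at most two of the unipotent radical. -/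
def ZZ (τ : K →ₗ[F] F) (f : PQ (FP.unit ρ hρ) V) (M : Subgroup (V ≃ₗ[F] V)) (u : V) (δ w : K) (c : F) :
    Prop :=
  ∃ y ∈ M, ∀ v, y v = v + (τ (f.B v u * ρ δ) • w - τ (f.B v u * ρ w) • δ +
    (c * τ (f.B v u * ρ δ)) • δ) • u

theorem ZZ.add {u : V} (hu : f.B u u = 0) {δ w w' : K} {c c' : F} (h : ZZ τ f M u δ w c)
    (h' : ZZ τ f M u δ w' c') : ZZ τ f M u δ (w + w') (c + c') := by
  obtain ⟨y, hy, e⟩ := h
  obtain ⟨y', hy', e'⟩ := h'
  refine ⟨y * y', M.mul_mem hy hy', fun v => ?_⟩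
  rw [LinearEquiv.mul_apply, e, e']
  simp only [PQ.B_add_left, PQ.B_smul_left, hu, mul_zero, add_zero, map_add, mul_add, add_assoc v,
    ← add_smul]
  congr 2
  module

theorem XM.zz (h : XM τ f S M) {u : V} (hu : f.B u u = 0) {γ δ κ : K} (ht : TT τ ρ M u γ δ)
    (hκ : κ + ρ κ = 0) : ZZ τ f M u δ (κ * γ) (τ (κ * (γ * ρ γ))) := by
  obtain ⟨t, ht, e⟩ := ht
  have hκ' : -κ + ρ (-κ) = 0 := by rw [map_neg]; linear_combination -hκ
  refine ⟨_, M.mul_mem (M.mul_mem (M.mul_mem ht (h.ktv_mem hu hκ)) (M.inv_mem ht)) (h.ktv_mem hu hκ'),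
    fun v => ?_⟩
  have e1 : ∀ v, f.B (t.symm v) u = f.B v u + τ (f.B v u * ρ δ) • γ := fun v => h.ext fun k => by
    have := PQ.B_isom (h.iso ht) (t.symm v) (ρ k • u)
    rw [t.apply_symm_apply, e, S.B_add_right, Bsr, h.B, h.B, h.B, ← map_mul ρ, h.tr, h.σσ] at this
    simp only [Bsr, h.ρρ] at this
    simp only [mul_add, map_add, mul_smul_comm, map_smul, smul_eq_mul, mul_comm (f.B v u)]
    linear_combination -this
  have e2 : τ (κ * f.B v u * ρ γ) = -τ (f.B v u * ρ (κ * γ)) := by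
    rw [map_mul ρ, eq_neg_of_add_eq_zero_right hκ, ← map_neg]; congr 1; ring
  rw [LinearEquiv.mul_apply, LinearEquiv.mul_apply, LinearEquiv.mul_apply, LinearEquiv.coe_inv, ktv_ap,
    map_add, t.apply_symm_apply, e, e1, ktv_ap]
  simp only [PQ.B_add_left, PQ.B_smul_left, hu, mul_zero, add_zero, mul_add, add_mul, mul_smul_comm,
    smul_mul_assoc, map_add, map_smul, e2, mul_assoc κ γ, smul_eq_mul]
  simp only [add_smul, sub_smul, smul_assoc, neg_mul, neg_smul]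
  module

theorem XM.ctr_of_zz (h : XM τ f S M) {u : V} (hu : f.B u u = 0) {δ m : K} (hm : ρ m = m) (h0 : m ≠ 0)
    (hz : ∀ κ, κ + ρ κ = 0 → ZZ τ f M u δ 0 (τ (κ * m))) : Ctr S M (δ • u) := by
  refine ctr_iff.2 ⟨by simp [h.B, hu], fun c hc => ?_⟩
  obtain ⟨κ, hκ, rfl⟩ := h.exists_tau hm h0 hc
  obtain ⟨y, hy, e⟩ := hz κ hκ
  exact ⟨y, hy, fun v => by simp [e, h.B, mul_comm (ρ δ)]⟩

theorem XM.two_trick (h : XM τ f S M) {u : V} (hu : f.B u u = 0) {γ δ a : K} (h1 : TT τ ρ M u γ δ)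
    (h2 : TT τ ρ M u (a * γ) δ) (ha : ρ a = a) (ha0 : a ≠ 0) (ha1 : a ≠ 1) (hγ : γ ≠ 0) :
    Ctr S M (δ • u) := by
  refine h.ctr_of_zz hu (m := (1 - a) * (γ * ρ γ)) (by simp [ha, h.ρρ, mul_comm])
    (mul_ne_zero (sub_ne_zero.2 ha1.symm) (mul_ne_zero hγ (σ_ne hγ))) fun κ hκ => ?_
  convert (h.zz hu h1 hκ).add hu (h.zz hu h2 (κ := -κ / a) (by
    rw [map_div₀, map_neg, ha, ← add_div]; simp [eq_neg_of_add_eq_zero_right hκ])) using 1
  · field_simp; ring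
  · rw [← map_add, map_mul ρ, ha]; congr 1; field_simp; ring

theorem XM.three_trick (h : XM τ f S M) {u : V} (hu : f.B u u = 0) {γ γ' δ : K} (h1 : TT τ ρ M u γ δ)
    (h2 : TT τ ρ M u γ' δ) (h3 : TT τ ρ M u (γ + γ') δ) (h0 : γ * ρ γ' + γ' * ρ γ ≠ 0) :
    Ctr S M (δ • u) := by
  refine h.ctr_of_zz hu (m := -(γ * ρ γ' + γ' * ρ γ)) (by simp [h.ρρ, mul_comm, add_comm])
    (neg_ne_zero.2 h0) fun κ hκ => ?_
  convert ((h.zz hu h1 hκ).add hu (h.zz hu h2 hκ)).add hu (h.zz hu h3 (κ := -κ) (by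
    rw [map_neg]; linear_combination -hκ)) using 1
  · ring
  · rw [← map_add, ← map_add, map_add ρ]; congr 1; ring

/-- `lam` is realised, up to a scalar of the ground field, on every singular point. -/
def TR (f : PQ (FP.unit ρ hρ) V) (S : PQ (FP.unit σ hσ) V) (lam : K) : Prop :=
  ∀ u, f.B u u = 0 → u ≠ 0 → ∃ c : F, c ≠ 0 ∧ ∃ k ∈ f.isom, k.restrictScalars F ∈ sisom S ∧
    k u = (c • lam) • u

theorem XM.tt_conj (h : XM τ f S M) {u : V} (hu : f.B u u = 0) (hu0 : u ≠ 0) {γ δ δ' : K}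
    (h1 : TT τ ρ M u γ δ') (h0 : δ ≠ 0) (h0' : δ' ≠ 0) (hT : TR f S (δ / δ')) :
    TT τ ρ M u (γ * ρ (δ' / δ)) δ := by
  obtain ⟨c, hc, k, -, hk, ek⟩ := hT u hu hu0
  obtain ⟨t, ht, e⟩ := h1
  have hk' := h.mem _ hk (kLin_res k).semi
  have hc' : algebraMap F K c ≠ 0 := by simpa using hc
  refine ⟨_, M.mul_mem (M.mul_mem hk' ht) (M.inv_mem hk'), fun b => ?_⟩
  have e1 : (k.restrictScalars F)⁻¹ (b • u) = (c⁻¹ • (b * δ' / δ)) • u := by
    rw [LinearEquiv.coe_inv, LinearEquiv.symm_apply_eq, LinearEquiv.restrictScalars_apply, map_smul k, ek,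
      smul_smul, Algebra.smul_def, Algebra.smul_def, map_inv₀]
    congr 1; field_simp
  rw [LinearEquiv.mul_apply, LinearEquiv.mul_apply, e1, e, map_add, map_smul (k.restrictScalars F),
    LinearEquiv.restrictScalars_apply, LinearEquiv.restrictScalars_apply, map_smul k, map_smul k, ek,
    smul_smul, smul_smul δ', ← smul_assoc, ← smul_assoc _ δ, map_mul ρ, h.ρρ, smul_mul_assoc c⁻¹ _ (ρ γ),
    map_smul τ, show b * (ρ γ * (δ' / δ)) = b * δ' / δ * ρ γ by ring]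
  simp only [smul_eq_mul]
  simp only [Algebra.smul_def, map_mul, map_inv₀]
  congr 2 <;> field_simp

theorem XM.plane (h : XM τ f S M) (h5 : finrank F K ≤ 5) {u x : V} (hu : f.B u u = 0)
    (hxx : f.B x x = 0) (hx : f.B x u = 1) (hux : f.B u x = 1)
    (hex : ∃ g ∈ M ⊓ stabSub ((Submodule.span K {u, x}).restrictScalars F),
      dz K u g ≠ ⊤ ∧ dz K u g ≠ ⊥) :
    ∃ γ δ₁ δ₂ : K, γ ≠ 0 ∧ δ₁ ≠ 0 ∧ δ₂ ≠ 0 ∧ δ₁ ≠ δ₂ ∧
      ∀ c₁ c₂ : F, σ c₁ = c₁ → σ c₂ = c₂ → TT τ ρ M u γ (c₁ • δ₁ + c₂ • δ₂) := by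
  have hu0 : u ≠ 0 := by rintro rfl; simp at hx
  obtain ⟨g, hg, b1, b2, b3⟩ := exists_extr hex
  have m0 : ∀ b : K, b • u ∈ Submodule.span K {u, x} := fun b =>
    Submodule.smul_mem _ _ (Submodule.subset_span (by simp))
  have hP : ∀ y ∈ Submodule.span K {u, x}, f.B y u = 0 → ∃ k : K, y = k • u := fun y hy e => by
    obtain ⟨s, t, rfl⟩ := Submodule.mem_span_pair.1 hy
    have : t = 0 := by simpa [hu, hx] using e
    exact ⟨s, by simp [this]⟩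
  let φ : K →ₗ[F] K := fl F f u ∘ₗ jm K u g
  have hφ : ∀ b, f.B (g (b • u)) u = φ b := fun b => rfl
  have K1 : ∀ b, φ b = 0 → ∃ k : K, g (b • u) = k • u := fun b e => hP _ (hg.2 _ (m0 b)) e
  have O1 : ∀ δ δ' : K, g (δ' • u) = δ • u → ∀ b, τ (δ * ρ (φ b)) = 0 := fun δ δ' e b => by
    have := h.jm_ts hu hg.1 δ' b
    rw [jm_apply, jm_apply, e, h.B, f.B_smul_left, ← Bs, hφ] at this
    exact this
  have O2 : ∀ δ : K, (∀ b, τ (δ * ρ (φ b)) = 0) → ∃ δ' : K, g (δ' • u) = δ • u := fun δ e => by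
    obtain ⟨k, hk⟩ := hP _ (((stabSub _).inv_mem hg.2) _ (m0 δ)) (f.B_comm_zero (h.f_eq_zero fun b => by
      rw [LinearEquiv.coe_inv, ← PQ.B_isom_symm (h.iso hg.1), ← Bs, h.B, f.B_smul_left, ← Bs, hφ, e,
        map_zero]))
    exact ⟨k, by rw [← hk]; exact g.apply_symm_apply _⟩
  have ht : ∀ (κ : K) (hκ : κ + ρ κ = 0) (b : K),
      (g⁻¹ * ktv F f hu hκ * g) (b • u) = b • u + g.symm ((κ * φ b) • u) := fun κ hκ b => by
    simp [LinearEquiv.mul_apply, ktv_ap, hφ]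
  have KP : ∀ κ : K, κ + ρ κ = 0 → ∀ a δ' : K, φ a ≠ 0 → g (δ' • u) = (κ * φ a) • u →
      ∀ b b', τ (κ * φ b * ρ (φ b')) = 0 := fun κ hκ a δ' ha e b => by
    have := b3 (ktv F f hu hκ) ⟨h.ktv_mem hu hκ, fun w hw => add_mem hw (m0 _)⟩
      (fun k => by simp [ktv_ap, hu]) a (a + δ') (fun hm => by
        obtain ⟨k, hk⟩ := mem_dz.1 hm
        exact ha (by rw [← hφ, hk]; simp [hu])) (by rw [ktv_ap, hφ, add_smul, map_add, e])
    obtain ⟨k, hk⟩ := mem_dz.1 (this ▸ Submodule.mem_top : b ∈ dz K u _)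
    rw [ht] at hk
    exact O1 _ (k - b) (by rw [sub_smul, ← hk]; simp)
  obtain ⟨a₀, ha₀⟩ : ∃ a, φ a ≠ 0 := by
    by_contra hc
    push Not at hc
    exact b1 (eq_top_iff.2 fun b _ => mem_dz.2 (K1 b (hc b)))
  obtain ⟨δ₀, c1, c2⟩ := Submodule.exists_mem_ne_zero_of_ne_bot b2
  obtain ⟨δ, c3⟩ := mem_dz.1 c1
  obtain ⟨a, a', d1, d2, d3, d4⟩ := h.exists_pair _ (h.jm_ts hu hg.1) hu c2 c3 ha₀
  simp only [jm_apply, hφ] at d2 d3 d4
  obtain ⟨η, hη⟩ := K1 (a' - a) (by rw [map_sub, d3, sub_self])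
  have η0 : η ≠ 0 := by
    rintro rfl
    exact d1 (sub_eq_zero.1 (by simpa [hu0] using hη)).symm
  have η1 : η / φ a + ρ (η / φ a) = 0 := by
    rw [sub_smul, map_sub, sub_eq_iff_eq_add] at hη
    rw [hη] at d4
    have d5 : f.B u (g (a • u)) = ρ (φ a) := by rw [← Bs, hφ]
    simp only [PQ.B_add_left, PQ.B_add_right, PQ.B_smul_left, Bsr, hu, hφ, d5] at d4
    have := σ_ne (σ := ρ) d2
    rw [map_div₀]; field_simp; linear_combination -d4
  have r1 := h.rank_one h5 (Φ := LinearMap.range φ) (κ₀ := η / φ a) (by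
    rintro κ hκ _ ⟨a, rfl⟩ ha e _ ⟨b, rfl⟩ _ ⟨b', rfl⟩
    obtain ⟨δ', e'⟩ := O2 (κ * φ a) fun b => e _ ⟨b, rfl⟩
    exact KP κ hκ a δ' ha e' b b') (div_ne_zero η0 d2) (by
    rintro _ ⟨b, rfl⟩ _ ⟨b', rfl⟩
    exact KP _ η1 a (a' - a) d2 (by rw [hη, div_mul_cancel₀ _ d2]) b b')
  obtain ⟨ψ, ψ1, -⟩ := exists_dual_one (F := F) (W := ⊥) (x := φ a) (by simpa using d2)
  obtain ⟨β, hβ⟩ := exists_tau_eq h.tau (ψ ∘ₗ φ)
  have r2 : ∀ b, φ b = τ (b * ρ (ρ β)) • φ a := fun b => by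
    obtain ⟨c, hc⟩ := exists_smul_of_finrank_one (A := LinearMap.range φ)
      (le_antisymm r1 (Nat.pos_of_ne_zero fun e => d2 (by
        have : φ a ∈ LinearMap.range φ := ⟨a, rfl⟩
        rwa [Submodule.finrank_eq_zero.1 e] at this))) ⟨a, rfl⟩ d2 ⟨b, rfl⟩
    rw [h.ρρ, mul_comm, ← hβ, LinearMap.comp_apply ψ, hc, map_smul, ψ1, smul_eq_mul, mul_one]
  have tt : ∀ κ δ : K, κ + ρ κ = 0 → g (δ • u) = (κ * φ a) • u → TT τ ρ M u (ρ β) δ := fun κ δ hκ e =>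
    ⟨_, M.mul_mem (M.mul_mem (M.inv_mem hg.1) (h.ktv_mem hu hκ)) hg.1, fun b => by
      rw [ht, r2 b, mul_smul_comm, smul_assoc, ← e, map_smul, g.symm_apply_apply]⟩
  let U := LinearMap.ker (τ ∘ₗ LinearMap.mulRight F (φ a * ρ (φ a)))
  have hU : ∀ κ ∈ U, ρ κ ∈ U := fun κ hκ => by
    change τ _ = 0
    convert h.conj_zero hκ using 2
    simp only [map_mul, LinearMap.mulRight_apply, h.ρρ]; ring
  have u1 := LinearMap.finrank_range_add_finrank_ker (τ ∘ₗ LinearMap.mulRight F (φ a * ρ (φ a)))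
  have u2 := Submodule.finrank_le (LinearMap.range (τ ∘ₗ LinearMap.mulRight F (φ a * ρ (φ a))))
  have u3 := h.three
  rw [finrank_self] at u2
  have u4 : 2 ≤ finrank F U := by change _ + finrank F U = _ at u1; omega
  obtain ⟨κ₁, e1, e2, e3⟩ := h.exists_minus (W := ⊥) hU fun e => by
    have := Submodule.finrank_mono e
    rw [finrank_bot] at this; omega
  rw [Submodule.mem_bot] at e3
  obtain ⟨κ₂, f1, f2, f3⟩ := h.exists_minus (W := F ∙ κ₁) hU fun e => by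
    have := Submodule.finrank_mono e
    rw [finrank_span_singleton e3] at this; omega
  have ex : ∀ κ ∈ U, ∃ δ' : K, g (δ' • u) = (κ * φ a) • u := fun κ hκ => O2 _ fun b => by
    rw [r2 b, h.smul, mul_smul_comm, map_smul, mul_assoc]
    exact smul_eq_zero_of_right _ hκ
  obtain ⟨δ₁, g1⟩ := ex κ₁ e1
  obtain ⟨δ₂, g2⟩ := ex κ₂ f1
  refine ⟨ρ β, δ₁, δ₂, fun e => d2 (by rw [r2 a, e]; simp), ?_, ?_, ?_, fun c₁ c₂ h1 h2 =>
    tt (c₁ • κ₁ + c₂ • κ₂) _ ?_ ?_⟩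
  · rintro rfl
    exact smul_ne_zero (mul_ne_zero e3 d2) hu0 (by simpa using g1.symm)
  · rintro rfl
    have : κ₂ = 0 := by simpa [d2, hu0] using g2.symm
    exact f3 (this ▸ zero_mem _)
  · rintro rfl
    have := mul_right_cancel₀ d2 (smul_left_injective K hu0 (g1.symm.trans g2))
    exact f3 (this ▸ Submodule.mem_span_singleton_self _)
  · rw [map_add, h.smul, h.smul, h1, h2]
    linear_combination (norm := module) c₁ • e2 + c₂ • f2
  · simp only [add_smul, smul_assoc, map_add, map_smul, g1, g2, add_mul, smul_mul_assoc]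

end Cfsg.Agent.H6.SU
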