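import Cfsg.Agent.H6.SUExt3
import Cfsg.Agent.Asch.Adj

/-!
Unitary groups: maximality of field extension subgroups.
-/

set_option autoImplicit false
set_option linter.unusedSectionVars false
set_option linter.unusedVariables false

namespace Cfsg.Agent.H6.SU

open Module Cfsg.Agent.Form Cfsg.Agent.H7
open scoped Matrix MatrixGroups

section general

variable {F : Type*} [Field F] {σ : F →+* F} {hσ : ∀ a, σ (σ a) = a}
  {V : Type*} [AddCommGroup V] [Module F V] {S : PQ (FP.unit σ hσ) V} {M : Subgroup (V ≃ₗ[F] V)}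
  [FiniteDimensional F V] [Finite F]

theorem core_of_three (hne : ∃ a, σ a ≠ a) (h3 : ∃ a : F, σ a = a ∧ a ≠ 0 ∧ a ≠ 1) {d e y : V}
    (cd : Ctr S M d) (ce : Ctr S M e) (cy : Ctr S M y) (hde : S.B d e ≠ 0)
    (hy : S.B y e * S.B d y / S.B d e + S.B y d * S.B e y / S.B e d ≠ 0) :
    ∃ Y : Submodule F V, d ∈ Y ∧ e ∈ Y ∧ Full S M Y ∧ ∀ v, Ctr S M v → v ∈ Y ∨ v ∈ S.perp Y := by
  have hed := ne_swap hde
  have dd := cd.1.B_self
  have ee := ce.1.B_self
  have yy := cy.1.B_self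
  obtain ⟨w, hw⟩ : ∃ w, w = y - (S.B y e / S.B d e) • d - (S.B y d / S.B e d) • e := ⟨_, rfl⟩
  have w1 : S.B w d = 0 := by simp [hw, dd, hed]
  have w2 : S.B w e = 0 := by simp [hw, ee, hde]
  have b2 : S.B w w ≠ 0 := by
    have : S.B w w = S.B w y := by
      conv_lhs => rw [hw]
      rw [← hw]
      nth_rewrite 2 [hw]
      simp [w1, w2]
    rw [this, hw]
    simp only [PQ.B_sub_left, PQ.B_smul_left, yy]
    intro h
    apply hy
    linear_combination -h
  have b3 : w ∈ S.perp (Submodule.span F {d, e}) := S.mem_perp_span.2 (by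
    rintro x (rfl | rfl)
    exacts [w1, w2])
  have n1 : w ∉ Submodule.span F {d, e} := fun hm => b2 (b3 _ hm)
  have hU := (S.nondegOn_span_pair cd.1 ce.1 hde).sup
    (S.nondegOn_span_singleton b2) (by rwa [Submodule.span_singleton_le_iff_mem])
  have hd3 : finrank F (Submodule.span F {d, e} ⊔ F ∙ w : Submodule F V) = 3 := by
    have h1 := finrank_sup_span_le (Submodule.span F {d, e}) w
    have h2 := Submodule.finrank_lt_finrank_of_lt (s := Submodule.span F {d, e})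
      (t := Submodule.span F {d, e} ⊔ F ∙ w) (lt_of_le_of_ne le_sup_left fun h =>
        n1 (h ▸ Submodule.mem_sup_right (Submodule.mem_span_singleton_self _)))
    rw [S.finrank_span_pair_of_hyperbolic cd.1 hde] at h1 h2; omega
  have m1 : d ∈ Submodule.span F {d, e} := Submodule.subset_span (by simp)
  have m2 : e ∈ Submodule.span F {d, e} := Submodule.subset_span (by simp)
  have m3 := Submodule.add_mem _ (Submodule.smul_mem _ (S.B y e / S.B d e) m1)
    (Submodule.smul_mem _ (S.B y d / S.B e d) m2)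
  have e1 : y = ((S.B y e / S.B d e) • d + (S.B y d / S.B e d) • e) + w := by rw [hw]; abel
  have hF := full_three hne hU hd3 (Submodule.mem_sup_left m1) (Submodule.mem_sup_left m2) (x := y)
    (by rw [e1]; exact Submodule.add_mem_sup m3 (Submodule.mem_span_singleton_self _)) cd ce cy hde
    (fun hm => n1 (by
      have := Submodule.sub_mem _ hm m3
      rwa [sub_eq_iff_eq_add'.2 e1] at this))
  obtain ⟨Y, y1, y2, y3⟩ := core hne hU hd3.ge (hF.ef hne h3 hU)
  exact ⟨Y, y1 (Submodule.mem_sup_left m1), y1 (Submodule.mem_sup_left m2), y2, y3⟩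

theorem ctr_sisom {u : V} (hu : S.B u u = 0) : Ctr S (sisom S) u :=
  ⟨sing hu, fun c hc => tau_mem_sisom S (sing hu) c hc⟩

end general

variable {F K : Type*} [Field F] [Field K] [Algebra F K] {V : Type*} [AddCommGroup V] [Module F V]
  [Module K V] [IsScalarTower F K V] {σ : F →+* F} {hσ : ∀ a, σ (σ a) = a} {ρ : K →+* K}
  {hρ : ∀ a, ρ (ρ a) = a} {τ : K →ₗ[F] F} {f : PQ (FP.unit ρ hρ) V} {S : PQ (FP.unit σ hσ) V}
  {M : Subgroup (V ≃ₗ[F] V)} [Finite F]
  [FiniteDimensional F K] [FiniteDimensional K V] [FiniteDimensional F V]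

theorem TT.scale (h : XF σ ρ τ) {u : V} {γ δ : K} {c : F} (hc : σ c = c) (h1 : TT τ ρ M u γ (c • δ)) :
    TT τ ρ M u (algebraMap F K c * γ) δ := by
  obtain ⟨t, ht, e⟩ := h1
  refine ⟨t, ht, fun b => ?_⟩
  rw [e, ← Algebra.smul_def, h.smul, hc, mul_smul_comm, map_smul, smul_assoc c δ, smul_smul, smul_eq_mul,
    mul_comm c]

theorem XM.plane_ctr (h : XM τ f S M) (h5 : finrank F K ≤ 5)
    (hc : (∃ c : F, σ c = c ∧ c ≠ 0 ∧ c ≠ 1) ∨ ∀ lam, lam ≠ 0 → TR f S lam) {u x : V}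
    (hu : f.B u u = 0) (hxx : f.B x x = 0) (hx : f.B x u = 1) (hux : f.B u x = 1)
    (hex : ∃ g ∈ M ⊓ stabSub ((Submodule.span K {u, x}).restrictScalars F),
      dz K u g ≠ ⊤ ∧ dz K u g ≠ ⊥) : ∃ δ : K, δ ≠ 0 ∧ Ctr S M (δ • u) := by
  have hu0 : u ≠ 0 := by rintro rfl; simp at hx
  obtain ⟨γ, δ₁, δ₂, h0, h1, h2, h12, H⟩ := h.plane h5 hu hxx hx hux hex
  have t1 : TT τ ρ M u γ δ₁ := by simpa using H 1 0 (by simp) (by simp)
  refine ⟨δ₁, h1, ?_⟩
  by_cases hr : ∃ c : F, σ c = c ∧ c ≠ 0 ∧ c ≠ 1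
  · obtain ⟨c, c1, c2, c3⟩ := hr
    exact h.two_trick hu t1 (TT.scale h.toXF c1 (by simpa using H c 0 c1 (by simp)))
      (by rw [h.alg, c1]) (by simpa using c2) (by simpa using c3) h0
  have hT := hc.resolve_left hr
  have h2F : (-1 : F) = 1 := by
    by_contra e
    exact hr ⟨-1, by simp, by simp, e⟩
  have h2K : (-1 : K) = 1 := by simpa using congrArg (algebraMap F K) h2F
  have h3 : δ₁ + δ₂ ≠ 0 := fun e => h12 (by linear_combination e + δ₂ * h2K)
  have t2 := h.tt_conj hu hu0 (δ := δ₁) (δ' := δ₂) (by simpa using H 0 1 (by simp) (by simp)) h1 h2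
    (hT _ (div_ne_zero h1 h2))
  have t3 := h.tt_conj hu hu0 (δ := δ₁) (δ' := δ₁ + δ₂) (by simpa using H 1 1 (by simp) (by simp)) h1 h3
    (hT _ (div_ne_zero h1 h3))
  rw [add_div, div_self h1, map_add, map_one, mul_add, mul_one] at t3
  by_cases e : γ * ρ (γ * ρ (δ₂ / δ₁)) + γ * ρ (δ₂ / δ₁) * ρ γ = 0
  swap
  · exact h.three_trick hu t1 t2 t3 e
  rw [map_mul, h.ρρ] at e
  have e' : ρ (δ₂ / δ₁) = δ₂ / δ₁ := mul_left_cancel₀ (mul_ne_zero h0 (σ_ne (σ := ρ) h0)) (by
    linear_combination e + γ * ρ γ * (δ₂ / δ₁) * h2K)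
  rw [e', mul_comm] at t2
  exact h.two_trick hu t1 t2 e' (div_ne_zero h2 h1) (fun e => h12 (div_eq_one_iff_eq h1 |>.1 e).symm) h0

theorem XM.exists_ctr (h : XM τ f S M) (h5 : finrank F K ≤ 5)
    (hc : (∃ c : F, σ c = c ∧ c ≠ 0 ∧ c ≠ 1) ∨ ∀ lam, lam ≠ 0 → TR f S lam) {u : V}
    (hu : f.B u u = 0) (hu0 : u ≠ 0) {y : V ≃ₗ[F] V} (hy : y ∈ M) (r2 : ∀ w, f.B w u = 0 → y w = w)
    (r3 : ¬ KLin K y) : ∃ v, f.B v v = 0 ∧ v ≠ 0 ∧ Ctr S M v := by
  obtain ⟨x, hxx, hx, hux⟩ := h.partner hu hu0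
  have hx0 : x ≠ 0 := by rintro rfl; simp at hx
  have hs : ∀ a : K, y (a • x) = a • x + f.B (y (a • x)) x • u := fun a => by
    obtain ⟨k, hk⟩ := h.fix_add (h.iso hy) r2 (a • x)
    rw [sub_eq_iff_eq_add.1 hk]; simp [hux, hxx, add_comm]
  obtain ⟨b, hb0, hb⟩ := h.exists_sing _ (h.jm_ts hxx hy)
  rw [jm_apply, hs] at hb
  obtain ⟨κ, hκ⟩ : ∃ κ, κ = -f.B (y (b • x)) x / b := ⟨_, rfl⟩
  have hκ' : κ + ρ κ = 0 := by
    simp only [PQ.B_add_left, PQ.B_add_right, PQ.B_smul_left, Bsr, hu, hxx, hx, hux] at hb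
    have := σ_ne (σ := ρ) hb0
    rw [hκ, map_div₀, map_neg]; field_simp; linear_combination -hb
  have m0 : ∀ b : K, b • u ∈ Submodule.span K {x, u} := fun b =>
    Submodule.smul_mem _ _ (Submodule.subset_span (by simp))
  suffices H : ∃ g ∈ M ⊓ stabSub ((Submodule.span K {x, u}).restrictScalars F),
      dz K x g ≠ ⊤ ∧ dz K x g ≠ ⊥ by
    obtain ⟨δ, h0, h1⟩ := h.plane_ctr h5 hc hxx hu hux hx H
    exact ⟨_, by simp [hxx], smul_ne_zero h0 hx0, h1⟩
  refine ⟨ktv F f hu hκ' * y,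
    ⟨M.mul_mem (h.ktv_mem hu hκ') hy, fun w hw => ?_⟩, fun e => r3 ?_, fun e => hb0 ?_⟩
  · obtain ⟨k, hk⟩ := h.fix_add (h.iso hy) r2 w
    rw [LinearEquiv.mul_apply, ktv_ap, sub_eq_iff_eq_add.1 hk]
    exact add_mem (add_mem (m0 _) hw) (m0 _)
  · have e1 : ∀ v, y v = v - (κ * f.B v u) • u := fun v => by
      obtain ⟨k, hk⟩ := mem_dz.1 (e ▸ Submodule.mem_top : f.B v u ∈ dz K x _)
      have e2 := congrArg (f.B · x) hk
      have e3 := r2 (v - f.B v u • x) (by simp [hx])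
      rw [LinearEquiv.mul_apply, ktv_ap, hs] at e2
      simp only [PQ.B_add_left, PQ.B_smul_left, hu, hxx, hx, hux] at e2
      rw [map_sub, hs] at e3
      linear_combination (norm := module) e3 + e2 • u
    intro k v
    rw [e1, e1, f.B_smul_left]; module
  · have : b ∈ dz K x (ktv F f hu hκ' * y) := mem_dz.2 ⟨b, by
      rw [LinearEquiv.mul_apply, ktv_ap, hs]
      simp only [PQ.B_add_left, PQ.B_smul_left, hu, hx, mul_one, mul_zero, add_zero, hκ,
        div_mul_cancel₀ _ hb0]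
      module⟩
    rwa [e] at this

theorem XM.ctr_map (h : XM τ f S M) {v : V} (hv : Ctr S M v) {k : V ≃ₗ[K] V} (hk : k ∈ sisom f) :
    Ctr S M (k v) := hv.map (h.res hk) (h.res_isom hk.1)

theorem XM.ctr_tr (h : XM τ f S M) {u : V} (hu : f.B u u = 0) (hu0 : u ≠ 0) (hc : Ctr S M u) {lam : K}
    (hT : TR f S lam) : Ctr S M (lam • u) := by
  obtain ⟨c, c0, k, -, hk, e⟩ := hT u hu hu0
  have := hc.map (h.mem _ hk (kLin_res k).semi) hk.1
  rw [LinearEquiv.restrictScalars_apply, e, smul_assoc] at this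
  exact this.of_smul c0

theorem XM.ctr_line (h : XM τ f S M) (h3 : ∃ a : F, σ a = a ∧ a ≠ 0 ∧ a ≠ 1) {lam : K}
    (hT : TR f S lam) (hlam : ∀ (c : F) (a : K), ρ a = a → lam ≠ c • a) {u : V} (hu : f.B u u = 0)
    (hu0 : u ≠ 0) (hc : Ctr S M u) (k : K) : Ctr S M (k • u) := by
  have : Finite K := Module.finite_of_finite F
  obtain ⟨x, hxx, hx, hux⟩ := h.partner hu hu0
  have W0 : ∀ a b : K, ρ a = a → b + ρ b = 0 → Ctr S M (a • u + b • x) := fun a b ha hb => by
    by_cases hb0 : b = 0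
    · by_cases ha0 : a = 0
      · simpa [ha0, hb0] using ctr_zero
      obtain ⟨k, hk, -, e⟩ := exists_torus h.neK (ctr_sisom hu) (ctr_sisom hxx) hux ha ha0
      convert h.ctr_map hc hk using 1
      rw [e, hb0, hux, hu]; module
    obtain ⟨n, hn, -, e⟩ := exists_n (ctr_sisom hu) (ctr_sisom hxx) hux (c := -b⁻¹)
      (by simpa using hb0) (by simp [eq_neg_of_add_eq_zero_right hb])
    have e1 : n u = b • x := by rw [e, hux, hu, inv_neg, inv_inv]; module
    have hκ : a / b + ρ (a / b) = 0 := by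
      rw [map_div₀, ha, eq_neg_of_add_eq_zero_right hb, div_neg, add_neg_cancel]
    convert h.ctr_map (e1 ▸ h.ctr_map hc hn) (tau_mem_sisom f (sing hu) _ (tauOK_of hu hκ)) using 1
    rw [PQ.tau_apply, f.B_smul_left, hx, mul_one, div_mul_cancel₀ _ hb0, add_comm]
  obtain ⟨ε, ε0, ε1⟩ := exists_tr_zero h.ne hσ
  have ε2 : ∀ κ : K, κ + ρ κ = 0 → ρ (ε • κ) = ε • κ := fun κ hκ => by
    rw [h.smul, eq_neg_of_add_eq_zero_right hκ, eq_neg_of_add_eq_zero_right ε1]; simp
  have l0 : lam ≠ 0 := by simpa using hlam 0 0 (by simp)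
  have nz : ∀ a : K, a ≠ 0 → ∃ κ, κ + ρ κ = 0 ∧ τ (κ * a) ≠ 0 := fun a ha => by
    by_contra hc
    push Not at hc
    exact ha (h.eq_zero hc)
  obtain ⟨b, b1, b2⟩ := nz _ l0
  have b0 : b ≠ 0 := by rintro rfl; simp at b2
  obtain ⟨a₀, k1, s4⟩ : ∃ a₀, ρ a₀ = a₀ ∧ τ (a₀ * b) ≠ 0 := by
    obtain ⟨κ, k1, k2⟩ := nz _ b0
    exact ⟨_, ε2 _ k1, by simpa [ε0] using k2⟩
  obtain ⟨b', c1, c2⟩ : ∃ b', b' + ρ b' = 0 ∧
      σ (τ (b' * lam)) * τ (b * lam) ≠ τ (b' * lam) * σ (τ (b * lam)) := by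
    by_contra hc
    push Not at hc
    have := h.eq_zero (a := σ (τ (b * lam)) • lam + ρ (σ (τ (b * lam)) • lam)) fun b' hb' => by
      have e1 : τ (b' * ρ lam) = -σ (τ (b' * lam)) := by
        rw [← h.tr, map_mul ρ, eq_neg_of_add_eq_zero_right hb']; simp
      rw [h.smul, hσ, mul_add, map_add, mul_smul_comm, mul_smul_comm, map_smul, map_smul, e1]
      simp only [smul_eq_mul]
      linear_combination -hc b' hb'
    refine hlam (ε * σ (τ (b * lam)))⁻¹ _ (ε2 _ this) ?_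
    rw [smul_smul, smul_smul, mul_assoc, inv_mul_cancel₀ (mul_ne_zero ε0 (σ_ne b2)), one_smul]
  have cd := W0 0 b (by simp) b1
  have ce := W0 _ b' k1 c1
  rw [zero_smul, zero_add] at cd
  have s1 : S.B (b • x) (a₀ • u + b' • x) = τ (a₀ * b) := by
    simp [h.B, hx, hxx, k1, mul_comm b]
  have s1' : S.B (a₀ • u + b' • x) (b • x) = -τ (a₀ * b) := by
    simp [h.B, hux, hxx, eq_neg_of_add_eq_zero_right b1, mul_comm b]
  have s2 : S.B (lam • u) (b • x) = -τ (b * lam) := by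
    simp [h.B, hux, eq_neg_of_add_eq_zero_right b1, mul_comm b]
  have s3 : S.B (lam • u) (a₀ • u + b' • x) = -τ (b' * lam) := by
    simp [h.B, hux, hu, eq_neg_of_add_eq_zero_right c1, mul_comm b']
  obtain ⟨Y, y1, y2, y3, y4⟩ := core_of_three h.ne h3 cd ce (h.ctr_tr hu hu0 hc hT) (by rwa [s1]) (by
    rw [← Bs S (lam • u) (b • x), ← Bs S (lam • u) (_ + _), s1, s1', s2, s3, map_neg, map_neg, div_neg,
      ← sub_eq_add_neg, ← sub_div, div_ne_zero_iff]
    exact ⟨fun e => c2 (by linear_combination -e), s4⟩)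
  have y5 : ∀ a : K, ρ a = a → a • u ∈ Y := fun a ha => by
    rcases y4 _ (W0 a 0 ha (by simp)) with e | e
    · simpa using e
    rcases y4 _ (W0 a b ha b1) with e' | e'
    · simpa using Y.sub_mem e' y1
    · have := Submodule.sub_mem _ e' e
      rw [zero_smul, add_zero, add_sub_cancel_left] at this
      exact absurd (this _ y2) (by rwa [s1])
  refine y3 _ (h.le_of_minus (U := ⊤)
    (W := Y.comap ((LinearMap.toSpanSingleton K V u).restrictScalars F)) (fun _ _ => trivial)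
    (fun κ _ hκ => ?_) (Submodule.mem_top (x := k))) (by simp [h.B, hu])
  have := Y.smul_mem ε⁻¹ (y5 _ (ε2 _ hκ))
  rwa [smul_assoc, smul_smul, inv_mul_cancel₀ ε0, one_smul] at this

theorem XM.top_of_line (h : XM τ f S M) {u : V} (hu : f.B u u = 0) (hu0 : u ≠ 0)
    (hc : ∀ k : K, Ctr S M (k • u)) : sisom S ≤ M := by
  have : Finite K := Module.finite_of_finite F
  have hC : ∀ v, f.B v v = 0 → Ctr S M v := fun v hv => by
    by_cases hv0 : v = 0
    · rw [hv0]; exact ctr_zero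
    obtain ⟨k, hk, a, e⟩ := exists_line h.neK h.nd h.two hu hu0 hv hv0
    have := h.ctr_map (hc a) (inv_mem hk)
    rwa [← e, LinearEquiv.coe_inv, k.symm_apply_apply] at this
  obtain ⟨x, hxx, hx, hux⟩ := h.partner hu hu0
  have uu : ∀ a b : K, S.B (a • u) (b • u) = 0 := fun a b => by simp [h.B, hu]
  let P := (Submodule.span K {u, x}).restrictScalars F
  have hP : Full S M P := fun v hv hs => by
    obtain ⟨a, b, rfl⟩ := Submodule.mem_span_pair.1 hv
    have cb := hC (b • x) (by simp [hxx])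
    by_cases hab : S.B (a • u) (b • x) = 0
    swap
    · exact Ctr.add1 (hc a) cb hab hs
    by_cases hb : b = 0
    · simpa [hb] using hc a
    obtain ⟨l, hl⟩ := (h.hK_nd (hσ := hσ)).exists_eq hb 1
    have hl' : S.B (b • x) (l • u) = 1 := by
      rw [← Bs, h.B, ← map_one σ, ← hl, h.hK_B]; simp [hux, mul_comm]
    obtain ⟨g, hg, hg', e⟩ := ((ei_of_ctr h.ne (d := l • u) (w := (-a) • u) (uu _ _) (uu _ _) (hc _)
      fun c _ => by rw [← smul_assoc, ← add_smul]; exact hc _).he (hc l) (q := 0)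
      (by simp [uu])).exists
    convert cb.map hg hg' using 1
    rw [e, hl', neg_smul, S.B_neg_right, S.B_comm_zero hab]; module
  have hN : S.NondegOn P := fun v hv e =>
    f.nondegOn_span_pair (sing hu) (sing hxx) (by rw [hux]; exact one_ne_zero) v hv fun w hw =>
      f.B_comm_zero (h.f_eq_zero fun k => S.B_comm_zero (e _ (Submodule.smul_mem (Submodule.span K _) k hw)))
  have hd : 4 ≤ finrank F P := by
    change 4 ≤ finrank F (Submodule.span K {u, x})
    rw [← Module.finrank_mul_finrank F K, f.finrank_span_pair_of_hyperbolic (sing hu)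
      (by rw [hux]; exact one_ne_zero)]
    have := h.three
    omega
  obtain ⟨Y, y1, y2, y3⟩ := core h.ne hN (by omega) (hP.ef4 h.ne hN hd)
  have m0 : ∀ b : K, b • u ∈ Y := fun b =>
    y1 (Submodule.smul_mem (Submodule.span K _) _ (Submodule.subset_span (by simp)))
  have key : ∀ y, f.B y u ≠ 0 → y ∈ Y := fun y hy => by
    obtain ⟨a, ha⟩ := f.exists_sing_add (sing hu) hy 0
    rcases y3 _ (hC _ (sing_of_zero_sub ha).B_self) with e | e
    · simpa using Y.sub_mem e (m0 a)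
    · refine absurd (f.B_comm_zero (h.f_eq_zero fun k => S.B_comm_zero (e _ (m0 k)))) ?_
      simpa [hu] using hy
  refine Full.sisom_le h.ne h.nondeg (hd.trans (Submodule.finrank_le P)) (y2.mono fun y _ => ?_)
  by_cases hy : f.B y u = 0
  · simpa using Y.sub_mem (key (y + x) (by simp [hy, hx])) (key x (by simp [hx]))
  · exact key y hy

theorem XM.max (h : XM τ f S M) (h5 : finrank F K ≤ 5) (h33 : ¬ (finrank K V = 3 ∧ finrank F K = 3))
    (hc : (∀ lam, lam ≠ 0 → TR f S lam) ∨ ((∃ c : F, σ c = c ∧ c ≠ 0 ∧ c ≠ 1) ∧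
      ∃ lam, TR f S lam ∧ ∀ (c : F) (a : K), ρ a = a → lam ≠ c • a)) :
    (∀ g ∈ M, KSemi K g) ∨ sisom S ≤ M := by
  have : Finite K := Module.finite_of_finite F
  obtain ⟨u, -, hu0, hu⟩ := (trP h.neK).exists_sing_of_two_le f ⊤ (by rw [finrank_top]; exact h.two)
  by_cases hY : ∀ y ∈ M, (∀ w, f.B w u = 0 → y w = w) → KLin K y
  · exact Or.inl fun g hg => h.semi h33 hu.B_self hu0 hY hg
  right
  push Not at hY
  obtain ⟨y, r1, r2, r3⟩ := hY
  obtain ⟨v, hv, hv0, cv⟩ := h.exists_ctr h5 (hc.symm.imp And.left id) hu.B_self hu0 r1 r2 r3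
  refine h.top_of_line hv hv0 fun k => ?_
  rcases hc with hc | ⟨h3, lam, hT, hlam⟩
  · by_cases hk : k = 0
    · simpa [hk] using ctr_zero
    · exact h.ctr_tr hv hv0 cv (hc k hk)
  · exact h.ctr_line h3 hT hlam hv hv0 cv k

theorem XH.tr_three (h : XH τ f S) (h3 : 3 ≤ finrank K V) {lam : K} (h0 : lam ≠ 0) : TR f S lam := by
  have : Finite K := Module.finite_of_finite F
  intro u hu hu0
  obtain ⟨k, hk, e⟩ := exists_vec h.neK h.nd h3 (u := lam • u) (by simp [hu]) (smul_ne_zero h0 hu0) hu hu0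
  exact ⟨1, one_ne_zero, k, hk.1, h.res_mem hk, by rw [e, one_smul]⟩

theorem XH.tr_pow (h : XH τ f S) {q : ℕ} (hq : ∀ a, σ a = a ^ q) {μ : K} (h0 : μ ≠ 0) {c : F}
    (hc : c ≠ 0) : TR f S (c • μ ^ (q + 1)) := by
  intro u hu hu0
  obtain ⟨g, hg, e⟩ := h.nd.witt_step ⊥ (u := u) (v := μ • u) (by simpa using hu0)
    (by simpa using ⟨h0, hu0⟩) (by simp) ((f.unit_Q_sub_mem f _ _).2 (by simp [hu]))
  have hg := f.gen_le_isom _ hg
  have e1 : ∀ n : ℕ, (g ^ n).restrictScalars F = g.restrictScalars F ^ n ∧ (g ^ n) u = μ ^ n • u := by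
    intro n
    induction n with
    | zero => exact ⟨rfl, by simp⟩
    | succ n ih =>
      refine ⟨by rw [pow_succ, pow_succ, ← ih.1]; rfl, ?_⟩
      rw [pow_succ, LinearEquiv.mul_apply, e, map_smul, ih.2, smul_smul, pow_succ']
  refine ⟨c⁻¹, inv_ne_zero hc, g ^ (q + 1), pow_mem hg _, ⟨h.res_isom (pow_mem hg _), ?_⟩, by
    rw [(e1 _).2, smul_smul, inv_mul_cancel₀ hc, one_smul]⟩
  have := det_norm_one h.nondeg (h.res_isom hg)
  rw [hq, ← pow_succ'] at this
  change LinearEquiv.det _ = 1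
  rw [(e1 _).1, map_pow]
  exact Units.ext (by rw [Units.val_pow_eq_pow_val, this]; rfl)

theorem XF.exists_lam (h : XF σ ρ τ) {q : ℕ} (hF : Nat.card F = q ^ 2)
    (hq : (q + 1) ^ 2 < q ^ finrank F K + 1) :
    ∃ μ : K, μ ≠ 0 ∧ ∀ (c : F) (a : K), ρ a = a → μ ^ (q + 1) ≠ c • a := by
  have : Finite K := Module.finite_of_finite F
  have := h.three
  have := Fintype.ofFinite F
  have := Fintype.ofFinite (Fx ρ)
  have q2 : 2 ≤ q := by
    by_contra hc
    have h1 := Finite.one_lt_card (α := F)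
    have : q ^ 2 ≤ 1 ^ 2 := Nat.pow_le_pow_left (by omega) 2
    omega
  have h1 : Nat.card K = (q ^ finrank F K) ^ 2 := by
    rw [Module.natCard_eq_pow_finrank (K := F), hF, ← pow_mul, ← pow_mul, mul_comm]
  have h2 : Fintype.card (Fx ρ) = q ^ finrank F K := by
    have : FiniteDimensional (Fx ρ) K := Module.Finite.of_finite
    have := Module.natCard_eq_pow_finrank (K := Fx ρ) (V := K)
    rw [SU.finrank_fx h.neK h.ρρ, h1, Nat.card_eq_fintype_card] at this
    exact (Nat.pow_left_injective two_ne_zero this).symm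
  obtain ⟨ω, hω⟩ := IsCyclic.exists_ofOrder_eq_natCard (α := Kˣ)
  rw [Nat.card_units, h1] at hω
  refine ⟨ω, ω.ne_zero, fun c a ha e => ?_⟩
  have h3 : c • a ≠ 0 := e ▸ pow_ne_zero _ ω.ne_zero
  obtain ⟨N, hN⟩ : ∃ N, q ^ finrank F K = N + 1 := ⟨q ^ finrank F K - 1, by
    have := Nat.pow_pos (n := finrank F K) (show 0 < q by omega)
    omega⟩
  have a1 : a ^ N = 1 := by
    have := FiniteField.pow_card_sub_one_eq_one (⟨a, ha⟩ : Fx ρ)
      (fun e => (smul_ne_zero_iff.1 h3).2 (congrArg Subtype.val e))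
    rw [h2, hN, Nat.add_sub_cancel] at this
    exact congrArg Subtype.val this
  have a2 : (c ^ (q + 1)) ^ N = 1 := by
    have e1 := FiniteField.pow_card_sub_one_eq_one c (smul_ne_zero_iff.1 h3).1
    rw [← Nat.card_eq_fintype_card, hF, show q ^ 2 - 1 = (q + 1) * (q - 1) by
      simpa using Nat.sq_sub_sq q 1, pow_mul] at e1
    obtain ⟨t, ht⟩ := Nat.sub_dvd_pow_sub_pow q 1 (finrank F K)
    rw [one_pow, hN, Nat.add_sub_cancel] at ht
    rw [ht, pow_mul, e1, one_pow]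
  have a3 : ω ^ ((q + 1) ^ 2 * N) = 1 := Units.ext (by
    rw [Units.val_pow_eq_pow_val, sq, mul_assoc, pow_mul, e, smul_pow, mul_comm (q + 1) N, pow_mul a, a1,
      mul_comm N, pow_mul c, a2]; simp)
  have a4 := Nat.le_of_dvd (Nat.mul_pos (by positivity) (by nlinarith)) (orderOf_dvd_of_pow_eq_one a3)
  rw [hω, hN] at a4
  rw [hN] at hq
  have : (N + 1) ^ 2 - 1 = (N + 2) * N := by
    rw [show (N + 1) ^ 2 = (N + 2) * N + 1 by ring, Nat.add_sub_cancel]
  rw [this] at a4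
  have := Nat.le_of_mul_le_mul_right a4 (by nlinarith)
  omega

theorem XH.tr_five (h : XH τ f S) (hF : Nat.card F = 4) (hq : ∀ a, σ a = a ^ 2) (h5 : finrank F K = 5)
    {lam : K} (h0 : lam ≠ 0) : TR f S lam := by
  have : Finite K := Module.finite_of_finite F
  have := Fintype.ofFinite K
  have h1 : Nat.card K = 1024 := by rw [Module.natCard_eq_pow_finrank (K := F), hF, h5]; rfl
  have h2 := FiniteField.algebraMap_norm_eq_pow (K := F) (x := lam)
  rw [h1, hF] at h2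
  have h3 := FiniteField.pow_card lam
  rw [← Nat.card_eq_fintype_card, h1] at h3
  convert h.tr_pow hq (μ := lam ^ 114) (pow_ne_zero _ h0) (c := Algebra.norm F lam ^ 2)
    (pow_ne_zero _ (Algebra.norm_ne_zero_iff.2 h0)) using 1
  rw [Algebra.smul_def, map_pow, h2, ← pow_mul, ← pow_mul, ← pow_add]
  exact h3.symm

omit [FiniteDimensional K V] in
theorem exists_xh (hne : ∃ a, σ a ≠ a) (hS : S.Nondeg) (hp : (finrank F K).Prime) (h3 : 3 ≤ finrank F K)
    (h2 : 2 ≤ finrank K V) (hadj : ∀ (k : K) x y, S.B (k • x) y = S.B x (ρ k • y)) :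
    ∃ (τ : K →ₗ[F] F) (f : PQ (FP.unit ρ hρ) V), XH τ f S := by
  have hV : (⊤ : Submodule F V) ≠ ⊥ := by
    have : Nontrivial V := Module.nontrivial_of_finrank_pos (R := K) (by omega)
    exact top_ne_bot
  obtain ⟨v, -, hv⟩ := exists_B_self_ne_unit hne S (S.nondegOn_top.2 hS) hV
  have hv0 : v ≠ 0 := by rintro rfl; simp at hv
  let τ : K →ₗ[F] F := S.lin v ∘ₗ (LinearMap.toSpanSingleton K V v).restrictScalars F
  have hτ' : ∀ k, τ k = S.B (k • v) v := fun _ => rfl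
  have hτ : τ ≠ 0 := fun e => hv (by simpa [e] using (hτ' 1).symm)
  have X : XF σ ρ τ := ⟨hne, hσ, hρ, hτ, fun c => smul_left_injective K hv0 (hS.ext_right fun y => by
    simp only [← hadj, algebraMap_smul, PQ.B_smul_left, Bsr, hσ]), fun k => by
      rw [hτ', hτ', hadj, hρ, Bs], hp, h3⟩
  obtain ⟨f, hf⟩ := exists_lift_form hτ S.B S.B_add_left S.B_smul_left
  obtain ⟨θ, hθ⟩ := exists_tr_one X.neK hρ
  refine ⟨τ, PQ.ofHerm ρ hρ θ hθ f (fun x y v => X.ext fun k => by simp [hf, mul_add])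
    (fun c x v => X.ext fun k => by rw [hf, ← mul_assoc, hf, mul_smul])
    (fun u w => X.ext fun k => by
      rw [hf, hadj, ← Bs, ← hf, ← X.tr, map_mul ρ, hρ]), X, fun x hx => hS x fun y => ?_,
    fun x y => ?_, h2⟩
  · have := hf x y 1
    rw [show f x y = 0 from hx y] at this
    simpa using this.symm
  · have := hf x y 1
    rw [one_mul, one_smul] at this
    exact this.symm

theorem geo_ext {F : Type*} [Field F] [Fintype F] {q : ℕ} (hF : Fintype.card F = q ^ 2) {n r : ℕ}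
    (hr : r = 3 ∨ r = 5) (hn : 2 * r ≤ n) (h9 : ¬ (n = 9 ∧ r = 3)) (h6 : ¬ (n = 6 ∧ q = 2))
    (A : Subalgebra F (Matrix (Fin n) (Fin n) F)) (hA : Geo.IsFieldSubalgebra r A)
    (hac : Geo.IsAdjointClosedFor (hermForm n F q) A) :
    Geo.IsMaximalIn (GU n F q ⊓ Geo.specialLinear (Fin n) F)
      (Geo.subalgebraNormalizer A ⊓ (GU n F q ⊓ Geo.specialLinear (Fin n) F)) := by
  have : Nonempty (Fin n) := ⟨⟨0, by omega⟩⟩
  let _ := Asch.fieldOf A hA.comm hA.inv
  let inst : Module A (Fin n → F) :=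
    Module.compHom _ ((Matrix.toLinAlgEquiv' (R := F)).toRingHom.comp A.val.toRingHom)
  have : @IsScalarTower F A (Fin n → F) Algebra.toSMul inst.toSMul _ :=
    ⟨fun c k v => Matrix.smul_mulVec c k.1 v⟩
  have : FiniteDimensional A (Fin n → F) := Module.Finite.right F A _
  have hS := std_nondeg hF n
  have ha : Asch.AdjC (std hF n) (A : Set (Matrix (Fin n) (Fin n) F)) := fun k hk => by
    obtain ⟨k', hk', e⟩ := hac k hk
    rwa [Asch.adj_unique hS e]
  have hd := Module.finrank_mul_finrank F A (Fin n → F)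
  rw [hA.finrank_eq, finrank_fin_fun] at hd
  have q2 := two_le_of_card_sq hF
  obtain ⟨τ, f, h⟩ := exists_xh (K := A) (ρ := (Asch.adjEquiv hS hA.comm ha : A →+* A))
    (hρ := fun x => Subtype.ext (Asch.adj_adj hS x)) (std_ne hF) hS
    (by rw [hA.finrank_eq]; rcases hr with rfl | rfl <;> decide) (by rw [hA.finrank_eq]; omega)
    (by by_contra hc; have := Nat.mul_le_mul_left r (show finrank A (Fin n → F) ≤ 1 by omega); omega)
    (fun k x y => Asch.B_adj hS k x y)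
  refine max_of hF (KSemi A) (mem_subalgebraNormalizer_iff' A)
    (SU_not_le_subalgebraNormalizer hF (by omega) hA (by omega)) fun M h1 h2 =>
    XM.max ⟨h, h1, h2⟩ (by rw [hA.finrank_eq]; omega)
      (by rw [hA.finrank_eq]; rintro ⟨e1, e2⟩; rw [e1, e2] at hd; omega) ?_
  by_cases h3 : 3 ≤ finrank A (Fin n → F)
  · exact Or.inl fun lam h0 => h.tr_three h3 h0
  have h4 : finrank A (Fin n → F) = 2 := by have := h.two; omega
  rw [h4] at hd
  by_cases hq : q = 2
  · subst hq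
    exact Or.inl fun lam h0 => h.tr_five (by rw [Nat.card_eq_fintype_card, hF]; rfl) (fun _ => rfl)
      (by rw [hA.finrank_eq]; omega) h0
  obtain ⟨μ, h0, hμ⟩ := h.toXF.exists_lam (q := q) (by rw [Nat.card_eq_fintype_card, hF]) (by
    rw [hA.finrank_eq]
    have : q ^ 3 ≤ q ^ r := Nat.pow_le_pow_right (by omega) (by omega)
    have : 3 ≤ q := by omega
    nlinarith [Nat.mul_le_mul_right (q * q) this])
  exact Or.inr ⟨exists_real hF (by omega), _, by simpa using h.tr_pow (fun _ => rfl) h0 one_ne_zero, hμ⟩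

end Cfsg.Agent.H6.SU
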