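import Cfsg.Agent.H6.SUC2

/-!
Overgroups of the monomial group in `SU_n(q)`: basics and point stabilisers.
-/

set_option autoImplicit false
set_option linter.unusedSectionVars false
set_option linter.unusedVariables false

namespace Cfsg.Agent.H6.SU

open Module Cfsg.Agent.Form Cfsg.Agent.H7

variable {F : Type*} [Field F] {σ : F →+* F}

theorem eq_top_of_norm_one [Finite F] (hσ : ∀ a, σ (σ a) = a) (hne : ∃ a, σ a ≠ a) (A : AddSubgroup F)
    (hA : ∀ b, b * σ b = 1 → ∀ c ∈ A, b * c ∈ A) {c : F} (hc : c ∈ A) (hc0 : c ≠ 0) (x : F) :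
    x ∈ A := by
  let R : Subring F :=
    { carrier := {b | ∀ c ∈ A, b * c ∈ A}
      mul_mem' := fun {a b} ha hb c hc => by rw [mul_assoc]; exact ha _ (hb c hc)
      one_mem' := fun c hc => by simpa using hc
      add_mem' := fun {a b} ha hb c hc => by rw [add_mul]; exact A.add_mem (ha c hc) (hb c hc)
      zero_mem' := fun c hc => by simp
      neg_mem' := fun {a} ha c hc => by rw [neg_mul]; exact A.neg_mem (ha c hc) }
  have inv : ∀ b ∈ R, b⁻¹ ∈ R := by
    intro b hb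
    by_cases h0 : b = 0
    · simp [h0]
    have := Fintype.ofFinite F
    have h1 := FiniteField.pow_card_sub_one_eq_one b h0
    have h2 := Fintype.one_lt_card (α := F)
    rw [show Fintype.card F - 1 = (Fintype.card F - 2) + 1 by omega, pow_succ] at h1
    rw [← eq_inv_of_mul_eq_one_left h1]
    exact R.pow_mem hb _
  have k1 : ∀ θ s, σ θ ≠ θ → σ s = s → (σ θ + s) * (θ - σ θ)⁻¹ ∈ R := by
    intro θ s hθ hs
    have h1 : θ + s ≠ 0 := fun h => hθ (by rw [eq_neg_of_add_eq_zero_left h, map_neg, hs])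
    have h2 : σ θ + s ≠ 0 := by rw [← hs, ← map_add]; exact σ_ne h1
    have h3 : (θ + s) / (σ θ + s) ∈ R := hA _ (by
      rw [map_div₀, map_add, map_add, hσ, hs]; field_simp)
    convert inv _ (R.sub_mem h3 R.one_mem) using 1
    have : θ - σ θ ≠ 0 := fun h => hθ (by linear_combination -h)
    field_simp
    rw [show θ + s - (σ θ + s) = θ - σ θ by ring, div_self this]
  have k2 : ∀ θ, σ θ ≠ θ → σ θ ∈ R := by
    intro θ hθ
    have : θ - σ θ ≠ 0 := fun h => hθ (by linear_combination -h)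
    convert R.mul_mem (k1 θ 0 hθ (map_zero σ)) (inv _ (R.sub_mem (k1 θ 1 hθ (map_one σ))
      (k1 θ 0 hθ (map_zero σ)))) using 1
    field_simp
    simp
  have k3 : ∀ θ, σ θ ≠ θ → θ ∈ R := fun θ hθ => by
    simpa [hσ] using k2 (σ θ) (by rw [hσ]; exact hθ.symm)
  have k4 : ∀ y, y ∈ R := by
    intro y
    by_cases hy : σ y = y
    · obtain ⟨θ, hθ⟩ := hne
      simpa using R.sub_mem (k3 (y + θ) (by simpa [hy] using hθ)) (k3 θ hθ)
    · exact k3 y hy
  simpa [hc0] using k4 (x / c) c hc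

theorem exists_norm_match [Finite F] (hσ : ∀ a, σ (σ a) = a) (hne : ∃ a, σ a ≠ a) {α β : F}
    (hα : σ α = α) (hβ : σ β = β) (hα0 : α ≠ 0) (hβ0 : β ≠ 0) :
    ∃ a b : F, a * σ a = 1 ∧ b * σ b = 1 ∧ a ≠ 1 ∧ b ≠ 1 ∧ α * (2 - a - σ a) = β * (2 - b - σ b) := by
  classical
  have := Fintype.ofFinite F
  obtain ⟨θ, hθ⟩ := hne
  have h0 : θ - σ θ ≠ 0 := fun h => hθ (by linear_combination -h)
  have h1 : ∀ s, σ s = s → θ + s ≠ 0 := fun s hs h =>
    hθ (by rw [eq_neg_of_add_eq_zero_left h, map_neg, hs])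
  have h2 : ∀ s, σ s = s → σ θ + s ≠ 0 := fun s hs => by rw [← hs, ← map_add]; exact σ_ne (h1 s hs)
  let R := Finset.univ.filter fun s : F => σ s = s
  have key : ∀ γ : F, σ γ = γ → γ ≠ 0 → R.card ≤ 2 * (R.image fun s => γ * ((θ + s) * (σ θ + s))).card ∧
      (R.image fun s => γ * ((θ + s) * (σ θ + s))) ⊆ R.erase 0 := by
    intro γ hγ hγ0
    refine ⟨Finset.card_le_mul_card_image _ _ fun a ha => ?_, fun a ha => ?_⟩
    · obtain ⟨s, -, rfl⟩ := Finset.mem_image.1 ha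
      refine le_trans (Finset.card_le_card (t := {s, -s - θ - σ θ}) fun x hx => ?_) Finset.card_le_two
      have := mul_left_cancel₀ hγ0 (Finset.mem_filter.1 hx).2
      have h3 : (x - s) * (x - (-s - θ - σ θ)) = 0 := by linear_combination this
      simpa [sub_eq_zero] using h3
    · obtain ⟨s, hs, rfl⟩ := Finset.mem_image.1 ha
      have hs' := (Finset.mem_filter.1 hs).2
      refine Finset.mem_erase.2 ⟨mul_ne_zero hγ0 (mul_ne_zero (h1 s hs') (h2 s hs')),
        Finset.mem_filter.2 ⟨Finset.mem_univ _, ?_⟩⟩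
      simp only [map_mul, map_add, hσ, hγ, hs']; ring
  obtain ⟨a1, a2⟩ := key α hα hα0
  obtain ⟨b1, b2⟩ := key β hβ hβ0
  have hnd : ¬ Disjoint (R.image fun s => α * ((θ + s) * (σ θ + s)))
      (R.image fun s => β * ((θ + s) * (σ θ + s))) := by
    intro hd
    have h3 := Finset.card_le_card (Finset.union_subset a2 b2)
    rw [Finset.card_union_of_disjoint hd, Finset.card_erase_of_mem (by simp [R])] at h3
    have : 0 < R.card := Finset.card_pos.2 ⟨0, by simp [R]⟩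
    omega
  obtain ⟨x, hx, hx'⟩ := Finset.not_disjoint_iff.1 hnd
  obtain ⟨s, hs, rfl⟩ := Finset.mem_image.1 hx
  obtain ⟨t, ht, e⟩ := Finset.mem_image.1 hx'
  have hs' := (Finset.mem_filter.1 hs).2
  have ht' := (Finset.mem_filter.1 ht).2
  have := h1 s hs'; have := h2 s hs'; have := h1 t ht'; have := h2 t ht'
  refine ⟨(θ + t) / (σ θ + t), (θ + s) / (σ θ + s), ?_, ?_, ?_, ?_, ?_⟩
  · rw [map_div₀, map_add, map_add, hσ, ht']; field_simp
  · rw [map_div₀, map_add, map_add, hσ, hs']; field_simp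
  · rw [Ne, div_eq_one_iff_eq (h2 t ht')]; exact fun h => h0 (by linear_combination h)
  · rw [Ne, div_eq_one_iff_eq (h2 s hs')]; exact fun h => h0 (by linear_combination h)
  · simp only [map_div₀, map_add, hσ, ht', hs']
    field_simp
    linear_combination ((θ - σ θ) ^ 2) * e

theorem exists_three_norm_one (hσ : ∀ a, σ (σ a) = a) (hne : ∃ a, σ a ≠ a)
    (h3 : ∃ a : F, σ a = a ∧ a ≠ 0 ∧ a ≠ 1) : ∃ a b c : F, a * σ a = 1 ∧ b * σ b = 1 ∧ c * σ c = 1 ∧
      a ≠ 1 ∧ b ≠ 1 ∧ c ≠ 1 ∧ a ≠ b ∧ a ≠ c ∧ b ≠ c := by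
  obtain ⟨θ, hθ⟩ := hne
  obtain ⟨r, hr, hr0, hr1⟩ := h3
  have h0 : θ - σ θ ≠ 0 := fun h => hθ (by linear_combination -h)
  have h1 : ∀ s, σ s = s → θ + s ≠ 0 := fun s hs h =>
    hθ (by rw [eq_neg_of_add_eq_zero_left h, map_neg, hs])
  have h2 : ∀ s, σ s = s → σ θ + s ≠ 0 := fun s hs => by rw [← hs, ← map_add]; exact σ_ne (h1 s hs)
  have k1 : ∀ s, σ s = s → (θ + s) / (σ θ + s) * σ ((θ + s) / (σ θ + s)) = 1 := fun s hs => by
    have := h1 s hs; have := h2 s hs
    rw [map_div₀, map_add, map_add, hσ, hs]; field_simp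
  have k2 : ∀ s, σ s = s → (θ + s) / (σ θ + s) ≠ 1 := fun s hs => by
    rw [Ne, div_eq_one_iff_eq (h2 s hs)]; exact fun h => h0 (by linear_combination h)
  have k3 : ∀ s t, σ s = s → σ t = t → s ≠ t → (θ + s) / (σ θ + s) ≠ (θ + t) / (σ θ + t) := by
    intro s t hs ht hst h
    rw [div_eq_div_iff (h2 s hs) (h2 t ht)] at h
    exact hst (mul_left_cancel₀ h0 (by linear_combination -h))
  exact ⟨_, _, _, k1 0 (map_zero σ), k1 1 (map_one σ), k1 r hr, k2 0 (map_zero σ), k2 1 (map_one σ),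
    k2 r hr, k3 _ _ (map_zero σ) (map_one σ) zero_ne_one, k3 _ _ (map_zero σ) hr hr0.symm,
    k3 _ _ (map_one σ) hr hr1.symm⟩

theorem exists_tangent [Finite F] (hσ : ∀ a, σ (σ a) = a) (hne : ∃ a, σ a ≠ a) {x y z : F}
    (hx : σ x = x) (hy : σ y = y) (hz : σ z = z) (hx0 : x ≠ 0) (hy0 : y ≠ 0) (hz0 : z ≠ 0) :
    ∃ a b c : F, a * σ a = 1 ∧ b * σ b = 1 ∧ c * σ c = 1 ∧ c ≠ 1 ∧
      (a - 1) * x + (b - 1) * y + (c - 1) * z = 0 := by
  by_cases h0 : x + y + z = 0
  · obtain ⟨δ, h1, h2⟩ := exists_norm_one_ne hne hσ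
    exact ⟨δ, δ, δ, h1, h1, h1, by rintro rfl; simp at h2, by linear_combination (δ - 1) * h0⟩
  obtain ⟨c, t, hc, ht, hc1, -, e⟩ := exists_norm_match hσ hne (α := (x + y + z) * z) (β := -(x * y))
    (by simp [hx, hy, hz]) (by simp [hx, hy]) (mul_ne_zero h0 hz0) (by simp [hx0, hy0])
  have hN : (x + y + z - c * z) * σ (x + y + z - c * z) = (x + t * y) * σ (x + t * y) := by
    simp only [map_sub, map_add, map_mul, hx, hy, hz]
    linear_combination e + z ^ 2 * hc - y ^ 2 * ht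
  by_cases h1 : x + t * y = 0
  · rw [h1, zero_mul, mul_eq_zero, map_eq_zero, or_self] at hN
    exact ⟨1, t, c, by simp, ht, hc, hc1, by linear_combination h1 - hN⟩
  · have h2 := σ_ne (σ := σ) h1
    have hu : (x + y + z - c * z) / (x + t * y) * σ ((x + y + z - c * z) / (x + t * y)) = 1 := by
      rw [map_div₀, div_mul_div_comm, hN, div_self (mul_ne_zero h1 h2)]
    refine ⟨_, (x + y + z - c * z) / (x + t * y) * t, c, hu, ?_, hc, hc1, ?_⟩
    · rw [map_mul]; linear_combination (t * σ t) * hu + ht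
    · linear_combination div_mul_cancel₀ (x + y + z - c * z) h1

variable {hσ : ∀ a, σ (σ a) = a}
  {V : Type*} [AddCommGroup V] [Module F V] {S : PQ (FP.unit σ hσ) V} {M : Subgroup (V ≃ₗ[F] V)}
  {ι : Type*} [Fintype ι] [DecidableEq ι] {e : ι → V}

theorem exists_notMem_fin (s : Finset ι) (h : s.card < Fintype.card ι) : ∃ x, x ∉ s := by
  by_contra hc
  push Not at hc
  have := Finset.card_le_card (show Finset.univ ⊆ s from fun x _ => hc x)
  rw [Finset.card_univ] at this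
  omega

theorem exists_notMem_list (l : List ι) (h : l.length < Fintype.card ι) : ∃ x, x ∉ l := by
  obtain ⟨x, hx⟩ := exists_notMem_fin l.toFinset (lt_of_le_of_lt (List.toFinset_card_le l) h)
  exact ⟨x, by simpa using hx⟩

/-- an orthonormal basis -/
structure ON (S : PQ (FP.unit σ hσ) V) (e : ι → V) : Prop where
  B_e : ∀ i j, S.B (e i) (e j) = if i = j then 1 else 0
  sum : ∀ x, ∑ i, S.B x (e i) • e i = x

theorem ON.self (h : ON S e) (i : ι) : S.B (e i) (e i) = 1 := by simp [h.B_e]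

theorem ON.ne (h : ON S e) {i j : ι} (hij : i ≠ j) : S.B (e i) (e j) = 0 := by simp [h.B_e, hij]

theorem ON.ext (h : ON S e) {x y : V} (hxy : ∀ i, S.B x (e i) = S.B y (e i)) : x = y := by
  rw [← h.sum x, ← h.sum y]; simp only [hxy]

theorem ON.nd (h : ON S e) : S.Nondeg := fun x hx => h.ext fun i => by simp [hx]

theorem ON.B_sum (h : ON S e) (x y : V) : S.B x y = ∑ i, S.B x (e i) * σ (S.B y (e i)) := by
  conv_lhs => rw [← h.sum x, S.B_sum_left]
  simp only [PQ.B_smul_left, Bs]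

/-- multiples of basis vectors -/
def IsE (e : ι → V) (v : V) : Prop := ∃ j, ∃ c : F, v = c • e j

/-- monomial maps -/
def Mono (e : ι → V) (g : V ≃ₗ[F] V) : Prop := ∀ i, IsE (F := F) e (g (e i))

theorem Mono.mul {g k : V ≃ₗ[F] V} (hg : Mono e g) (hk : Mono e k) : Mono e (g * k) := by
  intro i
  obtain ⟨j, c, e1⟩ := hk i
  obtain ⟨l, c', e2⟩ := hg j
  exact ⟨l, c * c', by rw [LinearEquiv.mul_apply, e1, map_smul, e2, smul_smul]⟩

theorem ON.e_ne (h : ON S e) (i : ι) : e i ≠ 0 := fun h0 => by simpa [h0] using h.self i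

theorem ON.coeff_ne (h : ON S e) {g : V ≃ₗ[F] V} {i j : ι} {c : F} (e1 : g (e i) = c • e j) : c ≠ 0 := by
  rintro rfl
  rw [zero_smul, map_eq_zero_iff g g.injective] at e1
  exact h.e_ne i e1

theorem ON.col_inj (h : ON S e) {g : V ≃ₗ[F] V} {k m l : ι} {c c' : F} (h1 : g (e k) = c • e l)
    (h2 : g (e m) = c' • e l) : m = k := by
  by_contra hn
  have : g (c • e m) = g (c' • e k) := by rw [map_smul, map_smul, h1, h2, smul_comm]
  have := congrArg (fun x => S.B x (e m)) (g.injective this)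
  simp [h.self, h.ne (Ne.symm hn), h.coeff_ne h1] at this

theorem ON.exists_perm (h : ON S e) {g : V ≃ₗ[F] V} (hg : Mono e g) :
    ∃ π : Equiv.Perm ι, ∀ i, ∃ c : F, g (e i) = c • e (π i) := by
  choose π c e1 using hg
  have hinj : Function.Injective π := fun k m hh => (h.col_inj (e1 k) (hh ▸ e1 m)).symm
  exact ⟨Equiv.ofBijective π (Finite.injective_iff_bijective.1 hinj), fun i => ⟨c i, e1 i⟩⟩

theorem ON.mono_inv (h : ON S e) {g : V ≃ₗ[F] V} (hg : Mono e g) : Mono e g⁻¹ := by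
  obtain ⟨π, hπ⟩ := h.exists_perm hg
  intro j
  obtain ⟨c, e1⟩ := hπ (π.symm j)
  refine ⟨π.symm j, c⁻¹, ?_⟩
  rw [LinearEquiv.coe_inv, LinearEquiv.symm_apply_eq, map_smul, e1, smul_smul,
    inv_mul_cancel₀ (h.coeff_ne e1), one_smul, Equiv.apply_symm_apply]

theorem ON.mono_of_mul (h : ON S e) {g k : V ≃ₗ[F] V} (hg : Mono e g) (hk : Mono e (g * k)) :
    Mono e k := by simpa using (h.mono_inv hg).mul hk

theorem ON.mono_of_mul' (h : ON S e) {g k : V ≃ₗ[F] V} (hg : Mono e k) (hk : Mono e (g * k)) :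
    Mono e g := by simpa using hk.mul (h.mono_inv hg)

theorem ON.exists_ne (h : ON S e) {v : V} (hv : v ≠ 0) : ∃ a, S.B v (e a) ≠ 0 := by
  by_contra hc
  push Not at hc
  exact hv (h.ext fun i => by simp [hc])

theorem ON.two_of_not_isE (h : ON S e) {v : V} (h0 : v ≠ 0) (hv : ¬ IsE (F := F) e v) :
    ∃ a b, a ≠ b ∧ S.B v (e a) ≠ 0 ∧ S.B v (e b) ≠ 0 := by
  by_contra hc
  push Not at hc
  obtain ⟨a, ha⟩ := h.exists_ne h0
  refine hv ⟨a, S.B v (e a), h.ext fun i => ?_⟩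
  by_cases hi : a = i
  · simp [hi, h.self]
  · simp [h.ne hi, hc a i hi ha]

theorem ON.mono_refl (h : ON S e) {g : V ≃ₗ[F] V} {m : ι} {c : F}
    (hg : ∀ x, g x = x + (c * S.B x (e m)) • e m) : Mono e g := fun i => by
  by_cases hi : i = m
  · exact ⟨i, 1 + c, by rw [hg, hi, h.self]; module⟩
  · exact ⟨i, 1, by simp [hg, h.ne hi]⟩

theorem ON.exists_swap (h : ON S e) (a b : ι) : ∃ g ∈ S.isom, Mono e g ∧
    (∀ i, g (e i) = e (Equiv.swap a b i)) ∧ ∀ x i, S.B (g x) (e i) = S.B x (e (Equiv.swap a b i)) := by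
  by_cases hab : a = b
  · exact ⟨1, S.isom.one_mem, fun i => ⟨i, 1, by simp⟩, by simp [hab], by simp [hab]⟩
  have h1 : S.TauOK (e a - e b) (-1) := by
    rw [PQ.unit_tauOK_iff]; simp [h.B_e, hab, Ne.symm hab]
  have h2 : ∀ i, S.tau _ _ h1 (e i) = e (Equiv.swap a b i) := fun i => by
    by_cases ha : i = a
    · simp [ha, h.B_e, hab]
    by_cases hb : i = b
    · simp [hb, h.B_e, Ne.symm hab]
    · simp [h.B_e, ha, hb, Equiv.swap_apply_of_ne_of_ne ha hb]
  refine ⟨_, S.tau_mem _ _ h1, fun i => ⟨_, 1, by rw [h2, one_smul]⟩, h2, fun x i => ?_⟩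
  rw [← PQ.B_isom (S.tau_mem _ _ h1) x, h2, Equiv.swap_apply_self]

theorem ON.exists_dg (h : ON S e) (t : ι → F) (ht : ∀ i, t i * σ (t i) = 1) :
    ∃ g ∈ S.isom, Mono e g ∧ ∀ x i, S.B (g x) (e i) = t i * S.B x (e i) := by
  obtain ⟨g, hg, e1⟩ := exists_prod S.isom (fun i => ((t i - 1) • S.lin (e i)).smulRight (e i))
    Finset.univ (fun i => ⟨_, S.tau_mem _ _ (tauOK_det (S := S) (z := e i)
      (by rw [h.self]; exact one_ne_zero) (ht i)), fun x => by simp [h.self]⟩)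
    (fun i j hij x => by simp [h.ne hij.symm])
  have e2 : ∀ x i, S.B (g x) (e i) = t i * S.B x (e i) := fun x i => by
    rw [e1, S.B_add_left, S.B_sum_left, Finset.sum_eq_single i (fun j _ hj => by simp [h.ne hj])
      (by simp)]
    simp [h.self]; ring
  refine ⟨g, hg, fun i => ⟨i, t i, h.ext fun j => ?_⟩, e2⟩
  by_cases hij : i = j
  · simp [e2, hij]
  · simp [e2, h.ne hij]

/-- coordinate subspaces -/
def cs (S : PQ (FP.unit σ hσ) V) (e : ι → V) (s : Finset ι) : Submodule F V where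
  carrier := {x | ∀ i, i ∉ s → S.B x (e i) = 0}
  zero_mem' := by simp
  add_mem' := fun ha hb i hi => by simp [ha i hi, hb i hi]
  smul_mem' := fun c x hx i hi => by simp [hx i hi]

theorem mem_cs {s : Finset ι} {x : V} : x ∈ cs S e s ↔ ∀ i, i ∉ s → S.B x (e i) = 0 := Iff.rfl

theorem ON.e_mem (h : ON S e) {s : Finset ι} {a : ι} (ha : a ∈ s) : e a ∈ cs S e s :=
  fun i hi => h.ne (by rintro rfl; exact hi ha)

theorem ON.cs_nd (h : ON S e) (s : Finset ι) : S.NondegOn (cs S e s) := fun x hx hx' =>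
  h.ext fun i => by
    by_cases hi : i ∈ s
    · simpa using hx' _ (h.e_mem hi)
    · simpa using hx i hi

theorem ON.cs_finrank (h : ON S e) (s : Finset ι) : finrank F (cs S e s) = s.card := by
  have h1 : LinearIndependent F (fun i : s => e i) := by
    rw [Fintype.linearIndependent_iff]
    intro c hc i
    have := congrArg (fun x => S.B x (e i)) hc
    simp only [S.B_sum_left, S.B_smul_left, S.B_zero_left] at this
    rw [Finset.sum_eq_single i (fun j _ hj => by simp [h.ne (Subtype.val_injective.ne hj)])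
      (by simp)] at this
    simpa [h.self] using this
  rw [← Fintype.card_coe, ← finrank_span_eq_card h1]
  suffices cs S e s = Submodule.span F (Set.range fun i : s => e i) by rw [this]
  apply le_antisymm
  · intro x hx
    rw [← h.sum x]
    refine Submodule.sum_mem _ fun i _ => ?_
    by_cases hi : i ∈ s
    · exact Submodule.smul_mem _ _ (Submodule.subset_span ⟨⟨i, hi⟩, rfl⟩)
    · simp [hx i hi]
  · rw [Submodule.span_le]; rintro _ ⟨i, rfl⟩; exact h.e_mem i.2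

theorem ON.B_cs (h : ON S e) {s : Finset ι} {x : V} (hx : x ∈ cs S e s) (y : V) :
    S.B x y = ∑ i ∈ s, S.B x (e i) * σ (S.B y (e i)) := by
  rw [h.B_sum]
  exact (Finset.sum_subset (Finset.subset_univ s) fun i _ hi => by simp [hx i hi]).symm

theorem tri_le {r : ℕ} (z p : Fin r → V) (h1 : ∀ i, S.B (z i) (p i) ≠ 0)
    (h2 : ∀ i j, i < j → S.B (z i) (p j) = 0) {W : Submodule F V} [FiniteDimensional F W]
    (hz : ∀ i, z i ∈ W) : r ≤ finrank F W := by
  classical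
  have h3 : LinearIndependent F z := by
    rw [Fintype.linearIndependent_iff]
    intro c hc
    by_contra h
    push Not at h
    obtain ⟨i, hi, hmax⟩ := (Finset.univ.filter fun i => c i ≠ 0).exists_max_image id
      (by obtain ⟨i, hi⟩ := h; exact ⟨i, by simpa using hi⟩)
    have := congrArg (fun x => S.B x (p i)) hc
    simp only [S.B_sum_left, S.B_smul_left, S.B_zero_left] at this
    rw [Finset.sum_eq_single i (fun j _ hj => ?_) (by simp)] at this
    · exact mul_ne_zero (Finset.mem_filter.1 hi).2 (h1 i) this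
    · rcases lt_or_gt_of_ne hj with hj | hj
      · rw [h2 j i hj, mul_zero]
      · have : c j = 0 := by
          by_contra h0
          exact absurd (hmax j (by simpa using h0)) (not_le.2 hj)
        rw [this, zero_mul]
  simpa using (LinearIndependent.of_comp W.subtype (v := fun i => (⟨z i, hz i⟩ : W)) h3).fintype_card_le_finrank

variable [FiniteDimensional F V] [Finite F]

/-- `M` contains the monomial subgroup of the special unitary group -/
structure MS (S : PQ (FP.unit σ hσ) V) (M : Subgroup (V ≃ₗ[F] V)) (e : ι → V) : Prop where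
  on : ON S e
  le : M ≤ sisom S
  mem : ∀ g ∈ sisom S, Mono e g → g ∈ M

theorem MS.fix (h : MS S M e) {g : V ≃ₗ[F] V} (hg : g ∈ S.isom) (hm : Mono e g) (m : ι) :
    ∃ k ∈ M, k ∈ S.isom ∧ Mono e k ∧ ∀ x, S.B x (e m) = 0 → k x = g x := by
  obtain ⟨k, hk, c, e1⟩ := exists_fix_det h.on.nd hg (z := e m) (by rw [h.on.self]; exact one_ne_zero)
  have h1 : Mono e k := fun i => by
    obtain ⟨j, c', e2⟩ := hm i
    by_cases hi : i = m
    · exact ⟨j, (1 + c) * c', by
        rw [e1, mul_smul (1 + c), ← e2, ← map_smul, hi, h.on.self]; congr 1; module⟩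
    · exact ⟨j, c', by simp [e1, h.on.ne hi, e2]⟩
  exact ⟨k, h.mem k hk h1, hk.1, h1, fun x hx => by simp [e1, hx]⟩

theorem MS.ctr_map (h : MS S M e) {g : V ≃ₗ[F] V} (hg : g ∈ S.isom) (hm : Mono e g) {m : ι} {z : V}
    (hz : Ctr S M z) (h0 : S.B z (e m) = 0) : Ctr S M (g z) := by
  obtain ⟨k, hk, hk', -, e1⟩ := h.fix hg hm m
  rw [← e1 z h0]; exact hz.map hk hk'

theorem MS.ctr_refl (h : MS S M e) {m : ι} {z : V} (hz : Ctr S M z) (h0 : S.B z (e m) = 0) (k : ι)
    {a : F} (ha : a * σ a = 1) : Ctr S M (z + ((a - 1) * S.B z (e k)) • e k) := by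
  obtain ⟨g, hg, -, e1⟩ := exists_refl S (z := e k) (by rw [h.on.self]; exact one_ne_zero) ha
  have := h.ctr_map hg (h.on.mono_refl e1) hz h0
  rwa [e1, h.on.self, div_one] at this

theorem MS.top_of_ef (hne : ∃ a, σ a ≠ a) (h : MS S M e) (hn : 4 ≤ Fintype.card ι) {s : Finset ι}
    (hs : 3 ≤ s.card) (hE : EF S M (cs S e s)) : sisom S ≤ M := by
  obtain ⟨Y, y1, y2, y3⟩ := core hne (h.on.cs_nd s) (by rwa [h.on.cs_finrank]) hE
  have hV : finrank F V = Fintype.card ι := by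
    rw [← Finset.card_univ, ← h.on.cs_finrank, show cs S e Finset.univ = ⊤ from
      eq_top_iff.2 fun x _ i hi => absurd (Finset.mem_univ i) hi, finrank_top]
  refine Full.sisom_le hne h.on.nd (by omega) (y2.mono fun x _ => ?_)
  rw [← h.on.sum x]
  refine Y.sum_mem fun b _ => Y.smul_mem _ ?_
  by_cases hb : b ∈ s
  · exact y1 (h.on.e_mem hb)
  obtain ⟨a, ha, c, hc, hac⟩ := Finset.one_lt_card.1 (show 1 < s.card by omega)
  obtain ⟨l, hl⟩ := exists_norm hne hσ (c := -1) (by simp)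
  have hl0 : l ≠ 0 := by rintro rfl; simp at hl
  obtain ⟨m, hm⟩ := exists_notMem_list [a, c] (by simp; omega)
  simp only [List.mem_cons, List.not_mem_nil, or_false, not_or] at hm
  obtain ⟨g, hg, hg', e1, -⟩ := h.on.exists_swap a b
  have hcb : c ≠ b := by rintro rfl; exact hb hc
  have := h.ctr_map hg hg' (m := m) (hE.full (e a + l • e c)
    (add_mem (h.on.e_mem ha) (Submodule.smul_mem _ _ (h.on.e_mem hc)))
    (by simp [h.on.B_e, hac, hac.symm]; linear_combination hl))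
    (by simp [h.on.B_e, Ne.symm hm.1, Ne.symm hm.2])
  rw [map_add, map_smul, e1, e1, Equiv.swap_apply_left, Equiv.swap_apply_of_ne_of_ne hac.symm hcb] at this
  rcases y3 _ this with h1 | h1
  · simpa using Y.sub_mem h1 (Y.smul_mem l (y1 (h.on.e_mem hc)))
  · have := h1 _ (y1 (h.on.e_mem hc))
    simp [h.on.B_e, hcb.symm, hl0] at this

theorem MS.full_of_ctr (hne : ∃ a, σ a ≠ a) (h : MS S M e) {k l j m : ι} (hkl : k ≠ l) (hkj : k ≠ j)
    (hlj : l ≠ j) (hm : m ∉ ({k, l, j} : Finset ι)) {z : V} (hz : Ctr S M z)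
    (h1 : z ∈ cs S e {k, l, j}) (hk : S.B z (e k) ≠ 0) (hl : S.B z (e l) ≠ 0) :
    Full S M (cs S e {k, l, j}) := by
  obtain ⟨δ, d1, d2⟩ := exists_norm_one_ne hne hσ
  have d3 : δ - 1 ≠ 0 := fun h => d2 (by rw [sub_eq_zero.1 h, map_one])
  have h0 := h1 m hm
  have mem : ∀ i ∈ ({k, l, j} : Finset ι), z + ((δ - 1) * S.B z (e i)) • e i ∈ cs S e {k, l, j} :=
    fun i hi => add_mem h1 (Submodule.smul_mem _ _ (h.on.e_mem hi))
  have key : ∀ x ∈ cs S e {k, l, j}, Ctr S M x → (∀ α β : F, S.B x (e l) = (α + β) * S.B z (e l) →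
      S.B x (e j) = (α + β) * S.B z (e j) → False) → Full S M (cs S e {k, l, j}) := by
    intro x hx cx hx'
    refine full_three hne (h.on.cs_nd _) (by rw [h.on.cs_finrank, Finset.card_eq_three]; exact
      ⟨k, l, j, hkl, hkj, hlj, rfl⟩) (mem k (by simp)) h1 hx (h.ctr_refl hz h0 k d1) hz cx ?_ ?_
    · rw [S.B_add_left, hz.1.B_self, S.B_smul_left, ← Bs S z (e k)]
      simp [d3, hk]
    · intro hm
      obtain ⟨α, β, rfl⟩ := Submodule.mem_span_pair.1 hm
      exact hx' α β (by simp [h.on.ne hkl]; ring) (by simp [h.on.ne hkj]; ring)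
  by_cases hj : S.B z (e j) = 0
  · obtain ⟨g, hg, hg', -, e1⟩ := h.on.exists_swap l j
    refine key _ (fun i hi => ?_) (h.ctr_map hg hg' hz h0) fun α β _ h2 => ?_
    · simp only [Finset.mem_insert, Finset.mem_singleton, not_or] at hi
      rw [e1, Equiv.swap_apply_of_ne_of_ne hi.2.1 hi.2.2]
      exact h1 i (by simp [hi])
    · rw [e1, hj, Equiv.swap_apply_right, mul_zero] at h2; exact hl h2
  · refine key _ (mem l (by simp)) (h.ctr_refl hz h0 l d1) fun α β h2 h3 => ?_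
    simp only [PQ.B_add_left, PQ.B_smul_left, h.on.self, h.on.ne hlj] at h2 h3
    have h4 : α + β = 1 := mul_right_cancel₀ hj (by linear_combination -h3)
    rw [h4] at h2
    exact mul_ne_zero d3 hl (by linear_combination h2)

/-- `M` contains the full group of quasi-reflections along the unit vector `v` -/
def RF (S : PQ (FP.unit σ hσ) V) (M : Subgroup (V ≃ₗ[F] V)) (v : V) : Prop :=
  S.B v v = 1 ∧ ∀ a, a * σ a = 1 → HT S M v (a - 1)

theorem RF.exists {v : V} (h : RF S M v) {a : F} (ha : a * σ a = 1) :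
    ∃ g ∈ M, g ∈ S.isom ∧ ∀ x, g x = x + ((a - 1) * S.B x v) • v := by
  have h1 := tauOK_det (S := S) (z := v) (by rw [h.1]; exact one_ne_zero) ha
  rw [h.1, div_one] at h1
  exact ⟨_, (h.2 a ha).tau_mem h1, S.tau_mem _ _ _, S.tau_apply _ _ _⟩

theorem RF.map {v : V} (h : RF S M v) {g : V ≃ₗ[F] V} (hg : g ∈ M) (hg' : g ∈ S.isom) :
    RF S M (g v) := ⟨by rw [PQ.B_isom hg', h.1], fun a ha => (h.2 a ha).conj hg hg'⟩

theorem RF.refl {u v : V} (hu : RF S M u) (h : RF S M v) {a : F} (ha : a * σ a = 1) :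
    RF S M (v + ((a - 1) * S.B v u) • u) := by
  obtain ⟨g, hg, hg', e1⟩ := hu.exists ha
  rw [← e1]; exact h.map hg hg'

theorem RF.ctr (hne : ∃ a, σ a ≠ a) {v z : V} (hv : RF S M v) (hw : RF S M (v + z))
    (h : S.B z v = 0) : Ctr S M z := by
  have h' := S.B_comm_zero h
  have hz : S.B z z = 0 := by simpa [hv.1, h, h'] using hw.1
  obtain ⟨δ, d1, d2⟩ := exists_norm_one_ne hne hσ
  let A : AddSubgroup F :=
    { carrier := {c | Ei S M z (c • v)}
      zero_mem' := by simpa using ei_zero hz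
      add_mem' := fun {a b} ha hb => (Ei.add ha hb).congr (add_smul _ _ _)
      neg_mem' := fun {a} ha => (Ei.neg ha).congr (neg_smul _ _) }
  have key := eq_top_of_norm_one hσ hne A (fun b hb c hc => by
    obtain ⟨g, hg, hg', e1⟩ := hv.exists hb
    have := Ei.conj hc hg hg'
    rw [e1, e1, h, mul_zero, zero_smul, add_zero] at this
    exact this.congr (by simp only [PQ.B_smul_left, hv.1]; module)) (c := δ - 1) (by
    obtain ⟨g, hg, -, e1⟩ := hv.exists d1
    obtain ⟨k, hk, -, e2⟩ := hw.exists (a := σ δ) (by rw [hσ, mul_comm, d1])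
    refine ⟨1 - σ δ, he_of_eq (eichOK_iff.2 ⟨hz, by simp [h'], ?_⟩) (M.mul_mem hg hk) fun x => ?_⟩
    · simp only [map_sub, map_one, hσ, PQ.B_smul_left, Bsr, hv.1]; linear_combination -d1
    · rw [LinearEquiv.mul_apply, e1, e2]
      simp only [PQ.B_add_left, PQ.B_add_right, PQ.B_smul_left, Bsr, hv.1, h, map_sub, map_one]
      match_scalars
      · ring
      · linear_combination (S.B x v + S.B x z) * d1
      · ring) (fun h => d2 (by rw [sub_eq_zero.1 h, map_one]))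
  exact ctr_of_ei hne key (w' := v) (Ei.congr (key 1) (one_smul F v).symm) (by rw [hv.1]; exact one_ne_zero)

/-- isometries fixing `e₀` which agree with an element of `M` on the orthogonal complement -/
def stabE (S : PQ (FP.unit σ hσ) V) (M : Subgroup (V ≃ₗ[F] V)) (e₀ : V) : Subgroup (V ≃ₗ[F] V) where
  carrier := {k | k ∈ S.isom ∧ k e₀ = e₀ ∧ ∃ g ∈ M, ∀ x, S.B x e₀ = 0 → g x = k x}
  one_mem' := ⟨S.isom.one_mem, rfl, 1, M.one_mem, fun _ _ => rfl⟩
  mul_mem' := by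
    rintro a b ⟨a1, a2, g, hg, a3⟩ ⟨b1, b2, k, hk, b3⟩
    refine ⟨S.isom.mul_mem a1 b1, by rw [LinearEquiv.mul_apply, b2, a2], g * k, M.mul_mem hg hk,
      fun x hx => ?_⟩
    rw [LinearEquiv.mul_apply, b3 x hx, a3 _ (by rw [← b2, PQ.B_isom b1, hx]), LinearEquiv.mul_apply]
  inv_mem' := by
    rintro a ⟨a1, a2, g, hg, a3⟩
    refine ⟨S.isom.inv_mem a1, a.symm_apply_eq.2 a2.symm, g⁻¹, M.inv_mem hg, fun x hx => ?_⟩
    refine g.symm_apply_eq.2 ?_
    rw [a3 _ (by rw [← PQ.B_isom a1, a2]; simpa using hx)]; simp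

theorem MS.ctr_of_stab (h : MS S M e) {o : ι} {z : V} (hz : Ctr S (stabE S M (e o)) z) : Ctr S M z := by
  refine ⟨hz.1, fun c hc => ?_⟩
  obtain ⟨k1, k2, g, hg, k3⟩ := hz.2 c hc
  have h1 := (sisom S).mul_mem ((sisom S).inv_mem (h.le hg)) (tau_mem_sisom S hz.1 c hc)
  set k := g⁻¹ * S.tau z c hc
  have h2 : ∀ i, i ≠ o → k (e i) = e i := fun i hi =>
    g.symm_apply_eq.2 (k3 _ (h.on.ne hi)).symm
  have := M.mul_mem hg (h.mem k h1 fun i => by
    by_cases hi : i = o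
    · refine ⟨i, S.B (k (e i)) (e i), h.on.ext fun j => ?_⟩
      by_cases hj : j = o
      · simp [hi, hj, h.on.self]
      · rw [← h2 j hj, PQ.B_isom h1.1, h2 j hj]; simp [hi, h.on.ne (Ne.symm hj)]
    · exact ⟨i, 1, by rw [h2 i hi, one_smul]⟩)
  simpa [k] using this

theorem MS.mem_stab (h : MS S M e) {o : ι} {g : V ≃ₗ[F] V} (hg : g ∈ S.isom) (hm : Mono e g)
    (h0 : g (e o) = e o) : g ∈ stabE S M (e o) := by
  obtain ⟨k, hk, -, -, e1⟩ := h.fix hg hm o
  exact ⟨hg, h0, k, hk, e1⟩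

theorem MS.rf_e (h : MS S M e) {o i : ι} (hi : i ≠ o) : RF S (stabE S M (e o)) (e i) := by
  refine ⟨h.on.self i, fun a ha => ?_⟩
  obtain ⟨g, hg, -, e1⟩ := exists_refl S (z := e i) (by rw [h.on.self]; exact one_ne_zero) ha
  rw [h.on.self, div_one] at e1
  exact ⟨g, h.mem_stab hg (h.on.mono_refl e1) (by simp [e1, h.on.ne hi.symm]), e1⟩

theorem MS.top_of_three (hne : ∃ a, σ a ≠ a) (h3 : ∃ a : F, σ a = a ∧ a ≠ 0 ∧ a ≠ 1) (h : MS S M e)
    (hn : 4 ≤ Fintype.card ι) {o a b c : ι} (hab : a ≠ b) (hac : a ≠ c) (hbc : b ≠ c) {v : V}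
    (hv : RF S (stabE S M (e o)) v) (h0 : S.B v (e o) = 0) (ha : S.B v (e a) ≠ 0)
    (hb : S.B v (e b) ≠ 0) (hc : S.B v (e c) ≠ 0) : sisom S ≤ M := by
  have ao : a ≠ o := by rintro rfl; exact ha h0
  have bo : b ≠ o := by rintro rfl; exact hb h0
  have co : c ≠ o := by rintro rfl; exact hc h0
  have n1 : ∀ i, σ (S.B v (e i) * σ (S.B v (e i))) = S.B v (e i) * σ (S.B v (e i)) := fun i => by
    rw [map_mul, hσ, mul_comm]
  obtain ⟨x, y, t, hx, hy, ht, ht1, e1⟩ := exists_tangent hσ hne (n1 a) (n1 b) (n1 c)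
    (mul_ne_zero ha (σ_ne ha)) (mul_ne_zero hb (σ_ne hb)) (mul_ne_zero hc (σ_ne hc))
  have h1 := (h.rf_e co).refl ((h.rf_e bo).refl ((h.rf_e ao).refl hv hx) hy) ht
  simp only [PQ.B_add_left, PQ.B_smul_left, h.on.ne hab, h.on.ne hac, h.on.ne hbc, mul_zero,
    add_zero] at h1
  rw [add_assoc, add_assoc] at h1
  have h2 := h.ctr_of_stab (hv.ctr hne h1 (by
    simp only [PQ.B_add_left, PQ.B_smul_left, ← Bs S v (e _)]; linear_combination e1))
  set z := ((x - 1) * S.B v (e a)) • e a + (((y - 1) * S.B v (e b)) • e b + ((t - 1) * S.B v (e c)) • e c)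
  have hz : ∀ s : Finset ι, a ∈ s → b ∈ s → c ∈ s → z ∈ cs S e s := fun s a1 a2 a3 =>
    add_mem (Submodule.smul_mem _ _ (h.on.e_mem a1)) (add_mem (Submodule.smul_mem _ _ (h.on.e_mem a2))
      (Submodule.smul_mem _ _ (h.on.e_mem a3)))
  have z1 : S.B z (e c) ≠ 0 := by
    simp [z, h.on.ne hac, h.on.ne hbc, h.on.self, hc, sub_eq_zero, ht1]
  have fin : ∀ k j, c ≠ k → c ≠ j → k ≠ j → k ≠ o → j ≠ o → z ∈ cs S e {c, k, j} → S.B z (e k) ≠ 0 →
      sisom S ≤ M := fun k j a1 a2 a3 a4 a5 a6 a7 =>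
    h.top_of_ef hne hn (s := {c, k, j}) (by rw [Finset.card_eq_three.2 ⟨c, k, j, a1, a2, a3, rfl⟩])
      ((h.full_of_ctr hne a1 a2 a3 (m := o) (by simp [co.symm, a4.symm, a5.symm]) h2 a6 z1 a7).ef hne h3
        (h.on.cs_nd _))
  by_cases z2 : S.B z (e a) = 0
  · refine fin b a hbc.symm hac.symm hab.symm bo ao (hz _ (by simp) (by simp) (by simp)) fun z3 => ?_
    have := h2.1.B_self
    rw [h.on.B_cs (hz {a, b, c} (by simp) (by simp) (by simp)), Finset.sum_insert (by simp [hab, hac]),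
      Finset.sum_pair hbc, z2, z3] at this
    simp [z1] at this
  · exact fin a b hac.symm hbc.symm hab ao bo (hz _ (by simp) (by simp) (by simp)) z2

theorem MS.top_of_rf (hne : ∃ a, σ a ≠ a) (h3 : ∃ a : F, σ a = a ∧ a ≠ 0 ∧ a ≠ 1) (h : MS S M e)
    (hn : 4 ≤ Fintype.card ι) {o : ι} {v : V} (hv : RF S (stabE S M (e o)) v) (h0 : S.B v (e o) = 0)
    (hE : ¬ IsE (F := F) e v) : sisom S ≤ M := by
  obtain ⟨a, b, hab, ha, hb⟩ := h.on.two_of_not_isE (by rintro rfl; simpa using hv.1) hE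
  by_cases hc : ∃ c, c ∉ ({a, b} : Finset ι) ∧ S.B v (e c) ≠ 0
  · obtain ⟨c, h1, h2⟩ := hc
    simp only [Finset.mem_insert, Finset.mem_singleton, not_or] at h1
    exact h.top_of_three hne h3 hn hab (Ne.symm h1.1) (Ne.symm h1.2) hv h0 ha hb h2
  push Not at hc
  have ao : a ≠ o := by rintro rfl; exact ha h0
  have bo : b ≠ o := by rintro rfl; exact hb h0
  obtain ⟨c, hc'⟩ := exists_notMem_list [o, a, b] (by simp; omega)
  simp only [List.mem_cons, List.not_mem_nil, or_false, not_or] at hc'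
  obtain ⟨g, hg, hg', e1, e2⟩ := h.on.exists_swap b c
  have hv' := hv.map (h.mem_stab hg hg' (by
    rw [e1, Equiv.swap_apply_of_ne_of_ne bo.symm (Ne.symm hc'.1)])) hg
  have c0 := hc c (by simp [hc'])
  have a1 : S.B (g v) (e a) = S.B v (e a) := by
    rw [e2, Equiv.swap_apply_of_ne_of_ne hab (Ne.symm hc'.2.1)]
  have a2 : S.B (g v) (e b) = 0 := by rw [e2, Equiv.swap_apply_left, c0]
  have a3 : S.B (g v) (e c) = S.B v (e b) := by rw [e2, Equiv.swap_apply_right]
  have a4 : S.B (g v) (e o) = 0 := by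
    rw [e2, Equiv.swap_apply_of_ne_of_ne bo.symm (Ne.symm hc'.1), h0]
  have a5 : S.B (g v) v = S.B v (e a) * σ (S.B v (e a)) := by
    rw [← Bs, h.on.B_cs (s := {a, b}) hc, Finset.sum_pair hab, a1, a2]; simp [hσ, mul_comm]
  obtain ⟨t, t1, t2, t3⟩ : ∃ t : F, t * σ t = 1 ∧ t ≠ 1 ∧ 1 + (t - 1) * S.B (g v) v ≠ 0 := by
    obtain ⟨δ, d1, d2⟩ := exists_norm_one_ne hne hσ
    by_cases h1 : 1 + (δ - 1) * S.B (g v) v = 0
    · refine ⟨σ δ, by rw [hσ, mul_comm, d1], fun h => d2 (by rw [← hσ δ, h]; simp), fun h2 => d2 ?_⟩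
      exact mul_right_cancel₀ (a5 ▸ mul_ne_zero ha (σ_ne ha) : S.B (g v) v ≠ 0)
        (by linear_combination h2 - h1)
    · exact ⟨δ, d1, by rintro rfl; simp at d2, h1⟩
  refine h.top_of_three hne h3 hn hab (Ne.symm hc'.2.1) (Ne.symm hc'.2.2) (hv.refl hv' t1)
    (by simp [a4, h0]) (fun h => mul_ne_zero t3 ha ?_) ?_ (by simpa [a3, c0] using hb)
  · simp only [PQ.B_add_left, PQ.B_smul_left, a1] at h; linear_combination h
  · simp [a2, a5, ha, hb, sub_eq_zero, t2]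

/-- every element of `M` mapping a basis point to a basis point is monomial -/
def Rigid (M : Subgroup (V ≃ₗ[F] V)) (e : ι → V) : Prop :=
  ∀ g ∈ M, ∀ i, IsE (F := F) e (g (e i)) → Mono e g

theorem MS.rigid_or (hne : ∃ a, σ a ≠ a) (h3 : ∃ a : F, σ a = a ∧ a ≠ 0 ∧ a ≠ 1) (h : MS S M e)
    (hn : 4 ≤ Fintype.card ι) : Rigid M e ∨ sisom S ≤ M := by
  by_cases hR : Rigid M e
  · exact Or.inl hR
  right
  unfold Rigid at hR
  push Not at hR
  obtain ⟨g, hg, o, ⟨j, c, e1⟩, hM⟩ := hR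
  obtain ⟨s, hs, hs', e2, -⟩ := h.on.exists_swap o j
  obtain ⟨m, hm⟩ := exists_notMem_list [j] (by simp; omega)
  obtain ⟨k, hk, hk', k1, k2⟩ := h.fix hs hs' m
  have e3 : (k * g) (e o) = c • e o := by
    rw [LinearEquiv.mul_apply, e1, map_smul, k2 _ (h.on.ne (by rintro rfl; simp at hm)), e2,
      Equiv.swap_apply_right]
  have hM' : ¬ Mono e (k * g) := fun h' => hM (h.on.mono_of_mul k1 h')
  have hG := M.mul_mem hk hg
  generalize k * g = G at e3 hM' hG
  have hGi := (h.le hG).1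
  have hc := h.on.coeff_ne e3
  obtain ⟨l, hl⟩ := not_forall.1 hM'
  have hlo : l ≠ o := by rintro rfl; exact hl ⟨_, _, e3⟩
  have p : ∀ x, S.B x (e o) = 0 ↔ S.B (G x) (e o) = 0 := fun x => by
    rw [← PQ.B_isom hGi x, e3]; simp [hc]
  refine h.top_of_rf hne h3 hn (o := o) (v := G (e l)) ⟨by rw [PQ.B_isom hGi, h.on.self], fun a ha => ?_⟩
    ((p _).1 (h.on.ne hlo)) hl
  obtain ⟨r, ⟨r1, r2, r', hr', r3⟩, e4⟩ := (h.rf_e hlo).2 a ha
  refine ⟨G * r * G⁻¹, ⟨S.isom.mul_mem (S.isom.mul_mem hGi r1) (S.isom.inv_mem hGi), ?_,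
    G * r' * G⁻¹, M.mul_mem (M.mul_mem hG hr') (M.inv_mem hG), fun x hx => ?_⟩, fun x => ?_⟩
  · have : G⁻¹ (e o) = c⁻¹ • e o := G.symm_apply_eq.2 (by
      rw [map_smul, e3, smul_smul, inv_mul_cancel₀ hc, one_smul])
    rw [LinearEquiv.mul_apply, LinearEquiv.mul_apply, this, map_smul, r2, ← this]; simp
  · simp only [LinearEquiv.mul_apply]
    rw [r3 _ ((p _).2 (by simpa using hx))]
  · have : S.B x (G (e l)) = S.B (G.symm x) (e l) := by rw [← PQ.B_isom hGi (G.symm x)]; simp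
    simp [LinearEquiv.mul_apply, e4, this]

end Cfsg.Agent.H6.SU
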