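import Cfsg.Agent.H6.SUC1
import Cfsg.Agent.H8.Perp

/-!
Rational structures on unitary spaces.
-/

set_option autoImplicit false
set_option linter.unusedSectionVars false
set_option linter.unusedVariables false

namespace Cfsg.Agent.H6.SU

open Module Cfsg.Agent.Form Cfsg.Agent.H7

section SP

variable {E : Type*} [Field E] {P : FP E} {W : Type*} [AddCommGroup W] [Module E W]
  [FiniteDimensional E W] {T : PQ P W}

/-- Every subspace of dimension at least `m` contains a non-zero singular vector. -/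
def SP (T : PQ P W) (m : ℕ) : Prop :=
  ∀ X : Submodule E W, m ≤ finrank E X → ∃ x ∈ X, x ≠ 0 ∧ T.Sing x

theorem sp_orth [Finite E] (T : PQ (FP.orth E) W) : SP T 3 := by
  intro X hX
  let Q : QuadraticForm E W := QuadraticMap.ofPolar T.Q
    (fun a x => by rw [T.orth_Q_smul, sq, smul_eq_mul])
    (fun x x' y => by simp only [T.orth_polar, PQ.B_add_left])
    (fun a x y => by simp only [T.orth_polar, PQ.B_smul_left, smul_eq_mul])
  obtain ⟨x, h1, h2, h3⟩ := H8.exists_sing_three Q hX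
  exact ⟨x, h1, h2, (T.orth_sing x).2 h3⟩

theorem sp_of_trP (hP : TrP P) (T : PQ P W) : SP T 2 := fun X hX => hP.exists_sing_of_two_le T X hX

theorem SP.exists_notMem {m : ℕ} (h : SP T m) (hT : T.Nondeg) (X Y : Submodule E W)
    (hd : finrank E X + finrank E Y + m ≤ finrank E W) :
    ∃ x ∈ T.perp Y, x ∉ X ∧ T.Sing x := by
  obtain ⟨C, h1, h2, h3⟩ := H8.exists_sub_disjoint (T.perp Y) X
  have := hT.finrank_perp Y
  obtain ⟨x, hx, h0, hs⟩ := h C (by omega)
  exact ⟨x, h1 hx, fun hm => h0 (by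
    have : x ∈ C ⊓ X := ⟨hx, hm⟩
    rwa [h2] at this), hs⟩

omit [FiniteDimensional E W] in
theorem le_of_sing_hyp {X Y : Submodule E W} {e f : W} (he : e ∈ X) (hf : f ∈ X) (hes : T.Sing e)
    (hfs : T.Sing f) (hef : T.B f e ≠ 0) (h : ∀ y ∈ X, T.Sing y → y ∈ Y) : X ≤ Y := by
  have key : ∀ y ∈ X, T.B y e ≠ 0 → y ∈ Y := by
    intro y hy h1
    obtain ⟨a, ha⟩ := T.exists_sing_add hes h1 0
    simpa using Y.sub_mem (h _ (X.add_mem hy (X.smul_mem a he)) (sing_of_zero_sub ha))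
      (Y.smul_mem a (h e he hes))
  intro y hy
  by_cases h1 : T.B y e = 0
  · simpa using Y.sub_mem (key _ (X.add_mem hy hf) (by simpa [h1] using hef)) (h f hf hfs)
  · exact key y hy h1

theorem SP.le_of_sing {m : ℕ} (h : SP T m) {X Y : Submodule E W} (hX : T.NondegOn X)
    (hm : m ≤ finrank E X) (hY : ∀ y ∈ X, T.Sing y → y ∈ Y) : X ≤ Y := by
  obtain ⟨e, he, h0, hs⟩ := h X hm
  obtain ⟨w, hw, h1⟩ := hX.restrict.exists_hyperbolic (u := ⟨e, he⟩) hs
    (fun h => h0 (congrArg Subtype.val h))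
  exact le_of_sing_hyp w.2 he hw hs (by
    change T.B e w = 1 at h1
    rw [h1]; exact one_ne_zero) hY

theorem SP.perp_le {m : ℕ} (h : SP T m) (hT : T.Nondeg) (hm : m + 2 ≤ finrank E W) {u : W}
    (hu : T.Sing u) (h0 : u ≠ 0) {Y : Submodule E W}
    (hY : ∀ y, T.Sing y → T.B y u = 0 → y ∈ Y) {y : W} (hy : T.B y u = 0) : y ∈ Y := by
  obtain ⟨w, hw, huw⟩ := hT.exists_hyperbolic hu h0
  have h1 := T.nondegOn_span_pair hu hw (by rw [huw]; exact one_ne_zero)
  have h2 := T.finrank_span_pair_of_hyperbolic hu (w := w) (by rw [huw]; exact one_ne_zero)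
  have h3 := hT.finrank_perp (Submodule.span E {u, w})
  have h4 := h.le_of_sing (h1.perp hT) (by omega) (Y := Y) fun z hz hs =>
    hY z hs (T.mem_perp_span.1 hz u (by simp))
  have := Y.add_mem (h4 (show y - T.B y w • u ∈ _ from T.mem_perp_span.2 (by
    rintro x (rfl | rfl) <;> simp [hy, hu.B_self, huw]))) (Y.smul_mem (T.B y w) (hY u hu hu.B_self))
  rwa [sub_add_cancel] at this

theorem finrank_span_pair_le (x y : W) : finrank E (Submodule.span E {x, y}) ≤ 2 := by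
  have h1 := finrank_sup_span_le (E ∙ x) y
  have h2 := finrank_span_singleton_le (F := E) x
  rw [Submodule.span_insert]; omega

theorem notMem_span_swap {x y : W} (h : x ∉ E ∙ y) (h0 : y ≠ 0) : y ∉ E ∙ x := by
  intro hm
  obtain ⟨c, hc⟩ := Submodule.mem_span_singleton.1 hm
  have hc0 : c ≠ 0 := by rintro rfl; exact h0 (by simpa using hc.symm)
  exact h (Submodule.mem_span_singleton.2 ⟨c⁻¹, by rw [← hc, smul_smul, inv_mul_cancel₀ hc0, one_smul]⟩)

theorem mem_sup_perp (hT : T.Nondeg) {u y : W} (hy : y ∉ E ∙ u) (h0 : u ≠ 0) (z : W) :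
    ∃ a b, T.B a u = 0 ∧ T.B b y = 0 ∧ z = a + b := by
  obtain ⟨p, hp, h1⟩ := hT.exists_perp_eq (notMem_span_swap hy h0) 1
  have h2 := T.mem_perp_span_singleton.1 hp
  have h3 : T.B p u ≠ 0 := fun h => by rw [T.B_comm_zero h] at h1; exact zero_ne_one h1
  exact ⟨z - (T.B z u / T.B p u) • p, (T.B z u / T.B p u) • p, by simp [h3], by simp [h2], by simp⟩

end SP

variable {F : Type*} [Field F] {σ : F →+* F} {hσ : ∀ a, σ (σ a) = a}
  {V : Type*} [AddCommGroup V] [Module F V] {S : PQ (FP.unit σ hσ) V} {M : Subgroup (V ≃ₗ[F] V)}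
  {E : Type*} [Field E] [Algebra E F] {P : FP E} {W : Type*} [AddCommGroup W] [Module E W]
  {T : PQ P W} {φ : W →+ V} {κ : F}

/-- A rational structure over the subfield `E`. -/
structure RS (S : PQ (FP.unit σ hσ) V) (T : PQ P W) (φ : W →+ V) (κ : F) : Prop where
  smul : ∀ (c : E) (w : W), φ (c • w) = algebraMap E F c • φ w
  B_eq : ∀ x y, S.B (φ x) (φ y) = κ * algebraMap E F (T.B x y)
  span : ∀ N : Submodule F V, (∀ w, φ w ∈ N) → ∀ v, v ∈ N
  inj : Function.Injective φ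
  nd : S.Nondeg
  κ_ne : κ ≠ 0
  σ_eq : ∀ c, σ (algebraMap E F c) = algebraMap E F (P.σ c)

/-- `g` normalises the rational structure -/
def NR (φ : W →+ V) (g : V ≃ₗ[F] V) : Prop := ∃ c : F, c ≠ 0 ∧ ∀ y, ∃ w, c • g (φ y) = φ w

namespace RS

theorem eq_zero (h : RS S T φ κ) {v : V} (hv : ∀ y, S.B (φ y) v = 0) : v = 0 :=
  h.nd.right v fun x => S.mem_perp_span_singleton.1
    (h.span (S.perp (F ∙ v)) (fun w => S.mem_perp_span_singleton.2 (hv w)) x)

theorem B0 (h : RS S T φ κ) {x y : W} (hxy : T.B x y = 0) : S.B (φ x) (φ y) = 0 := by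
  rw [h.B_eq, hxy, map_zero, mul_zero]

theorem B0_iff (h : RS S T φ κ) {x y : W} : S.B (φ x) (φ y) = 0 ↔ T.B x y = 0 := by
  rw [h.B_eq]; simp [h.κ_ne]

theorem ndT (h : RS S T φ κ) : T.Nondeg := fun v hv =>
  h.inj (by rw [map_zero]; exact h.eq_zero fun y => h.B0 (T.B_comm_zero (hv y)))

theorem ne_zero (h : RS S T φ κ) {x : W} (hx : x ≠ 0) : φ x ≠ 0 :=
  fun h0 => hx (h.inj (by rw [h0, map_zero]))

theorem sing (h : RS S T φ κ) {x : W} (hx : T.Sing x) : S.B (φ x) (φ x) = 0 := h.B0 hx.B_self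

variable [FiniteDimensional E W]

theorem rat (h : RS S T φ κ) {v : V} (hv : ∀ y, ∃ r, S.B (φ y) v = κ * algebraMap E F r) :
    ∃ w, v = φ w := by
  choose r hr using hv
  let ψ : W →ₗ[E] E :=
    { toFun := r
      map_add' := fun x y => (algebraMap E F).injective (mul_left_cancel₀ h.κ_ne (by
        rw [map_add, mul_add, ← hr, ← hr, ← hr, map_add, S.B_add_left]))
      map_smul' := fun c x => (algebraMap E F).injective (mul_left_cancel₀ h.κ_ne (by
        rw [RingHom.id_apply, smul_eq_mul, map_mul, mul_left_comm, ← hr, ← hr, h.smul,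
          S.B_smul_left])) }
  obtain ⟨w, hw⟩ := h.ndT.exists_lin ψ
  refine ⟨w, sub_eq_zero.1 (h.eq_zero fun y => ?_)⟩
  rw [S.B_sub_right, h.B_eq, hr]
  have : T.B y w = r y := LinearMap.congr_fun hw y
  rw [this, sub_self]

theorem rat_mod (h : RS S T φ κ) {u : W} (hu : T.B u u = 0) (hu0 : u ≠ 0) {v : V}
    (hv : ∀ y, T.B y u = 0 → ∃ r, S.B (φ y) v = κ * algebraMap E F r) :
    ∃ (w : W) (t : F), v = φ w + t • φ u := by
  obtain ⟨w, hw⟩ := h.ndT.exists_eq hu0 1
  obtain ⟨x, hx⟩ := h.rat (v := v - σ (S.B (φ w) v / κ) • φ u) fun y => by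
    obtain ⟨r, hr⟩ := hv (y - T.B y u • w) (by simp [hw])
    refine ⟨r, ?_⟩
    rw [map_sub, h.smul, S.B_sub_left, S.B_smul_left] at hr
    rw [S.B_sub_right, Bsr, hσ, h.B_eq y u, ← hr]
    have := h.κ_ne
    field_simp
  exact ⟨x, σ (S.B (φ w) v / κ), by rw [← hx]; abel⟩

theorem linearIndependent (h : RS S T φ κ) {ι : Type*} {w : ι → W} (hw : LinearIndependent E w) :
    LinearIndependent F (fun i => φ (w i)) := by
  classical
  rw [linearIndependent_iff']
  intro s g hg i hi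
  obtain ⟨z, hz, h1⟩ := h.ndT.exists_perp_eq (hw.notMem_span_image (s := {j | j ≠ i}) (x := i) (by simp)) 1
  have h2 := congrArg (fun x => S.B x (φ z)) hg
  simp only [S.B_sum_left, S.B_smul_left, S.B_zero_left] at h2
  rw [Finset.sum_eq_single i (fun j _ hj => by
    rw [h.B0 (T.B_comm_zero (T.mem_perp_span.1 hz _ ⟨j, hj, rfl⟩)), mul_zero]) (by simp [hi]),
    h.B_eq, h1] at h2
  simpa [h.κ_ne] using h2

variable [FiniteDimensional F V]

theorem finrank_le_span (h : RS S T φ κ) (X : Submodule E W) {N : Submodule F V}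
    (hN : ∀ x ∈ X, φ x ∈ N) : finrank E X ≤ finrank F N := by
  let b := Module.finBasis E X
  have h1 := h.linearIndependent (b.linearIndependent.map' X.subtype X.ker_subtype)
  have h2 := LinearIndependent.of_comp N.subtype
    (v := fun i => (⟨φ (b i), hN _ (b i).2⟩ : N)) h1
  simpa using h2.fintype_card_le_finrank

theorem finrank_eq (h : RS S T φ κ) : finrank F V = finrank E W := by
  apply le_antisymm
  · let b := Module.finBasis E W
    have h1 : Submodule.span F (Set.range fun i => φ (b i)) = ⊤ := by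
      rw [eq_top_iff]
      refine fun v _ => h.span _ (fun w => ?_) v
      rw [← b.sum_repr w, map_sum]
      exact Submodule.sum_mem _ fun i _ => by
        rw [h.smul]; exact Submodule.smul_mem _ _ (Submodule.subset_span ⟨i, rfl⟩)
    have := finrank_range_le_card (R := F) (fun i => φ (b i))
    rw [Set.finrank, h1, finrank_top] at this
    simpa using this
  · simpa using h.finrank_le_span ⊤ (N := ⊤) (fun _ _ => trivial)

omit [FiniteDimensional F V] in
theorem mem_span_of (h : RS S T φ κ) {x y : W} {c : F} (e : φ x = c • φ y) : x ∈ E ∙ y := by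
  by_contra hm
  obtain ⟨z, hz, h1⟩ := h.ndT.exists_perp_eq hm 1
  have := congrArg (fun v => S.B v (φ z)) e
  simp only [S.B_smul_left, h.B_eq, h1, T.B_comm_zero (T.mem_perp_span_singleton.1 hz)] at this
  simp [h.κ_ne] at this

omit [FiniteDimensional F V] in
theorem same_scalar (h : RS S T φ κ) {g : V ≃ₗ[F] V} {u y u' y' z' : W} {a b c : F} (hu : u ≠ 0)
    (hy : y ∉ E ∙ u) (e1 : g (φ u) = a • φ u') (e2 : g (φ y) = b • φ y')
    (e3 : g (φ (u + y)) = c • φ z') : ∃ r, b = a * algebraMap E F r := by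
  have ha : a ≠ 0 := by
    rintro rfl
    rw [zero_smul, map_eq_zero_iff g g.injective] at e1
    exact h.ne_zero hu e1
  have hu' : u' ≠ 0 := by
    rintro rfl
    rw [map_zero, smul_zero, map_eq_zero_iff g g.injective] at e1
    exact h.ne_zero hu e1
  have n1 : y' ∉ E ∙ u' := by
    intro hm
    obtain ⟨r, rfl⟩ := Submodule.mem_span_singleton.1 hm
    refine hy (h.mem_span_of (c := b * algebraMap E F r / a) (g.injective ?_))
    rw [map_smul, e1, e2, h.smul, smul_smul, smul_smul, div_mul_cancel₀ _ ha]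
  obtain ⟨p, hp, h1⟩ := h.ndT.exists_perp_eq n1 1
  obtain ⟨q, hq, h2⟩ := h.ndT.exists_perp_eq (notMem_span_swap n1 hu') 1
  rw [map_add, map_add, e1, e2] at e3
  have k1 := congrArg (fun v => S.B v (φ p)) e3
  have k2 := congrArg (fun v => S.B v (φ q)) e3
  simp only [S.B_smul_left, S.B_add_left, h.B_eq, h1, h2,
    T.B_comm_zero (T.mem_perp_span_singleton.1 hp), T.B_comm_zero (T.mem_perp_span_singleton.1 hq),
    map_zero, map_one, mul_zero, add_zero, zero_add, mul_one] at k1 k2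
  have hκ := h.κ_ne
  have k3 : b = c * algebraMap E F (T.B z' p) := mul_right_cancel₀ hκ (by rw [k1]; ring)
  have k4 : a = c * algebraMap E F (T.B z' q) := mul_right_cancel₀ hκ (by rw [k2]; ring)
  have k5 : algebraMap E F (T.B z' q) ≠ 0 := fun h0 => ha (by rw [k4, h0, mul_zero])
  refine ⟨T.B z' p / T.B z' q, ?_⟩
  rw [map_div₀, k3, k4]; field_simp

/-- vectors sent to the rational structure by `c • g` -/
def pre (h : RS S T φ κ) (g : V ≃ₗ[F] V) (c : F) : Submodule E W where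
  carrier := {y | ∃ w, c • g (φ y) = φ w}
  add_mem' := by
    rintro x y ⟨r, hr⟩ ⟨s, hs⟩
    exact ⟨r + s, by rw [map_add, map_add, smul_add, hr, hs, map_add]⟩
  zero_mem' := ⟨0, by simp⟩
  smul_mem' := by
    rintro a x ⟨r, hr⟩
    exact ⟨a • r, by rw [h.smul, h.smul, map_smul, smul_comm, hr]⟩

omit [FiniteDimensional F V] in
theorem mem_pre (h : RS S T φ κ) {g : V ≃ₗ[F] V} {c : F} (hc : c ≠ 0) {u y : W} (hu : u ∈ h.pre g c)
    (hu0 : u ≠ 0) (h1 : ∃ (b : F) (y' : W), g (φ y) = b • φ y')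
    (h2 : ∃ (b : F) (y' : W), g (φ (u + y)) = b • φ y') : y ∈ h.pre g c := by
  by_cases hy : y ∈ E ∙ u
  · obtain ⟨r, rfl⟩ := Submodule.mem_span_singleton.1 hy
    exact Submodule.smul_mem _ _ hu
  obtain ⟨u', hu'⟩ := hu
  obtain ⟨b, y', e2⟩ := h1
  obtain ⟨b', z', e3⟩ := h2
  obtain ⟨r, hr⟩ := h.same_scalar hu0 hy (a := c⁻¹) (u' := u')
    (by rw [← hu', smul_smul, inv_mul_cancel₀ hc, one_smul]) e2 e3
  exact ⟨r • y', by rw [e2, hr, h.smul, smul_smul, mul_inv_cancel_left₀ hc]⟩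

omit [FiniteDimensional F V] in
theorem exists_pre (h : RS S T φ κ) {g : V ≃ₗ[F] V} {u : W} (hu0 : u ≠ 0)
    (h1 : ∃ (b : F) (y' : W), g (φ u) = b • φ y') : ∃ c, c ≠ 0 ∧ u ∈ h.pre g c := by
  obtain ⟨b, y', e⟩ := h1
  have hb : b ≠ 0 := by
    rintro rfl
    rw [zero_smul, map_eq_zero_iff g g.injective] at e
    exact h.ne_zero hu0 e
  exact ⟨b⁻¹, inv_ne_zero hb, y', by rw [e, smul_smul, inv_mul_cancel₀ hb, one_smul]⟩

omit [FiniteDimensional F V] in
theorem nr_of_all (h : RS S T φ κ) {g : V ≃ₗ[F] V}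
    (hg : ∀ y, ∃ (b : F) (y' : W), g (φ y) = b • φ y') : NR φ g := by
  by_cases h0 : ∀ u : W, u = 0
  · exact ⟨1, one_ne_zero, fun y => ⟨0, by simp [h0 y]⟩⟩
  push Not at h0
  obtain ⟨u, hu⟩ := h0
  obtain ⟨c, hc, hm⟩ := h.exists_pre hu (hg u)
  exact ⟨c, hc, fun y => h.mem_pre hc hm hu (hg _) (hg _)⟩

omit [FiniteDimensional F V] in
theorem nr_of_sing (h : RS S T φ κ) {m : ℕ} (hm : SP T m) (hd : m + 2 ≤ finrank E W)
    {g : V ≃ₗ[F] V} (hg : ∀ y, T.Sing y → ∃ (b : F) (y' : W), g (φ y) = b • φ y') : NR φ g := by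
  obtain ⟨u, -, hu0, hu⟩ := hm ⊤ (by rw [finrank_top]; omega)
  obtain ⟨c, hc, hp⟩ := h.exists_pre hu0 (hg u hu)
  have key : ∀ u ∈ h.pre g c, u ≠ 0 → T.Sing u → ∀ y, T.B y u = 0 → y ∈ h.pre g c :=
    fun u hp hu0 hu y hy => hm.perp_le h.ndT hd hu hu0 (fun z hz hzu =>
      h.mem_pre hc hp hu0 (hg z hz) (hg _ (hu.add hz (T.B_comm_zero hzu)))) hy
  obtain ⟨y, hy, hyu, hys⟩ := hm.exists_notMem h.ndT (E ∙ u) (E ∙ u) (by
    have := finrank_span_singleton_le (F := E) u; omega)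
  have hy' := T.mem_perp_span_singleton.1 hy
  refine ⟨c, hc, fun z => ?_⟩
  obtain ⟨a, b, h1, h2, rfl⟩ := mem_sup_perp h.ndT hyu hu0 z
  exact Submodule.add_mem (h.pre g c) (key u hp hu0 hu a h1)
    (key y (key u hp hu0 hu y hy') (by rintro rfl; exact hyu (zero_mem _)) hys b h2)

omit [FiniteDimensional F V] [FiniteDimensional E W] in
theorem nr_of_map (h : RS S T φ κ) {g : V ≃ₗ[F] V} (hg : ∀ y, ∃ w, g (φ y) = φ w) : NR φ g :=
  ⟨1, one_ne_zero, fun y => by simpa using hg y⟩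

/-- the isometries of the rational structure which lift to `M` -/
def lifts (h : RS S T φ κ) (M : Subgroup (V ≃ₗ[F] V)) : Subgroup (W ≃ₗ[E] W) where
  carrier := {k | ∃ g ∈ M, g ∈ S.isom ∧ ∀ w, g (φ w) = φ (k w)}
  one_mem' := ⟨1, M.one_mem, S.isom.one_mem, fun _ => rfl⟩
  mul_mem' := by
    rintro a b ⟨g, h1, h2, h3⟩ ⟨k, k1, k2, k3⟩
    exact ⟨g * k, M.mul_mem h1 k1, S.isom.mul_mem h2 k2, fun w => by
      rw [LinearEquiv.mul_apply, k3, h3]; rfl⟩
  inv_mem' := by
    rintro a ⟨g, h1, h2, h3⟩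
    exact ⟨g⁻¹, M.inv_mem h1, S.isom.inv_mem h2, fun w => g.injective (by
      rw [h3]; simp)⟩

end RS

theorem exists_real_comb (hσ : ∀ a, σ (σ a) = a) {θ : F} (hθ : σ θ ≠ θ) (a : F) :
    ∃ r s : F, σ r = r ∧ σ s = s ∧ a = r + θ * s := by
  have h1 : θ - σ θ ≠ 0 := fun h => hθ (by linear_combination -h)
  have h2 : σ θ - θ ≠ 0 := fun h => hθ (by linear_combination h)
  have k : σ ((a - σ a) / (θ - σ θ)) = (a - σ a) / (θ - σ θ) := by
    rw [map_div₀, map_sub, map_sub, hσ, hσ]; field_simp; ring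
  refine ⟨a - θ * ((a - σ a) / (θ - σ θ)), _, ?_, k, by ring⟩
  rw [map_sub, map_mul, k]; field_simp; ring

theorem RS.exists_comb (h : RS S T φ κ) (hreal : ∀ a, σ a = a → ∃ r, a = algebraMap E F r)
    {θ : F} (hθ : σ θ ≠ θ) (v : V) : ∃ x y, v = φ x + θ • φ y := by
  obtain ⟨p, q, hp, hq, e⟩ := exists_real_comb hσ hθ (θ * θ)
  obtain ⟨p, rfl⟩ := hreal p hp
  obtain ⟨q, rfl⟩ := hreal q hq
  let N : Submodule F V :=
    { carrier := {v | ∃ x y, v = φ x + θ • φ y}
      add_mem' := by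
        rintro _ _ ⟨x, y, rfl⟩ ⟨x', y', rfl⟩
        exact ⟨x + x', y + y', by simp only [map_add]; module⟩
      zero_mem' := ⟨0, 0, by simp⟩
      smul_mem' := by
        rintro a _ ⟨x, y, rfl⟩
        obtain ⟨r, s, hr, hs, rfl⟩ := exists_real_comb hσ hθ a
        obtain ⟨r, rfl⟩ := hreal r hr
        obtain ⟨s, rfl⟩ := hreal s hs
        refine ⟨r • x + (s * p) • y, s • x + (r + s * q) • y, ?_⟩
        simp only [map_add, h.smul, map_mul]
        match_scalars
        · ring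
        · linear_combination (algebraMap E F s) * e }
  exact h.span N (fun w => ⟨w, 0, by simp⟩) v

end Cfsg.Agent.H6.SU
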