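import Cfsg.Agent.H6.SUMono1
import Cfsg.Agent.H6.SURat

/-!
Overgroups of the monomial group in `SU_n(q)`: the rigid case in odd characteristic.
-/

set_option autoImplicit false
set_option linter.unusedSectionVars false
set_option linter.unusedVariables false

namespace Cfsg.Agent.H6.SU

open Module Cfsg.Agent.Form Cfsg.Agent.H7

theorem dihedral {G : Type*} [Group G] {M : Subgroup G} (P : G → Prop)
    (hP : ∀ g ∈ M, ∀ x, P x → P (g * x * g⁻¹)) {i j : G} (hi : i ∈ M) (hj : j ∈ M) (pi : P i)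
    (pj : P j) (ii : i * i = 1) (jj : j * j = 1) (hf : IsOfFinOrder (i * j)) :
    (∃ m, (i * j) ^ (2 * m + 1) = 1 ∧ ∃ k, P k ∧ k * i * k = j) ∨
      ∃ k, P k ∧ k * i ≠ 1 ∧ Commute k i ∧ Commute (k * i) j := by
  have i1 : i⁻¹ = i := inv_eq_of_mul_eq_one_left ii
  have j1 : j⁻¹ = j := inv_eq_of_mul_eq_one_left jj
  have c1 : ∀ m : ℕ, i * (i * j) ^ m * i = ((i * j) ^ m)⁻¹ := fun m => by
    have : i * (i * j) * i⁻¹ = (i * j)⁻¹ := by rw [mul_inv_rev, j1, ← mul_assoc, ii, one_mul]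
    rw [← inv_pow, ← this, conj_pow, i1]
  have key : ∀ m : ℕ, P ((i * j) ^ m * i) ∧ P ((i * j) ^ (m + 1) * i) := by
    intro m
    induction m with
    | zero => exact ⟨by simpa using pi, by simpa [i1] using hP i hi j pj⟩
    | succ m ih =>
      refine ⟨ih.2, ?_⟩
      convert hP _ (M.mul_mem hi hj) _ ih.1 using 1
      rw [mul_inv_rev, i1, j1, pow_succ', pow_succ]; simp only [mul_assoc]
  have hpos := hf.orderOf_pos
  have h1 := pow_orderOf_eq_one (i * j)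
  rcases Nat.even_or_odd' (orderOf (i * j)) with ⟨m, hm | hm⟩
  · right
    have h2 : ((i * j) ^ m)⁻¹ = (i * j) ^ m :=
      inv_eq_of_mul_eq_one_left (by rw [← pow_add, ← two_mul, ← hm, h1])
    have h3 : (i * j) ^ m * i * i = (i * j) ^ m := by rw [mul_assoc, ii, mul_one]
    have h4 : Commute ((i * j) ^ m) i := by
      have := c1 m
      rw [h2] at this
      change _ * _ = _ * _
      conv_lhs => rw [← this]
      rw [mul_assoc, ii, mul_one]
    refine ⟨_, (key m).1, ?_, h4.mul_left (Commute.refl i), ?_⟩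
    · rw [h3]; exact pow_ne_one_of_lt_orderOf (by omega) (by omega)
    · rw [h3]
      have := h4.mul_right ((Commute.refl (i * j)).pow_left m)
      rwa [← mul_assoc, ii, one_mul] at this
  · left
    rw [hm] at h1
    refine ⟨m, h1, _, (key m).1, ?_⟩
    have : (i * j) ^ m * (i * j) ^ m = j * i := by
      rw [← pow_add, ← two_mul, eq_inv_of_mul_eq_one_left ((pow_succ _ _).symm.trans h1), mul_inv_rev, i1, j1]
    rw [mul_assoc _ i i, ii, mul_one, ← mul_assoc, this, mul_assoc, ii, mul_one]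

/-- the combinatorial property of the permutations induced by products of two involutions -/
def EP {ι : Type*} (f : ι → ι) : Prop :=
  ∀ a b, a ≠ b → f a ≠ a → f a ≠ b → f b ≠ a → f b ≠ b → f (f a) ≠ a ∧ f (f a) ≠ b

instance instDecEP (f : Fin 6 → Fin 6) : Decidable (EP f) := by unfold EP; infer_instance

/-- a list as a function -/
def fL (l : List (Fin 6)) (i : Fin 6) : Fin 6 := l.getD i 0

/-- relevant permutations of six points -/
def epA : List (List (Fin 6)) :=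
  [[4, 5, 0, 1, 2, 3], [4, 5, 1, 0, 3, 2], [5, 4, 0, 1, 3, 2], [5, 4, 1, 0, 2, 3]]
/-- relevant permutations of six points -/
def epB : List (List (Fin 6)) :=
  [[3, 5, 0, 2, 1, 4], [3, 5, 1, 4, 0, 2], [5, 3, 0, 4, 1, 2], [5, 3, 1, 2, 0, 4]]
/-- relevant permutations of six points -/
def epC : List (List (Fin 6)) :=
  [[2, 5, 3, 0, 1, 4], [2, 5, 4, 1, 0, 3], [5, 2, 3, 1, 0, 4], [5, 2, 4, 0, 1, 3]]

theorem epL_false : ∀ f ∈ epA, ∀ g ∈ epB, EP (fL f ∘ fL g) →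
    ∀ h ∈ epC, EP (fL f ∘ fL h) → ¬ EP (fL g ∘ fL h) := by decide +kernel

set_option synthInstance.maxSize 2000 in
theorem ep_key : ∀ c d e : Fin 6, ((c < 2 ∧ d < 2) ∨ (c < 2 ∧ e < 2) ∨ (d < 2 ∧ e < 2)) → c ≠ d →
    c ≠ e → d ≠ e → ∀ a b : Fin 6, a ≠ b → a ≠ c → a ≠ d → a ≠ e → b ≠ c → b ≠ d → b ≠ e →
    ∀ g : Fin 6, g ≠ a → g ≠ b → g ≠ c → g ≠ d → g ≠ e → EP (fL [a, b, c, d, e, g]) →
    (c < 2 → d < 2 → [a, b, c, d, e, g] ∈ epA) ∧ (c < 2 → e < 2 → [a, b, c, d, e, g] ∈ epB) ∧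
      (d < 2 → e < 2 → [a, b, c, d, e, g] ∈ epC) := by decide +kernel

theorem ep_list (f : Fin 6 → Fin 6) (hf : Function.Injective f) (h : EP f)
    (h1 : (f 2 < 2 ∧ f 3 < 2) ∨ (f 2 < 2 ∧ f 4 < 2) ∨ (f 3 < 2 ∧ f 4 < 2)) :
    ∃ l, f = fL l ∧ (f 2 < 2 → f 3 < 2 → l ∈ epA) ∧ (f 2 < 2 → f 4 < 2 → l ∈ epB) ∧
      (f 3 < 2 → f 4 < 2 → l ∈ epC) := by
  have e : f = fL [f 0, f 1, f 2, f 3, f 4, f 5] := by ext i; fin_cases i <;> rfl
  exact ⟨_, e, ep_key (f 2) (f 3) (f 4) h1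
    (hf.ne (by decide)) (hf.ne (by decide)) (hf.ne (by decide)) (f 0) (f 1) (hf.ne (by decide))
    (hf.ne (by decide)) (hf.ne (by decide)) (hf.ne (by decide)) (hf.ne (by decide))
    (hf.ne (by decide)) (hf.ne (by decide)) (f 5) (hf.ne (by decide)) (hf.ne (by decide))
    (hf.ne (by decide)) (hf.ne (by decide)) (hf.ne (by decide)) (e ▸ h)⟩

theorem no_ep_six {ι : Type*} [Fintype ι] (hn : Fintype.card ι = 6) (I : Set (Equiv.Perm ι))
    (h1 : ∀ f ∈ I, EP f) (h2 : ∀ f ∈ I, ∀ g ∈ I, EP (f * g : Equiv.Perm ι))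
    (h3 : ∀ a b a' b', a ≠ b → a' ≠ b' → ∃ f ∈ I, (f a = a' ∨ f a = b') ∧ (f b = a' ∨ f b = b')) :
    False := by
  let ε : ι ≃ Fin 6 := Fintype.equivFinOfCardEq hn
  have tr : ∀ f : Equiv.Perm ι, EP f → EP (ε.permCongr f) := fun f hf a b k1 k2 k3 k4 k5 => by
    simp only [Equiv.permCongr_apply, Equiv.symm_apply_apply, ne_eq, ← Equiv.eq_symm_apply ε]
      at k2 k3 k4 k5 ⊢
    exact hf _ _ (ε.symm.injective.ne k1) k2 k3 k4 k5
  have key : ∀ x y : Fin 6, x ≠ y → ∃ f ∈ I, ε.permCongr f x < 2 ∧ ε.permCongr f y < 2 := by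
    intro x y hxy
    obtain ⟨f, hf, k1, k2⟩ := h3 (ε.symm x) (ε.symm y) (ε.symm 0) (ε.symm 1) (ε.symm.injective.ne hxy)
      (ε.symm.injective.ne (by decide))
    refine ⟨f, hf, ?_, ?_⟩
    · rcases k1 with k | k <;> simp [k]
    · rcases k2 with k | k <;> simp [k]
  obtain ⟨f, hf, f1, f2⟩ := key 2 3 (by decide)
  obtain ⟨g, hg, g1, g2⟩ := key 2 4 (by decide)
  obtain ⟨h, hh, k1, k2⟩ := key 3 4 (by decide)
  obtain ⟨l1, e1, a1⟩ := ep_list _ (ε.permCongr f).injective (tr f (h1 f hf)) (by tauto)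
  obtain ⟨l2, e2, a2⟩ := ep_list _ (ε.permCongr g).injective (tr g (h1 g hg)) (by tauto)
  obtain ⟨l3, e3, a3⟩ := ep_list _ (ε.permCongr h).injective (tr h (h1 h hh)) (by tauto)
  have b : ∀ f ∈ I, ∀ g ∈ I, EP (ε.permCongr f ∘ ε.permCongr g) := fun f hf g hg => by
    convert tr _ (h2 f hf g hg) using 1
    ext x; simp
  exact epL_false _ (a1.1 f1 f2) _ (a2.2.1 g1 g2) (e1 ▸ e2 ▸ b f hf g hg) _ (a3.2.2 k1 k2)
    (e1 ▸ e3 ▸ b f hf h hh) (e2 ▸ e3 ▸ b g hg h hh)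

variable {F : Type*} [Field F] {σ : F →+* F} {hσ : ∀ a, σ (σ a) = a}
  {V : Type*} [AddCommGroup V] [Module F V] {S : PQ (FP.unit σ hσ) V} {M : Subgroup (V ≃ₗ[F] V)}
  {ι : Type*} [Fintype ι] [DecidableEq ι] {e : ι → V} [FiniteDimensional F V] [Finite F]

theorem fin_order (g : V ≃ₗ[F] V) : IsOfFinOrder g := by
  have : Finite V := Module.finite_of_finite F
  have : Finite (V ≃ₗ[F] V) := Finite.of_injective _ DFunLike.coe_injective
  exact isOfFinOrder_of_finite g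

theorem MS.exists_tor (h : MS S M e) {k l : ι} (hkl : k ≠ l) {a : F} (ha : a * σ a = 1) :
    ∃ g ∈ M, g ∈ S.isom ∧ Mono e g ∧
      ∀ y, g y = y + ((a - 1) * S.B y (e k)) • e k + ((σ a - 1) * S.B y (e l)) • e l := by
  obtain ⟨g, hg, g1, e1⟩ := exists_refl S (z := e k) (by rw [h.on.self]; exact one_ne_zero) ha
  obtain ⟨g', hg', g2, e2⟩ := exists_refl S (z := e l) (by rw [h.on.self]; exact one_ne_zero)
    (δ := σ a) (by rw [hσ, mul_comm, ha])
  have hm := (h.on.mono_refl e2).mul (h.on.mono_refl e1)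
  refine ⟨g' * g, h.mem _ ⟨S.isom.mul_mem hg' hg, Units.ext ?_⟩ hm, S.isom.mul_mem hg' hg, hm,
    fun y => ?_⟩
  · rw [map_mul, Units.val_mul, g1, g2, mul_comm, ha]; rfl
  · simp [LinearEquiv.mul_apply, e1, e2, h.on.self, h.on.ne hkl]

theorem MS.two_zeros_aux (hne : ∃ a, σ a ≠ a) (h3 : ∃ a : F, σ a = a ∧ a ≠ 0 ∧ a ≠ 1) (h : MS S M e)
    (hR : Rigid M e) {g : V ≃ₗ[F] V} (hg : g ∈ M) {j k l : ι} (hkl : k ≠ l)
    (hk : S.B (g (e j)) (e k) = 0) (hl : S.B (g (e j)) (e l) = 0) (i : ι) :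
    (∀ m, m ≠ k → m ≠ l → S.B (g (e i)) (e m) = 0) ∨
      (S.B (g (e i)) (e k) = 0 ∧ S.B (g (e i)) (e l) = 0) := by
  by_contra hc
  rw [not_or] at hc
  obtain ⟨h1, h2⟩ := hc
  push Not at h1
  obtain ⟨m, hm1, hm2, hm⟩ := h1
  have hgi := (h.le hg).1
  have key : ∀ a : F, a * σ a = 1 → a ≠ 1 → S.B (g (e i)) (e k) * σ (S.B (g (e i)) (e k)) * a ^ 2 +
      (1 - S.B (g (e i)) (e k) * σ (S.B (g (e i)) (e k)) -
        S.B (g (e i)) (e l) * σ (S.B (g (e i)) (e l))) * a +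
      S.B (g (e i)) (e l) * σ (S.B (g (e i)) (e l)) = 0 := by
    intro a ha ha1
    obtain ⟨t, ht, -, -, e1⟩ := h.exists_tor hkl ha
    obtain ⟨i', c, e2⟩ := hR (g⁻¹ * t * g) (M.mul_mem (M.mul_mem (M.inv_mem hg) ht) hg) j
      ⟨j, 1, by simp [e1, hk, hl]⟩ i
    have e3 : t (g (e i)) = c • g (e i') := by rw [← map_smul, ← e2]; simp
    rw [e1] at e3
    by_cases hi : i' = i
    · exfalso
      subst hi
      have p1 := congrArg (fun x => S.B x (e m)) e3
      have p2 := congrArg (fun x => S.B x (e k)) e3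
      have p3 := congrArg (fun x => S.B x (e l)) e3
      simp only [PQ.B_add_left, PQ.B_smul_left, h.on.self, h.on.ne hm1.symm, h.on.ne hm2.symm,
        h.on.ne hkl, h.on.ne hkl.symm] at p1 p2 p3
      have hc : c = 1 := mul_right_cancel₀ hm (by linear_combination -p1)
      have a1 : σ a - 1 ≠ 0 := fun h0 => ha1 (by rw [← hσ a, sub_eq_zero.1 h0, map_one])
      rw [hc] at p2 p3
      exact h2 ⟨mul_left_cancel₀ (sub_ne_zero.2 ha1) (by linear_combination p2),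
        mul_left_cancel₀ a1 (by linear_combination p3)⟩
    · have p1 := congrArg (fun x => S.B x (g (e i))) e3
      simp only [PQ.B_add_left, PQ.B_smul_left, PQ.B_isom hgi, h.on.self, h.on.ne hi,
        ← Bs S (g (e i)) (e _)] at p1
      linear_combination a * p1 - S.B (g (e i)) (e l) * σ (S.B (g (e i)) (e l)) * ha
  obtain ⟨a, b, c, a1, b1, c1, a2, b2, c2, hab, hac, hbc⟩ := exists_three_norm_one hσ hne h3
  have k1 := key a a1 a2
  have k2 := key b b1 b2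
  have k3 := key c c1 c2
  generalize S.B (g (e i)) (e k) * σ (S.B (g (e i)) (e k)) = x at *
  generalize S.B (g (e i)) (e l) * σ (S.B (g (e i)) (e l)) = y at *
  have k4 : x * (a + b) + (1 - x - y) = 0 :=
    mul_left_cancel₀ (sub_ne_zero.2 hab) (by linear_combination k1 - k2)
  have k5 : x * (a + c) + (1 - x - y) = 0 :=
    mul_left_cancel₀ (sub_ne_zero.2 hac) (by linear_combination k1 - k3)
  have k6 : x = 0 := mul_left_cancel₀ (sub_ne_zero.2 hbc) (by linear_combination k4 - k5)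
  exact one_ne_zero (α := F) (by
    linear_combination k1 + (1 - a) * k4 + (1 - a ^ 2 - (1 - a) * (a + b)) * k6)

/-- the rigid situation with `q ≥ 3` -/
structure RG (S : PQ (FP.unit σ hσ) V) (M : Subgroup (V ≃ₗ[F] V)) (e : ι → V) : Prop
    extends MS S M e where
  ne : ∃ a, σ a ≠ a
  three : ∃ a : F, σ a = a ∧ a ≠ 0 ∧ a ≠ 1
  rig : Rigid M e
  six : 6 ≤ Fintype.card ι

theorem RG.out (h : RG S M e) (l : List ι) (hl : l.length ≤ 5 := by simp) : ∃ x, x ∉ l :=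
  exists_notMem_list l (by have := h.six; omega)

theorem RG.mono_of_zeros (h : RG S M e) {g : V ≃ₗ[F] V} (hg : g ∈ M) {j k l : ι} (hkl : k ≠ l)
    (hk : S.B (g (e j)) (e k) = 0) (hl : S.B (g (e j)) (e l) = 0) : Mono e g := by
  by_contra hM
  have aux := fun {j k l : ι} => h.two_zeros_aux h.ne h.three h.rig hg (j := j) (k := k) (l := l)
  have key : ∀ {j k l : ι}, k ≠ l → S.B (g (e j)) (e k) = 0 → S.B (g (e j)) (e l) = 0 →
      ∃ i, ∀ m, m ≠ k → m ≠ l → S.B (g (e i)) (e m) = 0 := by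
    intro j k l hkl hk hl
    obtain ⟨i, hi⟩ := h.on.exists_ne (v := g.symm (e k)) (by simpa using h.on.e_ne k)
    refine ⟨i, (aux hkl hk hl i).resolve_right fun h' => hi ?_⟩
    rw [← PQ.B_isom (h.le hg).1, LinearEquiv.apply_symm_apply]; exact S.B_comm_zero h'.1
  obtain ⟨i, hi⟩ := key hkl hk hl
  obtain ⟨k', h1⟩ := h.out [k, l]
  obtain ⟨l', h2⟩ := h.out [k, l, k']
  obtain ⟨m', h3⟩ := h.out [k, l, k', l']
  simp only [List.mem_cons, List.not_mem_nil, or_false, not_or] at h1 h2 h3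
  obtain ⟨i2, hi2⟩ := key (Ne.symm h2.2.2) (hi k' h1.1 h1.2) (hi l' h2.1 h2.2.1)
  obtain ⟨x, y, hxy, hx, hy⟩ := h.on.two_of_not_isE (v := g (e i2)) (by simpa using h.on.e_ne i2)
    (fun h' => hM (h.rig g hg i2 h'))
  have b1 : x = k' ∨ x = l' := by by_contra h; push Not at h; exact hx (hi2 x h.1 h.2)
  have b2 : y = k' ∨ y = l' := by by_contra h; push Not at h; exact hy (hi2 y h.1 h.2)
  have b3 : S.B (g (e i2)) (e k') ≠ 0 ∧ S.B (g (e i2)) (e l') ≠ 0 := by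
    rcases b1 with rfl | rfl <;> rcases b2 with rfl | rfl
    exacts [(hxy rfl).elim, ⟨hx, hy⟩, ⟨hy, hx⟩, (hxy rfl).elim]
  rcases aux (Ne.symm h3.2.2.1) (hi k' h1.1 h1.2) (hi m' h3.1 h3.2.1) i2 with h | h
  · exact b3.2 (h l' h2.2.2 (Ne.symm h3.2.2.2))
  · exact b3.1 h.1

theorem RG.mono_of_zeros' (h : RG S M e) {g : V ≃ₗ[F] V} (hg : g ∈ M) {j k l : ι} (hkl : k ≠ l)
    (hk : S.B (e j) (g (e k)) = 0) (hl : S.B (e j) (g (e l)) = 0) : Mono e g := by
  have p : ∀ k, S.B (g⁻¹ (e j)) (e k) = S.B (e j) (g (e k)) := fun k => by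
    rw [← PQ.B_isom (h.le hg).1]; simp
  simpa using h.on.mono_inv (h.mono_of_zeros (M.inv_mem hg) hkl ((p k).trans hk) ((p l).trans hl))

theorem RG.mono_of_cs (h : RG S M e) {g : V ≃ₗ[F] V} (hg : g ∈ M) {j a b c d : ι}
    (hj : ∀ m, m ≠ a → m ≠ b → m ≠ c → m ≠ d → S.B (g (e j)) (e m) = 0) : Mono e g := by
  obtain ⟨k, h1⟩ := h.out [a, b, c, d]
  obtain ⟨l, h2⟩ := h.out [a, b, c, d, k]
  simp only [List.mem_cons, List.not_mem_nil, or_false, not_or] at h1 h2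
  exact h.mono_of_zeros hg (Ne.symm h2.2.2.2.2) (hj k h1.1 h1.2.1 h1.2.2.1 h1.2.2.2)
    (hj l h2.1 h2.2.1 h2.2.2.1 h2.2.2.2.1)

/-- the involution negating two orthogonal unit vectors -/
def JP (S : PQ (FP.unit σ hσ) V) (u v : V) (x : V ≃ₗ[F] V) : Prop :=
  ∀ y, x y = y - (2 * S.B y u) • u - (2 * S.B y v) • v

/-- the class of these involutions -/
def JC (S : PQ (FP.unit σ hσ) V) (M : Subgroup (V ≃ₗ[F] V)) (e : ι → V) (x : V ≃ₗ[F] V) : Prop :=
  ∃ g ∈ M, ∃ k l, k ≠ l ∧ JP S (g (e k)) (g (e l)) x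

theorem JP.conj {u v : V} {x g : V ≃ₗ[F] V} (h : JP S u v x) (hg : g ∈ S.isom) :
    JP S (g u) (g v) (g * x * g⁻¹) := fun y => by
  have : ∀ u, S.B y (g u) = S.B (g.symm y) u := fun u => by rw [← PQ.B_isom hg (g.symm y)]; simp
  simp [LinearEquiv.mul_apply, h (g.symm y), this]

theorem JP.unique {u v : V} {x y : V ≃ₗ[F] V} (h : JP S u v x) (h' : JP S u v y) : x = y := by
  ext z; rw [h, h']

theorem MS.exists_jp (h : MS S M e) {k l : ι} (hkl : k ≠ l) :
    ∃ x ∈ M, Mono e x ∧ JP S (e k) (e l) x := by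
  obtain ⟨g, hg, -, g1, e1⟩ := h.exists_tor hkl (a := -1) (by simp)
  exact ⟨g, hg, g1, fun y => by rw [e1, map_neg, map_one]; module⟩

theorem JC.conj (h : MS S M e) {g : V ≃ₗ[F] V} (hg : g ∈ M) {x : V ≃ₗ[F] V} (hx : JC S M e x) :
    JC S M e (g * x * g⁻¹) := by
  obtain ⟨g', hg', k, l, hkl, hx⟩ := hx
  exact ⟨g * g', M.mul_mem hg hg', k, l, hkl, hx.conj (h.le hg).1⟩

theorem JC.mem (h : MS S M e) {x : V ≃ₗ[F] V} (hx : JC S M e x) : x ∈ M := by
  obtain ⟨g, hg, k, l, hkl, hx⟩ := hx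
  obtain ⟨y, hy, -, hy'⟩ := h.exists_jp hkl
  rw [hx.unique (hy'.conj (h.le hg).1)]
  exact M.mul_mem (M.mul_mem hg hy) (M.inv_mem hg)

theorem JC.sq (h : MS S M e) {x : V ≃ₗ[F] V} (hx : JC S M e x) : x * x = 1 := by
  obtain ⟨g, hg, k, l, hkl, hx⟩ := hx
  ext y
  rw [LinearEquiv.mul_apply, hx, hx]
  simp [PQ.B_isom (h.le hg).1, h.on.self, h.on.ne hkl, h.on.ne hkl.symm]
  module

theorem jc_e {k l : ι} (hkl : k ≠ l) {x : V ≃ₗ[F] V} (hx : JP S (e k) (e l) x) : JC S M e x :=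
  ⟨1, M.one_mem, k, l, hkl, hx⟩

theorem JP.coord (h : ON S e) {k l : ι} (hkl : k ≠ l) {x : V ≃ₗ[F] V} (hx : JP S (e k) (e l) x) (y : V)
    (i : ι) : S.B (x y) (e i) = (if i = k ∨ i = l then -1 else 1) * S.B y (e i) := by
  rw [hx]
  by_cases h1 : i = k
  · simp [h1, h.self, h.ne hkl.symm]; ring
  by_cases h2 : i = l
  · simp [h2, h.self, h.ne hkl]; ring
  · simp [h1, h2, h.ne (Ne.symm h1), h.ne (Ne.symm h2)]

theorem RG.mono_of_jp (h : RG S M e) (h2 : (2 : F) ≠ 0) {g : V ≃ₗ[F] V} (hg : g ∈ M) {k l : ι}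
    (hkl : k ≠ l) {x : V ≃ₗ[F] V} (hx : JP S (g (e k)) (g (e l)) x) (hm : Mono e x) : Mono e g := by
  by_contra hM
  have hgi := (h.le hg).1
  choose π c e1 using hm
  have key : ∀ m, S.B (e m - x (e m)) (e m) ≠ 0 := by
    intro m h0
    have e2 : e m - x (e m) = 0 := by
      by_cases hm : π m = m
      · rw [e1, hm] at h0 ⊢
        have : 1 = c m := by simpa [h.on.self, sub_eq_zero] using h0
        rw [← this, one_smul, sub_self]
      · simp [e1, h.on.self, h.on.ne hm] at h0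
    rw [hx] at e2
    have p1 := congrArg (fun y => S.B y (g (e k))) e2
    have p2 := congrArg (fun y => S.B y (g (e l))) e2
    simp [PQ.B_isom hgi, h.on.self, h.on.ne hkl, h.on.ne hkl.symm, h2] at p1 p2
    exact hM (h.mono_of_zeros' hg hkl p1 p2)
  have key2 : ∀ m j, j ≠ m → j ≠ π m → S.B (e m - x (e m)) (e j) = 0 := fun m j a1 a2 => by
    simp [e1, h.on.ne a1.symm, h.on.ne a2.symm]
  obtain ⟨b, h1⟩ := h.out [k, π k]
  obtain ⟨d, h3⟩ := h.out [k, π k, b, π b]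
  simp only [List.mem_cons, List.not_mem_nil, or_false, not_or] at h1 h3
  have := tri_le (S := S) ![e k - x (e k), e b - x (e b), e d - x (e d)] ![e k, e b, e d]
    (by
      intro i; fin_cases i
      exacts [key k, key b, key d])
    (by
      intro i j hij
      fin_cases i <;> fin_cases j <;> first
        | exact absurd hij (by decide)
        | exact key2 _ _ (by tauto) (by tauto))
    (W := Submodule.span F {g (e k), g (e l)}) (by
      have : ∀ m, e m - x (e m) ∈ Submodule.span F {g (e k), g (e l)} := fun m =>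
        Submodule.mem_span_pair.2 ⟨_, _, by rw [hx]; abel⟩
      intro i; fin_cases i
      exacts [this k, this b, this d])
  have h4 := finrank_span_pair_le (E := F) (g (e k)) (g (e l))
  omega

theorem RG.jp_of_mono (h : RG S M e) (h2 : (2 : F) ≠ 0) {x : V ≃ₗ[F] V} (hx : JC S M e x)
    (hm : Mono e x) : ∃ a b, a ≠ b ∧ JP S (e a) (e b) x := by
  obtain ⟨g, hg, k, l, hkl, hx⟩ := hx
  obtain ⟨π, hπ⟩ := h.on.exists_perm (h.mono_of_jp h2 hg hkl hx hm)
  have key : ∀ k y, S.B y (g (e k)) • g (e k) = S.B y (e (π k)) • e (π k) := fun k y => by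
    obtain ⟨c, e1⟩ := hπ k
    have := PQ.B_isom (h.le hg).1 (e k) (e k)
    rw [e1, PQ.B_smul_left, Bsr, h.on.self, h.on.self] at this
    rw [e1, Bsr, smul_smul]; congr 1; linear_combination (S.B y (e (π k))) * this
  exact ⟨π k, π l, π.injective.ne hkl, fun y => by rw [hx]; simp only [mul_smul, key]⟩

theorem RG.mono_of_comm (h : RG S M e) (h2 : (2 : F) ≠ 0) {a b c d : ι} (hab : a ≠ b) (hcd : c ≠ d)
    {x y j : V ≃ₗ[F] V} (hx : JP S (e a) (e b) x) (hy : JP S (e c) (e d) y) (hxy : x * y ≠ 1)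
    (hj : j ∈ M) (hc : Commute (x * y) j) : Mono e j := by
  have p : ∀ z i, S.B ((x * y) z) (e i) = ((if i = a ∨ i = b then -1 else 1) *
      (if i = c ∨ i = d then -1 else 1)) * S.B z (e i) := fun z i => by
    rw [LinearEquiv.mul_apply, hx.coord h.on hab, hy.coord h.on hcd, mul_assoc]
  obtain ⟨i, hi⟩ : ∃ i, ((if i = a ∨ i = b then -1 else 1) * (if i = c ∨ i = d then -1 else 1) : F) = -1 := by
    by_contra hn
    push Not at hn
    refine hxy (LinearEquiv.ext fun z => h.on.ext fun i => ?_)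
    have := hn i
    rw [p]
    split_ifs at this ⊢ <;> simp at this ⊢
  have e1 : (x * y) (e i) = -e i := h.on.ext fun m => by
    by_cases hm : i = m
    · rw [p, ← hm, hi]; simp
    · rw [p]; simp [h.on.ne hm]
  refine h.mono_of_cs hj (j := i) (a := a) (b := b) (c := c) (d := d) fun m a1 a2 a3 a4 => ?_
  have := p (j (e i)) m
  rw [← LinearEquiv.mul_apply, hc.eq, LinearEquiv.mul_apply, e1] at this
  simp only [a1, a2, a3, a4, or_self, if_false, map_neg, PQ.B_neg_left] at this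
  exact mul_left_cancel₀ h2 (by linear_combination -this)

theorem RG.odd (h : RG S M e) (h2 : (2 : F) ≠ 0) {a b : ι} (hab : a ≠ b) {i j : V ≃ₗ[F] V}
    (hi : JP S (e a) (e b) i) (hj : JC S M e j) (hm : ¬ Mono e j) :
    ∃ m, (i * j) ^ (2 * m + 1) = 1 ∧ ∃ k, JC S M e k ∧ k * i * k = j := by
  have hi' := jc_e (M := M) hab hi
  refine (dihedral (JC S M e) (fun g hg x hx => hx.conj h.toMS hg) (hi'.mem h.toMS) (hj.mem h.toMS) hi' hj
    (hi'.sq h.toMS) (hj.sq h.toMS) (fin_order _)).resolve_right ?_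
  rintro ⟨k, k1, k2, k3, k4⟩
  obtain ⟨c, d, hcd, k5⟩ := h.jp_of_mono h2 k1 (h.mono_of_cs (k1.mem h.toMS) (j := a) (a := a) (b := b)
    (c := a) (d := b) fun m a1 a2 _ _ => by
      have := hi.coord h.on hab (k (e a)) m
      rw [← LinearEquiv.mul_apply, ← k3.eq, LinearEquiv.mul_apply, hi (e a)] at this
      simp only [a1, a2, or_self, if_false, h.on.self, h.on.ne hab, map_sub, map_smul, PQ.B_sub_left,
        PQ.B_smul_left] at this
      exact mul_left_cancel₀ h2 (by linear_combination -this))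
  exact hm (h.mono_of_comm h2 hcd hab k5 hi k2 (hj.mem h.toMS) k4)

theorem ON.pow_perm (h : ON S e) {d : V ≃ₗ[F] V} {π : Equiv.Perm ι}
    (hπ : ∀ i, ∃ c : F, d (e i) = c • e (π i)) {N : ℕ} (hN : d ^ N = 1) (i : ι) :
    Function.IsPeriodicPt π N i := by
  have key : ∀ n : ℕ, ∃ c : F, (d ^ n) (e i) = c • e (π^[n] i) := by
    intro n
    induction n with
    | zero => exact ⟨1, by simp⟩
    | succ n ih =>
      obtain ⟨c, e1⟩ := ih
      obtain ⟨c', e2⟩ := hπ (π^[n] i)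
      exact ⟨c * c', by
        rw [pow_succ', LinearEquiv.mul_apply, e1, map_smul, e2, smul_smul, Function.iterate_succ_apply']⟩
  obtain ⟨c, e1⟩ := key N
  rw [hN] at e1
  by_contra hn
  have := congrArg (fun x => S.B x (e i)) e1
  simp [h.self, h.ne hn] at this

theorem RG.ep (h : RG S M e) (h2 : (2 : F) ≠ 0) {t k : V ≃ₗ[F] V} (ht : JC S M e t) (hk : JC S M e k)
    (hm : ¬ Mono e t) {π : Equiv.Perm ι} (hπ : ∀ i, ∃ c : F, (t * k) (e i) = c • e (π i)) {a b : ι}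
    (hab : a ≠ b) (a1 : π a ≠ a) (a2 : π a ≠ b) (a3 : π b ≠ a) (a4 : π b ≠ b) :
    (π (π a) ≠ a ∧ π (π a) ≠ b) ∧ ∀ m, m ∈ [a, b, π a, π b, π (π a), π (π b)] := by
  obtain ⟨g, hg, c, d, hcd, ht'⟩ := id ht
  have hgi := (h.le hg).1
  have per : ∀ x, x = a ∨ x = b → π (π (π (π x))) ≠ x := by
    have t0 : JP S (e c) (e d) (g⁻¹ * t * g⁻¹⁻¹) := by simpa using ht'.conj (S.isom.inv_mem hgi)
    have k0 := hk.conj h.toMS (M.inv_mem hg)
    have e0 : (g⁻¹ * t * g⁻¹⁻¹) * (g⁻¹ * k * g⁻¹⁻¹) = g⁻¹ * (t * k) * g⁻¹⁻¹ := by group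
    by_cases hk0 : Mono e (g⁻¹ * k * g⁻¹⁻¹)
    · exfalso
      obtain ⟨c', d', hcd', k1⟩ := h.jp_of_mono h2 k0 hk0
      have e1 : (t * k) ^ 2 = 1 := by
        rw [← conj_eq_one_iff (a := g⁻¹), ← conj_pow, ← e0]
        refine LinearEquiv.ext fun z => h.on.ext fun i => ?_
        generalize g⁻¹ * t * g⁻¹⁻¹ = t' at t0
        generalize g⁻¹ * k * g⁻¹⁻¹ = k' at k1
        simp only [sq, LinearEquiv.mul_apply, t0.coord h.on hcd, k1.coord h.on hcd']
        split_ifs <;> simp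
      have e2 : π (π a) = a := h.on.pow_perm hπ e1 a
      obtain ⟨j, hj, -, j1⟩ := h.exists_jp a1.symm
      have e3 : Commute (t * k) j := by
        have := j1.conj (h.le (M.mul_mem (ht.mem h.toMS) (hk.mem h.toMS))).1
        obtain ⟨x, ex⟩ := hπ a
        obtain ⟨y, ey⟩ := hπ (π a)
        have hi := (h.le (M.mul_mem (ht.mem h.toMS) (hk.mem h.toMS))).1
        have n1 := PQ.B_isom hi (e a) (e a)
        have n2 := PQ.B_isom hi (e (π a)) (e (π a))
        rw [ex, PQ.B_smul_left, Bsr, h.on.self, h.on.self] at n1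
        rw [ey, PQ.B_smul_left, Bsr, h.on.self, h.on.self] at n2
        rw [ex, ey, e2] at this
        have e4 : t * k * j * (t * k)⁻¹ = j := LinearEquiv.ext fun z => by
          rw [this, j1]
          simp only [Bsr]
          match_scalars
          · ring
          · linear_combination (-2 * S.B z (e (π a))) * n1
          · linear_combination (-2 * S.B z (e a)) * n2
        exact mul_inv_eq_iff_eq_mul.1 e4
      have e5 := h.mono_of_comm h2 hcd hcd' t0 k1 (j := g⁻¹ * j * g⁻¹⁻¹) (by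
        rw [e0, Ne, conj_eq_one_iff]
        intro h1
        exact a1 (h.on.pow_perm hπ (N := 1) (by rw [h1, one_pow]) a))
        (M.mul_mem (M.mul_mem (M.inv_mem hg) hj) (M.inv_mem (M.inv_mem hg)))
        (by rw [e0]; exact e3.conj _)
      have e6 := h.on.mono_inv (h.mono_of_jp h2 (M.inv_mem hg) a1.symm (j1.conj (S.isom.inv_mem hgi)) e5)
      rw [inv_inv] at e6
      obtain ⟨y, -, y1, y2⟩ := h.exists_jp hcd
      rw [ht'.unique (y2.conj hgi)] at hm
      exact hm ((e6.mul y1).mul (h.on.mono_inv e6))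
    · obtain ⟨m, e1, -⟩ := h.odd h2 hcd t0 k0 hk0
      rw [e0, conj_pow, conj_eq_one_iff] at e1
      intro x hx h4
      have := (show Function.IsPeriodicPt π 4 x from h4).gcd (h.on.pow_perm hπ e1 x)
      rw [show Nat.gcd 4 (2 * m + 1) = 1 from
        Nat.Coprime.pow_left 2 (Nat.coprime_two_left.2 (odd_two_mul_add_one m))] at this
      rcases hx with rfl | rfl
      exacts [a1 this, a4 this]
  obtain ⟨g', hg', c', d', -, hk'⟩ := id hk
  let W := Submodule.span F {g (e c), g (e d)} ⊔ Submodule.span F {g' (e c'), g' (e d')}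
  have hW : finrank F W ≤ 4 := by
    have := Submodule.finrank_add_le_finrank_add_finrank (Submodule.span F {g (e c), g (e d)})
      (Submodule.span F {g' (e c'), g' (e d')})
    have := finrank_span_pair_le (E := F) (g (e c)) (g (e d))
    have := finrank_span_pair_le (E := F) (g' (e c')) (g' (e d'))
    simp only [W]; omega
  have mW : ∀ y, (t * k) y - y ∈ W := fun y => by
    rw [show (t * k) y - y = (t (k y) - k y) + (k y - y) by simp]
    exact Submodule.add_mem_sup (Submodule.mem_span_pair.2 ⟨-(2 * S.B (k y) (g (e c))),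
      -(2 * S.B (k y) (g (e d))), by rw [ht']; module⟩)
      (Submodule.mem_span_pair.2 ⟨-(2 * S.B y (g' (e c'))), -(2 * S.B y (g' (e d'))), by rw [hk']; module⟩)
  have z1 : ∀ y, π y ≠ y → S.B ((t * k) (e y) - e y) (e (π y)) ≠ 0 := fun y hy => by
    obtain ⟨x, ex⟩ := hπ y
    simpa [ex, h.on.self, h.on.ne hy.symm] using h.on.coeff_ne ex
  have z2 : ∀ y j, j ≠ y → j ≠ π y → S.B ((t * k) (e y) - e y) (e j) = 0 := fun y j b1 b2 => by
    obtain ⟨x, ex⟩ := hπ y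
    simp [ex, h.on.ne b1.symm, h.on.ne b2.symm]
  have chain : ∀ y₁ y₂ y₃ y₄ m, π y₁ ≠ y₁ → π y₂ ≠ y₂ → π y₃ ≠ y₃ → π y₄ ≠ y₄ → y₂ ≠ y₁ → y₃ ≠ y₁ →
      y₄ ≠ y₁ → y₃ ≠ y₂ → y₄ ≠ y₂ → y₄ ≠ y₃ → π y₂ ≠ y₁ → π y₃ ≠ y₁ → π y₄ ≠ y₁ → π y₃ ≠ y₂ →
      π y₄ ≠ y₂ → π y₄ ≠ y₃ → m ∈ [y₁, y₂, y₃, y₄, π y₁, π y₂, π y₃, π y₄] := by
    intro y₁ y₂ y₃ y₄ m b1 b2 b3 b4 c1 c2 c3 c4 c5 c6 d1 d2 d3 d4 d5 d6
    by_contra hn
    simp only [List.mem_cons, List.not_mem_nil, or_false, not_or] at hn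
    obtain ⟨w, hw, hw'⟩ : ∃ w ∈ W, S.B w (e m) ≠ 0 := by
      by_contra hc
      push Not at hc
      have p1 := S.B_comm_zero (hc (g (e c)) (Submodule.mem_sup_left (Submodule.subset_span (by simp))))
      have p2 := S.B_comm_zero (hc (g (e d)) (Submodule.mem_sup_left (Submodule.subset_span (by simp))))
      exact hm (h.rig t (ht.mem h.toMS) m ⟨m, 1, by simp [ht' (e m), p1, p2]⟩)
    have := tri_le (S := S) ![(t * k) (e y₁) - e y₁, (t * k) (e y₂) - e y₂, (t * k) (e y₃) - e y₃,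
      (t * k) (e y₄) - e y₄, w] ![e (π y₁), e (π y₂), e (π y₃), e (π y₄), e m]
      (by
        intro i; fin_cases i
        exacts [z1 _ b1, z1 _ b2, z1 _ b3, z1 _ b4, hw'])
      (by
        intro i j hij
        fin_cases i <;> fin_cases j <;> first
          | exact absurd hij (by decide)
          | exact z2 _ _ (by tauto) (by first | exact π.injective.ne (by assumption) | tauto))
      (W := W) (by
        intro i; fin_cases i
        exacts [mW _, mW _, mW _, mW _, hw])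
    omega
  have inj := fun {x y} => π.injective.ne (a₁ := x) (a₂ := y)
  have q1 : π (π a) ≠ a := fun h1 => per a (Or.inl rfl) (by rw [h1, h1])
  have q2 : π (π b) ≠ b := fun h1 => per b (Or.inr rfl) (by rw [h1, h1])
  have q3 : ∀ a b, a ≠ b → π a ≠ a → π a ≠ b → π b ≠ a → π b ≠ b → π (π (π (π a))) ≠ a → π (π b) ≠ b →
      π (π a) ≠ b := by
    intro a b hab a1 a2 a3 a4 a5 a6 a7
    obtain ⟨m, hm⟩ := h.out [a, π a, b, π b, π (π b)]
    have := chain a (π a) b (π b) m a1 (inj a1) a4 (inj a4) a1 hab.symm a3 a2.symm (inj hab.symm) a4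
      (a7 ▸ hab.symm) a3 (by rwa [a7] at a5) (inj hab.symm) (inj a3) a6
    rw [a7] at this
    simp only [List.mem_cons, List.not_mem_nil, or_false] at hm this
    tauto
  have q4 := q3 a b hab a1 a2 a3 a4 (per a (Or.inl rfl)) q2
  have q5 := q3 b a hab.symm a4 a3 a2 a1 (per b (Or.inr rfl)) q1
  refine ⟨⟨q1, q4⟩, fun m => ?_⟩
  have := chain a (π a) b (π b) m a1 (inj a1) a4 (inj a4) a1 hab.symm a3 a2.symm (inj hab.symm) a4
    q1 a3 q5 (inj hab.symm) (inj a3) q2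
  simp only [List.mem_cons, List.not_mem_nil, or_false] at this ⊢
  tauto

theorem RG.mono_odd (h : RG S M e) (h2 : (2 : F) ≠ 0) {g : V ≃ₗ[F] V} (hg : g ∈ M) : Mono e g := by
  by_contra hM
  obtain ⟨a₀, -⟩ := h.out []
  obtain ⟨b₀, hb⟩ := h.out [a₀]
  have hab : a₀ ≠ b₀ := by rintro rfl; simp at hb
  obtain ⟨i₀, -, -, i1⟩ := h.exists_jp hab
  have ht : JC S M e (g * i₀ * g⁻¹) := (jc_e hab i1).conj h.toMS hg
  have hm : ¬ Mono e (g * i₀ * g⁻¹) := fun h' => hM (h.mono_of_jp h2 hg hab (i1.conj (h.le hg).1) h')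
  generalize g * i₀ * g⁻¹ = t at ht hm
  have htM := ht.mem h.toMS
  let I : Set (Equiv.Perm ι) := {π | ∃ k, JC S M e k ∧ ∀ i, ∃ c : F, (t * k) (e i) = c • e (π i)}
  have h3 : ∀ a b a' b', a ≠ b → a' ≠ b' → ∃ f ∈ I, (f a = a' ∨ f a = b') ∧ (f b = a' ∨ f b = b') := by
    intro a b a' b' hab hab'
    obtain ⟨i, -, -, i1⟩ := h.exists_jp hab
    obtain ⟨i', -, -, i2⟩ := h.exists_jp hab'
    obtain ⟨-, -, k, hk, e1⟩ := h.odd h2 hab i1 ((jc_e hab' i2).conj h.toMS htM)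
      fun h' => hm (h.mono_of_jp h2 htM hab' (i2.conj (h.le htM).1) h')
    have e2 : i' * (t * k) = t * k * i := by
      have t1 : t⁻¹ = t := inv_eq_of_mul_eq_one_left (ht.sq h.toMS)
      rw [t1] at e1
      calc i' * (t * k) = (t * t) * i' * t * k := by rw [ht.sq h.toMS]; group
        _ = t * (k * i * k) * k := by rw [e1]; group
        _ = t * k * i * (k * k) := by group
        _ = _ := by rw [hk.sq h.toMS, mul_one]
    have e3 : ∀ x, x = a ∨ x = b → ∀ m, m ≠ a' → m ≠ b' → S.B ((t * k) (e x)) (e m) = 0 := by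
      intro x hx m a1 a2
      have := i2.coord h.on hab' ((t * k) (e x)) m
      rw [← LinearEquiv.mul_apply i', e2, LinearEquiv.mul_apply _ i, show i (e x) = -e x from
        h.on.ext fun m => by
          rw [i1.coord h.on hab]
          by_cases hm : x = m
          · simp [← hm, hx]
          · simp [h.on.ne hm]] at this
      simp only [a1, a2, or_self, if_false, map_neg, PQ.B_neg_left] at this
      exact mul_left_cancel₀ h2 (by linear_combination -this)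
    obtain ⟨π, hπ⟩ := h.on.exists_perm (h.mono_of_cs (M.mul_mem htM (hk.mem h.toMS)) (j := a) (a := a')
      (b := b') (c := a') (d := b') fun m a1 a2 _ _ => e3 a (Or.inl rfl) m a1 a2)
    have e4 : ∀ x, x = a ∨ x = b → π x = a' ∨ π x = b' := fun x hx => by
      by_contra hc
      push Not at hc
      obtain ⟨c, ec⟩ := hπ x
      have := e3 x hx _ hc.1 hc.2
      rw [ec, PQ.B_smul_left, h.on.self, mul_one] at this
      exact h.on.coeff_ne ec this
    exact ⟨π, ⟨k, hk, hπ⟩, e4 a (Or.inl rfl), e4 b (Or.inr rfl)⟩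
  have h6 : Fintype.card ι = 6 := by
    obtain ⟨c, hc⟩ := h.out [a₀, b₀]
    obtain ⟨d, hd⟩ := h.out [a₀, b₀, c]
    simp only [List.mem_cons, List.not_mem_nil, or_false, not_or] at hc hd
    obtain ⟨π, ⟨k, hk, hπ⟩, p1, p2⟩ := h3 a₀ b₀ c d hab (Ne.symm hd.2.2)
    have := (h.ep h2 ht hk hm hπ hab (by rcases p1 with p | p <;> simp [p, hc, hd])
      (by rcases p1 with p | p <;> simp [p, hc, hd]) (by rcases p2 with p | p <;> simp [p, hc, hd])
      (by rcases p2 with p | p <;> simp [p, hc, hd])).2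
    refine le_antisymm (not_lt.1 fun hlt => ?_) h.six
    obtain ⟨x, hx⟩ := exists_notMem_list [a₀, b₀, π a₀, π b₀, π (π a₀), π (π b₀)] hlt
    exact hx (this x)
  refine no_ep_six h6 I ?_ ?_ h3
  · rintro π ⟨k, hk, hπ⟩ a b hab a1 a2 a3 a4
    exact (h.ep h2 ht hk hm hπ hab a1 a2 a3 a4).1
  · rintro π ⟨k, hk, hπ⟩ π' ⟨k', hk', hπ'⟩ a b hab a1 a2 a3 a4
    have t1 : t⁻¹ = t := inv_eq_of_mul_eq_one_left (ht.sq h.toMS)
    refine (h.ep h2 (hk.conj h.toMS htM) hk' (fun h' => hm ?_) (π := π * π') (fun i => ?_)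
      hab a1 a2 a3 a4).1
    · rw [t1] at h'
      exact h.on.mono_of_mul (fun i => ⟨π i, hπ i⟩) h'
    · obtain ⟨c, ec⟩ := hπ' i
      obtain ⟨c', ec'⟩ := hπ (π' i)
      refine ⟨c * c', ?_⟩
      rw [t1, mul_assoc (t * k), LinearEquiv.mul_apply, ec, map_smul, ec', smul_smul]; rfl

end Cfsg.Agent.H6.SU
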