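import Cfsg.Agent.H6.SUMono2

/-!
The monomial subgroup is maximal in `SU_n(q)`.
-/

set_option autoImplicit false
set_option linter.unusedSectionVars false
set_option linter.unusedVariables false

namespace Cfsg.Agent.H6.SU

open Module Cfsg.Agent.Form Cfsg.Agent.H7
open scoped MatrixGroups

section abstract

variable {F : Type*} [Field F] {σ : F →+* F} {hσ : ∀ a, σ (σ a) = a}
  {V : Type*} [AddCommGroup V] [Module F V] {S : PQ (FP.unit σ hσ) V} {M : Subgroup (V ≃ₗ[F] V)}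
  {ι : Type*} [Fintype ι] [DecidableEq ι] {e : ι → V} [FiniteDimensional F V] [Finite F]

theorem MS.ht_pair (h : MS S M e) (h2 : (2 : F) = 0) {k l : ι} (hkl : k ≠ l) {α : F}
    (hα : α * σ α = 1) : S.B (e k + α • e l) (e k + α • e l) = 0 ∧ HT S M (e k + α • e l) 1 := by
  have h1 : S.B (e k + α • e l) (e k + α • e l) = 0 := by
    simp [h.on.self, h.on.ne hkl, h.on.ne hkl.symm]; linear_combination h2 + hα
  have h3 := tauOK_of h1 (c := 1) (by rw [map_one]; linear_combination h2)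
  refine ⟨h1, ht_of_tau (h' := h3) (h.mem _ (tau_mem_sisom S (sing h1) _ _) fun i => ?_)⟩
  by_cases a1 : i = k
  · refine ⟨l, α, ?_⟩
    simp only [a1, PQ.tau_apply, PQ.B_add_right, Bsr, h.on.self, h.on.ne hkl]
    match_scalars
    · linear_combination h2
    · ring
  by_cases a2 : i = l
  · refine ⟨k, σ α, ?_⟩
    simp only [a2, PQ.tau_apply, PQ.B_add_right, Bsr, h.on.self, h.on.ne hkl.symm]
    match_scalars
    · linear_combination h2 + hα
    · ring
  · exact ⟨i, 1, by simp [h.on.ne a1, h.on.ne a2]⟩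

theorem MS.cs_of_zero (h : MS S M e) (hR : Rigid M e) {w : V} (hw : HT S M w 1) {m : ι}
    (h0 : S.B w (e m) = 0) : ∃ k l, ∀ i, i ≠ k → i ≠ l → S.B w (e i) = 0 := by
  obtain ⟨g, hg, e1⟩ := hw
  by_cases hw0 : w = 0
  · exact ⟨m, m, fun i _ _ => by simp [hw0]⟩
  obtain ⟨k, hk⟩ := h.on.exists_ne hw0
  obtain ⟨l, c, e2⟩ := hR g hg m ⟨m, 1, by simp [e1, S.B_comm_zero h0]⟩ k
  refine ⟨k, l, fun i a1 a2 => ?_⟩
  have := congrArg (fun x => S.B x (e i)) e2
  simpa [e1, h.on.ne a1.symm, h.on.ne a2.symm, ne_swap hk] using this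

theorem exists_ht_add (hM : M ≤ sisom S) (h2 : (2 : F) = 0) {w w' : V} (hw : S.B w w = 0)
    (hw' : S.B w' w' = 0) (h1 : HT S M w 1) (h1' : HT S M w' 1) (hβ : S.B w w' = S.B w' w)
    (hβ0 : S.B w' w ≠ 0) : ∃ (u : V) (γ : F), HT S M u 1 ∧ w + w' = γ • u := by
  have neg : ∀ x : V, -x = x := fun x => by
    rw [neg_eq_iff_add_eq_zero, ← two_smul F, h2, zero_smul]
  obtain ⟨i, hi, e1⟩ := h1
  obtain ⟨j, hj, e2⟩ := h1'
  have sq : ∀ (x : V ≃ₗ[F] V) u, S.B u u = 0 → (∀ y, x y = y + (1 * S.B y u) • u) → x * x = 1 := by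
    intro x u hu e1
    ext y
    simp only [LinearEquiv.mul_apply, e1, PQ.B_add_left, PQ.B_smul_left, hu, LinearEquiv.coe_one, id]
    match_scalars
    · ring
    · linear_combination (S.B y u) * h2
  have hw0 : w ≠ 0 := by rintro rfl; simp at hβ0
  have hw0' : w' ≠ 0 := by rintro rfl; simp at hβ0
  set β := S.B w' w with hβ'
  have hσβ : σ β = β := by rw [hβ', Bs, hβ]
  rcases dihedral (M := M) (fun x => x ∈ M ∧ ∃ u, S.B u u = 0 ∧ ∀ y, x y = y + (1 * S.B y u) • u)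
    (by
      rintro g hg x ⟨hx, u, hu, e1⟩
      have hgi := (hM hg).1
      refine ⟨M.mul_mem (M.mul_mem hg hx) (M.inv_mem hg), g u, by rw [PQ.B_isom hgi, hu], fun y => ?_⟩
      have : S.B y (g u) = S.B (g.symm y) u := by rw [← PQ.B_isom hgi (g.symm y)]; simp
      simp [LinearEquiv.mul_apply, e1, this]) hi hj ⟨hi, w, hw, e1⟩ ⟨hj, w', hw', e2⟩ (sq i w hw e1)
    (sq j w' hw' e2) (fin_order _) with ⟨-, -, k, ⟨hk, u, hu, e3⟩, e4⟩ | ⟨k, ⟨hk, u, hu, e3⟩, k1, k2, k3⟩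
  · refine ⟨u, S.B w u, ⟨k, hk, e3⟩, ?_⟩
    have p : ∀ y, S.B (k y) w • k w = S.B y w' • w' := fun y => by
      have := LinearEquiv.congr_fun e4 y
      rw [LinearEquiv.mul_apply, LinearEquiv.mul_apply, e1, map_add, map_smul, e2,
        ← LinearEquiv.mul_apply k k, sq k u hu e3] at this
      simpa using this
    have p1 := p w
    have p2 := p (k w')
    rw [← LinearEquiv.mul_apply k k, sq k u hu e3, LinearEquiv.coe_one, id, ← hβ'] at p2
    rw [hβ] at p1
    have n1 : S.B (k w) w = S.B w u * σ (S.B w u) := by simp [e3, hw, Bs]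
    have n2 : S.B (k w) w ≠ 0 := fun h0 => by
      rw [h0, zero_smul] at p1; exact smul_ne_zero hβ0 hw0' p1.symm
    have n3 : k w = (β / S.B (k w) w) • w' := by
      rw [div_eq_inv_mul, mul_smul, ← p1, smul_smul, inv_mul_cancel₀ n2, one_smul]
    have n4 : σ (β / S.B (k w) w) = β / S.B (k w) w := by
      rw [map_div₀, hσβ, n1, map_mul, hσ, mul_comm]
    generalize β / S.B (k w) w = l at n3 n4
    have n5 := p w
    have n6 := (PQ.B_isom (hM hk).1 w (k w)).symm
    rw [← LinearEquiv.mul_apply k k, sq k u hu e3, LinearEquiv.coe_one, id] at n6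
    rw [← n6, n3, Bsr, n4, hβ, smul_smul] at n5
    have n7 : (l - 1) ^ 2 = 0 := mul_left_cancel₀ hβ0 (by
      linear_combination (smul_left_injective F hw0' n5) + (β - β * l) * h2)
    rw [sub_eq_zero.1 (pow_eq_zero_iff two_ne_zero |>.1 n7), one_smul, e3] at n3
    rw [← n3, ← add_assoc, ← two_smul F, h2]; simp
  · exfalso
    have p1 := LinearEquiv.congr_fun k2.eq w
    simp only [LinearEquiv.mul_apply, e1, e3, hw, PQ.B_add_left, PQ.B_smul_left] at p1
    have p2 : S.B w u = 0 := by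
      by_contra h0
      simp [h0, ne_swap h0, hw0] at p1
    have p3 := LinearEquiv.congr_fun k3.eq w
    simp only [LinearEquiv.mul_apply, e1, e2, e3, hw, PQ.B_add_left, PQ.B_smul_left, p2, hβ, ← hβ'] at p3
    have p4 : β • w + S.B w' u • u = 0 := smul_right_injective V hβ0 (by
      linear_combination (norm := module) p3)
    have p5 : S.B w' u ≠ 0 := fun h0 => by simp [h0, hβ0, hw0] at p4
    have p6 : u = (β / S.B w' u) • w := by
      rw [div_eq_inv_mul, mul_smul, eq_neg_of_add_eq_zero_left p4, neg, smul_smul, inv_mul_cancel₀ p5,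
        one_smul]
    have p7 := congrArg (fun x => S.B w' x) p6
    simp only [Bsr, ← hβ'] at p7
    have p8 : β / S.B w' u * σ (β / S.B w' u) = 1 := by
      rw [mul_comm, mul_div_assoc', ← p7, div_self p5]
    generalize β / S.B w' u = l at p6 p8
    refine k1 (LinearEquiv.ext fun y => ?_)
    simp only [LinearEquiv.mul_apply, e1, e3, p6, hw, PQ.B_add_left, PQ.B_smul_left, Bsr,
      LinearEquiv.coe_one, id]
    match_scalars
    · ring
    · linear_combination (S.B y w) * h2 + (S.B y w) * p8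

theorem RG.not_full_aux (h : RG S M e) (h2 : (2 : F) = 0) {w : V} (hw : S.B w w = 0) (h1 : HT S M w 1)
    (h0 : ∀ i, S.B w (e i) ≠ 0) {k l k' l' : ι} (a1 : k ≠ l) (a2 : k ≠ k') (a3 : k ≠ l') (a4 : l ≠ k')
    (a5 : l ≠ l') (a6 : k' ≠ l') {n : ι → F} (hn : ∀ i, n i = S.B w (e i) * σ (S.B w (e i)))
    (hc : (n k = n l ∧ n k' = n l') ∨ (n k ≠ n l ∧ n k' ≠ n l')) : False := by
  have nr : ∀ i, σ (n i) = n i := fun i => by rw [hn, map_mul, hσ, mul_comm]
  have n0 : ∀ i, n i ≠ 0 := fun i => by rw [hn]; exact mul_ne_zero (h0 i) (σ_ne (h0 i))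
  obtain ⟨a, b, ha, hb, ha1, hb1, e1, e2⟩ : ∃ a b : F, a * σ a = 1 ∧ b * σ b = 1 ∧ a ≠ 1 ∧ b ≠ 1 ∧
      (n k + n l) * (a + σ a) = (n k' + n l') * (b + σ b) ∧
      (a - 1) * n k + (σ a - 1) * n l + (b - 1) * n k' + (σ b - 1) * n l' ≠ 0 := by
    rcases hc with ⟨c1, c2⟩ | ⟨c1, c2⟩
    · obtain ⟨a, b, c, ha, hb, hc, ha1, hb1, hc1, hab, hac, hbc⟩ := exists_three_norm_one hσ h.ne h.three
      by_contra hcon
      push Not at hcon
      have key : ∀ b, b * σ b = 1 → b ≠ 1 → (a + σ a) * n k + (b + σ b) * n k' = 0 := fun b hb hb1 => by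
        have := hcon a b ha hb ha1 hb1 (by
          rw [← c1, ← c2]; linear_combination (n k * (a + σ a) - n k' * (b + σ b)) * h2)
        rw [← c1, ← c2] at this
        linear_combination this + (n k + n k') * h2
      have key2 : ∀ b, b * σ b = 1 → b ≠ 1 → b ≠ a → b = σ a := fun b hb hb1 hba => by
        have := mul_right_cancel₀ (n0 k') (show (b + σ b) * n k' = (a + σ a) * n k' by
          linear_combination key b hb hb1 - key a ha ha1)
        exact sub_eq_zero.1 (mul_left_cancel₀ (sub_ne_zero.2 hba) (by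
          linear_combination b * this - hb + ha))
      exact hbc ((key2 b hb hb1 hab.symm).trans (key2 c hc hc1 hac.symm).symm)
    · have d1 : n k + n l ≠ 0 := fun h0 => c1 (by linear_combination h0 - n l * h2)
      have d2 : n k' + n l' ≠ 0 := fun h0 => c2 (by linear_combination h0 - n l' * h2)
      obtain ⟨a, b, ha, hb, ha1, hb1, e1⟩ := exists_norm_match hσ h.ne (α := n k + n l)
        (β := n k' + n l') (by rw [map_add, nr, nr]) (by rw [map_add, nr, nr]) d1 d2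
      have e2 : (n k + n l) * (a + σ a) = (n k' + n l') * (b + σ b) := by
        linear_combination -e1 + (n k + n l - n k' - n l') * h2
      by_cases e3 : (a - 1) * n k + (σ a - 1) * n l + (b - 1) * n k' + (σ b - 1) * n l' = 0
      · refine ⟨σ a, b, by rw [hσ, mul_comm, ha], hb, fun h0 => ha1 (by rw [← hσ a, h0]; simp), hb1,
          by rw [hσ, add_comm (σ a), e2], fun e4 => ha1 ?_⟩
        rw [hσ] at e4
        have e5 : a + σ a = 0 := mul_left_cancel₀ d1 (by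
          linear_combination e3 - e4 + (σ a * n k + a * n l) * h2)
        have e6 : (a - 1) ^ 2 = 0 := by linear_combination a * e5 - ha - a * h2
        exact sub_eq_zero.1 (pow_eq_zero_iff two_ne_zero |>.1 e6)
      · exact ⟨a, b, ha, hb, ha1, hb1, e2, e3⟩
  obtain ⟨t, ht, ht', -, et⟩ := h.exists_tor a1 ha
  obtain ⟨s, hs, hs', -, es⟩ := h.exists_tor a6 hb
  have e3 : s (t w) = w + (((a - 1) * S.B w (e k)) • e k + ((σ a - 1) * S.B w (e l)) • e l +
      ((b - 1) * S.B w (e k')) • e k' + ((σ b - 1) * S.B w (e l')) • e l') := by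
    rw [es, et]
    simp only [PQ.B_add_left, PQ.B_smul_left, h.on.ne a2, h.on.ne a3, h.on.ne a4, h.on.ne a5]
    module
  have e4 : S.B (s (t w)) w =
      (a - 1) * n k + (σ a - 1) * n l + (b - 1) * n k' + (σ b - 1) * n l' := by
    rw [e3]; simp only [PQ.B_add_left, PQ.B_smul_left, hw, hn, ← Bs S w (e _)]; ring
  obtain ⟨u, γ, hu, e5⟩ := exists_ht_add h.le h2 hw (w' := s (t w))
    (by rw [PQ.B_isom hs', PQ.B_isom ht', hw]) h1 ((h1.conj ht ht').conj hs hs') (by
      rw [← Bs, e4]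
      simp only [map_add, map_mul, map_sub, map_one, nr, hσ]
      linear_combination e1 + (-(a * n k) - σ a * n l + σ b * n k' + b * n l') * h2) (e4 ▸ e2)
  rw [e3, ← add_assoc, ← two_smul F, h2, zero_smul, zero_add] at e5
  have p := fun i => congrArg (fun x => S.B x (e i)) e5
  have b1 : σ a - 1 ≠ 0 := fun h0 => ha1 (by rw [← hσ a, sub_eq_zero.1 h0, map_one])
  have p1 := p k
  have p2 := p l
  have p3 := p k'
  obtain ⟨m, hm⟩ := h.out [k, l, k', l']
  simp only [List.mem_cons, List.not_mem_nil, or_false, not_or] at hm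
  have p4 := p m
  simp only [PQ.B_add_left, PQ.B_smul_left, h.on.B_e, a1, a2, a3, a4, a5, a6, a1.symm, a2.symm, a3.symm,
    a4.symm, a5.symm, a6.symm, if_true, if_false, mul_zero, mul_one, add_zero, zero_add, Ne.symm hm.1,
    Ne.symm hm.2.1, Ne.symm hm.2.2.1, Ne.symm hm.2.2.2] at p1 p2 p3 p4
  have q1 := p1 ▸ mul_ne_zero (sub_ne_zero.2 ha1) (h0 k)
  have q2 := p2 ▸ mul_ne_zero b1 (h0 l)
  have q3 := p3 ▸ mul_ne_zero (sub_ne_zero.2 hb1) (h0 k')
  obtain ⟨x, y, hxy⟩ := h.cs_of_zero h.rig hu (m := m)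
    ((mul_eq_zero.1 p4.symm).resolve_left (left_ne_zero_of_mul q1))
  have r : ∀ i, γ * S.B u (e i) ≠ 0 → i = x ∨ i = y := fun i hi => by
    by_contra hc; push Not at hc; exact hi (by rw [hxy i hc.1 hc.2, mul_zero])
  rcases r k q1 with rfl | rfl <;> rcases r l q2 with h5 | h5 <;> rcases r k' q3 with h6 | h6 <;>
    simp_all

theorem RG.not_full (h : RG S M e) (h2 : (2 : F) = 0) {w : V} (hw : S.B w w = 0) (h1 : HT S M w 1) :
    ∃ i, S.B w (e i) = 0 := by
  by_contra h0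
  push Not at h0
  obtain ⟨n, hn⟩ : ∃ n : ι → F, ∀ i, n i = S.B w (e i) * σ (S.B w (e i)) := ⟨_, fun _ => rfl⟩
  have key := fun {k l k' l'} a1 a2 a3 a4 a5 a6 => h.not_full_aux h2 hw h1 h0 (k := k) (l := l) (k' := k')
    (l' := l') a1 a2 a3 a4 a5 a6 hn
  have main : ∀ a b c d, a ≠ b → a ≠ c → a ≠ d → b ≠ c → b ≠ d → c ≠ d → n a = n b → n c ≠ n d →
      n a = n c → False := by
    intro a b c d a1 a2 a3 a4 a5 a6 e1 e2 e3
    obtain ⟨m, hm⟩ := h.out [a, b, c, d]
    simp only [List.mem_cons, List.not_mem_nil, or_false, not_or] at hm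
    by_cases e4 : n m = n a
    · exact key a1 a2 (Ne.symm hm.1) a4 (Ne.symm hm.2.1) (Ne.symm hm.2.2.1) (Or.inl ⟨e1, by rw [e4, e3]⟩)
    · exact key a3 a1 (Ne.symm hm.1) a5.symm (Ne.symm hm.2.2.2) (Ne.symm hm.2.1)
        (Or.inr ⟨by rwa [e3], by rw [← e1]; exact Ne.symm e4⟩)
  have main2 : ∀ a b c d, a ≠ b → a ≠ c → a ≠ d → b ≠ c → b ≠ d → c ≠ d → n a = n b → n c ≠ n d →
      False := by
    intro a b c d a1 a2 a3 a4 a5 a6 e1 e2
    by_cases e3 : n a = n c
    · exact main a b c d a1 a2 a3 a4 a5 a6 e1 e2 e3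
    by_cases e4 : n a = n d
    · exact main a b d c a1 a3 a2 a5 a4 a6.symm e1 e2.symm e4
    · exact key a2 a1 a3 a4.symm a6 a5 (Or.inr ⟨e3, by rwa [← e1]⟩)
  obtain ⟨a, -⟩ := h.out []
  obtain ⟨b, hb⟩ := h.out [a]
  obtain ⟨c, hc⟩ := h.out [a, b]
  obtain ⟨d, hd⟩ := h.out [a, b, c]
  simp only [List.mem_cons, List.not_mem_nil, or_false, not_or] at hb hc hd
  have a1 := Ne.symm hb
  have a2 := Ne.symm hc.1
  have a3 := Ne.symm hd.1
  have a4 := Ne.symm hc.2
  have a5 := Ne.symm hd.2.1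
  have a6 := Ne.symm hd.2.2
  by_cases e1 : n a = n b <;> by_cases e2 : n c = n d
  · exact key a1 a2 a3 a4 a5 a6 (Or.inl ⟨e1, e2⟩)
  · exact main2 a b c d a1 a2 a3 a4 a5 a6 e1 e2
  · exact main2 c d a b a6 a2.symm a4.symm a3.symm a5.symm a1 e2 e1
  · exact key a1 a2 a3 a4 a5 a6 (Or.inr ⟨e1, e2⟩)

theorem RG.mono_even (h : RG S M e) (h2 : (2 : F) = 0) {g : V ≃ₗ[F] V} (hg : g ∈ M) : Mono e g := by
  have hgi := (h.le hg).1
  obtain ⟨k, -⟩ := h.out []
  obtain ⟨l, hl⟩ := h.out [k]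
  have hkl : k ≠ l := by rintro rfl; simp at hl
  have key : ∀ α : F, α * σ α = 1 → ∃ a b, ∀ i, i ≠ a → i ≠ b →
      S.B (g (e k)) (e i) + α * S.B (g (e l)) (e i) = 0 := by
    intro α hα
    obtain ⟨h1, h3⟩ := h.ht_pair h2 hkl hα
    obtain ⟨m, hm⟩ := h.not_full h2 (by rw [PQ.B_isom hgi, h1]) (h3.conj hg hgi)
    simpa using h.cs_of_zero h.rig (h3.conj hg hgi) hm
  obtain ⟨δ, d1, d2⟩ := exists_norm_one_ne h.ne hσ
  obtain ⟨a, b, h1⟩ := key 1 (by simp)
  obtain ⟨c, d, h3⟩ := key δ d1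
  exact h.mono_of_cs hg (j := l) fun m a1 a2 a3 a4 =>
    mul_left_cancel₀ (show δ - 1 ≠ 0 from fun h => d2 (by rw [sub_eq_zero.1 h, map_one]))
      (by linear_combination h3 m a3 a4 - h1 m a1 a2)

theorem MS.max_three (hne : ∃ a, σ a ≠ a) (h3 : ∃ a : F, σ a = a ∧ a ≠ 0 ∧ a ≠ 1) (h : MS S M e)
    (hn : 6 ≤ Fintype.card ι) : (∀ g ∈ M, Mono e g) ∨ sisom S ≤ M := by
  refine (h.rigid_or hne h3 (by omega)).imp_left fun hR g hg => ?_
  by_cases h2 : (2 : F) = 0
  · exact RG.mono_even ⟨h, hne, h3, hR, hn⟩ h2 hg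
  · exact RG.mono_odd ⟨h, hne, h3, hR, hn⟩ h2 hg

theorem Full.ef4 (hne : ∃ a, σ a ≠ a) {U : Submodule F V} (hU : S.NondegOn U) (h4 : 4 ≤ finrank F U)
    (h : Full S M U) : EF S M U := by
  intro d hd w hw q hq
  obtain ⟨h1, h2, h3⟩ := eichOK_iff.1 hq
  have key : ∀ w ∈ U, S.B w d = 0 → S.B w w = 0 → Ei S M d w := fun w hw a1 a2 =>
    ei_of_ctr hne h1 a1 (h w hw a2) fun a _ => h _ (U.add_mem hd (U.smul_mem _ hw))
      (by simp [h1, a1, a2, S.B_comm_zero a1])
  refine Ei.he ?_ (h d hd h1) h3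
  by_cases hs : S.B w w = 0
  · exact key w hw h2 hs
  obtain ⟨u, hu, hus, huw⟩ := (trP hne).exists_sing_perp_ne' hU.restrict (X := F ∙ (⟨d, hd⟩ : U))
    (v := ⟨w, hw⟩) (fun hm => by
      obtain ⟨a, ha⟩ := Submodule.mem_span_singleton.1 hm
      exact hs (by rw [show w = a • d from (congrArg Subtype.val ha).symm]; simp [h1])) (by
    have := finrank_span_singleton_le (F := F) (⟨d, hd⟩ : U); omega)
  have hud : S.B u d = 0 := (S.restrict U).mem_perp_span_singleton.1 hu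
  obtain ⟨a, ha⟩ := S.exists_sing_add (d := u) hus (z := w) (fun h' => huw (S.B_comm_zero h')) 0
  have := (key _ (U.add_mem hw (U.smul_mem a u.2)) (by simp [h2, hud])
    (sing_of_zero_sub ha).B_self).sub (key _ (U.smul_mem a u.2) (by simp [hud])
      (PQ.Sing.smul hus a).B_self)
  simpa using this

/-- the case `q = 2` -/
structure TW (S : PQ (FP.unit σ hσ) V) (M : Subgroup (V ≃ₗ[F] V)) (e : ι → V) : Prop
    extends MS S M e where
  ne : ∃ a, σ a ≠ a
  real : ∀ a : F, σ a = a → a ≠ 0 → a = 1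
  seven : 7 ≤ Fintype.card ι

theorem TW.two (h : TW S M e) : (2 : F) = 0 := by
  by_contra h2
  exact one_ne_zero (α := F) (by linear_combination h.real 2 (map_ofNat σ 2) h2)

theorem TW.norm (h : TW S M e) {a : F} (ha : a ≠ 0) : a * σ a = 1 :=
  h.real _ (by rw [map_mul, hσ, mul_comm]) (mul_ne_zero ha (σ_ne ha))

theorem TW.out (h : TW S M e) (l : List ι) (hl : l.length ≤ 6 := by simp) : ∃ x, x ∉ l :=
  exists_notMem_list l (by have := h.seven; omega)

theorem TW.exists_omega (h : TW S M e) : ∃ δ : F, δ * σ δ = 1 ∧ δ + σ δ = 1 ∧ δ ≠ 1 ∧ σ δ ≠ 1 := by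
  obtain ⟨δ, d1, d2⟩ := exists_norm_one_ne h.ne hσ
  exact ⟨δ, d1, h.real _ (by rw [map_add, hσ, add_comm]) fun h0 => d2 (by
    linear_combination h0 - δ * h.two), by rintro rfl; simp at d2,
    fun h0 => d2 (by rw [← hσ δ, h0]; simp)⟩

theorem TW.ctr_pair (h : TW S M e) {k l : ι} (hkl : k ≠ l) {α : F} (hα : α * σ α = 1) :
    Ctr S M (e k + α • e l) := by
  obtain ⟨h1, h2⟩ := h.ht_pair h.two hkl hα
  refine ctr_iff.2 ⟨h1, fun c hc => ?_⟩
  by_cases h0 : c = 0
  · rw [h0]; exact ht_zero _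
  · rwa [h.real c (by linear_combination hc - c * h.two) h0]

theorem TW.exists_fourth (h : TW S M e) {w : V} (hw : S.B w w = 0) {a b c : ι} (hab : a ≠ b)
    (hac : a ≠ c) (hbc : b ≠ c) (ha : S.B w (e a) ≠ 0) (hb : S.B w (e b) ≠ 0) (hc : S.B w (e c) ≠ 0) :
    ∃ d, d ∉ ({a, b, c} : Finset ι) ∧ S.B w (e d) ≠ 0 := by
  by_contra hcon
  push Not at hcon
  rw [h.on.B_cs (s := {a, b, c}) hcon, Finset.sum_insert (by simp [hab, hac]), Finset.sum_pair hbc,
    h.norm ha, h.norm hb, h.norm hc] at hw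
  exact one_ne_zero (α := F) (by linear_combination hw - h.two)

theorem TW.top_of_four (h : TW S M e) {w : V} (hw : Ctr S M w) {a b c d m : ι} (hab : a ≠ b)
    (hac : a ≠ c) (had : a ≠ d) (hbc : b ≠ c) (hbd : b ≠ d) (hcd : c ≠ d) (ha : S.B w (e a) ≠ 0)
    (hb : S.B w (e b) ≠ 0) (hc : S.B w (e c) ≠ 0) (hd : S.B w (e d) ≠ 0) (hm : S.B w (e m) = 0) :
    sisom S ≤ M := by
  obtain ⟨δ, d1, d2, d3, d4⟩ := h.exists_omega
  have dg : ∀ t : ι → F, (∀ i, t i * σ (t i) = 1) → ∀ z y, Ctr S M z → S.B z (e m) = 0 →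
      (∀ i, S.B y (e i) = t i * S.B z (e i)) → Ctr S M y := fun t ht z y hz h0 hy => by
    obtain ⟨g, hg, hg', e1⟩ := h.on.exists_dg t ht
    rw [h.on.ext (x := y) (y := g z) fun i => by rw [hy, e1]]
    exact h.ctr_map hg hg' hz h0
  set z := ((δ - 1) * S.B w (e a)) • e a + ((δ - 1) * S.B w (e b)) • e b +
    ((δ - 1) * S.B w (e c)) • e c + ((σ δ - 1) * S.B w (e d)) • e d with hz
  have z1 : S.B z w = 1 := by
    simp only [hz, PQ.B_add_left, PQ.B_smul_left, ← Bs S w (e _), mul_assoc, h.norm ha, h.norm hb,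
      h.norm hc, h.norm hd]
    linear_combination d2 + (δ - 2) * h.two
  have z2 : ∀ i, S.B z (e i) =
      ((if i = d then σ δ else if i ∈ ({a, b, c} : Finset ι) then δ else 1) - 1) * S.B w (e i) := by
    intro i
    by_cases i1 : i = a
    · simp [hz, i1, h.on.B_e, had, hab.symm, hac.symm, had.symm]
    by_cases i2 : i = b
    · simp [hz, i2, h.on.B_e, hbd, hab, hbc.symm, hbd.symm]
    by_cases i3 : i = c
    · simp [hz, i3, h.on.B_e, hcd, hac, hbc, hcd.symm]
    by_cases i4 : i = d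
    · simp [hz, i4, h.on.B_e, had, hbd, hcd]
    · simp [hz, h.on.B_e, i1, i2, i3, i4, Ne.symm i1, Ne.symm i2, Ne.symm i3, Ne.symm i4]
  have c1 := dg (fun i => if i = d then σ δ else if i ∈ ({a, b, c} : Finset ι) then δ else 1)
    (fun i => by split_ifs <;> simp [d1, hσ, mul_comm]) w (w + z) hw hm
    (fun i => by rw [PQ.B_add_left, z2]; ring)
  have c2 : Ctr S M z := by
    have e1 : S.B w z = 1 := by rw [← Bs, z1, map_one]
    have e2 : w + z + w = z := by rw [add_right_comm, ← two_smul F, h.two]; simp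
    have e3 := c1.1.B_self
    simp only [PQ.B_add_left, PQ.B_add_right, z1, e1, hw.1.B_self] at e3
    have := Ctr.add1 c1 hw (by simp [z1, hw.1.B_self]) (by rw [e2]; linear_combination e3 - h.two)
    rwa [e2] at this
  have z3 : ∀ i ∈ ({a, b, c, d} : Finset ι), S.B z (e i) ≠ 0 := by
    intro i hi
    simp only [Finset.mem_insert, Finset.mem_singleton] at hi
    rw [z2]
    clear hz
    rcases hi with rfl | rfl | rfl | rfl <;> simp [sub_eq_zero, *]
  have hms : m ∉ ({a, b, c, d} : Finset ι) := fun hi => z3 m hi (by rw [z2, hm, mul_zero])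
  have h7 := h.seven
  have hcard : ({a, b, c, d} : Finset ι).card = 4 := by
    rw [Finset.card_insert_of_notMem (by simp [hab, hac, had]), Finset.card_eq_three.2 ⟨b, c, d, hbc, hbd,
      hcd, rfl⟩]
  refine h.top_of_ef h.ne (by omega) (s := {a, b, c, d}) (by omega)
    (Full.ef4 h.ne (h.on.cs_nd _) (by rw [h.on.cs_finrank, hcard]) fun y hy hyy => ?_)
  by_cases hy' : ∀ i ∈ ({a, b, c, d} : Finset ι), S.B y (e i) ≠ 0
  · refine dg (fun i => if i ∈ ({a, b, c, d} : Finset ι) then S.B y (e i) / S.B z (e i) else 1)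
      (fun i => ?_) z y c2 (by rw [z2, hm, mul_zero]) fun i => ?_
    · split_ifs with hi
      · exact h.norm (div_ne_zero (hy' i hi) (z3 i hi))
      · simp
    · split_ifs with hi
      · rw [div_mul_cancel₀ _ (z3 i hi)]
      · rw [hy i hi]
        simp only [Finset.mem_insert, Finset.mem_singleton, not_or] at hi
        simp [z2, hi]
  push Not at hy'
  obtain ⟨i, hi, hi'⟩ := hy'
  obtain ⟨k, l, j, a1, a2, a3, e1⟩ := Finset.card_eq_three.1
    (show (({a, b, c, d} : Finset ι).erase i).card = 3 by rw [Finset.card_erase_of_mem hi, hcard])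
  refine h.full_of_ctr h.ne a1 a2 a3 (m := i) (by rw [← e1]; simp) (h.ctr_pair a1 (α := 1) (by simp))
    (add_mem (h.on.e_mem (by simp)) (Submodule.smul_mem _ _ (h.on.e_mem (by simp))))
    (by simp [h.on.B_e, a1.symm]) (by simp [h.on.B_e, a1]) y (fun x hx => ?_) hyy
  by_cases hxi : x = i
  · rw [hxi, hi']
  · exact hy x fun hm => hx (e1 ▸ Finset.mem_erase.2 ⟨hxi, hm⟩)

theorem TW.top_of_three (h : TW S M e) {w : V} (hw : Ctr S M w) {a b c : ι} (hab : a ≠ b)
    (hac : a ≠ c) (hbc : b ≠ c) (ha : S.B w (e a) ≠ 0) (hb : S.B w (e b) ≠ 0) (hc : S.B w (e c) ≠ 0) :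
    sisom S ≤ M := by
  obtain ⟨d, hd', hd⟩ := h.exists_fourth hw.1.B_self hab hac hbc ha hb hc
  simp only [Finset.mem_insert, Finset.mem_singleton, not_or] at hd'
  by_cases h0 : ∃ m, S.B w (e m) = 0
  · obtain ⟨m, hm⟩ := h0
    exact h.top_of_four hw hab hac (Ne.symm hd'.1) hbc (Ne.symm hd'.2.1) (Ne.symm hd'.2.2) ha hb hc hd hm
  push Not at h0
  obtain ⟨x, hx⟩ := h.out [a, b, c, d]
  obtain ⟨y, hy⟩ := h.out [a, b, c, d, x]
  obtain ⟨m, hm⟩ := h.out [a, b, c, d, x, y]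
  simp only [List.mem_cons, List.not_mem_nil, or_false, not_or] at hx hy hm
  obtain ⟨δ, d1, d2, d3, d4⟩ := h.exists_omega
  obtain ⟨t, ht, ht', -, et⟩ := h.exists_tor (Ne.symm hd'.1) d1
  obtain ⟨s, hs, hs', -, es⟩ := h.exists_tor (Ne.symm hx.2.1) d1
  obtain ⟨r, hr, hr', -, er⟩ := h.exists_tor (Ne.symm hy.2.2.1) d1
  set z := ((δ - 1) * S.B w (e a)) • e a + ((σ δ - 1) * S.B w (e d)) • e d +
    ((δ - 1) * S.B w (e b)) • e b + ((σ δ - 1) * S.B w (e x)) • e x +
    ((δ - 1) * S.B w (e c)) • e c + ((σ δ - 1) * S.B w (e y)) • e y with hz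
  have c1 : Ctr S M (w + z) := by
    convert ((hw.map ht ht').map hs hs').map hr hr' using 1
    rw [er, es, et]
    simp only [hz, PQ.B_add_left, PQ.B_smul_left, h.on.B_e, hab, hac, hbc, hd', Ne.symm hx.1, hx,
      Ne.symm hx.2.2.2, Ne.symm hy.1, Ne.symm hy.2.1, Ne.symm hy.2.2.2.1, Ne.symm hy.2.2.2.2, if_false]
    module
  have z1 : S.B z w = 1 := by
    simp only [hz, PQ.B_add_left, PQ.B_smul_left, ← Bs S w (e _), mul_assoc, h.norm (h0 _)]
    linear_combination 3 * d2 - 2 * h.two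
  have c2 : Ctr S M z := by
    have e1 : S.B w z = 1 := by rw [← Bs, z1, map_one]
    have e2 : w + z + w = z := by rw [add_right_comm, ← two_smul F, h.two]; simp
    have e3 := c1.1.B_self
    simp only [PQ.B_add_left, PQ.B_add_right, z1, e1, hw.1.B_self] at e3
    have := Ctr.add1 c1 hw (by simp [z1, hw.1.B_self]) (by rw [e2]; linear_combination e3 - h.two)
    rwa [e2] at this
  refine h.top_of_four c2 hab hac (Ne.symm hd'.1) hbc (Ne.symm hd'.2.1) (Ne.symm hd'.2.2) (m := m)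
    ?_ ?_ ?_ ?_ ?_
  · simp [hz, h.on.B_e, hd', hab.symm, hx, hac.symm, hy, sub_eq_zero, d3, h0]
  · simp [hz, h.on.B_e, hd', hab, hx, hbc.symm, hy, sub_eq_zero, d3, h0]
  · simp [hz, h.on.B_e, hd', hac, hx, hbc, hy, sub_eq_zero, d3, h0]
  · simp [hz, h.on.B_e, Ne.symm hd'.1, Ne.symm hd'.2.1, Ne.symm hd'.2.2, hx, hy, sub_eq_zero, d4, h0]
  · simp [hz, h.on.B_e, Ne.symm hm.1, Ne.symm hm.2.1, Ne.symm hm.2.2.1, Ne.symm hm.2.2.2.1,
      Ne.symm hm.2.2.2.2.1, Ne.symm hm.2.2.2.2.2]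

theorem TW.max (h : TW S M e) : (∀ g ∈ M, Mono e g) ∨ sisom S ≤ M := by
  classical
  by_cases hc : ∃ w, Ctr S M w ∧ ∃ a b c, a ≠ b ∧ a ≠ c ∧ b ≠ c ∧ S.B w (e a) ≠ 0 ∧ S.B w (e b) ≠ 0 ∧
      S.B w (e c) ≠ 0
  · obtain ⟨w, hw, a, b, c, a1, a2, a3, a4, a5, a6⟩ := hc
    exact Or.inr (h.top_of_three hw a1 a2 a3 a4 a5 a6)
  refine Or.inl fun g hg k => ?_
  have hgi := (h.le hg).1
  obtain ⟨δ, d1, d2, d3, d4⟩ := h.exists_omega
  have key : ∀ l, k ≠ l → ∀ s : Finset ι, (∀ i ∈ s, S.B (g (e k)) (e i) ≠ 0 ∨ S.B (g (e l)) (e i) ≠ 0) →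
      s.card ≤ 3 := by
    intro l hkl s hs
    let Z : F → Finset ι := fun α => s.filter fun i => S.B (g (e k)) (e i) + α * S.B (g (e l)) (e i) = 0
    have z1 : ∀ α : F, α * σ α = 1 → s.card ≤ (Z α).card + 2 := by
      intro α hα
      rw [← Finset.card_filter_add_card_filter_not (s := s)
        (fun i => S.B (g (e k)) (e i) + α * S.B (g (e l)) (e i) = 0)]
      refine Nat.add_le_add_left (not_lt.1 fun hlt => hc ⟨_, (h.ctr_pair hkl hα).map hg hgi, ?_⟩) _
      obtain ⟨a, b, c, ha, hb, hc, a1, a2, a3⟩ := Finset.two_lt_card_iff.1 hlt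
      exact ⟨a, b, c, a1, a2, a3, by simpa using (Finset.mem_filter.1 ha).2,
        by simpa using (Finset.mem_filter.1 hb).2, by simpa using (Finset.mem_filter.1 hc).2⟩
    have z2 : ∀ α β : F, α ≠ β → Disjoint (Z α) (Z β) := by
      intro α β hαβ
      rw [Finset.disjoint_left]
      intro i h1 h2
      obtain ⟨h3, h4⟩ := Finset.mem_filter.1 h1
      have h5 := (Finset.mem_filter.1 h2).2
      have h6 : S.B (g (e l)) (e i) = 0 := mul_left_cancel₀ (sub_ne_zero.2 hαβ) (by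
        linear_combination h4 - h5)
      rw [h6, mul_zero, add_zero] at h4
      exact (hs i h3).elim (· h4) (· h6)
    have d5 : δ ≠ σ δ := fun h0 => one_ne_zero (α := F) (by linear_combination -d2 - h0 + δ * h.two)
    have := Finset.card_le_card (show Z 1 ∪ Z δ ∪ Z (σ δ) ⊆ s from Finset.union_subset
      (Finset.union_subset (Finset.filter_subset _ _) (Finset.filter_subset _ _)) (Finset.filter_subset _ _))
    rw [Finset.card_union_of_disjoint (Finset.disjoint_union_left.2 ⟨z2 _ _ d4.symm, z2 _ _ d5⟩),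
      Finset.card_union_of_disjoint (z2 _ _ d3.symm)] at this
    have := z1 1 (by simp)
    have := z1 δ d1
    have := z1 (σ δ) (by rw [hσ, mul_comm, d1])
    omega
  by_contra hE
  obtain ⟨a, b, hab, ha, hb⟩ := h.on.two_of_not_isE (by simpa using h.on.e_ne k) hE
  obtain ⟨c, hc', hc''⟩ : ∃ c, c ∉ ({a, b} : Finset ι) ∧ S.B (g (e k)) (e c) ≠ 0 := by
    by_contra hcon
    push Not at hcon
    have := PQ.B_isom hgi (e k) (e k)
    rw [h.on.B_cs (s := {a, b}) hcon, Finset.sum_pair hab, h.norm ha, h.norm hb, h.on.self] at this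
    exact one_ne_zero (α := F) (by linear_combination this)
  simp only [Finset.mem_insert, Finset.mem_singleton, not_or] at hc'
  obtain ⟨d, hd⟩ := h.out [a, b, c]
  simp only [List.mem_cons, List.not_mem_nil, or_false, not_or] at hd
  have hcard : ({d, c, a, b} : Finset ι).card = 4 := by
    rw [Finset.card_insert_of_notMem (by simp [hd]), Finset.card_eq_three.2 ⟨c, a, b, hc'.1, hc'.2,
      hab, rfl⟩]
  obtain ⟨l, hl⟩ := h.on.exists_ne (v := g.symm (e d)) (by simpa using h.on.e_ne d)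
  rw [← PQ.B_isom hgi, LinearEquiv.apply_symm_apply] at hl
  by_cases hkl : k = l
  · obtain ⟨l', hl'⟩ := h.out [k]
    have := key l' (by rintro rfl; simp at hl') {d, c, a, b} (by
      simp only [Finset.mem_insert, Finset.mem_singleton]
      rintro i (rfl | rfl | rfl | rfl)
      exacts [Or.inl (hkl ▸ ne_swap hl), Or.inl hc'', Or.inl ha, Or.inl hb])
    omega
  · have := key l hkl {d, c, a, b} (by
      simp only [Finset.mem_insert, Finset.mem_singleton]
      rintro i (rfl | rfl | rfl | rfl)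
      exacts [Or.inr (ne_swap hl), Or.inl hc'', Or.inl ha, Or.inl hb])
    omega

theorem MS.max (hne : ∃ a, σ a ≠ a) (h : MS S M e)
    (hn : 7 ≤ Fintype.card ι ∨ (6 ≤ Fintype.card ι ∧ ∃ a : F, σ a = a ∧ a ≠ 0 ∧ a ≠ 1)) :
    (∀ g ∈ M, Mono e g) ∨ sisom S ≤ M := by
  by_cases h3 : ∃ a : F, σ a = a ∧ a ≠ 0 ∧ a ≠ 1
  · exact h.max_three hne h3 (by omega)
  · refine TW.max ⟨h, hne, by simpa using h3, hn.resolve_right fun h' => h3 h'.2⟩

end abstract

variable {F : Type*} [Field F] [Fintype F] {q : ℕ} (hF : Fintype.card F = q ^ 2) {n : ℕ}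

include hF in
theorem geo_mono (hn : 7 ≤ n ∨ (6 ≤ n ∧ 3 ≤ q)) {t : ℕ} (D : Fin t → Submodule F (Fin n → F))
    (hD : Geo.IsNondegenerateMDecomposition (hermForm n F q) 1 D) :
    Geo.IsMaximalIn (GU n F q ⊓ Geo.specialLinear (Fin n) F)
      (Geo.decompositionStabilizer D ⊓ (GU n F q ⊓ Geo.specialLinear (Fin n) F)) := by
  obtain ⟨π, h⟩ := exists_od hF hD
  have ht := card_eq_of_isMDecomposition hD.decomp
  rw [Fintype.card_fin, mul_one] at ht
  choose b b1 b2 b3 b4 using fun i =>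
    exists_orthonormal_unit (std_ne hF) (std hF n) 1 (D i) (h.nd i) (h.dim i)
  have hon : ON (std hF n) (fun i => b i 0) := ⟨fun i j => by
    split_ifs with hij
    · rw [hij, b2]
    · exact h.orth i j hij _ (b1 i 0) _ (b1 j 0), fun x => by
    conv_rhs => rw [← h.pr.sum x]
    refine Finset.sum_congr rfl fun i _ => ?_
    rw [h.B_eq x (b1 i 0)]
    simpa using (b4 i _ (h.pr.mem i x)).symm⟩
  refine max_of hF (Mono fun i => b i 0) (fun g => ?_)
    (SU_not_le_decompositionStabilizer hF (by omega) (by omega) hD.decomp)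
    fun M h1 h3 => MS.max (std_ne hF) ⟨hon, h1, h3⟩ ?_
  · rw [mem_decomp_iff hD.decomp]
    refine forall_congr' fun i => exists_congr fun j => ⟨fun h' => ⟨_, by
      simpa using b4 j _ (h' _ (b1 i 0))⟩, fun ⟨c, hc⟩ x hx => ?_⟩
    rw [b4 i x hx, Fin.sum_univ_one, map_smul, hc]
    exact Submodule.smul_mem _ _ (Submodule.smul_mem _ _ (b1 j 0))
  · rw [Fintype.card_fin, ← ht]
    exact hn.imp_right fun h' => ⟨h'.1, exists_real hF h'.2⟩

include hF in
theorem geo_decomp' (hn : 7 ≤ n) {t : ℕ} (k : ℕ) (D : Fin t → Submodule F (Fin n → F))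
    (hD : Geo.IsNondegenerateMDecomposition (hermForm n F q) k D) (hex : ¬ (k = 2 ∧ q = 2)) :
    Geo.IsMaximalIn (GU n F q ⊓ Geo.specialLinear (Fin n) F)
      (Geo.decompositionStabilizer D ⊓ (GU n F q ⊓ Geo.specialLinear (Fin n) F)) := by
  by_cases hk : k = 1
  · subst hk; exact geo_mono hF (Or.inl hn) D hD
  · have := hD.decomp.pos
    exact geo_decomp hF (by omega) k D hD (by omega) hex

end Cfsg.Agent.H6.SU
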