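import Cfsg.Agent.H6.SUSp
import Cfsg.Agent.H6.SUC2

/-!
Maximality of the normaliser of `SO_n(q)` in `SU_n(q)`, `q` odd, `n ≥ 6`.
-/

set_option autoImplicit false
set_option linter.unusedSectionVars false
set_option linter.unusedVariables false

namespace Cfsg.Agent.H6.SU

open Module Cfsg.Agent.Form Cfsg.Agent.H7
open scoped MatrixGroups Matrix

section abstract

variable {E : Type*} [Field E] {W : Type*} [AddCommGroup W] [Module E W]
  {T : PQ (FP.orth E) W} [FiniteDimensional E W]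

theorem orth_exists_sing_ne_ne (h2 : (2 : E) ≠ 0) (hT : T.Nondeg) (h3 : 3 ≤ finrank E W) {x y : W}
    (hx : T.Sing x) (hx0 : x ≠ 0) (hy0 : y ≠ 0) : ∃ d, T.Sing d ∧ T.B x d ≠ 0 ∧ T.B y d ≠ 0 := by
  obtain ⟨x', hx', h1⟩ := hT.exists_hyperbolic hx hx0
  have h1' : T.B x' x = 1 := by rw [T.orth_B_swap, h1]
  by_contra hc
  push Not at hc
  have hN := T.nondegOn_span_pair hx hx' (by rw [h1]; exact one_ne_zero)
  have hd := T.finrank_span_pair_of_hyperbolic hx (w := x') (by rw [h1]; exact one_ne_zero)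
  have hd' := hT.finrank_perp (Submodule.span E {x, x'})
  have key : ∀ w ∈ T.perp (Submodule.span E {x, x'}),
      T.B y x' + T.B y w - T.Q w * T.B y x = 0 := by
    intro w hw
    have a1 := T.mem_perp_span.1 hw x (by simp)
    have a2 := T.mem_perp_span.1 hw x' (by simp)
    have := hc (x' + w - T.Q w • x) (by
      rw [T.orth_sing, T.orth_Q_sub, T.orth_Q_add, T.orth_Q_smul, (T.orth_sing _).1 hx,
        (T.orth_sing _).1 hx']
      simp [T.B_comm_zero a2, a1, h1']) (by simp [h1, T.B_comm_zero a1, hx.B_self])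
    simpa using this
  have k0 : T.B y x' = 0 := by simpa [T.orth_Q_zero] using key 0 (zero_mem _)
  have k1 : ∀ w ∈ T.perp (Submodule.span E {x, x'}), T.B y w = 0 := by
    intro w hw
    have e1 := key w hw
    have e2 := key (-w) (neg_mem hw)
    rw [T.orth_Q_neg, T.B_neg_right] at e2
    exact (mul_eq_zero.1 (show 2 * T.B y w = 0 by linear_combination e1 - e2)).resolve_left h2
  obtain ⟨w, hw, hww⟩ := exists_B_self_ne_orth h2 T (hN.perp hT) (by
    intro h; rw [h, finrank_bot] at hd'; omega)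
  have k2 : T.B y x = 0 := by
    have := key w hw
    rw [k0, k1 w hw] at this
    rw [T.orth_B_self] at hww
    simpa [right_ne_zero_of_mul hww] using this
  refine hy0 (hT y fun z => ?_)
  have : z ∈ Submodule.span E {x, x'} ⊔ T.perp (Submodule.span E {x, x'}) := by
    rw [hN.isCompl.sup_eq_top]; trivial
  obtain ⟨p, hp, r, hr, rfl⟩ := Submodule.mem_sup.1 this
  obtain ⟨a, b, rfl⟩ := Submodule.mem_span_pair.1 hp
  simp [k0, k2, k1 r hr]

variable {F : Type*} [Field F] {σ : F →+* F} {hσ : ∀ a, σ (σ a) = a}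
  {V : Type*} [AddCommGroup V] [Module F V] {S : PQ (FP.unit σ hσ) V} {M : Subgroup (V ≃ₗ[F] V)}
  [Algebra E F] {φ : W →+ V} [FiniteDimensional F V] [Finite F] [Finite E]

theorem real_aux (hσ : ∀ a, σ (σ a) = a) (h2 : (2 : F) ≠ 0) {q a b c : F} (hq : σ q = q)
    (ha : σ a ≠ a) (c11 : σ (b - q - σ b) = b - q - σ b)
    (c22 : σ ((c - q * a) * σ a - a * σ c) = (c - q * a) * σ a - a * σ c)
    (c12 : σ ((b - q) * σ a - σ c) = (b - q) * σ a - σ c)
    (c21 : σ (c - q * a - a * σ b) = c - q * a - a * σ b) : c = b * a := by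
  simp only [map_sub, map_mul, hσ, hq] at c11 c22 c12 c21
  have ha0 : a ≠ 0 := by rintro rfl; simp at ha
  have e1 : σ b = b := mul_left_cancel₀ h2 (by linear_combination c11)
  have e2 : σ c * a = c * σ a := mul_left_cancel₀ h2 (by linear_combination c22)
  rw [e1] at c21 c12
  have e3 : (σ a - a) * (2 * (c - b * a)) = 0 := by
    linear_combination a * c21 + a * c12 - 2 * e2
  rw [mul_eq_zero, mul_eq_zero, sub_eq_zero, sub_eq_zero] at e3
  tauto

/-- the data of an orthogonal rational structure whose normaliser lies in `M` -/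
structure OR (S : PQ (FP.unit σ hσ) V) (M : Subgroup (V ≃ₗ[F] V)) (T : PQ (FP.orth E) W)
    (φ : W →+ V) : Prop where
  rs : RS S T φ 1
  real : ∀ a, σ a = a → ∃ r, a = algebraMap E F r
  two : (2 : F) ≠ 0
  six : 6 ≤ finrank E W
  le : M ≤ sisom S
  mem : ∀ g ∈ sisom S, NR φ g → g ∈ M

theorem OR.two' (h : OR S M T φ) : (2 : E) ≠ 0 := fun h0 => h.two (by
  rw [← map_ofNat (algebraMap E F) 2, h0, map_zero])

theorem OR.B_eq (h : OR S M T φ) (x y : W) : S.B (φ x) (φ y) = algebraMap E F (T.B x y) := by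
  rw [h.rs.B_eq, one_mul]

theorem OR.σ_eq (h : OR S M T φ) (c : E) : σ (algebraMap E F c) = algebraMap E F c := h.rs.σ_eq c

theorem OR.lift (h : OR S M T φ) {u y : W} {q : E} (hq : T.EichOK u y q) :
    HE S M (φ u) (φ y) (algebraMap E F q) ∧ ∀ (h' : S.EichOK (φ u) (φ y) (algebraMap E F q)) w,
      S.eich _ _ _ h' (φ w) = φ (T.eich u y q hq w) := by
  have e : ∀ (h' : S.EichOK (φ u) (φ y) (algebraMap E F q)) w,
      S.eich _ _ _ h' (φ w) = φ (T.eich u y q hq w) := fun h' w => by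
    rw [eich_ap, PQ.eich_apply]
    simp [h.rs.smul, h.B_eq]
  have h1 : S.EichOK (φ u) (φ y) (algebraMap E F q) :=
    eichOK_iff.2 ⟨h.rs.sing hq.sing, h.rs.B0 hq.perp, by
      rw [h.σ_eq, h.B_eq, T.B_self_of hq.qw]; simp⟩
  exact ⟨⟨h1, h.mem _ (eich_mem_sisom S _ _ _ h1) (h.rs.nr_of_map fun w => ⟨_, e h1 w⟩)⟩, e⟩

theorem OR.he (h : OR S M T φ) {u y : W} (hu : T.Sing u) (hy : T.B y u = 0) :
    HE S M (φ u) (φ y) (algebraMap E F (T.Q y)) := (h.lift ⟨hu, hy, by simp⟩).1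

theorem OR.ctr_all (h : OR S M T φ) {x y : W} (hx : T.Sing x) (hx0 : x ≠ 0) (hc : Ctr S M (φ x))
    (hy : T.Sing y) : Ctr S M (φ y) := by
  by_cases hy0 : y = 0
  · rw [hy0, map_zero]; exact ctr_zero
  obtain ⟨d, hd, h1, h2⟩ := orth_exists_sing_ne_ne h.two' h.rs.ndT (by have := h.six; omega) hx hx0 hy0
  obtain ⟨w, q, hE, -, e⟩ := exists_eich_map T hd (x := (T.B y d / T.B x d) • x) (y := y)
    (by simp [h1]) (by simpa [h1] using h2) (sub_mem hy (hx.smul _))
  obtain ⟨k1, k2⟩ := h.lift hE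
  rw [← e, ← k2 k1.1, h.rs.smul]
  exact (hc.smul _).map k1.2 (S.eich_mem _ _ _ _)

theorem OR.top_of_ctr (hne : ∃ a, σ a ≠ a) (h3 : ∃ a : F, σ a = a ∧ a ≠ 0 ∧ a ≠ 1) (h : OR S M T φ)
    {e : W} (he : T.Sing e) (he0 : e ≠ 0) (hc : Ctr S M (φ e)) : sisom S ≤ M := by
  have h6 := h.six
  have hT := h.rs.ndT
  have hall := fun y => h.ctr_all he he0 hc (y := y)
  obtain ⟨f, hf, hef⟩ := hT.exists_hyperbolic he he0
  have hfe : T.B f e = 1 := by rw [T.orth_B_swap, hef]
  have hN := T.nondegOn_span_pair he hf (by rw [hef]; exact one_ne_zero)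
  have hd := T.finrank_span_pair_of_hyperbolic he (w := f) (by rw [hef]; exact one_ne_zero)
  have hd' := hT.finrank_perp (Submodule.span E {e, f})
  obtain ⟨w, hw, hww⟩ := exists_B_self_ne_orth h.two' T (hN.perp hT) (by
    intro h; rw [h, finrank_bot] at hd'; omega)
  have a1 := T.mem_perp_span.1 hw e (by simp)
  have a2 := T.mem_perp_span.1 hw f (by simp)
  have b1 : S.B (φ e) (φ f) ≠ 0 := by rw [h.B_eq, hef, map_one]; exact one_ne_zero
  have b2 : S.B (φ w) (φ w) ≠ 0 := by rwa [Ne, h.rs.B0_iff]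
  have b3 : φ w ∈ S.perp (Submodule.span F {φ e, φ f}) := S.mem_perp_span.2 (by
    rintro x (rfl | rfl)
    exacts [h.rs.B0 a1, h.rs.B0 a2])
  have n1 : φ w ∉ Submodule.span F {φ e, φ f} := fun hm => b2 (b3 _ hm)
  have hU := (S.nondegOn_span_pair (sing (h.rs.sing he)) (sing (h.rs.sing hf)) b1).sup
    (S.nondegOn_span_singleton b2) (by rwa [Submodule.span_singleton_le_iff_mem])
  have hd3 : finrank F (Submodule.span F {φ e, φ f} ⊔ F ∙ φ w : Submodule F V) = 3 := by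
    have h1 := finrank_sup_span_le (Submodule.span F {φ e, φ f}) (φ w)
    have h2 := Submodule.finrank_lt_finrank_of_lt (s := Submodule.span F {φ e, φ f})
      (t := Submodule.span F {φ e, φ f} ⊔ F ∙ φ w) (lt_of_le_of_ne le_sup_left fun h =>
        n1 (h ▸ Submodule.mem_sup_right (Submodule.mem_span_singleton_self _)))
    rw [S.finrank_span_pair_of_hyperbolic (sing (h.rs.sing he)) b1] at h1 h2; omega
  have m1 : φ e ∈ Submodule.span F {φ e, φ f} := Submodule.subset_span (by simp)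
  have m2 : φ f ∈ Submodule.span F {φ e, φ f} := Submodule.subset_span (by simp)
  have e1 : φ (f + w - T.Q w • e) = (φ f - algebraMap E F (T.Q w) • φ e) + φ w := by
    rw [map_sub, map_add, h.rs.smul]; abel
  have m3 := Submodule.sub_mem _ m2 (Submodule.smul_mem _ (algebraMap E F (T.Q w)) m1)
  have hF := full_three hne hU hd3 (Submodule.mem_sup_left m1) (Submodule.mem_sup_left m2)
    (x := φ (f + w - T.Q w • e))
    (by rw [e1]; exact Submodule.add_mem_sup m3 (Submodule.mem_span_singleton_self _))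
    hc (hall f hf) (hall _ (by
      rw [T.orth_sing, T.orth_Q_sub, T.orth_Q_add, T.orth_Q_smul, (T.orth_sing _).1 he,
        (T.orth_sing _).1 hf]
      simp [T.B_comm_zero a2, a1, hfe])) b1 (fun hm => n1 (by
      rw [e1] at hm; simpa using Submodule.sub_mem _ hm m3))
  obtain ⟨Y, y1, y2, y3⟩ := core hne hU hd3.ge (hF.ef hne h3 hU)
  have key : ∀ x y, φ x ∈ Y → T.Sing y → T.B y x ≠ 0 → φ y ∈ Y := fun x y hx hy hyx =>
    (y3 _ (hall y hy)).resolve_right fun hm => hyx (h.rs.B0_iff.1 (hm _ hx))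
  let Y₀ : Submodule E W :=
    { carrier := {y | φ y ∈ Y}
      add_mem' := fun {a b} ha hb => by
        change φ (a + b) ∈ Y
        rw [map_add]; exact Y.add_mem ha hb
      zero_mem' := by change φ 0 ∈ Y; simp
      smul_mem' := fun c x hx => by
        change φ (c • x) ∈ Y
        rw [h.rs.smul]; exact Y.smul_mem _ hx }
  have hY : ⊤ ≤ Y₀ := (sp_orth T).le_of_sing (T.nondegOn_top.2 hT) (by rw [finrank_top]; omega) (by
    intro y _ hy
    by_cases hy0 : y = 0
    · rw [hy0]; exact Y₀.zero_mem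
    obtain ⟨d, hd, h1, h2⟩ := orth_exists_sing_ne_ne h.two' hT (by omega) he he0 hy0
    exact key d y (key e d (y1 (Submodule.mem_sup_left m1)) hd fun h => h1 (T.B_comm_zero h)) hy h2)
  refine Full.sisom_le hne h.rs.nd (by rw [h.rs.finrank_eq]; omega) (y2.mono fun v _ => ?_)
  exact h.rs.span Y (fun w => hY Submodule.mem_top) v

theorem OR.rat_of_ei (h : OR S M T φ) {u : W} (hu : T.Sing u) (hu0 : u ≠ 0) (hc : ¬ Ctr S M (φ u))
    {v : V} (hv : Ei S M (φ u) v) : ∃ (w : W) (t : F), v = φ w + t • φ u := by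
  refine h.rs.rat_mod hu.B_self hu0 fun y hy => ?_
  simp only [one_mul]
  refine h.real _ ?_
  by_contra h1
  refine hc (ctr_iff.2 ⟨hv.dd, fun c hc => ?_⟩)
  have h2 : S.B (φ y) v - σ (S.B (φ y) v) ≠ 0 := fun h => h1 (by linear_combination -h)
  have h3 : σ (S.B (φ y) v) - S.B (φ y) v ≠ 0 := fun h => h1 (by linear_combination h)
  obtain ⟨r, hr⟩ := h.real (c / (S.B (φ y) v - σ (S.B (φ y) v))) (by
    rw [map_div₀, map_sub, hσ, show σ c = -c by linear_combination hc]; field_simp; ring)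
  have := (h.he hu (y := r • y) (by simp [hy])).ei.comm hv
  convert this using 1
  rw [h.rs.smul, PQ.B_smul_left, Bsr, h.σ_eq, ← hr, ← Bs S (φ y) v]; field_simp

theorem OR.D_rat (h : OR S M T φ) {u : W} (hu : T.Sing u) (hu0 : u ≠ 0) (hc : ¬ Ctr S M (φ u))
    {v z : V} {q : F} (hE : HE S M v z q) (h1 : S.B (φ u) v = 0) (h2 : S.B (φ u) z = 0) {y : W}
    (hy : T.B y u = 0) : ∃ (w : W) (t : F),
      (S.B (φ y) z - q * S.B (φ y) v) • v - S.B (φ y) v • z = φ w + t • φ u := by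
  obtain ⟨k, hk, hk', e⟩ := hE.exists
  have a1 := (h.he hu hy).ei
  have a2 := a1.conj hk hk'
  rw [e, e, h1, h2] at a2
  simp only [mul_zero, sub_zero, zero_smul, add_zero] at a2
  exact h.rat_of_ei hu hu0 hc ((a2.sub a1).congr (by abel))

theorem OR.mem_span (h : OR S M T φ) {u : W} (hu : T.Sing u) (hu0 : u ≠ 0) (hc : ¬ Ctr S M (φ u))
    {v z : V} {q : F} (hE : HE S M v z q) (hq : σ q = q) (h1 : S.B (φ u) v = 0)
    (h2 : S.B (φ u) z = 0) (hirr : ∀ (b : F) w (t : F), b ≠ 0 → b • v ≠ φ w + t • φ u) :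
    z ∈ (F ∙ v) ⊔ F ∙ φ u := by
  obtain ⟨y1, hy1, hl⟩ : ∃ y, T.B y u = 0 ∧ S.B (φ y) v ≠ 0 := by
    by_contra hc
    push Not at hc
    obtain ⟨w, t, e⟩ := h.rs.rat_mod hu.B_self hu0 (v := v) fun y hy => ⟨0, by simp [hc y hy]⟩
    exact hirr 1 w t one_ne_zero (by simpa using e)
  set b := σ (S.B (φ y1) v)⁻¹ with hb
  have hb0 : b ≠ 0 := σ_ne (inv_ne_zero hl)
  have hσb : σ b = (S.B (φ y1) v)⁻¹ := hσ _
  have hE' : HE S M (b • v) ((σ b)⁻¹ • z) (q / (b * σ b)) := by
    refine HE.smul_left' (hE.congr rfl ?_ ?_) (by simp [hE.wd]) ?_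
    · rw [smul_smul, mul_inv_cancel₀ (σ_ne hb0), one_smul]
    · have := σ_ne (σ := σ) hb0; field_simp
    · have := σ_ne (σ := σ) hb0
      have e := hE.tr
      simp only [map_div₀, map_mul, hσ, PQ.B_smul_left, Bsr, map_inv₀, ← e]
      field_simp
  have hq' : σ (q / (b * σ b)) = q / (b * σ b) := by rw [map_div₀, map_mul, hσ, hq, mul_comm]
  have hirr' : ∀ w (t : F), b • v ≠ φ w + t • φ u := fun w t => hirr b w t hb0
  have a1 : S.B (φ y1) (b • v) = 1 := by rw [Bsr, hσb, inv_mul_cancel₀ hl]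
  have a2 : S.B (φ u) (b • v) = 0 := by simp [h1]
  have a3 : S.B (φ u) ((σ b)⁻¹ • z) = 0 := by simp [h2]
  suffices (σ b)⁻¹ • z ∈ (F ∙ b • v) ⊔ F ∙ φ u by
    rw [Submodule.span_singleton_smul_eq hb0.isUnit] at this
    have := Submodule.smul_mem _ (σ b) this
    rwa [smul_smul, mul_inv_cancel₀ (σ_ne hb0), one_smul] at this
  generalize b • v = v' at hE' hirr' a1 a2
  generalize (σ b)⁻¹ • z = z' at hE' a3
  generalize q / (b * σ b) = q' at hE' hq'
  obtain ⟨y2, hy2, hl2⟩ : ∃ y, T.B y u = 0 ∧ σ (S.B (φ y) v') ≠ S.B (φ y) v' := by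
    by_contra hc
    push Not at hc
    obtain ⟨w, t, e⟩ := h.rs.rat_mod hu.B_self hu0 (v := v') fun y hy => by
      simpa using h.real _ (hc y hy)
    exact hirr' w t e
  have C : ∀ y y', T.B y u = 0 → T.B y' u = 0 →
      σ ((S.B (φ y) z' - q' * S.B (φ y) v') * σ (S.B (φ y') v') - S.B (φ y) v' * σ (S.B (φ y') z')) =
      (S.B (φ y) z' - q' * S.B (φ y) v') * σ (S.B (φ y') v') - S.B (φ y) v' * σ (S.B (φ y') z') := by
    intro y y' hy hy'
    obtain ⟨w, t, e⟩ := h.D_rat hu hu0 hc hE' a2 a3 hy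
    have := congrArg (fun x => S.B x (φ y')) e
    simp only [PQ.B_sub_left, PQ.B_add_left, PQ.B_smul_left, h.rs.B0 (T.B_comm_zero hy'), h.B_eq,
      mul_zero, add_zero] at this
    rw [Bs, Bs, this, h.σ_eq]
  have K : ∀ y, T.B y u = 0 → σ (S.B (φ y) v') ≠ S.B (φ y) v' →
      S.B (φ y) z' = S.B (φ y1) z' * S.B (φ y) v' := fun y hy hn =>
    real_aux hσ h.two hq' hn (by simpa [a1] using C y1 y1 hy1 hy1) (C y y hy hy)
      (by simpa [a1] using C y1 y hy1 hy) (by simpa [a1] using C y y1 hy hy1)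
  have K' : ∀ y, T.B y u = 0 → S.B (φ y) z' = S.B (φ y1) z' * S.B (φ y) v' := by
    intro y hy
    by_cases hn : σ (S.B (φ y) v') = S.B (φ y) v'
    · have e1 := K (y + y2) (by simp [hy, hy2]) (by simpa [hn] using hl2)
      have e2 := K y2 hy2 hl2
      simp only [map_add, PQ.B_add_left] at e1
      linear_combination e1 - e2
    · exact K y hy hn
  obtain ⟨p, hp⟩ := h.rs.ndT.exists_eq hu0 1
  have := h.rs.eq_zero (v := z' - σ (S.B (φ y1) z') • v' -
      σ (S.B (φ p) (z' - σ (S.B (φ y1) z') • v')) • φ u) fun y => by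
    have e1 := K' (y - T.B y u • p) (by simp [hp])
    simp only [map_sub, h.rs.smul, PQ.B_sub_left, PQ.B_smul_left] at e1
    simp only [PQ.B_sub_right, Bsr, hσ, h.B_eq y u]
    linear_combination e1
  rw [sub_sub, sub_eq_zero] at this
  rw [this]
  exact Submodule.add_mem_sup (Submodule.smul_mem _ _ (Submodule.mem_span_singleton_self _))
    (Submodule.smul_mem _ _ (Submodule.mem_span_singleton_self _))

theorem OR.not_le_plane (hne : ∃ a, σ a ≠ a) (h : OR S M T φ) {g : V ≃ₗ[F] V} (hg : g ∈ S.isom)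
    (u : W) (p a b : V) (hZ : ∀ z, T.B z u = 0 → S.B p (g (φ z)) = 0 → g (φ z) ∈ (F ∙ a) ⊔ F ∙ b) :
    False := by
  obtain ⟨θ, hθ⟩ := hne
  obtain ⟨p1, p2, e⟩ := h.rs.exists_comb h.real hθ (g.symm p)
  have h1 := h.rs.finrank_le_span (T.perp (((E ∙ u) ⊔ E ∙ p1) ⊔ E ∙ p2))
    (N := ((F ∙ a) ⊔ F ∙ b).map (g.symm : V →ₗ[F] V)) (fun z hz => by
      rw [T.perp_sup, T.perp_sup] at hz
      refine ⟨g (φ z), hZ z (T.mem_perp_span_singleton.1 hz.1.1) ?_, by simp⟩
      have : p = g (φ p1 + θ • φ p2) := by rw [← e]; simp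
      rw [this, PQ.B_isom hg]
      simp [h.rs.B0 (T.B_comm_zero (T.mem_perp_span_singleton.1 hz.1.2)),
        h.rs.B0 (T.B_comm_zero (T.mem_perp_span_singleton.1 hz.2))])
  rw [LinearEquiv.finrank_map_eq] at h1
  have h2 := h.rs.ndT.finrank_perp (((E ∙ u) ⊔ E ∙ p1) ⊔ E ∙ p2)
  have h3 := finrank_sup_span_le ((E ∙ u) ⊔ E ∙ p1) p2
  have h4 := finrank_sup_span_le (E ∙ u) p1
  have h5 := finrank_span_singleton_le (F := E) u
  have h6 := finrank_sup_span_le (F ∙ a) b
  have h7 := finrank_span_singleton_le (F := F) a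
  have := h.six
  omega

theorem OR.orbit_rat (hne : ∃ a, σ a ≠ a) (h : OR S M T φ)
    (hc : ∀ u, T.Sing u → u ≠ 0 → ¬ Ctr S M (φ u)) {g : V ≃ₗ[F] V} (hg : g ∈ M) {u₀ : W}
    (hu₀ : T.Sing u₀) : ∃ (b : F) (w : W), g (φ u₀) = b • φ w := by
  have hgi := (h.le hg).1
  have hT := h.rs.ndT
  obtain ⟨θ, hθ⟩ := id hne
  obtain ⟨x1, x2, e⟩ := h.rs.exists_comb h.real hθ (g (φ u₀))
  by_contra hcon
  push Not at hcon
  have hA : ∀ z, T.B z u₀ = 0 → HE S M (g (φ u₀)) (g (φ z)) (algebraMap E F (T.Q z)) :=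
    fun z hz => (h.he hu₀ hz).conj hg hgi
  have n2 : x1 ∉ E ∙ x2 := by
    intro hm
    obtain ⟨r, rfl⟩ := Submodule.mem_span_singleton.1 hm
    exact hcon (algebraMap E F r + θ) x2 (by rw [e, h.rs.smul, add_smul])
  have h20 : x2 ≠ 0 := by
    rintro rfl
    exact hcon 1 x1 (by simp [e])
  have n1 := notMem_span_swap n2 h20
  have h10 : x1 ≠ 0 := by rintro rfl; exact n2 (zero_mem _)
  have hθ0 : θ ≠ 0 := by rintro rfl; simp at hθ
  by_cases hts : (E ∙ x1) ⊔ (E ∙ x2) ≤ T.perp ((E ∙ x1) ⊔ E ∙ x2)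
  · have m1 : x1 ∈ (E ∙ x1) ⊔ (E ∙ x2) := Submodule.mem_sup_left (Submodule.mem_span_singleton_self _)
    have m2 : x2 ∈ (E ∙ x1) ⊔ (E ∙ x2) := Submodule.mem_sup_right (Submodule.mem_span_singleton_self _)
    have s : ∀ x, T.B x x = 0 → T.Sing x := fun x hx => by
      rw [T.orth_B_self] at hx
      exact (T.orth_sing x).2 ((mul_eq_zero.1 hx).resolve_left h.two')
    have b11 := hts m1 _ m1
    have b12 := hts m1 _ m2
    have b21 := hts m2 _ m1
    have b22 := hts m2 _ m2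
    refine h.not_le_plane hne hgi u₀ (φ x1) (φ x1) (φ x2) fun z hz hz' => ?_
    have c1 : S.B (φ x1) (g (φ u₀)) = 0 := by simp [e, h.rs.B0 b11, h.rs.B0 b12]
    have c2 : S.B (φ x2) (g (φ u₀)) = 0 := by simp [e, h.rs.B0 b21, h.rs.B0 b22]
    have c3 : S.B (φ x2) (g (φ z)) = 0 := by
      have := S.B_comm_zero (hA z hz).wd
      simpa [e, hz', hθ0] using this
    have key : ∀ y, T.B y x1 = 0 → T.B y x2 = 0 → S.B (φ y) (g (φ z)) = 0 := by
      intro y hy1 hy2
      have c4 : S.B (φ y) (g (φ u₀)) = 0 := by simp [e, h.rs.B0 hy1, h.rs.B0 hy2]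
      obtain ⟨w, t, e1⟩ := h.D_rat (s x1 b11) h10 (hc _ (s x1 b11) h10) (hA z hz) c1 hz' hy1
      obtain ⟨w', t', e2⟩ := h.D_rat (s x2 b22) h20 (hc _ (s x2 b22) h20) (hA z hz) c2 c3 hy2
      rw [c4, e] at e1 e2
      obtain ⟨p, hp, h1⟩ := hT.exists_perp_eq n1 1
      obtain ⟨p', hp', h1'⟩ := hT.exists_perp_eq n2 1
      have k1 := congrArg (fun x => S.B x (φ p)) e1
      have k2 := congrArg (fun x => S.B x (φ p')) e2
      simp only [PQ.B_add_left, PQ.B_smul_left, h.B_eq, h1, h1', mul_zero, sub_zero, zero_smul,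
        T.B_comm_zero (T.mem_perp_span_singleton.1 hp), T.B_comm_zero (T.mem_perp_span_singleton.1 hp'),
        map_zero, map_one, zero_add, add_zero, mul_one] at k1 k2
      by_contra h0
      apply hθ
      have k3 := h.σ_eq (T.B w p)
      rw [← k1, map_mul, k2, h.σ_eq, ← k2] at k3
      exact mul_left_cancel₀ h0 k3
    obtain ⟨p, hp, h1⟩ := hT.exists_perp_eq n1 1
    obtain ⟨p', hp', h1'⟩ := hT.exists_perp_eq n2 1
    have d1 := T.mem_perp_span_singleton.1 hp
    have d2 := T.mem_perp_span_singleton.1 hp'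
    have d3 : T.B p x2 = 1 := by rw [T.orth_B_swap, h1]
    have d4 : T.B p' x1 = 1 := by rw [T.orth_B_swap, h1']
    have := h.rs.eq_zero (v := g (φ z) - σ (S.B (φ p') (g (φ z))) • φ x1 -
        σ (S.B (φ p) (g (φ z))) • φ x2) fun y => by
      have e1 := key (y - T.B y x1 • p' - T.B y x2 • p) (by simp [d1, d4]) (by simp [d2, d3])
      simp only [map_sub, h.rs.smul, PQ.B_sub_left, PQ.B_smul_left] at e1
      simp only [PQ.B_sub_right, Bsr, hσ, h.B_eq y]
      linear_combination e1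
    rw [sub_sub, sub_eq_zero] at this
    rw [this]
    exact Submodule.add_mem_sup (Submodule.smul_mem _ _ (Submodule.mem_span_singleton_self _))
      (Submodule.smul_mem _ _ (Submodule.mem_span_singleton_self _))
  · obtain ⟨u, hu, hu', hus⟩ := (sp_orth T).exists_notMem hT
      (((E ∙ x1) ⊔ (E ∙ x2)) ⊓ T.perp ((E ∙ x1) ⊔ E ∙ x2)) ((E ∙ x1) ⊔ (E ∙ x2)) (by
        have h1 := Submodule.finrank_lt_finrank_of_lt (inf_lt_left.2 hts)
        have h4 := finrank_sup_span_le (E ∙ x1) x2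
        have h5 := finrank_span_singleton_le (F := E) x1
        have := h.six
        omega)
    have n3 : u ∉ (E ∙ x1) ⊔ (E ∙ x2) := fun hm => hu' ⟨hm, hu⟩
    have hu0 : u ≠ 0 := by rintro rfl; exact n3 (zero_mem _)
    rw [T.perp_sup] at hu
    have c1 : S.B (φ u) (g (φ u₀)) = 0 := by
      simp [e, h.rs.B0 (T.mem_perp_span_singleton.1 hu.1), h.rs.B0 (T.mem_perp_span_singleton.1 hu.2)]
    refine h.not_le_plane hne hgi u₀ (φ u) (g (φ u₀)) (φ u) fun z hz hz' =>
      h.mem_span hus hu0 (hc u hus hu0) (hA z hz) (h.σ_eq _) c1 hz' fun b w t hb e1 => ?_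
    obtain ⟨p, hp, h1⟩ := hT.exists_perp_eq n3 1
    rw [T.perp_sup] at hp
    have k1 := congrArg (fun x => S.B x (φ p)) e1
    simp only [e, PQ.B_add_left, PQ.B_smul_left, h.B_eq, h1, map_one, mul_one,
      T.B_comm_zero (T.mem_perp_span_singleton.1 hp.1),
      T.B_comm_zero (T.mem_perp_span_singleton.1 hp.2), map_zero, mul_zero, add_zero] at k1
    refine hcon b⁻¹ (w - T.B w p • u) ?_
    rw [map_sub, h.rs.smul, eq_neg_of_add_eq_zero_left k1.symm, neg_smul, sub_neg_eq_add, ← e1,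
      smul_smul, inv_mul_cancel₀ hb, one_smul]

theorem OR.max (hne : ∃ a, σ a ≠ a) (h3 : ∃ a : F, σ a = a ∧ a ≠ 0 ∧ a ≠ 1) (h : OR S M T φ) :
    (∀ g ∈ M, NR φ g) ∨ sisom S ≤ M := by
  by_cases hc : ∀ u, T.Sing u → u ≠ 0 → ¬ Ctr S M (φ u)
  · exact Or.inl fun g hg => h.rs.nr_of_sing (sp_orth T) (by have := h.six; omega)
      fun y hy => h.orbit_rat hne hc hg hy
  · push Not at hc
    obtain ⟨u, h1, h2, h4⟩ := hc
    exact Or.inr (h.top_of_ctr hne h3 h1 h2 h4)

end abstract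

variable {F : Type*} [Field F] [Fintype F] {q : ℕ} (hF : Fintype.card F = q ^ 2) {n : ℕ}

include hF in
theorem geo_orth (hn : 6 ≤ n) (hodd : Odd q) (F₀ : Subfield F)
    (hcard : Fintype.card F = Nat.card F₀ ^ 2) (P : GL (Fin n) F)
    (hP : Geo.IsFormRationalStructure (hermForm n F q) F₀ 1 P) :
    Geo.IsMaximalIn (GU n F q ⊓ Geo.specialLinear (Fin n) F)
      (Geo.subfieldSubgroup F₀ P ⊓ (GU n F q ⊓ Geo.specialLinear (Fin n) F)) := by
  have h2 : (2 : F) ≠ 0 := by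
    intro h
    have h1 : ((q ^ 2 : ℕ) : F) = 0 := by rw [← hF]; exact FiniteField.cast_card_eq_zero F
    obtain ⟨k, rfl⟩ := hodd
    push_cast at h1
    rw [h] at h1
    simp at h1
  have h2' : (2 : F₀) ≠ 0 := fun h => h2 (by
    rw [← map_ofNat (algebraMap F₀ F) 2, h, map_zero])
  let f : (Fin n → F₀) → (Fin n → F₀) → F₀ := fun x y =>
    ⟨(std hF n).B (ratMap F₀ P x) (ratMap F₀ P y), by
      have := hP _ _ (fun i => (x i).2) (fun i => (y i).2)
      rwa [one_mul] at this⟩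
  have hf : ∀ x y, (f x y : F) = (std hF n).B (ratMap F₀ P x) (ratMap F₀ P y) := fun _ _ => rfl
  have a1 : ∀ x y v, f (x + y) v = f x v + f y v := fun x y v => Subtype.ext (by
    rw [AddMemClass.coe_add, hf, hf, hf, map_add, PQ.B_add_left])
  have a2 : ∀ (c : F₀) x v, f (c • x) v = c * f x v := fun c x v => Subtype.ext (by
    rw [MulMemClass.coe_mul, hf, hf, ratMap_smul, PQ.B_smul_left]; rfl)
  have a3 : ∀ v w, f v w = f w v := fun v w => Subtype.ext (by
    have := frob_half hF hcard (f w v)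
    change (frobQ hF : F →+* F) (f w v) = f w v at this
    rw [← this, hf, hf, Bs])
  let T : PQ (FP.orth F₀) (Fin n → F₀) :=
    { B := f
      B_add_left := a1
      B_smul_left := a2
      B_swap := fun x y => by simp [a3 y x]
      Q := fun x => f x x / 2
      Q_add := fun x y => by
        rw [FP.orth_mem, a1, a3 x (x + y), a3 y (x + y), a1, a1, a3 y x]; field_simp; ring
      Q_smul := fun a x => by
        rw [FP.orth_mem, a2, a3 x, a2, FP.orth_σ]; field_simp; ring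
      B_self := fun x => by simp only [FP.orth_ε, FP.orth_σ]; field_simp; ring }
  have h : RS (std hF n) T (ratMap F₀ P) 1 :=
    ⟨ratMap_smul F₀ P, fun x y => by rw [one_mul]; rfl, ratMap_span F₀ P, ratMap_inj F₀ P,
      std_nondeg hF n, one_ne_zero, frob_half hF hcard⟩
  have hq := two_le_of_card_sq hF
  exact max_of hF _ (mem_subfield_iff F₀ P)
    (SU_not_le_subfieldSubgroup hF (by omega) (ne_top_of_card le_rfl hcard) P)
    fun M h1 h3 => OR.max (std_ne hF) (exists_real hF (by obtain ⟨k, rfl⟩ := hodd; omega))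
      ⟨h, real_half hF hcard, h2, by simpa using hn, h1, h3⟩

end Cfsg.Agent.H6.SU
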