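import Cfsg.Agent.H6.SUC2

/-!
Maximality of the stabiliser of a pair of complementary totally singular subspaces in `SU`.
-/

set_option autoImplicit false
set_option linter.unusedSectionVars false
set_option linter.unusedVariables false

namespace Cfsg.Agent.H6.SU

open Module Cfsg.Agent.Form Cfsg.Agent.H7
open scoped MatrixGroups

section abstract

variable {F : Type*} [Field F] {σ : F →+* F} {hσ : ∀ a, σ (σ a) = a}
  {V : Type*} [AddCommGroup V] [Module F V] {S : PQ (FP.unit σ hσ) V} {M : Subgroup (V ≃ₗ[F] V)}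
  [FiniteDimensional F V] [Finite F]

theorem ctr_of_ht (hne : ∃ a, σ a ≠ a) {d : V} (hd : S.B d d = 0) {c : F} (hc : c + σ c = 0)
    (hc0 : c ≠ 0) (h : HT S M d c) (ht : ∀ a : F, a ≠ 0 → ∃ g ∈ M, g ∈ S.isom ∧ g d = a • d) :
    Ctr S M d := by
  refine ctr_iff.2 ⟨hd, fun c' hc' => ?_⟩
  by_cases h0 : c' = 0
  · rw [h0]; exact ht_zero d
  have e1 : σ c = -c := by linear_combination hc
  have e2 : σ c' = -c' := by linear_combination hc'
  obtain ⟨a, ha⟩ := exists_norm hne hσ (c := c' / c) (by rw [map_div₀, e1, e2, neg_div_neg_eq])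
  obtain ⟨g, hg, hg', e⟩ := ht a (by
    rintro rfl
    rw [zero_mul, eq_comm, div_eq_zero_iff] at ha
    tauto)
  have := h.conj hg hg'
  rw [e] at this
  have := this.smul
  rwa [ha, div_mul_cancel₀ _ hc0] at this

omit [FiniteDimensional F V] [Finite F] in
theorem he_swap_all {d w : V} (h : ∀ a : F, HE S M d (a • w) 0) (a : F) : HE S M w (a • d) 0 := by
  have h1 := h 1
  rw [one_smul] at h1
  refine HE.swap (HE.smul_left' ((h (σ a)).congr rfl rfl (by simp)) h1.wd h1.tr)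

/-- A pair of complementary totally singular subspaces whose stabiliser lies in `M`. -/
structure PR (S : PQ (FP.unit σ hσ) V) (M : Subgroup (V ≃ₗ[F] V)) (A B : Submodule F V) : Prop where
  tsA : ∀ x ∈ A, ∀ y ∈ A, S.B x y = 0
  tsB : ∀ x ∈ B, ∀ y ∈ B, S.B x y = 0
  compl : IsCompl A B
  dim : finrank F A = finrank F B
  three : 3 ≤ finrank F A
  mem : ∀ g ∈ sisom S, ((∀ x ∈ A, g x ∈ A) ∨ (∀ x ∈ A, g x ∈ B)) →
    ((∀ x ∈ B, g x ∈ A) ∨ (∀ x ∈ B, g x ∈ B)) → g ∈ M

variable {A B : Submodule F V}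

theorem PR.symm (h : PR S M A B) : PR S M B A :=
  ⟨h.tsB, h.tsA, h.compl.symm, h.dim.symm, h.dim ▸ h.three,
    fun g hg h1 h2 => h.mem g hg h2.symm h1.symm⟩

theorem PR.dec (h : PR S M A B) (v : V) : ∃ x ∈ A, ∃ y ∈ B, v = x + y := by
  have : v ∈ A ⊔ B := by rw [h.compl.sup_eq_top]; trivial
  obtain ⟨x, hx, y, hy, e⟩ := Submodule.mem_sup.1 this
  exact ⟨x, hx, y, hy, e.symm⟩

theorem PR.eq_zero (h : PR S M A B) {x : V} (h1 : x ∈ A) (h2 : x ∈ B) : x = 0 :=
  (Submodule.disjoint_def.1 h.compl.disjoint) x h1 h2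

theorem PR.perp_eq (hS : S.Nondeg) (h : PR S M A B) : S.perp A = A := by
  symm
  apply Submodule.eq_of_le_of_finrank_eq h.tsA
  have h1 := hS.finrank_perp A
  have h2 := Submodule.finrank_add_eq_of_isCompl h.compl
  have := h.dim
  omega

theorem PR.he (h : PR S M A B) {a b : V} (ha : a ∈ A) (hb : b ∈ B) (hab : S.B b a = 0) :
    HE S M a b 0 := by
  have hq : S.EichOK a b 0 := eichOK_iff.2 ⟨h.tsA a ha a ha, hab, by simp [h.tsB b hb b hb]⟩
  refine ⟨hq, h.mem _ (eich_mem_sisom S _ _ _ hq) (Or.inl fun x hx => ?_) (Or.inr fun x hx => ?_)⟩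
  · rw [eich_ap, h.tsA x hx a ha]
    simpa using A.add_mem hx (A.smul_mem _ ha)
  · rw [eich_ap, h.tsB x hx b hb]
    simpa using B.sub_mem hx (B.smul_mem _ hb)

theorem PR.exists_dual (hS : S.Nondeg) (h : PR S M A B) {X : Submodule F V} (hX : X ≤ A) {x : V}
    (hx : x ∈ A) (hxX : x ∉ X) (c : F) : ∃ b ∈ B, b ∈ S.perp X ∧ S.B x b = c := by
  obtain ⟨z, hz, e⟩ := hS.exists_perp_eq hxX c
  obtain ⟨p, hp, b, hb, rfl⟩ := h.dec z
  refine ⟨b, hb, fun y hy => ?_, by simpa [h.tsA x hx p hp] using e⟩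
  simpa [h.tsA p hp y (hX hy)] using hz y hy

theorem PR.trans (hS : S.Nondeg) (h : PR S M A B) {d d' : V} (hd : d ∈ A) (hd' : d' ∈ A)
    (h0 : d ≠ 0) (h0' : d' ≠ 0) : ∃ g ∈ M, g ∈ S.isom ∧ g d = d' := by
  have key : ∀ d ∈ A, ∀ d' ∈ A, d ∉ F ∙ (d' - d) → ∃ g ∈ M, g ∈ S.isom ∧ g d = d' := by
    intro d hd d' hd' hm
    obtain ⟨b, hb, h1, h2⟩ := h.exists_dual hS
      (by rw [Submodule.span_singleton_le_iff_mem]; exact A.sub_mem hd' hd) hd hm 1
    obtain ⟨g, hg, hg', e⟩ := (h.he (A.sub_mem hd' hd) hb (S.mem_perp_span_singleton.1 h1)).exists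
    exact ⟨g, hg, hg', by rw [e, h2, h.tsA d hd _ (A.sub_mem hd' hd)]; simp⟩
  have ind : ∀ x y : V, x ∉ F ∙ y → y ≠ 0 → x ∉ F ∙ (y - x) ∧ y ∉ F ∙ (x - y) := by
    intro x y hxy hy
    constructor
    · intro hm
      obtain ⟨c, hc⟩ := Submodule.mem_span_singleton.1 hm
      by_cases h1 : 1 + c = 0
      · have : c = -1 := by linear_combination h1
        rw [this] at hc
        exact hy (by simpa using hc)
      · refine hxy (Submodule.mem_span_singleton.2 ⟨(1 + c)⁻¹ * c, ?_⟩)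
        have : c • y = (1 + c) • x := by rw [add_smul, one_smul]; nth_rewrite 1 [← hc]; module
        rw [mul_smul, this, smul_smul, inv_mul_cancel₀ h1, one_smul]
    · intro hm
      obtain ⟨c, hc⟩ := Submodule.mem_span_singleton.1 hm
      have hc0 : c ≠ 0 := by rintro rfl; exact hy (by simpa using hc.symm)
      refine hxy (Submodule.mem_span_singleton.2 ⟨c⁻¹ * (1 + c), ?_⟩)
      have : (1 + c) • y = c • x := by rw [add_smul, one_smul]; nth_rewrite 1 [← hc]; module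
      rw [mul_smul, this, smul_smul, inv_mul_cancel₀ hc0, one_smul]
  obtain ⟨z, hz, hz'⟩ := exists_mem_notMem_of_finrank_lt (U := A) (W := (F ∙ d) ⊔ F ∙ d') (by
    have h1 := finrank_sup_span_le (F ∙ d) d'
    have h2 := finrank_span_singleton_le (F := F) d
    have := h.three
    omega)
  obtain ⟨g, hg, hg', e⟩ := key d hd z hz (ind z d (fun hm => hz' (Submodule.mem_sup_left hm)) h0).2
  obtain ⟨k, hk, hk', e'⟩ := key z hz d' hd'
    (ind z d' (fun hm => hz' (Submodule.mem_sup_right hm)) h0').1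
  exact ⟨k * g, M.mul_mem hk hg, S.isom.mul_mem hk' hg', by rw [LinearEquiv.mul_apply, e, e']⟩

theorem PR.mem_of_he (hne : ∃ a, σ a ≠ a) (hS : S.Nondeg) (h : PR S M A B) {d w : V} (hd : d ∈ A)
    (h0 : d ≠ 0) (hc : ¬ Ctr S M d) (hw : ∀ a : F, HE S M d (a • w) 0) : w ∈ B := by
  obtain ⟨x, hx, y, hy, rfl⟩ := h.dec w
  have hdd := h.tsA d hd d hd
  have h1 : S.B y d = 0 := by simpa [h.tsA x hx d hd] using (hw 1).wd
  have h2 := fun a : F => (hw a).add (h.he hd (B.smul_mem (-a) hy) (by simp [h1]))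
  obtain ⟨β, rfl⟩ : ∃ β : F, β • d = x := by
    rw [← Submodule.mem_span_singleton]
    by_contra hm
    obtain ⟨b, hb, h3, h4⟩ := h.exists_dual hS
      (by rw [Submodule.span_singleton_le_iff_mem]; exact hd) hx hm 1
    exact hc (ctr_of_ei hne (w := x) (fun a => (h2 a).ei.congr (by module))
      (h.he hd hb (S.mem_perp_span_singleton.1 h3)).ei (by rw [h4]; exact one_ne_zero))
  by_cases hβ : β = 0
  · simpa [hβ] using hy
  exfalso
  obtain ⟨θ, hθ⟩ := id hne
  have h3 : HE S M d (θ • d) 0 := (h2 (θ / β)).congr rfl (by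
    rw [smul_add, smul_smul, div_mul_cancel₀ _ hβ]; module) (by simp [h1, h.tsB y hy y hy])
  have h4 := h3.ht_sub (he_self hdd θ)
  exact hc (ctr_of_ht hne hdd (by simp [hσ]) (by simpa [sub_eq_zero] using hθ) h4
    fun a ha => h.trans hS hd (A.smul_mem a hd) h0 (smul_ne_zero ha h0))

theorem PR.map_mem (hne : ∃ a, σ a ≠ a) (hS : S.Nondeg) (h : PR S M A B) (hM : M ≤ sisom S)
    (hA : ∀ d ∈ A, d ≠ 0 → ¬ Ctr S M d) (hB : ∀ d ∈ B, d ≠ 0 → ¬ Ctr S M d) {g : V ≃ₗ[F] V}
    (hg : g ∈ M) {d : V} (hd : d ∈ A) : g d ∈ A ∨ g d ∈ B := by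
  by_contra hcon
  push Not at hcon
  have hgi := (hM hg).1
  have h0 : d ≠ 0 := by rintro rfl; simp at hcon
  obtain ⟨x, hx, y, hy, e⟩ := h.dec (g d)
  have hy0 : y ≠ 0 := by rintro rfl; exact hcon.1 (by simpa [e] using hx)
  set Z := (B ⊓ S.perp (F ∙ d)).map (g : V →ₗ[F] V) with hZ
  have z1 : ∀ w, w ∈ Z ↔ ∀ a : F, HE S M (g d) (a • w) 0 := by
    intro w
    constructor
    · rintro ⟨b, ⟨hb, hb'⟩, rfl⟩ a
      have := (h.he hd (B.smul_mem a hb) (by simp [S.mem_perp_span_singleton.1 hb'])).conj hg hgi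
      rwa [map_smul] at this
    · intro hw
      have k : ∀ a : F, HE S M d (a • g.symm w) 0 := fun a => by
        have := (hw a).conj (M.inv_mem hg) (inv_mem hgi)
        simpa using this
      exact ⟨g.symm w, ⟨h.mem_of_he hne hS hd h0 (hA d hd h0) k,
        S.mem_perp_span_singleton.2 (by simpa using (k 1).wd)⟩, by simp⟩
  have z2 : ∀ w ∈ Z, w ∈ A → w = 0 := fun w hw hw' => by
    by_contra h1
    exact hcon.2 (h.mem_of_he hne hS hw' h1 (hA w hw' h1) (he_swap_all ((z1 w).1 hw)))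
  have z3 : ∀ w ∈ Z, w ∈ B → w = 0 := fun w hw hw' => by
    by_contra h1
    exact hcon.1 (h.symm.mem_of_he hne hS hw' h1 (hB w hw' h1) (he_swap_all ((z1 w).1 hw)))
  have hperp : ∀ (C : Submodule F V) (v : V), finrank F C ≤ finrank F (C ⊓ S.perp (F ∙ v) : Submodule F V) + 1 := by
    intro C v
    have := finrank_le_finrank_inf_ker C (S.lin v)
    rwa [show LinearMap.ker (S.lin v) = S.perp (F ∙ v) by
      ext z; simp [S.mem_perp_span_singleton]] at this
  have h3 := h.three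
  have hdim := h.dim
  obtain ⟨w, hw, hwx⟩ : ∃ w ∈ Z, w ∉ B ⊔ F ∙ x := by
    by_contra hc
    push Not at hc
    have f1 : finrank F Z = finrank F (B ⊓ S.perp (F ∙ d) : Submodule F V) :=
      LinearEquiv.finrank_map_eq g _
    have f2 := hperp B d
    have f3 := Submodule.finrank_sup_add_finrank_inf_eq Z B
    have f4 : Z ⊓ B = ⊥ := eq_bot_iff.2 fun w hw => z3 w hw.1 hw.2
    have f5 := Submodule.finrank_mono (show Z ⊔ B ≤ B ⊔ F ∙ x from sup_le hc le_sup_left)
    have f6 := finrank_sup_span_le B x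
    rw [f4, finrank_bot] at f3
    omega
  obtain ⟨w1, hw1, w2, hw2, ew⟩ := h.dec w
  have n1 : w1 ∉ F ∙ x := fun hm => hwx (by
    rw [ew, add_comm]; exact Submodule.add_mem_sup hw2 hm)
  obtain ⟨a, ha, ha0, hay, hwa⟩ : ∃ a ∈ A, a ≠ 0 ∧ S.B a y = 0 ∧ w1 ∉ (F ∙ x) ⊔ F ∙ a := by
    have hx0 : x ≠ 0 := by rintro rfl; exact hcon.2 (by simpa [e] using hy)
    by_cases hxy : S.B x y = 0
    · exact ⟨x, hx, hx0, hxy, by simpa using n1⟩
    obtain ⟨a, ha, ha'⟩ : ∃ a ∈ A ⊓ S.perp (F ∙ y), a ∉ (F ∙ x) ⊔ F ∙ w1 := by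
      by_contra hc
      push Not at hc
      have f1 := hperp A y
      have f2 := finrank_sup_span_le (F ∙ x) w1
      have f3 := finrank_span_singleton_le (F := F) x
      have f4 := Submodule.eq_of_le_of_finrank_le (show A ⊓ S.perp (F ∙ y) ≤ _ from hc) (by omega)
      have : x ∈ A ⊓ S.perp (F ∙ y) := by
        rw [f4]; exact Submodule.mem_sup_left (Submodule.mem_span_singleton_self x)
      exact hxy (S.mem_perp_span_singleton.1 this.2)
    refine ⟨a, ha.1, by rintro rfl; exact ha' (zero_mem _), S.mem_perp_span_singleton.1 ha.2,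
      fun hm => ha' ?_⟩
    obtain ⟨p, hp, c, hc⟩ := mem_sup_span_iff.1 hm
    have hc0 : c ≠ 0 := by rintro rfl; exact n1 (by simpa [hc] using hp)
    refine mem_sup_span_iff.2 ⟨-(c⁻¹ • p), neg_mem (Submodule.smul_mem _ _ hp), c⁻¹, ?_⟩
    rw [hc, smul_add, smul_smul, inv_mul_cancel₀ hc0]; simp
  obtain ⟨b, hb, hb1, hb2⟩ := h.exists_dual hS (X := (F ∙ x) ⊔ F ∙ a) (by
    simp [Submodule.span_singleton_le_iff_mem, hx, ha]) hw1 hwa 1
  rw [S.perp_sup] at hb1
  have b1 := S.mem_perp_span_singleton.1 hb1.1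
  have b2 := S.mem_perp_span_singleton.1 hb1.2
  have key : ∀ μ : F, μ • a - (σ μ * S.B w a) • b ∈ Z := by
    intro μ
    obtain ⟨k, hk, hk', ek⟩ := (h.he (A.smul_mem μ ha) hb (by simp [b2])).exists
    have e1 : k (g d) = g d := by
      rw [ek, e]
      simp [S.B_comm_zero b1, h.tsB y hy b hb, h.tsA x hx a ha, S.B_comm_zero hay]
    have m : k w ∈ Z := (z1 _).2 fun c => by
      have := ((z1 w).1 hw c).conj hk hk'
      rwa [e1, map_smul] at this
    have := Z.sub_mem m hw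
    rw [ek] at this
    convert this using 1
    have e2 : S.B w b = 1 := by rw [ew]; simp [hb2, h.tsB w2 hw2 b hb]
    rw [e2, Bsr]; module
  obtain ⟨θ, hθ⟩ := id hne
  have k1 := Z.sub_mem (key θ) (Z.smul_mem θ (key 1))
  have k2 := z3 _ k1 (by
    have : θ • a - (σ θ * S.B w a) • b - θ • ((1 : F) • a - (σ 1 * S.B w a) • b) =
        ((θ - σ θ) * S.B w a) • b := by rw [map_one]; module
    rw [this]; exact B.smul_mem _ hb)
  have hb0 : b ≠ 0 := by rintro rfl; simp at hb2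
  have k3 : S.B w a = 0 := by
    have : ((θ - σ θ) * S.B w a) • b = 0 := by rw [← k2, map_one]; module
    rw [smul_eq_zero, mul_eq_zero, sub_eq_zero] at this
    rcases this with (h1 | h1) | h1
    · exact absurd h1.symm hθ
    · exact h1
    · exact absurd h1 hb0
  exact ha0 (z2 a (by simpa [k3] using key 1) ha)

theorem PR.exists_swap (hne : ∃ a, σ a ≠ a) (hS : S.Nondeg) (h : PR S M A B) :
    ∃ g ∈ M, g ∈ S.isom ∧ ∀ x ∈ A, g x ∈ B := by
  classical
  let e := Module.finBasis F A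
  let p : V →ₗ[F] A := A.projectionOnto B h.compl
  choose f hf using fun i => hS.exists_lin ((e.coord i).comp p)
  have f1 : ∀ i x, S.B x (f i) = e.repr (p x) i := fun i x => LinearMap.congr_fun (hf i) x
  have f2 : ∀ i, f i ∈ B := fun i => by
    rw [← h.symm.perp_eq hS, PQ.mem_perp']
    intro y hy
    rw [f1, Submodule.projectionOnto_apply_right _ ⟨y, hy⟩]; simp
  have f3 : ∀ i (x : A), S.B x (f i) = e.repr x i := fun i x => by
    rw [f1, Submodule.projectionOnto_apply_left]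
  have f4 : ∀ i j, S.B (e i) (f j) = if i = j then 1 else 0 := fun i j => by
    rw [f3, e.repr_self, Finsupp.single_apply]
  have f5 : ∀ i j, S.B (f j) (e i) = if i = j then 1 else 0 := fun i j => by
    rw [← Bs, f4]; split_ifs <;> simp
  have a1 : ∀ i j, S.B (e i : V) (e j) = 0 := fun i j => h.tsA _ (e i).2 _ (e j).2
  have a2 : ∀ i j, S.B (f i) (f j) = 0 := fun i j => h.tsB _ (f2 i) _ (f2 j)
  have cs : ∀ v, S.B v v = 0 → Ctr S (sisom S) v := fun v hv =>
    ⟨sing hv, fun c hc => tau_mem_sisom S (sing hv) c hc⟩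
  obtain ⟨c, hc0, hc⟩ := exists_tr_zero hne hσ
  obtain ⟨g, hg, eg⟩ := exists_prod (sisom S) (fun i => (c • S.lin (e i) - S.lin (f i)).smulRight (e i : V)
      - (c⁻¹ • S.lin (f i) + S.lin (e i)).smulRight (f i)) Finset.univ (fun i => by
      obtain ⟨n, hn, -, en⟩ := exists_n (cs _ (a1 i i)) (cs _ (a2 i i)) (by simp [f4]) hc0
        (by linear_combination hc)
      exact ⟨n, hn, fun x => by rw [en]; simp [add_sub_assoc]⟩)
    (fun i j hij x => by simp [a1, a2, f4, f5, hij, hij.symm])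
  simp only [LinearMap.sub_apply, LinearMap.smulRight_apply, LinearMap.add_apply,
    LinearMap.smul_apply, PQ.lin_apply, smul_eq_mul] at eg
  have g1 : ∀ x ∈ A, g x ∈ B := by
    intro x hx
    have e1 : x = ∑ i, S.B x (f i) • (e i : V) := by
      have := congrArg Subtype.val (e.sum_repr ⟨x, hx⟩)
      simp only [Submodule.coe_sum, Submodule.coe_smul] at this
      rw [← this]
      exact Finset.sum_congr rfl fun i _ => by rw [this, f3 i ⟨x, hx⟩]
    have : g x = ∑ i, (-(c⁻¹ * S.B x (f i))) • f i := by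
      rw [eg]
      nth_rewrite 1 [e1]
      rw [← Finset.sum_add_distrib]
      refine Finset.sum_congr rfl fun i _ => ?_
      rw [h.tsA x hx _ (e i).2]; module
    rw [this]
    exact B.sum_mem fun i _ => B.smul_mem _ (f2 i)
  have g2 : ∀ y ∈ B, g y ∈ A := by
    intro y hy
    have e1 : y = ∑ i, S.B y (e i) • f i := by
      rw [← sub_eq_zero]
      refine h.eq_zero ?_ (B.sub_mem hy (B.sum_mem fun i _ => B.smul_mem _ (f2 i)))
      refine (h.perp_eq hS).le ?_
      intro x hx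
      have := congrArg Subtype.val (e.sum_repr ⟨x, hx⟩)
      simp only [Submodule.coe_sum, Submodule.coe_smul] at this
      rw [← this, S.B_sum_right]
      refine Finset.sum_eq_zero fun i _ => ?_
      simp [S.B_sum_left, f5]
    have : g y = ∑ i, (c * S.B y (e i)) • (e i : V) := by
      rw [eg]
      nth_rewrite 1 [e1]
      rw [← Finset.sum_add_distrib]
      refine Finset.sum_congr rfl fun i _ => ?_
      rw [h.tsB y hy _ (f2 i)]; module
    rw [this]
    exact A.sum_mem fun i _ => A.smul_mem _ (e i).2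
  exact ⟨g, h.mem g hg (Or.inr g1) (Or.inl g2), hg.1, g1⟩

theorem PR.full (hne : ∃ a, σ a ≠ a) (hS : S.Nondeg) (h : PR S M A B) {d : V} (hd : d ∈ A)
    (h0 : d ≠ 0) (hc : Ctr S M d) : Full S M ⊤ := by
  have key : ∀ {A B}, PR S M A B → ∀ d ∈ A, d ≠ 0 → Ctr S M d → ∀ x ∈ A, Ctr S M x := by
    intro A B h d hd h0 hc x hx
    by_cases hx0 : x = 0
    · rw [hx0]; exact ctr_zero
    obtain ⟨g, hg, hg', e⟩ := h.trans hS hd hx h0 hx0
    rw [← e]; exact hc.map hg hg'
  have hA := key h d hd h0 hc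
  obtain ⟨g, hg, hg', g1⟩ := h.exists_swap hne hS
  have hB := key h.symm (g d) (g1 d hd) (by simpa using h0) (hc.map hg hg')
  have k : ∀ x ∈ A, ∀ y ∈ B, S.B x y ≠ 0 → S.B (x + y) (x + y) = 0 → Ctr S M (x + y) :=
    fun x hx y hy h1 h2 => Ctr.add1 (hA x hx) (hB y hy) h1 h2
  intro v _ hv
  obtain ⟨x, hx, y, hy, rfl⟩ := h.dec v
  by_cases hxy : S.B x y = 0
  swap
  · exact k x hx y hy hxy hv
  by_cases hy0 : y = 0
  · rw [hy0, add_zero]; exact hA x hx
  obtain ⟨l, hl0, hl⟩ := exists_tr_zero hne hσ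
  obtain ⟨x', hx', -, e⟩ := h.symm.exists_dual hS (X := ⊥) bot_le hy (by simpa using hy0) l
  have e' : S.B x' y = σ l := by rw [← e, Bs]
  have c1 := k (x - x') (A.sub_mem hx hx') y hy (by simpa [hxy, e'] using hl0) (by
    simp only [PQ.B_add_left, PQ.B_add_right, h.tsA _ (A.sub_mem hx hx') _ (A.sub_mem hx hx'),
      h.tsB y hy y hy, PQ.B_sub_left (y := x') (z := y), PQ.B_sub_right (x := y), hxy, e, e',
      S.B_comm_zero hxy]
    linear_combination -hl)
  have c2 := Ctr.add1 c1 (hA x' hx') (by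
    simpa [h.tsA x hx x' hx', h.tsA x' hx' x' hx', e] using hl0) (by
    rwa [show x - x' + y + x' = x + y by abel])
  rwa [show x - x' + y + x' = x + y by abel] at c2

theorem PR.max (hne : ∃ a, σ a ≠ a) (hS : S.Nondeg) (h : PR S M A B) (hM : M ≤ sisom S) :
    (∀ g ∈ M, ((∀ x ∈ A, g x ∈ A) ∨ (∀ x ∈ A, g x ∈ B)) ∧
      ((∀ x ∈ B, g x ∈ A) ∨ (∀ x ∈ B, g x ∈ B))) ∨ sisom S ≤ M := by
  have h4 : 4 ≤ finrank F V := by
    have h2 := Submodule.finrank_add_eq_of_isCompl h.compl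
    have := h.dim
    have := h.three
    omega
  by_cases hA : ∀ d ∈ A, d ≠ 0 → ¬ Ctr S M d
  swap
  · push Not at hA
    obtain ⟨d, hd, h0, hc⟩ := hA
    exact Or.inr ((h.full hne hS hd h0 hc).sisom_le hne hS h4)
  by_cases hB : ∀ d ∈ B, d ≠ 0 → ¬ Ctr S M d
  swap
  · push Not at hB
    obtain ⟨d, hd, h0, hc⟩ := hB
    exact Or.inr ((h.symm.full hne hS hd h0 hc).sisom_le hne hS h4)
  have key : ∀ (g : V ≃ₗ[F] V) (C : Submodule F V), (∀ x ∈ C, g x ∈ A ∨ g x ∈ B) →
      (∀ x ∈ C, g x ∈ A) ∨ (∀ x ∈ C, g x ∈ B) := by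
    intro g C hC
    by_contra hc
    push Not at hc
    obtain ⟨x, hx, h1, h2⟩ := exists_not_not C.toAddSubgroup
      (A.comap (g : V →ₗ[F] V)).toAddSubgroup (B.comap (g : V →ₗ[F] V)).toAddSubgroup hc.1 hc.2
    exact (hC x hx).elim h1 h2
  exact Or.inl fun g hg => ⟨key g A fun x hx => h.map_mem hne hS hM hA hB hg hx,
    key g B fun x hx => (h.symm.map_mem hne hS hM hB hA hg hx).symm⟩

end abstract

variable {F : Type*} [Field F] [Fintype F] {q : ℕ} (hF : Fintype.card F = q ^ 2) {n : ℕ}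

include hF in
theorem geo_pair {k : ℕ} (hk : 3 ≤ k) (D : Fin 2 → Submodule F (Fin n → F))
    (hD : Geo.IsMDecomposition k D) (hts : ∀ i, Geo.IsTotallySingularFor (hermForm n F q) (D i)) :
    Geo.IsMaximalIn (GU n F q ⊓ Geo.specialLinear (Fin n) F)
      (Geo.decompositionStabilizer D ⊓ (GU n F q ⊓ Geo.specialLinear (Fin n) F)) := by
  have hn := card_eq_of_isMDecomposition hD
  rw [Fintype.card_fin] at hn
  have hc : IsCompl (D 0) (D 1) := by
    constructor
    · exact hD.indep.pairwiseDisjoint (by decide)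
    · rw [codisjoint_iff, eq_top_iff, ← hD.iSup_eq_top, iSup_le_iff, Fin.forall_fin_two]
      exact ⟨le_sup_left, le_sup_right⟩
  refine max_of hF (fun g => ∀ i, ∃ j, ∀ x ∈ D i, g x ∈ D j) (mem_decomp_iff hD)
    (SU_not_le_decompositionStabilizer hF (by omega) (by omega) hD) fun M h1 h3 => ?_
  have h : PR (std hF n) M (D 0) (D 1) := ⟨hts 0, hts 1, hc, by rw [hD.finrank_eq, hD.finrank_eq],
    by rw [hD.finrank_eq]; exact hk, fun g hg a b => h3 g hg (by
      simpa [Fin.forall_fin_two, Fin.exists_fin_two] using ⟨a, b⟩)⟩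
  refine (h.max (std_ne hF) (std_nondeg hF n) h1).imp_left fun h5 g hg => ?_
  simpa [Fin.forall_fin_two, Fin.exists_fin_two] using h5 g hg

end Cfsg.Agent.H6.SU
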