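import Cfsg.Agent.H6.SURat

/-!
Maximality of the normaliser of `Sp_n(q)` in `SU_n(q)`; concrete rational structures.
-/

set_option autoImplicit false
set_option linter.unusedSectionVars false
set_option linter.unusedVariables false

namespace Cfsg.Agent.H6.SU

open Module Cfsg.Agent.Form Cfsg.Agent.H7
open scoped MatrixGroups Matrix

section abstract

variable {F : Type*} [Field F] {σ : F →+* F} {hσ : ∀ a, σ (σ a) = a}
  {V : Type*} [AddCommGroup V] [Module F V] {S : PQ (FP.unit σ hσ) V} {M : Subgroup (V ≃ₗ[F] V)}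
  {E : Type*} [Field E] [Algebra E F] {W : Type*} [AddCommGroup W] [Module E W]
  {T : PQ (FP.symp E) W} {φ : W →+ V} {κ : F}
  [FiniteDimensional F V] [Finite F] [FiniteDimensional E W]

theorem symp_max (hne : ∃ a, σ a ≠ a) (h : RS S T φ κ) (hκ : σ κ = -κ)
    (hreal : ∀ a, σ a = a → ∃ r, a = algebraMap E F r) (h4 : 4 ≤ finrank F V) (hM : M ≤ sisom S)
    (hH : ∀ g ∈ sisom S, NR φ g → g ∈ M) : (∀ g ∈ M, NR φ g) ∨ sisom S ≤ M := by
  have hs : ∀ w, S.B (φ w) (φ w) = 0 := fun w => h.B0 (T.symp_B_self w)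
  have hc : ∀ w, Ctr S M (φ w) := fun w => ⟨sing (hs w), fun c hc =>
    hH _ (tau_mem_sisom S (sing (hs w)) c hc) (h.nr_of_map fun y => by
      have h1 := tr_of_tauOK (hs w) hc
      obtain ⟨r, hr⟩ := hreal (c * κ) (by rw [map_mul, hκ]; linear_combination (-κ) * h1)
      exact ⟨y + (r * T.B y w) • w, by
        rw [PQ.tau_apply, h.B_eq, ← mul_assoc, hr, map_add, h.smul, map_mul]⟩)⟩
  by_cases hex : ∀ v, Ctr S M v → ∃ (b : F) (w : W), v = b • φ w
  · exact Or.inl fun g hg => h.nr_of_all fun y => hex _ ((hc y).map hg (hM hg).1)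
  right
  push Not at hex
  obtain ⟨v, hv, hv'⟩ := hex
  have hκ0 := h.κ_ne
  have hL : T.isom ≤ h.lifts M := by
    rw [← sisom_eq_symp h.ndT]
    refine trP_symp.sisom_le_of_all_ctr h.ndT (Or.inr fun _ => trivial) fun w _ =>
      ⟨trivial, fun c hc' => ?_⟩
    have h1 : algebraMap E F c / κ + σ (algebraMap E F c / κ) = 0 := by
      rw [map_div₀, h.σ_eq, hκ, FP.symp_σ]; field_simp; ring
    obtain ⟨g, hg, hg', e⟩ := (Ctr.ht (hc w) h1).exists (hs w) h1
    refine ⟨g, hg, hg', fun y => ?_⟩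
    rw [e, PQ.tau_apply, map_add, h.smul, h.B_eq, map_mul]
    congr 2; field_simp
  obtain ⟨θ, hθ⟩ := id hne
  have key : ∀ x y, (∀ (b : F) (w : W), φ x + θ • φ y ≠ b • φ w) → LinearIndependent E ![x, y] := by
    intro x y hxy
    rw [LinearIndependent.pair_iff]
    intro s t hst
    by_contra hc
    by_cases ht : t = 0
    · have hs : s ≠ 0 := fun hs => hc ⟨hs, ht⟩
      rw [ht, zero_smul, add_zero, smul_eq_zero] at hst
      exact hxy θ y (by simp [hst.resolve_left hs])
    · have : y = (-(s / t)) • x := by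
        rw [div_eq_inv_mul, ← mul_neg, mul_smul, neg_smul, neg_eq_of_add_eq_zero_right hst, smul_smul,
          inv_mul_cancel₀ ht, one_smul]
      exact hxy (1 + θ * algebraMap E F (-(s / t))) x (by rw [this, h.smul]; module)
  have key2 : ∀ x y, S.B (φ x + θ • φ y) (φ x + θ • φ y) = 0 → T.B x y = 0 := by
    intro x y h1
    simp only [PQ.B_add_left, PQ.B_add_right, PQ.B_smul_left, Bsr, hs, h.B_eq x y, h.B_eq y x,
      T.symp_B_swap x y, map_neg] at h1
    have : (σ θ - θ) * κ * algebraMap E F (T.B x y) = 0 := by linear_combination h1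
    simpa [hκ0, sub_eq_zero, hθ] using this
  obtain ⟨x, y, rfl⟩ := h.exists_comb hreal hθ v
  refine Full.sisom_le hne h.nd h4 fun v' _ hv'' => ?_
  obtain ⟨x', y', rfl⟩ := h.exists_comb hreal hθ v'
  by_cases h1 : ∀ (b : F) (w : W), φ x' + θ • φ y' ≠ b • φ w
  swap
  · push Not at h1
    obtain ⟨b, w, e⟩ := h1
    rw [e]; exact (hc w).smul b
  have b1 := key2 x y hv.1.B_self
  have b2 := key2 x' y' hv''
  obtain ⟨k, hk, ek⟩ := h.ndT.witt_family _ _ (key x y hv') (key x' y' h1) (by
    simp [Fin.forall_fin_two, T.symp_B_self, b1, b2, T.B_comm_zero b1, T.B_comm_zero b2])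
    (fun _ => trivial)
  obtain ⟨g, hg, hg', e⟩ := hL hk
  have := hv.map hg hg'
  rwa [map_add, map_smul, e, e, show k x = x' from ek 0, show k y = y' from ek 1] at this

end abstract

variable {F : Type*} [Field F] [Fintype F] {q : ℕ} (hF : Fintype.card F = q ^ 2) {n : ℕ}

/-- the rational structure given by the columns of a matrix -/
noncomputable def ratMap (F₀ : Subfield F) (P : GL (Fin n) F) : (Fin n → F₀) →+ (Fin n → F) where
  toFun w := (P : Matrix (Fin n) (Fin n) F) *ᵥ fun i => (w i : F)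
  map_zero' := by
    have : (fun i => ((0 : Fin n → F₀) i : F)) = 0 := rfl
    rw [this, Matrix.mulVec_zero]
  map_add' x y := by rw [← Matrix.mulVec_add]; rfl

theorem ratMap_apply (F₀ : Subfield F) (P : GL (Fin n) F) (w : Fin n → F₀) :
    ratMap F₀ P w = toLE P fun i => (w i : F) := rfl

theorem ratMap_smul (F₀ : Subfield F) (P : GL (Fin n) F) (c : F₀) (w : Fin n → F₀) :
    ratMap F₀ P (c • w) = algebraMap F₀ F c • ratMap F₀ P w := by
  rw [ratMap_apply, ratMap_apply, ← map_smul]; rfl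

theorem ratMap_inj (F₀ : Subfield F) (P : GL (Fin n) F) : Function.Injective (ratMap F₀ P) :=
  fun x y h => funext fun i => Subtype.ext (congrFun ((toLE P).injective h) i)

theorem ratMap_span (F₀ : Subfield F) (P : GL (Fin n) F) (N : Submodule F (Fin n → F))
    (hN : ∀ w, ratMap F₀ P w ∈ N) (v : Fin n → F) : v ∈ N := by
  obtain ⟨v, rfl⟩ := (toLE P).surjective v
  rw [pi_eq_sum_univ' v, map_sum]
  refine N.sum_mem fun i _ => ?_
  rw [map_smul]
  refine N.smul_mem _ ?_
  convert hN (fun j => if j = i then 1 else 0) using 1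
  rw [ratMap_apply]
  congr 1
  ext j
  split_ifs with h <;> simp [h]

theorem mem_subfield_iff (F₀ : Subfield F) (P g : GL (Fin n) F) :
    g ∈ Geo.subfieldSubgroup F₀ P ↔ NR (ratMap F₀ P) (toLE g) := by
  rw [mem_subfieldSubgroup_iff]
  refine exists_congr fun c => and_congr_right fun hc => ⟨fun h y => ?_, fun h x hx i => ?_⟩
  · refine ⟨fun i => ⟨_, h (fun i => y i) (fun i => (y i).2) i⟩, ?_⟩
    rw [ratMap_apply, ratMap_apply]
    change _ = toLE P (c • (toLE P).symm (toLE g (toLE P fun i => y i)))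
    rw [map_smul, LinearEquiv.apply_symm_apply]
  · obtain ⟨w, hw⟩ := h fun i => ⟨x i, hx i⟩
    change (c • (toLE P).symm (toLE g (toLE P x))) i ∈ F₀
    rw [← map_smul]
    change c • toLE g (toLE P x) = _ at hw
    rw [hw, ratMap_apply, LinearEquiv.symm_apply_apply]
    exact (w i).2

include hF in
theorem card_half {F₀ : Subfield F} (hcard : Fintype.card F = Nat.card F₀ ^ 2) : Nat.card F₀ = q :=
  Nat.pow_left_injective two_ne_zero (hcard.symm.trans hF)

theorem frob_half {F₀ : Subfield F} (hcard : Fintype.card F = Nat.card F₀ ^ 2) (c : F₀) :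
    (frobQ hF : F →+* F) (algebraMap F₀ F c) = algebraMap F₀ F c := by
  classical
  have := Fintype.ofFinite F₀
  change (c : F) ^ q = c
  rw [← card_half hF hcard, Nat.card_eq_fintype_card, ← SubmonoidClass.coe_pow, FiniteField.pow_card]

theorem real_half {F₀ : Subfield F} (hcard : Fintype.card F = Nat.card F₀ ^ 2) (a : F)
    (ha : (frobQ hF : F →+* F) a = a) : ∃ r, a = algebraMap F₀ F r := by
  classical
  by_contra hc
  have h2 := two_le_of_card_sq hF
  have h := FiniteField.X_pow_card_sub_X_natDegree_eq F (p := q) (by omega)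
  have h0 := FiniteField.X_pow_card_sub_X_ne_zero F (p := q) (by omega)
  have := Polynomial.card_le_degree_of_subset_roots
    (p := (Polynomial.X ^ q - Polynomial.X : Polynomial F))
    (Z := insert a (Finset.univ.filter (· ∈ F₀))) (fun x hx => by
      simp only [Finset.insert_val, Multiset.mem_ndinsert, Finset.mem_val, Finset.mem_filter,
        Finset.mem_univ, true_and] at hx
      have : x ^ q = x := by
        rcases hx with rfl | hx
        · exact ha
        · exact frob_half hF hcard ⟨x, hx⟩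
      simp [h0, this])
  rw [h, Finset.card_insert_of_notMem (by
    simp only [Finset.mem_filter, Finset.mem_univ, true_and]
    exact fun hm => hc ⟨⟨a, hm⟩, rfl⟩), ← Fintype.card_subtype, ← Nat.card_eq_fintype_card,
    card_half hF hcard] at this
  omega

theorem ne_top_of_card {F₀ : Subfield F} {r : ℕ} (hr : 2 ≤ r)
    (hcard : Fintype.card F = Nat.card F₀ ^ r) : F₀ ≠ ⊤ := by
  rintro rfl
  have h1 : Nat.card (⊤ : Subfield F) = Fintype.card F := by
    rw [← Nat.card_eq_fintype_card]; exact Nat.card_congr Subfield.topEquiv.toEquiv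
  rw [h1] at hcard
  have h2 := Fintype.one_lt_card (α := F)
  have := Nat.pow_lt_pow_right h2 (show 1 < r by omega)
  rw [pow_one, ← hcard] at this
  exact lt_irrefl _ this

include hF in
theorem geo_symp (hn : 4 ≤ n) (F₀ : Subfield F) (hcard : Fintype.card F = Nat.card F₀ ^ 2) (ζ : F)
    (hζ0 : ζ ≠ 0) (hζ : ζ + ζ ^ q = 0) (P : GL (Fin n) F)
    (hP : Geo.IsFormRationalStructure (hermForm n F q) F₀ ζ P)
    (halt : ∀ u : Fin n → F, (∀ i, u i ∈ F₀) → hermForm n F q
      ((P : Matrix (Fin n) (Fin n) F) *ᵥ u) ((P : Matrix (Fin n) (Fin n) F) *ᵥ u) = 0) :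
    Geo.IsMaximalIn (GU n F q ⊓ Geo.specialLinear (Fin n) F)
      (Geo.subfieldSubgroup F₀ P ⊓ (GU n F q ⊓ Geo.specialLinear (Fin n) F)) := by
  let f : (Fin n → F₀) → (Fin n → F₀) → F₀ := fun x y =>
    ⟨ζ * (std hF n).B (ratMap F₀ P x) (ratMap F₀ P y), hP _ _ (fun i => (x i).2) (fun i => (y i).2)⟩
  have hf : ∀ x y, (f x y : F) = ζ * (std hF n).B (ratMap F₀ P x) (ratMap F₀ P y) := fun _ _ => rfl
  have hζ' : (frobQ hF : F →+* F) ζ = -ζ := by
    change ζ ^ q = _; linear_combination hζ
  let T : PQ (FP.symp F₀) (Fin n → F₀) := PQ.ofAlt f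
    (fun x y v => Subtype.ext (by rw [AddMemClass.coe_add, hf, hf, hf, map_add, PQ.B_add_left, mul_add]))
    (fun c x v => Subtype.ext (by
      rw [MulMemClass.coe_mul, hf, hf, ratMap_smul, PQ.B_smul_left, mul_left_comm]; rfl))
    (fun v w => Subtype.ext (by
      have := frob_half hF hcard (f w v)
      change (frobQ hF : F →+* F) (f w v) = f w v at this
      rw [hf, map_mul, Bs, hζ'] at this
      rw [NegMemClass.coe_neg, hf, hf, ← this]; ring))
    (fun v => Subtype.ext (by
      rw [hf]; exact mul_eq_zero_of_right _ (halt _ fun i => (v i).2)))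
  have h : RS (std hF n) T (ratMap F₀ P) ζ⁻¹ :=
    ⟨ratMap_smul F₀ P, fun x y => by
      change _ = ζ⁻¹ * (f x y : F)
      rw [hf, inv_mul_cancel_left₀ hζ0], ratMap_span F₀ P, ratMap_inj F₀ P, std_nondeg hF n,
      inv_ne_zero hζ0, frob_half hF hcard⟩
  exact max_of hF _ (mem_subfield_iff F₀ P)
    (SU_not_le_subfieldSubgroup hF (by omega) (ne_top_of_card le_rfl hcard) P)
    fun M h1 h2 => symp_max (std_ne hF) h (by rw [map_inv₀, hζ', inv_neg]) (real_half hF hcard)
      (by simpa using hn) h1 h2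

end Cfsg.Agent.H6.SU
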