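import Cfsg.Agent.H4.E4
import Cfsg.Agent.H7.Sp1

/-! Extraspecial groups of exponent three: the Heisenberg matrices and their normaliser. -/

set_option autoImplicit false
set_option linter.unusedSectionVars false
set_option linter.unusedSimpArgs false
set_option linter.unusedVariables false

namespace Cfsg.Agent.H6.T

open Matrix Cfsg.Agent.H4.E Cfsg.Agent.Form

/-- the field with three elements -/
abbrev Z3 := ZMod 3

theorem z3 (a : Z3) : a = 0 ∨ a = 1 ∨ a = -1 := by revert a; decide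

theorem three_z3 : (3 : Z3) = 0 := by decide

/-- a symmetric non-degenerate form -/
class Bf (J : Type) [AddCommGroup J] where
  β : J → J → Z3
  add : ∀ a a' b, β (a + a') b = β a b + β a' b
  symm : ∀ a b, β a b = β b a
  nd : ∀ a, (∀ b, β a b = 0) → a = 0

instance bfZ : Bf Z3 := ⟨fun a b => a * b, add_mul, mul_comm, fun a h => by simpa using h 1⟩

/-- the affine plane of order three -/
abbrev I := Z3 × Z3

instance bfI : Bf I := ⟨fun a b => a.1 * b.1 + a.2 * b.2, by decide, by decide, by decide⟩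

/-- a primitive cube root of unity -/
structure Om (F : Type*) [Field F] where
  ω : F
  h : ω ^ 2 + ω + 1 = 0
  three : (3 : F) ≠ 0

variable {F : Type*} [Field F]

namespace Om
variable (o : Om F)

theorem cube : o.ω ^ 3 = 1 := by linear_combination (o.ω - 1) * o.h
theorem ne0 : o.ω ≠ 0 := fun e => by simpa [e] using o.h
theorem ne1 : o.ω ≠ 1 := fun e => o.three (by linear_combination o.h - (o.ω + 2) * e)
theorem sub_ne : o.ω - 1 ≠ 0 := sub_ne_zero.2 o.ne1
theorem sq_ne1 : o.ω ^ 2 ≠ 1 := fun e => o.ne1 (by linear_combination o.cube - o.ω * e)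

/-- the additive character -/
def χ (a : Z3) : F := o.ω ^ a.val

@[simp] theorem χ0 : o.χ 0 = 1 := by simp [χ]
@[simp] theorem χ1 : o.χ 1 = o.ω := pow_one _
@[simp] theorem χ2 : o.χ 2 = o.ω ^ 2 := rfl
@[simp] theorem χm : o.χ (-1) = o.ω ^ 2 := rfl
theorem χ_add (a b : Z3) : o.χ (a + b) = o.χ a * o.χ b := by
  rw [χ, ZMod.val_add, ← pow_eq_pow_mod _ o.cube, pow_add, χ, χ]
theorem χ_neg (a : Z3) : o.χ (-a) * o.χ a = 1 := by rw [← χ_add, neg_add_cancel, χ0]
theorem χ_ne (a : Z3) : o.χ a ≠ 0 := pow_ne_zero _ o.ne0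
theorem χ_cube (a : Z3) : o.χ a ^ 3 = 1 := by rw [χ, ← pow_mul, mul_comm, pow_mul, o.cube, one_pow]
theorem χ_eq_one {a : Z3} (h : o.χ a = 1) : a = 0 := by
  rcases z3 a with rfl | rfl | rfl
  exacts [rfl, absurd (o.χ1 ▸ h) o.ne1, absurd h o.sq_ne1]
theorem χ_inj {a b : Z3} (h : o.χ a = o.χ b) : a = b :=
  sub_eq_zero.1 (o.χ_eq_one (by rw [sub_eq_add_neg, χ_add, h, mul_comm, χ_neg]))
theorem exists_χ {c : F} (h : c ^ 3 = 1) : ∃ a, c = o.χ a := by
  have : (c - 1) * ((c - o.ω) * (c - o.ω ^ 2)) = 0 := by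
    linear_combination h + (c - c ^ 2) * o.h + (c - 1) * o.cube
  rcases mul_eq_zero.1 this with e | e
  · exact ⟨0, by simpa using sub_eq_zero.1 e⟩
  rcases mul_eq_zero.1 e with e | e
  · exact ⟨1, by simpa using sub_eq_zero.1 e⟩
  · exact ⟨2, by simpa using sub_eq_zero.1 e⟩

end Om

section gen
variable {J : Type} [DecidableEq J]

/-- monomial matrices -/
def Mon (π : J → J) (d : J → F) : Matrix J J F := of fun i j => if i = π j then d j else 0

theorem Mon_apply (π : J → J) (d : J → F) (i j : J) : Mon π d i j = if i = π j then d j else 0 := rfl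

theorem Mon_congr {π π' : J → J} {d d' : J → F} (h : ∀ j, π j = π' j) (h' : ∀ j, d j = d' j) :
    Mon π d = Mon π' d' := by rw [funext h, funext h']

theorem smul_Mon (c : F) (π : J → J) (d : J → F) : c • Mon π d = Mon π fun j => c * d j := by
  ext i j; simp [Mon_apply]

theorem diagonal_eq (d : J → F) : diagonal d = Mon id d := by
  ext i j; by_cases h : i = j <;> simp [Mon_apply, h, diagonal_apply]

theorem Mon_one {π : J → J} {d : J → F} (h : ∀ j, π j = j) (h' : ∀ j, d j = 1) : Mon π d = 1 := by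
  rw [← diagonal_one, diagonal_eq]; exact Mon_congr h h'

variable [Fintype J]

theorem mul_Mon (A : Matrix J J F) (π : J → J) (d : J → F) (i j : J) : (A * Mon π d) i j = A i (π j) * d j := by
  simp [mul_apply, Mon_apply]

theorem Mon_mul (π π' : J → J) (d d' : J → F) :
    Mon π d * Mon π' d' = Mon (fun j => π (π' j)) fun j => d (π' j) * d' j := by
  ext i j; simp [mul_Mon, Mon_apply]

theorem smul_cancel [Nonempty J] {g : Matrix J J F} (hg : IsUnit g) {c d : F} (h : c • g = d • g) : c = d :=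
  smul_left_injective F hg.ne_zero h

end gen

variable {J : Type} [AddCommGroup J] [Module Z3 J] [Bf J]

theorem β_zero (b : J) : Bf.β 0 b = 0 := by simpa using Bf.add (0 : J) 0 b
theorem β_neg (a b : J) : Bf.β (-a) b = -Bf.β a b :=
  eq_neg_of_add_eq_zero_left (by rw [← Bf.add, neg_add_cancel, β_zero])
theorem β_smul (c : Z3) (a b : J) : Bf.β (c • a) b = c * Bf.β a b := by
  rcases z3 c with rfl | rfl | rfl <;> simp [β_zero, β_neg]
theorem β_add' (a b b' : J) : Bf.β a (b + b') = Bf.β a b + Bf.β a b' := by simp only [Bf.symm a, Bf.add]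
theorem β_neg' (a b : J) : Bf.β a (-b) = -Bf.β a b := by simp only [Bf.symm a, β_neg]
theorem β_sub' (a b b' : J) : Bf.β a (b - b') = Bf.β a b - Bf.β a b' := by
  simp only [sub_eq_add_neg, β_add', β_neg']
theorem β_zero' (a : J) : Bf.β a 0 = 0 := by rw [Bf.symm, β_zero]

/-- the symplectic form -/
def f (u v : J × J) : Z3 := Bf.β u.1 v.2 - Bf.β v.1 u.2

variable {u v w : J × J}

@[simp] theorem f_add (u u' v : J × J) : f (u + u') v = f u v + f u' v := by simp [f, Bf.add, β_add']; ring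
@[simp] theorem f_smul (c : Z3) (u v : J × J) : f (c • u) v = c * f u v := by
  simp [f, β_smul, Bf.symm v.1]; ring
theorem f_swap (u v : J × J) : f v u = -f u v := by simp [f]
@[simp] theorem f_self (u : J × J) : f u u = 0 := by simp [f]
@[simp] theorem f_add' (u v v' : J × J) : f u (v + v') = f u v + f u v' := by simp [f_swap _ u]; ring
@[simp] theorem f_smul' (c : Z3) (u v : J × J) : f u (c • v) = c * f u v := by simp [f_swap _ u]
@[simp] theorem f_neg (u v : J × J) : f (-u) v = -f u v := by simpa using f_smul (-1) u v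
@[simp] theorem f_neg' (u v : J × J) : f u (-v) = -f u v := by simpa using f_smul' (-1) u v
@[simp] theorem f_sub (u u' v : J × J) : f (u - u') v = f u v - f u' v := by simp [sub_eq_add_neg]
@[simp] theorem f_sub' (u v v' : J × J) : f u (v - v') = f u v - f u v' := by simp [sub_eq_add_neg]
@[simp] theorem f_zero (v : J × J) : f 0 v = 0 := by simpa using f_smul 0 0 v
@[simp] theorem f_zero' (v : J × J) : f v 0 = 0 := by simpa using f_smul' 0 v 0
theorem f_nd (h : ∀ v, f u v = 0) : u = 0 :=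
  Prod.ext (Bf.nd _ fun b => by simpa [f, β_zero] using h (0, b))
    (Bf.nd _ fun b => by simpa [f, β_zero', Bf.symm b] using h (b, 0))
theorem exists_f (h : u ≠ 0) : ∃ v, f u v = 1 := by
  obtain ⟨v, hv⟩ := not_forall.1 (mt f_nd h)
  rcases z3 (f u v) with e | e | e
  exacts [absurd e hv, ⟨v, e⟩, ⟨-v, by simp [e]⟩]
theorem add3 {W : Type*} [AddCommGroup W] [Module Z3 W] (u : W) : u + u = -u := by
  rw [← two_smul Z3, show (2 : Z3) = -1 from rfl, neg_one_smul]

/-- the symplectic space -/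
def spW (J : Type) [AddCommGroup J] [Module Z3 J] [Bf J] : PQ (FP.symp Z3) (J × J) :=
  PQ.ofAlt f f_add f_smul (fun _ _ => f_swap _ _) f_self

theorem spW_nd : (spW J).Nondeg := fun _ h => f_nd h

theorem exists_mid (hu : u ≠ 0) (hv : v ≠ 0) : ∃ y, f u y ≠ 0 ∧ f y v ≠ 0 := by
  obtain ⟨y, hy⟩ := exists_f hu
  obtain ⟨z, hz⟩ := exists_f hv
  have hz' : f z v ≠ 0 := by simp [f_swap v, hz]
  by_cases h1 : f y v = 0
  · by_cases h2 : f u z = 0
    · exact ⟨y + z, by simp [hy, h2], by simpa [h1] using hz'⟩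
    · exact ⟨z, h2, hz'⟩
  · exact ⟨y, by simp [hy], h1⟩

variable [Fintype J] [DecidableEq J]

theorem card_ne (h : (3 : F) ≠ 0) : (Fintype.card J : F) ≠ 0 := by
  rw [Module.card_eq_pow_finrank (K := Z3)]; simpa using fun e => absurd e h

namespace Om
variable (o : Om F)

/-- the Heisenberg matrices -/
def η (w : J × J) : Matrix J J F := Mon (fun j => j + w.2) fun j => o.χ (Bf.β w.1 (j - w.2))

theorem η_mul (u v : J × J) : o.η u * o.η v = o.χ (-f u v) • o.η (u + v) := by
  rw [η, η, η, Mon_mul, smul_Mon]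
  refine Mon_congr (fun j => by simp only [Prod.snd_add]; abel) fun j => ?_
  simp only [← χ_add, f, Prod.fst_add, Prod.snd_add, Bf.add, β_add', β_sub']
  congr 1
  linear_combination Bf.β u.1 v.2 * three_z3

@[simp] theorem η0 : o.η (0 : J × J) = 1 := Mon_one (by simp) (by simp [β_zero])
theorem η_comm (u v : J × J) : o.η u * o.η v = o.χ (f u v) • (o.η v * o.η u) := by
  rw [η_mul, η_mul, smul_smul, ← χ_add, add_comm v, f_swap u v, neg_neg, add3]
@[simp] theorem η_neg (u : J × J) : o.η u * o.η (-u) = 1 := by simp [η_mul]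
@[simp] theorem η_neg' (u : J × J) : o.η (-u) * o.η u = 1 := by simp [η_mul]
theorem η_sq (u : J × J) : o.η u * o.η u = o.η (-u) := by simp [η_mul, add3]
theorem η_unit (u : J × J) : IsUnit (o.η u) := ⟨⟨_, _, o.η_neg u, o.η_neg' u⟩, rfl⟩
theorem η_conj (u v : J × J) : o.η u * o.η v * o.η (-u) = o.χ (f u v) • o.η v := by
  rw [η_comm, smul_mul_assoc, mul_assoc, η_neg, mul_one]

theorem tr_η (h : u ≠ 0) : (o.η u).trace = 0 := by
  obtain ⟨v, hv⟩ := exists_f h
  have := congrArg trace (o.η_conj (-v) u)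
  rw [trace_mul_cycle, η_neg', one_mul, trace_smul, f_neg, f_swap u, hv, neg_neg, χ1, smul_eq_mul] at this
  exact (mul_eq_zero.1 (show (o.ω - 1) * _ = 0 by linear_combination -this)).resolve_left o.sub_ne

theorem tr_ηη (u v : J × J) : (o.η (-u) * o.η v).trace = if v = u then (Fintype.card J : F) else 0 := by
  split_ifs with h
  · simp [h]
  · rw [η_mul, trace_smul, o.tr_η (by rwa [Ne, neg_add_eq_zero, eq_comm]), smul_zero]

theorem linInd : LinearIndependent F (o.η : J × J → Matrix J J F) := by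
  refine Fintype.linearIndependent_iff.2 fun c h w => ?_
  have := congrArg (fun A => (o.η (-w) * A).trace) h
  simpa [Finset.mul_sum, trace_sum, tr_ηη, card_ne o.three] using this

theorem expand (g : Matrix J J F) :
    (Fintype.card J : F) • g = ∑ w : J × J, (o.η (-w) * g).trace • o.η w := by
  have := o.linInd.span_eq_top_of_card_eq_finrank' (by simp [Module.finrank_matrix] : Fintype.card (J × J) = _)
  obtain ⟨c, rfl⟩ := (Submodule.mem_span_range_iff_exists_fun F).1 (this.ge (Submodule.mem_top (x := g)))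
  rw [Finset.smul_sum]
  refine Finset.sum_congr rfl fun w _ => ?_
  simp [Finset.mul_sum, trace_sum, tr_ηη, smul_smul, mul_comm]

theorem scalar_of_tr {g : Matrix J J F} (h : ∀ w, w ≠ 0 → (o.η w * g).trace = 0) : ∃ c : F, g = c • 1 := by
  have := o.expand g
  rw [Finset.sum_eq_single 0 (fun w _ hw => by rw [h _ (neg_ne_zero.2 hw), zero_smul]) (by simp), η0] at this
  exact ⟨_, by rw [mul_smul, ← this, inv_smul_smul₀ (card_ne o.three)]⟩

theorem exists_ne {φ x : J → F} (hφ : φ ≠ 0) (hx : x ≠ 0) : ∃ w, φ ⬝ᵥ o.η w *ᵥ x ≠ 0 := by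
  by_contra hn
  push Not at hn
  have := o.expand (vecMulVec x φ)
  simp only [mul_vecMulVec, trace_vecMulVec, dotProduct_comm _ φ, hn, zero_smul, Finset.sum_const_zero,
    smul_eq_zero, card_ne o.three, false_or, vecMulVec_eq_zero, hφ, hx, or_self] at this

/-- `g` conjugates `η u` to a multiple of `η v` -/
def Cj (g : Matrix J J F) (u v : J × J) : Prop := ∃ c : F, g * o.η u = c • (o.η v * g)

/-- `g` normalises the Heisenberg group -/
def Nrm (g : Matrix J J F) : Prop := ∀ u, ∃ v, o.Cj g u v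

variable {o} {g k : Matrix J J F}

theorem Cj.mul (h : o.Cj g v w) (h' : o.Cj k u v) : o.Cj (g * k) u w := by
  obtain ⟨c, h⟩ := h
  obtain ⟨d, h'⟩ := h'
  exact ⟨d * c, by rw [mul_assoc, h', mul_smul_comm, ← mul_assoc, h, smul_mul_assoc, smul_smul, mul_assoc]⟩

theorem Cj.smul (h : o.Cj g u v) (c : F) : o.Cj (c • g) u v :=
  h.imp fun d e => by rw [smul_mul_assoc, e, mul_smul_comm, smul_comm]

theorem cj_η (w u : J × J) : o.Cj (o.η w) u u := ⟨_, o.η_comm w u⟩
theorem cj_one (u : J × J) : o.Cj 1 u u := ⟨1, by simp⟩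
theorem cj_zero (g : Matrix J J F) : o.Cj g 0 0 := ⟨1, by simp⟩

theorem cj_ne (hg : IsUnit g) {c : F} (h : g * o.η u = c • (o.η v * g)) : c ≠ 0 := by
  rintro rfl
  exact (hg.mul (o.η_unit u)).ne_zero (by simpa using h)

theorem cj_mul {u' v' : J × J} {c d : F} (h : g * o.η u = c • (o.η u' * g)) (h' : g * o.η v = d • (o.η v' * g)) :
    g * (o.η u * o.η v) = (c * d) • (o.η u' * o.η v' * g) := by
  rw [← mul_assoc, h, smul_mul_assoc, mul_assoc, h', mul_smul_comm, smul_smul, mul_assoc]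

theorem Cj.add {u' v' : J × J} (h : o.Cj g u u') (h' : o.Cj g v v') : o.Cj g (u + v) (u' + v') := by
  obtain ⟨c, h⟩ := h
  obtain ⟨d, h'⟩ := h'
  have := congrArg (o.χ (f u v) • ·) (cj_mul h h')
  simp only [η_mul, mul_smul_comm, smul_mul_assoc, smul_smul] at this
  rw [mul_comm, χ_neg, one_smul] at this
  exact ⟨_, this⟩

theorem Cj.neg (h : o.Cj g u v) : o.Cj g (-u) (-v) := by simpa only [add3] using h.add h

theorem Cj.zsmul (h : o.Cj g u v) (s : Z3) : o.Cj g (s • u) (s • v) := by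
  rcases z3 s with rfl | rfl | rfl
  exacts [by simpa using cj_zero g, by simpa using h, by simpa using h.neg]

theorem Cj.f_eq (hg : IsUnit g) {u' v' : J × J} (h : o.Cj g u u') (h' : o.Cj g v v') : f u' v' = f u v := by
  obtain ⟨c, h⟩ := h
  obtain ⟨d, h'⟩ := h'
  have e1 := cj_mul h h'
  rw [η_comm _ u, η_comm _ u', mul_smul_comm, cj_mul h' h, smul_mul_assoc, smul_smul, smul_smul] at e1
  have := smul_cancel (((o.η_unit _).mul (o.η_unit _)).mul hg) e1
  exact o.χ_inj (mul_left_cancel₀ (mul_ne_zero (cj_ne hg h) (cj_ne hg h')) (by rw [← this]; ring))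

theorem η_inj {c : F} (h : o.η u = c • o.η v) : u = v := by
  by_contra hn
  have := o.tr_ηη u v
  rw [if_neg (Ne.symm hn)] at this
  have h2 := o.tr_ηη u u
  rw [if_pos rfl] at h2
  rw [h] at h2
  exact card_ne o.three (by rw [← h2, mul_smul_comm, trace_smul, this, smul_zero])

theorem Cj.uniq (hg : IsUnit g) (h : o.Cj g u v) (h' : o.Cj g u w) : v = w := by
  obtain ⟨c, h⟩ := h
  obtain ⟨d, h'⟩ := h'
  have : c • o.η v = d • o.η w := hg.mul_left_inj.1 (by simpa using h.symm.trans h')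
  exact η_inj (o := o) (c := c⁻¹ * d) (by rw [mul_smul, ← this, inv_smul_smul₀ (cj_ne hg h)])

theorem Cj.inv (e : k * g = 1) (h : o.Cj g u v) : o.Cj k v u := by
  obtain ⟨c, h⟩ := h
  have e' := mul_eq_one_comm.1 e
  refine ⟨c⁻¹, ?_⟩
  rw [eq_inv_smul_iff₀ (cj_ne ⟨⟨g, k, e', e⟩, rfl⟩ h)]
  calc c • (k * o.η v) = k * (c • (o.η v * g)) * k := by simp [mul_assoc, e']
    _ = _ := by rw [← h, ← mul_assoc, e, one_mul]

theorem cj_cube (hg : IsUnit g) {c : F} (h : g * o.η u = c • (o.η v * g)) : c ^ 3 = 1 := by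
  have h1 := cj_mul h h
  rw [η_sq, η_sq] at h1
  have := cj_mul h h1
  rw [η_neg, η_neg, mul_one, one_mul] at this
  exact (smul_cancel hg (by rw [one_smul]; simpa [pow_succ, mul_assoc] using this)).symm

theorem inner (hg : IsUnit g) (h : ∀ u, o.Cj g u u) : ∃ w, ∃ c : F, c ≠ 0 ∧ g = c • o.η w := by
  choose c hc using h
  have key : ∀ w u, (o.η (-w) * g).trace ≠ 0 → c u * o.χ (f u w) = 1 := fun w u hw => by
    have e : g = c u • (o.η u * g * o.η (-u)) := by rw [← smul_mul_assoc, ← hc, mul_assoc, η_neg, mul_one]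
    have e2 := o.η_conj (-u) (-w)
    refine mul_right_cancel₀ hw ?_
    conv_rhs => rw [e, one_mul, mul_smul_comm, trace_smul, ← mul_assoc, trace_mul_comm, ← mul_assoc, ← mul_assoc,
      show o.η (-u) * o.η (-w) * o.η u = _ by simpa using e2]
    simp [mul_assoc]
  have n0 := card_ne (J := J) o.three
  have e := o.expand g
  obtain ⟨w, hw⟩ : ∃ w, (o.η (-w) * g).trace ≠ 0 := by
    by_contra hn
    push Not at hn
    simp [hn, n0, hg.ne_zero] at e
  rw [Finset.sum_eq_single w (fun w' _ hw' => by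
    by_contra hn
    refine hw' (sub_eq_zero.1 (f_nd fun u => ?_))
    have := (key w u hw).trans (key w' u (left_ne_zero_of_smul hn)).symm
    rw [f_swap u, f_sub', o.χ_inj (mul_left_cancel₀ (cj_ne hg (hc u)) this), sub_self, neg_zero]) (by simp)] at e
  exact ⟨w, _, mul_ne_zero (inv_ne_zero n0) hw, by rw [mul_smul, ← e, inv_smul_smul₀ n0]⟩

theorem Nrm.mul (h : o.Nrm g) (h' : o.Nrm k) : o.Nrm (g * k) := fun u => by
  obtain ⟨v, hv⟩ := h' u
  obtain ⟨w, hw⟩ := h v
  exact ⟨w, hw.mul hv⟩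

theorem Nrm.smul (h : o.Nrm g) (c : F) : o.Nrm (c • g) := fun u => (h u).imp fun _ e => e.smul c
theorem nrm_η (w : J × J) : o.Nrm (o.η w) := fun u => ⟨u, cj_η w u⟩
theorem nrm_one : o.Nrm (1 : Matrix J J F) := fun u => ⟨u, cj_one u⟩

theorem Nrm.exists_act (h : o.Nrm g) (hg : IsUnit g) :
    ∃ e : (J × J) ≃ₗ[Z3] (J × J), (∀ u v, f (e u) (e v) = f u v) ∧ ∀ u, o.Cj g u (e u) := by
  choose A hA using h
  let L : (J × J) →ₗ[Z3] (J × J) :=
    ⟨⟨A, fun u v => (hA _).uniq hg ((hA u).add (hA v))⟩, fun s u => (hA _).uniq hg ((hA u).zsmul s)⟩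
  have hf : ∀ u v, f (L u) (L v) = f u v := fun u v => (hA u).f_eq hg (hA v)
  have hi : Function.Injective L := (injective_iff_map_eq_zero L).2 fun u e => f_nd fun v => by
    rw [← hf, e, f_zero]
  exact ⟨LinearEquiv.ofBijective L ⟨hi, Finite.surjective_of_injective hi⟩, hf, hA⟩

theorem Nrm.inv (h : o.Nrm g) (e : k * g = 1) : o.Nrm k := fun u => by
  obtain ⟨A, -, hA⟩ := h.exists_act ⟨⟨g, k, mul_eq_one_comm.1 e, e⟩, rfl⟩
  exact ⟨A.symm u, by simpa using (hA (A.symm u)).inv e⟩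

theorem Nrm.of_mul_left (h : o.Nrm g) (hg : IsUnit g) (h' : o.Nrm (g * k)) : o.Nrm k := by
  obtain ⟨g, rfl⟩ := hg
  simpa using (h.inv g.inv_mul).mul h'

theorem Nrm.of_mul_right (h : o.Nrm g) (hg : IsUnit g) (h' : o.Nrm (k * g)) : o.Nrm k := by
  obtain ⟨g, rfl⟩ := hg
  simpa using h'.mul (h.inv g.inv_mul)

variable (o)

/-- the lift of a symplectic transvection -/
def U (v : J × J) : Matrix J J F := o.ω • 1 + o.η v + o.η (-v)

/-- three times the inverse of `U` -/
def U' (v : J × J) : Matrix J J F := o.ω ^ 2 • 1 + o.η v + o.η (-v)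

theorem U_mul (v : J × J) : o.U v * o.U' v = (3 : F) • 1 := by
  have := o.η_sq (-v)
  simp only [U, U', mul_add, add_mul, smul_mul_assoc, mul_smul_comm, one_mul, mul_one, η_sq, η_neg, η_neg', neg_neg]
  match_scalars
  exacts [by linear_combination o.cube, by linear_combination o.h, by linear_combination o.h]

theorem U_inv (v : J × J) : o.U v * ((3 : F)⁻¹ • o.U' v) = 1 := by
  rw [mul_smul_comm, U_mul, inv_smul_smul₀ o.three]

theorem U_unit (v : J × J) : IsUnit (o.U v) := ⟨⟨_, _, o.U_inv v, mul_eq_one_comm.1 (o.U_inv v)⟩, rfl⟩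

theorem U_η (v w : J × J) : o.U v * o.η w = o.η (w + f w v • v) * o.U v := by
  simp only [U, mul_add, add_mul, smul_mul_assoc, mul_smul_comm, one_mul, mul_one, η_mul, f_add, f_smul, f_self,
    f_neg, f_neg', f_swap w v, mul_zero, add_zero, neg_neg, neg_zero]
  rcases z3 (f w v) with e | e | e
  · simp [e, add_comm]
  · simp only [e, one_smul, χ1, χm, add_neg_cancel_right, add_assoc, add3, add_comm _ w, add_neg_cancel, add_zero]; abel
  · simp only [e, neg_one_smul, neg_neg, χ1, χm, add_assoc, add3, add_comm _ w, neg_add_cancel, add_zero]; abel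

theorem cj_U (v w : J × J) : o.Cj (o.U v) w (w + f w v • v) := ⟨1, by rw [U_η, one_smul]⟩
theorem nrm_U (v : J × J) : o.Nrm (o.U v) := fun w => ⟨_, o.cj_U v w⟩

theorem conj_U (h : g * o.η u = o.η v * g) : g * o.U u = o.U v * g := by
  have h' : g * o.η u = (1 : F) • (o.η v * g) := by simpa using h
  have := cj_mul h' h'
  simp only [η_sq, mul_one, one_smul] at this
  simp [U, mul_add, add_mul, h, this]

theorem exists_step (h : f u v ≠ 0) : ∃ n, IsUnit n ∧ o.Nrm n ∧ n * o.η u = o.η v * n := by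
  rcases z3 (f u v) with e | e | e
  · exact absurd e h
  · exact ⟨_, o.U_unit (v - u), o.nrm_U _, by simp [U_η, e]⟩
  · refine ⟨_, (o.U_unit (v - u)).mul (o.U_unit (v - u)), (o.nrm_U _).mul (o.nrm_U _), ?_⟩
    rw [mul_assoc, U_η, ← mul_assoc, U_η, mul_assoc]
    simp only [f_add, f_smul, f_self, mul_zero, add_zero]
    simp only [f_sub', f_self, e, sub_zero, neg_one_smul, add_assoc, add3]
    simp

theorem exists_conj (hu : u ≠ 0) (hv : v ≠ 0) : ∃ n, IsUnit n ∧ o.Nrm n ∧ n * o.η u = o.η v * n := by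
  obtain ⟨y, h1, h2⟩ := exists_mid hu hv
  obtain ⟨n, a1, a2, a3⟩ := o.exists_step h1
  obtain ⟨m, b1, b2, b3⟩ := o.exists_step h2
  exact ⟨m * n, b1.mul a1, b2.mul a2, by rw [mul_assoc, a3, ← mul_assoc, b3, mul_assoc]⟩

/-- `M` contains the normaliser -/
def Over (M : Gp F (Matrix J J F)) : Prop := ∀ g, IsUnit g → o.Nrm g → M.mem g

variable {o} {M : Gp F (Matrix J J F)}

theorem exists_lift (h : ∀ v, M.mem (o.U v)) (e : (J × J) ≃ₗ[Z3] (J × J)) (he : ∀ u v, f (e u) (e v) = f u v) :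
    ∃ m, M.mem m ∧ ∀ u, o.Cj m u (e u) := by
  let S : Subgroup ((J × J) ≃ₗ[Z3] (J × J)) :=
    { carrier := {e | ∃ m, M.mem m ∧ ∀ u, o.Cj m u (e u)}
      one_mem' := ⟨1, M.one, cj_one⟩
      mul_mem' := fun ⟨m, h1, h2⟩ ⟨n, h3, h4⟩ => ⟨m * n, M.mul h1 h3, fun u => (h2 _).mul (h4 u)⟩
      inv_mem' := fun {e} ⟨m, h1, h2⟩ => by
        obtain ⟨n, h3, -, h4⟩ := M.inv h1
        exact ⟨n, h3, fun u => by simpa using (h2 (e⁻¹ u)).inv h4⟩ }
  have h1 : ∀ v, H7.tv (spW J) v 1 ∈ S := fun v => ⟨_, h v, fun u => by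
    rw [H7.tv_apply, one_mul]; exact o.cj_U v u⟩
  refine H7.isom_le_of_ctr (M := S) spW_nd (fun v => ⟨trivial, fun c _ => ?_⟩) ⟨he, fun _ => trivial⟩
  change H7.tv (spW J) v c ∈ S
  rcases z3 c with rfl | rfl | rfl
  exacts [H7.tv_zero (S := spW J) v ▸ S.one_mem, h1 v, H7.tv_inv (S := spW J) v 1 ▸ S.inv_mem (h1 v)]

theorem over_of (h1 : ∀ v, M.mem (o.η v)) (h2 : ∀ v, M.mem (o.U v)) : o.Over M := fun g hg h => by
  obtain ⟨e, he, h3⟩ := h.exists_act hg
  obtain ⟨m, h4, h5⟩ := exists_lift h2 e he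
  obtain ⟨n, h6, -, h7⟩ := M.inv h4
  obtain ⟨w, c, c0, e'⟩ := inner ((Gp.isUnit h6).mul hg) fun u => ((h5 u).inv h7).mul (h3 u)
  exact Gp.of_mul_left h6 (e' ▸ M.smul c0 (h1 w))

theorem Over.η (h : o.Over M) (v : J × J) : M.mem (o.η v) := h _ (o.η_unit v) (nrm_η v)
theorem Over.U (h : o.Over M) (v : J × J) : M.mem (o.U v) := h _ (o.U_unit v) (o.nrm_U v)

theorem cj_aff {π L : J → J} (hπ : ∀ j b, π (j + b) = π j + L b) {a a' : J} (b : J)
    (hβ : ∀ j, Bf.β a' (L j) = Bf.β a j) : o.Cj (Mon π 1) (a, b) (a', L b) := by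
  refine ⟨o.χ (-Bf.β a' (π 0)), ?_⟩
  rw [η, η, Mon_mul, Mon_mul, smul_Mon]
  refine Mon_congr (fun j => hπ j b) fun j => ?_
  have := hπ 0 j
  rw [zero_add] at this
  simp only [Pi.one_apply, one_mul, mul_one, ← χ_add, this, β_sub', β_add', hβ]
  congr 1; ring

theorem neg_η (o : Om F) (w : J × J) : Mon Neg.neg 1 * o.η w = o.η (-w) * Mon Neg.neg 1 := by
  rw [η, η, Mon_mul, Mon_mul]
  exact Mon_congr (fun j => by simp [add_comm]) fun j => by simp [β_neg, β_sub', β_add', β_neg', add_comm, sub_eq_add_neg]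

theorem neg_sq : Mon Neg.neg 1 * Mon Neg.neg 1 = (1 : Matrix J J F) := by
  rw [Mon_mul]; exact Mon_one (by simp) (by simp)

theorem det_η (o : Om F) (w : J × J) : (o.η w).det = 1 := by
  have h1 := congrArg det (neg_η o w)
  have h2 := congrArg det (o.η_neg w)
  have h3 := congrArg det (o.η_sq w)
  have h4 := congrArg det (neg_sq (J := J) (F := F))
  rw [det_mul] at h2 h3 h4
  rw [det_mul, det_mul, mul_comm] at h1
  have h5 := mul_right_cancel₀ (left_ne_zero_of_mul_eq_one (h4.trans det_one)) h1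
  rw [← h5] at h3
  exact mul_left_cancel₀ (left_ne_zero_of_mul_eq_one (h2.trans det_one)) (h3.trans (mul_one _).symm)

end Om

/-- the adjoint -/
def adj (σ : F →+* F) (A : Matrix J J F) : Matrix J J F := (A.map σ)ᵀ

variable {σ : F →+* F}

theorem adj_mul (A B : Matrix J J F) : adj σ (A * B) = adj σ B * adj σ A := by simp [adj, Matrix.map_mul]
theorem adj_add (A B : Matrix J J F) : adj σ (A + B) = adj σ A + adj σ B := by ext; simp [adj]
theorem adj_smul (c : F) (A : Matrix J J F) : adj σ (c • A) = σ c • adj σ A := by ext; simp [adj]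
@[simp] theorem adj_one : adj σ (1 : Matrix J J F) = 1 := by simp [adj]

theorem Om.σ_χ {o : Om F} (h : σ o.ω = o.ω ^ 2) (a : Z3) : σ (o.χ a) = o.χ (-a) := by
  rcases z3 a with rfl | rfl | rfl
  · simp
  · simp [h]
  · simp only [Om.χm, map_pow, h, neg_neg, Om.χ1]; linear_combination o.ω * o.cube

theorem Om.adj_η {o : Om F} (h : σ o.ω = o.ω ^ 2) (w : J × J) : adj σ (o.η w) = o.η (-w) := by
  ext i j
  simp only [adj, Om.η, transpose_apply, map_apply, Mon_apply, Prod.snd_neg, Prod.fst_neg]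
  by_cases e : j = i + w.2
  · subst e
    simp [Om.σ_χ h, β_neg, add_assoc, add3, sub_eq_add_neg]
  · rw [if_neg e, if_neg fun e' => e (by simp [e']), map_zero]

theorem Om.adj_U {o : Om F} (h : σ o.ω = o.ω ^ 2) (w : J × J) : adj σ (o.U w) = o.U' w := by
  simp [Om.U, Om.U', adj_add, adj_smul, Om.adj_η h, h, add_right_comm]

/-- similitudes of the standard unitary form -/
def Sim (σ : F →+* F) (A : Matrix J J F) : Prop := ∃ μ : F, adj σ A * A = μ • 1

end Cfsg.Agent.H6.T
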