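import Cfsg.Agent.MH.Hom

/-! Homologies in projective planes: variants of the lemmas of `MH.Hom` for groups that need not be perfect. -/

set_option autoImplicit false
set_option linter.unnecessarySeqFocus false

namespace Cfsg.Agent.H6.T

open Matrix MulAction Cfsg.Agent.H4 Cfsg.Agent.H4.Mob Cfsg.Agent.H4.Bar Cfsg.Agent.H4.Pair Cfsg.Agent.H4.Dick
open Cfsg.Agent.MH Cfsg.Agent.MH.PRep

variable {Γ K : Type*} [Group Γ] [Field K]
variable {ρ : PRep Γ K} {x y s s' : Γ} {X Y : M3 K} {c u v w φ ψ χ θ : V3 K} {d : K}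

/-- every homology has a partner with the same ratio -/
def HP (ρ : PRep Γ K) : Prop :=
  ∀ d x v φ, d ≠ 0 → ρ.Hm d x v φ → ∃ y w ψ, ρ.Hm d y w ψ ∧ Ind v w ∧ φ ⬝ᵥ w ≠ 0

theorem HP.cj (H : HP ρ) {P Q : M3 K} (h : P * Q = 1) : HP (ρ.cj P Q h) := fun d x v φ hd h1 => by
  have h' := mul_eq_one_comm.1 h
  obtain ⟨y, w, ψ, h2, i, e⟩ := H d x (P *ᵥ v) (φ ᵥ* Q) hd ⟨conj_T h v φ ▸ cj_R.1 h1.r, by rw [dot_conj h, h1.e]⟩
  refine ⟨y, Q *ᵥ w, ψ ᵥ* P, ⟨conj_T h' w ψ ▸ h2.r.cj, by rw [dot_conj h', h2.e]⟩, ?_, by rwa [dotProduct_mulVec]⟩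
  simpa [h'] using i.map (X := Q) h

theorem HP.ord [Finite K] (H : HP ρ) (h : ρ.Small) (hd : d ≠ 0) (h1 : ρ.Hm d x v φ) : MH.Ord (1 + d) := by
  by_cases hd2 : 1 + d + 1 = 0
  · exact Or.inl hd2
  obtain ⟨y, w, ψ, h2, i, ha⟩ := H _ _ _ _ hd h1
  have hb : ψ ⬝ᵥ v ≠ 0 := fun e => ha (h.orth h2.pe h1.pe (h2.e ▸ hd) (h1.e ▸ hd) e)
  by_cases e : (φ ⬝ᵥ w) * (ψ ⬝ᵥ v) = d ^ 2
  · exact Or.inr (Or.inl (h.pair_one hd hd2 h1.pe h2.pe h1.e h2.e i e).2.1)
  obtain ⟨O, hO, o1, o2⟩ := exists_common φ ψ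
  obtain ⟨Q, hQ⟩ := exists_inv (det_ne_of_pair h1.e h2.e e hO o1 o2)
  obtain ⟨s, s', hs, hs'⟩ := blk_coord h1.pe h2.pe h1.e h2.e o1 o2 hQ
  have m := hs.mob_mem' hs.mem_blk
  have k3 : mob _ _ _ _ hs.blk_det ^ 3 = 1 → MH.Ord (1 + d) := fun k =>
    Or.inr (Or.inl (by linear_combination (mob_pow3 k).resolve_left (by simp [ha])))
  rcases or_assoc.2 ((h.cj hQ).blk_pair hs hs' ha hb (by simpa using e) (by simpa using hd) hd2).2 with k | k
  · rcases (small_facts k).1 ⟨_, m⟩ with k | k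
    · exact k3 (congrArg Subtype.val k)
    · have := (mob_pow4 (congrArg Subtype.val k)).resolve_left (by simp [ha])
      exact Or.inr (Or.inr (Or.inl (by linear_combination (mul_eq_zero.1 this).resolve_left hd2)))
  rcases pow_of_iso k m with k | k | k
  · exact absurd ((mob_pow2 k).resolve_left (by simp [ha])) hd2
  · exact k3 k
  · exact Or.inr (Or.inr (Or.inr (by linear_combination (mob_pow5 k).resolve_left (by simp [ha]))))

theorem HP.ord' [Finite K] (H : HP ρ) (h : ρ.Small) {a e : K}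
    (hx : ρ.R x !![a, 0, 0; 0, a, 0; 0, 0, e]) : e = a ∨ MH.Ord (e / a) := by
  have ha : a ≠ 0 := fun e => hx.blk_det (by simp [e])
  by_cases k : e / a - 1 = 0
  · exact Or.inl ((div_eq_one_iff_eq ha).1 (sub_eq_zero.1 k))
  · have := H.ord h k (x := x) (v := ![0, 0, 1]) (φ := ![0, 0, e / a - 1]) ⟨(hx.smul (inv_ne_zero ha)).congr (by
      ext i j; fin_cases i <;> fin_cases j <;> simp [T, vecMulVec, ha, div_eq_inv_mul]), by simp⟩
    exact Or.inr (by simpa using this)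

theorem HP.blk_pair' [Finite K] (H : HP ρ) (h : ρ.Small) {l a b : K}
    (hs : ρ.R s !![l, a, 0; 0, 1, 0; 0, 0, 1]) (hs' : ρ.R s' !![1, 0, 0; b, l, 0; 0, 0, 1]) (ha : a ≠ 0) (hb : b ≠ 0)
    (hab : a * b ≠ (l - 1) ^ 2) (h1 : l ≠ 1) (h2 : l + 1 ≠ 0) :
    (2 : K) ≠ 0 ∧ a * b = -l ∧ (l ^ 2 + l + 1 = 0 ∨ l ^ 2 + 1 = 0) := by
  obtain ⟨t2, k⟩ := h.blk_pair hs hs' ha hb hab h1 h2
  have m1 := hs.mob_mem' hs.mem_blk
  have m2 := hs'.mob_mem' hs'.mem_blk
  have l0 : l ≠ 0 := by simpa using hs.blk_det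
  refine ⟨t2, ?_⟩
  rw [← or_assoc] at k
  rcases k with k | k
  · obtain ⟨k1, k2⟩ := small_facts k
    have n1 : mob _ _ _ _ hs.blk_det ^ 2 ≠ 1 := fun e => by simpa [ha, h2] using mob_pow2 e
    have n2 : mob _ _ _ _ hs'.blk_det ^ 2 ≠ 1 := fun e => by simpa [hb, h2, add_comm] using mob_pow2 e
    have c1 : mob _ _ _ _ hs.blk_det ^ 3 = 1 ↔ l ^ 2 + l + 1 = 0 :=
      ⟨fun k => by linear_combination (mob_pow3 k).resolve_left (by simp [ha]),
        fun k => mob_pow3' (by linear_combination k)⟩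
    have c2 : mob _ _ _ _ hs'.blk_det ^ 3 = 1 ↔ l ^ 2 + l + 1 = 0 :=
      ⟨fun k => by linear_combination (mob_pow3 k).resolve_left (by simp [hb]),
        fun k => mob_pow3' (by linear_combination k)⟩
    have p1 := k2 ⟨_, m1⟩ ⟨_, m2⟩ (fun e => n1 (congrArg Subtype.val e)) (fun e => n2 (congrArg Subtype.val e))
      (by rw [Subtype.ext_iff, Subtype.ext_iff]; exact c1.trans c2.symm)
    have p2 := k2 ⟨_, m1⟩ ⟨_, m2⟩⁻¹ (fun e => n1 (congrArg Subtype.val e))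
      (fun e => by rw [inv_pow, inv_eq_one] at e; exact n2 (congrArg Subtype.val e))
      (by rw [inv_pow, inv_eq_one, Subtype.ext_iff, Subtype.ext_iff]; exact c1.trans c2.symm)
    simp only [Subtype.ext_iff, Subgroup.coe_pow, Subgroup.coe_mul, Subgroup.coe_inv, mob_inv, mob_mul,
      Subgroup.coe_one] at p1 p2
    have q1 : a * b = -2 * l ∨ a * b = -l ∨ a * b = -3 * l := by
      rcases p1 with e | e
      · exact Or.inl (by linear_combination (mob_pow2 e).resolve_left (by simp [hb]))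
      · have := (mob_pow3 e).resolve_left (by simp [hb])
        rw [← sub_eq_zero, ← sub_eq_zero (a := a * b), ← sub_eq_zero (a := a * b), ← mul_eq_zero]
        exact Or.inr (by linear_combination this)
    by_cases c : l ^ 2 + l + 1 = 0
    · refine ⟨?_, Or.inl c⟩
      rcases q1 with e | e | e
      · exfalso
        have := (hs.blk_mul hs').blk_mul (hs.blk_mul hs')
        rcases H.ord' h (this.congr (Y := !![-l ^ 2, 0, 0; 0, -l ^ 2, 0; 0, 0, 1]) (by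
          ext i j
          fin_cases i <;> fin_cases j <;> simp
          exacts [by linear_combination -(a * b + l) * e, by linear_combination -a * l * e,
            by linear_combination -b * e, by linear_combination -l * e])) with k | k
        · exact l0 (by linear_combination c - k)
        · refine not_ord_neg t2 c h1 (by
            convert k using 1
            field_simp
            linear_combination (1 - l) * c)
      · exact e
      · exact absurd (by linear_combination e - c) hab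
    · have c4 : l ^ 2 + 1 = 0 := by
        have := (k1 ⟨_, m1⟩).resolve_left fun e => c (c1.1 (congrArg Subtype.val e))
        have := (mob_pow4 (congrArg Subtype.val this)).resolve_left (by simp [ha])
        linear_combination (mul_eq_zero.1 this).resolve_left h2
      refine ⟨?_, Or.inr c4⟩
      rcases q1 with e | e | e
      · exact absurd (by linear_combination e - c4) hab
      · exact e
      · exfalso
        rcases p2 with e' | e'
        · exact mul_ne_zero ha hb (by linear_combination c4 - (mob_pow2 e').resolve_left (by simp [hb]))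
        · have := (mob_pow3 e').resolve_left (by simp [hb])
          exact pow_ne_zero 3 t2 (by
            linear_combination -this + (l ^ 2 + 1 - 2 * a * b + 8) * c4 + (a * b - 3 * l) * e)
  · exfalso
    have hp : ⁅ρ.piM ρ.blk, ρ.piM ρ.blk⁆ = ρ.piM ρ.blk := by
      obtain ⟨e⟩ := k
      have := range_perfect (Γ := alternatingGroup (Fin 5)) (commutator_alternatingGroup_eq_top (by simp))
        ((ρ.piM ρ.blk).subtype.comp e.symm)
      rwa [MonoidHom.range_comp, MonoidHom.range_eq_top.2 e.symm.surjective, ← MonoidHom.range_eq_map,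
        Subgroup.range_subtype] at this
    obtain ⟨j, -, a1, b1, c1, d1, hj, e1, e2⟩ : ∃ x ∈ ρ.blk, ∃ a b c d, ∃ h : ρ.R x !![a, b, 0; c, d, 0; 0, 0, 1],
        a * d - b * c = 1 ∧ a + d = 0 := by
      obtain ⟨e⟩ := k
      obtain ⟨i, -, i1, -, -, i2, -⟩ := Small.A5_facts
      obtain ⟨x, hx, a, b, c, d, h, e1, e2⟩ := exists_det_one le_rfl (hp.ge (e.symm i).2)
      refine ⟨x, hx, a, b, c, d, h, e1, (mob_pow2 (h := h.blk_det) ?_).resolve_left fun k => i1 ?_⟩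
      · rw [← e2, ← Subgroup.coe_pow, ← map_pow, pow_two, i2, map_one, Subgroup.coe_one]
      · rw [← map_eq_one_iff _ e.symm.injective, Subtype.ext_iff, e2]
        exact mob_eq_one.2 k
    have hj2 := (hj.blk_mul hj).congr (Y := !![-1, 0, 0; 0, -1, 0; 0, 0, 1]) (by
      ext i j
      fin_cases i <;> fin_cases j <;> simp
      exacts [by linear_combination e1 - a1 * e2, by linear_combination -b1 * e2, by linear_combination -c1 * e2,
        by linear_combination e1 - d1 * e2])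
    obtain ⟨z, -, a2, b2, c2, d2, hz, e3, e4⟩ := exists_det_one le_rfl (hp.ge m1)
    obtain ⟨u, rfl, rfl, rfl, rfl⟩ := mob_eq_mob.1 e4
    have hw := (hz.blk_mul hs.blk_inv).congr (Y := !![u * l, 0, 0; 0, u * l, 0; 0, 0, l]) (by mat)
    have u0 : u ≠ 0 := by rintro rfl; simp at e3
    have e5 : (u * l) ^ 2 = l := by linear_combination l * e3
    have f1 : l / (u * l) = u * l := by field_simp; linear_combination -e3
    have f2 : 1 * l / -(u * l) = -(u * l) := by field_simp; linear_combination e3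
    have o1 := H.ord' h hw
    have o2 := H.ord' h ((hj2.blk_mul hw).congr (Y := !![-(u * l), 0, 0; 0, -(u * l), 0; 0, 0, 1 * l]) (by mat))
    rw [f1] at o1
    rw [f2] at o2
    generalize u * l = c at *
    subst e5
    have c0 : c ≠ 0 := by rintro rfl; simp at l0
    have n1 : c ≠ 1 := by rintro rfl; simp at h1
    have n2 : c ≠ -1 := by rintro rfl; simp at h1
    have n3 : ∀ c' : K, c' ^ 2 = c ^ 2 → MH.Ord c' → c' ^ 3 = 1 ∨ c' ^ 5 = 1 := by
      rintro c' e (k | k | k | k)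
      · exact absurd (by linear_combination -e + (c' - 1) * k) h1
      · exact Or.inl (by linear_combination (c' - 1) * k)
      · exact absurd (by linear_combination k - e) h2
      · exact Or.inr (by linear_combination (c' - 1) * k)
    rcases n3 _ rfl (o1.resolve_left fun e => n1 (mul_left_cancel₀ c0 (by linear_combination e))) with k1 | k1 <;>
    rcases n3 _ (by ring) (o2.resolve_left fun e => n2 (mul_left_cancel₀ c0 (by linear_combination e))) with k2 | k2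
    · exact t2 (by linear_combination -k1 - k2)
    · exact h2 (by linear_combination -c ^ 2 * k1 - k2)
    · exact h2 (by linear_combination c ^ 2 * k2 + k1 - 2 * k1 - 2 * c ^ 2 * k2)
    · exact t2 (by linear_combination -k1 - k2)

theorem HP.tri [Finite K] (H : HP ρ) (h : ρ.Small) (hd : d ≠ 0) (hd2 : 1 + d + 1 ≠ 0)
    (h1 : ρ.Hm d x v φ) (h2 : ρ.Hm d y w ψ) : x * y = y * x ∨ (Ind v w ∧ (φ ⬝ᵥ w) * (ψ ⬝ᵥ v) = -(1 + d) ∧
      ((1 + d) ^ 2 + (1 + d) + 1 = 0 ∨ ((2 : K) ≠ 0 ∧ (1 + d) ^ 2 + 1 = 0))) := by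
  rw [h1.comm_iff h hd h2]
  rcases ind_or (h1.ne hd) w with i | k
  swap
  · exact Or.inl (Or.inl k)
  by_cases ha : φ ⬝ᵥ w = 0
  · exact Or.inl (Or.inr ha)
  refine Or.inr ⟨i, ?_⟩
  have hb : ψ ⬝ᵥ v ≠ 0 := fun e => ha (h.orth h2.pe h1.pe (h2.e ▸ hd) (h1.e ▸ hd) e)
  by_cases e : (φ ⬝ᵥ w) * (ψ ⬝ᵥ v) = d ^ 2
  · obtain ⟨k1, k2, -⟩ := h.pair_one hd hd2 h1.pe h2.pe h1.e h2.e i e
    exact ⟨by linear_combination e + k2 - (d + 1) * k1, Or.inl k2⟩
  obtain ⟨O, hO, o1, o2⟩ := exists_common φ ψ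
  obtain ⟨Q, hQ⟩ := exists_inv (det_ne_of_pair h1.e h2.e e hO o1 o2)
  obtain ⟨s, s', hs, hs'⟩ := blk_coord h1.pe h2.pe h1.e h2.e o1 o2 hQ
  obtain ⟨k1, k2, k3⟩ := (H.cj hQ).blk_pair' (h.cj hQ) hs hs' ha hb (by simpa using e) (by simpa using hd) hd2
  exact ⟨k2, k3.imp_right fun k => ⟨k1, k⟩⟩


/-! ### elations over a prime field -/

theorem line_orb (hc : ρ.Orb c u) (h : ∀ a : K, ρ.Orb c (w + a • u)) {a b : K} (h0 : a • u + b • w ≠ 0) :
    ρ.Orb c (a • u + b • w) := by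
  by_cases hb : b = 0
  · subst hb
    simpa using hc.smul (a := a) (by rintro rfl; simp at h0)
  · convert (h (a / b)).smul hb using 1
    match_scalars <;> field_simp

theorem el_all (hs : ∀ v φ (a : K), ρ.El v φ → ρ.El v (a • φ))
    (hi : ∀ v φ : V3 K, v ≠ 0 → φ ≠ 0 → ∃ x X, ρ.R x X ∧ φ ⬝ᵥ X *ᵥ v ≠ 0) (hL : ρ.Large c) (hc : c ≠ 0)
    (h : φ ⬝ᵥ v = 0) : ρ.El v φ := by
  have full : ∀ {v}, v ≠ 0 → ρ.Large v → ∀ φ, φ ⬝ᵥ v = 0 → ρ.El v φ := fun {v} hv ⟨α, β, h1, h2, i⟩ φ e => by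
    obtain ⟨a, b, rfl⟩ := i.mem_span (φ := v) (x := φ) hv (by rw [dotProduct_comm, h1.1])
      (by rw [dotProduct_comm, h2.1]) (by rwa [dotProduct_comm])
    exact (hs _ _ a h1).add (hs _ _ b h2)
  have step : ∀ {u w}, ρ.Orb c u → ρ.Orb c w → Ind u w → ∀ a : K, ρ.Orb c (w + a • u) :=
    fun {u w} o1 o2 i a => by
      obtain ⟨χ, h1, h2⟩ := (hL.orb o1).exists_ne i
      have := o2.move (hs _ _ (a / (χ ⬝ᵥ w)) h1)
      rwa [smul_dotProduct, smul_eq_mul, div_mul_cancel₀ _ h2] at this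
  by_cases hv : v = 0
  · exact hv ▸ ⟨by simp, 1, zero_T φ ▸ ρ.one⟩
  refine full hv (hL.orb ?_) φ h
  obtain ⟨β, β0, β1, -⟩ := exists_common c 0
  obtain ⟨x, X, hX, e⟩ := hi c β hc β0
  have i := ind_of_dot hc (by rwa [dotProduct_comm]) e
  have o1 : ρ.Orb c (X *ᵥ c) := ⟨x, X, hX, rfl⟩
  obtain ⟨y, Y, hY, e'⟩ := hi c _ hc i.cross_ne
  have o2 : ρ.Orb c (Y *ᵥ c) := ⟨y, Y, hY, rfl⟩
  have l : ∀ z, z ≠ 0 → (c ⨯₃ (X *ᵥ c)) ⬝ᵥ z = 0 → ρ.Orb c z := fun z z0 hz => by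
    obtain ⟨a, b, rfl⟩ := i.mem_span i.cross_ne (by simp [dotProduct_comm]) (by simp [dotProduct_comm]) hz
    exact line_orb (Orb.refl ρ c) (step (Orb.refl ρ c) o1 i) z0
  generalize c ⨯₃ (X *ᵥ c) = γ at *
  generalize Y *ᵥ c = u at *
  have e2 : v = (1 : K) • (v - (γ ⬝ᵥ v / γ ⬝ᵥ u) • u) + (γ ⬝ᵥ v / γ ⬝ᵥ u) • u := by simp
  have e3 : γ ⬝ᵥ (v - (γ ⬝ᵥ v / γ ⬝ᵥ u) • u) = 0 := by simp [e']
  by_cases z0 : v - (γ ⬝ᵥ v / γ ⬝ᵥ u) • u = 0
  · rw [sub_eq_zero] at z0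
    exact z0 ▸ o2.smul fun e => hv (by rw [z0, e, zero_smul])
  · rw [e2] at hv ⊢
    exact line_orb (l _ z0 e3) (step (l _ z0 e3) o2 (ind_of_dot z0 e3 e')) hv

theorem el_of_one (hs : ∀ v φ (a : K), ρ.El v φ → ρ.El v (a • φ))
    (hi : ∀ v φ : V3 K, v ≠ 0 → φ ≠ 0 → ∃ x X, ρ.R x X ∧ φ ⬝ᵥ X *ᵥ v ≠ 0) (h0 : ρ.El c χ) (hc : c ≠ 0)
    (hχ : χ ≠ 0) (h : φ ⬝ᵥ v = 0) : ρ.El v φ := by
  by_cases hL : ∃ c, c ≠ 0 ∧ ρ.Large c
  · obtain ⟨c, h1, h2⟩ := hL
    exact el_all hs hi h2 h1 h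
  by_cases hL' : ∃ c, c ≠ 0 ∧ ρ.tp.Large c
  · obtain ⟨c, h1, h2⟩ := hL'
    refine (el_all (fun v φ a e => (el_smul.2 (hs _ _ a e.of_tp)).tp) (fun v φ h1 h2 => ?_) h2 h1
      (by rwa [dotProduct_comm])).of_tp
    obtain ⟨x, X, hX, e⟩ := hi φ v h2 h1
    exact ⟨_, _, hX.tp, by rwa [mulVec_transpose, dotProduct_comm, ← dotProduct_mulVec]⟩
  exfalso
  have B : ∀ {v φ w ψ}, ρ.El v φ → ρ.El w ψ → φ ≠ 0 → ψ ≠ 0 → Ind v w → ψ ⬝ᵥ v ≠ 0 :=
    fun {v φ w ψ} h1 h2 n1 n2 i e => by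
      by_cases e' : φ ⬝ᵥ w = 0
      · obtain ⟨a, rfl⟩ := i.eq_smul n1 e h2.1 h1.1 e'
        exact hL' ⟨φ, n1, _, _, h1.tp, (el_smul.2 h2).tp, by
          simpa using i.smul one_ne_zero (left_ne_zero_of_smul n2)⟩
      · refine hL ⟨v, i.ne, _, _, h1.rule h2 e, h1, ind_of_dot (φ := w) (smul_ne_zero e' n2) ?_ ?_⟩
        · simp [dotProduct_comm w, h2.1]
        · rwa [dotProduct_comm]
  have el : ∀ {v}, ρ.Orb c v → ∃ φ, φ ≠ 0 ∧ ρ.El v φ := by
    rintro _ ⟨x, X, hX, rfl⟩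
    exact ⟨_, hX.inv.vecMul_ne hχ, h0.conj hX hX.mul_inv⟩
  obtain ⟨x, X, hX, e⟩ := hi c χ hc hχ
  have i := ind_of_dot hc h0.1 e
  have o1 : ρ.Orb c (X *ᵥ c) := ⟨x, X, hX, rfl⟩
  obtain ⟨y, Y, hY, e'⟩ := hi c _ hc i.cross_ne
  obtain ⟨θ, θ0, hθ⟩ := el ⟨y, Y, hY, rfl⟩
  obtain ⟨z, z0, z1, z2⟩ := exists_common (c ⨯₃ (X *ᵥ c)) θ
  obtain ⟨a, b, rfl⟩ := i.mem_span i.cross_ne (by simp [dotProduct_comm]) (by simp [dotProduct_comm]) z1
  obtain ⟨ψ, ψ0, hψ⟩ := el (line_orb (Orb.refl ρ c) (fun a => by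
    have := o1.move (hs _ _ (a / (χ ⬝ᵥ X *ᵥ c)) h0)
    rwa [smul_dotProduct, smul_eq_mul, div_mul_cancel₀ _ e] at this) z0)
  exact B hψ hθ ψ0 θ0 (ind_of_dot z0 z1 e') z2

end Cfsg.Agent.H6.T
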