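import Cfsg.Agent.H6.T1
import Cfsg.Agent.H6.T2
import Cfsg.Agent.H6.SUGlue
import Cfsg.Agent.H6.SUMono3

/-! The Hessian group is maximal modulo `SL₃(p)`, `SU₃(p)`. -/

set_option autoImplicit false
set_option linter.unusedSectionVars false
set_option linter.unusedSimpArgs false
set_option linter.unusedVariables false

namespace Cfsg.Agent.H6.T

open Matrix Cfsg.Agent.H4.E Cfsg.Agent.Form Cfsg.Agent.MH Cfsg.Agent.H6.SU Cfsg.Agent.H7

variable {F : Type*} [Field F]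

section gen
variable {J : Type} [Fintype J] [DecidableEq J]

/-- perspectivities -/
def Tm (v φ : J → F) : Matrix J J F := 1 + vecMulVec v φ

theorem Tm_mulVec (v φ w : J → F) : Tm v φ *ᵥ w = w + (φ ⬝ᵥ w) • v := by
  simp [Tm, add_mulVec, vecMulVec_mulVec]

theorem conj_Tm {X Y : Matrix J J F} (h : X * Y = 1) (v φ : J → F) : X * Tm v φ * Y = Tm (X *ᵥ v) (φ ᵥ* Y) := by
  simp [Tm, mul_add, add_mul, h, mul_vecMulVec, vecMulVec_mul]

theorem Tm_smul (c : F) (v φ : J → F) : Tm (c • v) φ = Tm v (c • φ) := by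
  simp [Tm, smul_vecMulVec, vecMulVec_smul]

theorem Tm_pow {v φ : J → F} (h : φ ⬝ᵥ v = 0) (n : ℕ) : Tm v φ ^ n = Tm v ((n : F) • φ) := by
  induction n with
  | zero => simp [Tm]
  | succ n ih =>
    rw [pow_succ, ih]
    simp only [Tm, add_mul, mul_add, one_mul, mul_one, vecMulVec_mul_vecMulVec, smul_dotProduct, h, smul_zero,
      zero_smul, vecMulVec_zero, add_zero, Nat.cast_succ, add_smul, one_smul, vecMulVec_add, add_assoc]

theorem dot_conj' {X Y : Matrix J J F} (h : X * Y = 1) (φ v : J → F) : (φ ᵥ* Y) ⬝ᵥ (X *ᵥ v) = φ ⬝ᵥ v := by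
  rw [← dotProduct_mulVec, mulVec_mulVec, mul_eq_one_comm.1 h, one_mulVec]

variable {A : Type*} [Ring A] [Algebra F A] {X : Gp F A}

theorem pow_mem' {a : A} (h : X.mem a) (n : ℕ) : X.mem (a ^ n) := by
  induction n with
  | zero => simpa using X.one
  | succ n ih => rw [pow_succ]; exact X.mul ih h

theorem inv_mem' {a b : A} (h : X.mem a) (e : a * b = 1) : X.mem b := Gp.of_mul_left h (e ▸ X.one)

theorem conj_mem' {a b c : A} (h : X.mem a) (e : a * b = 1) (hc : X.mem c) : X.mem (a * c * b) :=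
  X.mul (X.mul h hc) (inv_mem' h e)

/-- a matrix with an inverse as a linear equivalence -/
def le {A B : Matrix J J F} (h : A * B = 1) : (J → F) ≃ₗ[F] (J → F) := toLin'OfInv (mul_eq_one_comm.1 h) h

@[simp] theorem le_apply {A B : Matrix J J F} (h : A * B = 1) (x : J → F) : le h x = A *ᵥ x := rfl

theorem mulVec_ext {A B : Matrix J J F} (h : ∀ x, A *ᵥ x = B *ᵥ x) : A = B := toLin'.injective (LinearMap.ext h)

/-- the group of linear equivalences defined by a group of matrices -/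
def subOf (P : Matrix J J F → Prop) (h1 : P 1) (h2 : ∀ {a b}, P a → P b → P (a * b))
    (h3 : ∀ {a b}, P a → a * b = 1 → P b) : Subgroup ((J → F) ≃ₗ[F] (J → F)) where
  carrier := {e | ∃ A, P A ∧ ∀ x, e x = A *ᵥ x}
  one_mem' := ⟨1, h1, by simp⟩
  mul_mem' := fun ⟨A, a1, a2⟩ ⟨B, b1, b2⟩ => ⟨A * B, h2 a1 b1, fun x => by simp [a2, b2]⟩
  inv_mem' := fun {e} ⟨A, a1, a2⟩ => ⟨LinearMap.toMatrix' (e.symm : (J → F) →ₗ[F] (J → F)), h3 a1
    (mulVec_ext fun x => by simp [← mulVec_mulVec, ← a2]), fun x => by simp⟩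

/-- the group of linear equivalences -/
def sub (X : Gp F (Matrix J J F)) : Subgroup ((J → F) ≃ₗ[F] (J → F)) := subOf X.mem X.one X.mul inv_mem'

variable {σ : F →+* F} {hσ : ∀ a, σ (σ a) = a}

/-- the standard unitary space -/
noncomputable def herm (J : Type) [Fintype J] (hσ : ∀ a, σ (σ a) = a) (hne : ∃ a, σ a ≠ a) :
    PQ (FP.unit σ hσ) (J → F) :=
  PQ.ofHerm σ hσ _ (exists_tr_one hne hσ).choose_spec (fun x y => x ⬝ᵥ σ ∘ y) (by simp) (by simp)
    fun x y => by simp [dotProduct, hσ, mul_comm]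

variable {hne : ∃ a, σ a ≠ a}

theorem herm_B (x y : J → F) : (herm J hσ hne).B x y = x ⬝ᵥ σ ∘ y := rfl

theorem herm_on : ON (herm J hσ hne) fun j => Pi.single j 1 :=
  ⟨fun i j => by simp [herm_B, Pi.single_apply, apply_ite σ], fun x => by
    ext i; simp [herm_B, dotProduct, Pi.single_apply, apply_ite σ, Finset.sum_apply]⟩

theorem σ_mulVec (A : Matrix J J F) (x : J → F) : σ ∘ (A *ᵥ x) = (σ ∘ x) ᵥ* (A.map σ)ᵀ := by
  ext i; simp [mulVec, vecMul, dotProduct, mul_comm]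

theorem herm_adj (A : Matrix J J F) (x y : J → F) :
    (herm J hσ hne).B x (A *ᵥ y) = (herm J hσ hne).B ((A.map σ)ᵀ *ᵥ x) y := by
  rw [herm_B, herm_B, σ_mulVec, dotProduct_comm, ← dotProduct_mulVec, dotProduct_comm]

theorem isom_iff {A : Matrix J J F} {e : (J → F) ≃ₗ[F] (J → F)} (h : ∀ x, e x = A *ᵥ x) :
    e ∈ (herm J hσ hne).isom ↔ (A.map σ)ᵀ * A = 1 := by
  rw [PQ.unit_mem_isom]
  simp only [h, herm_adj, mulVec_mulVec]
  refine ⟨fun h => mulVec_ext fun x => sub_eq_zero.1 (herm_on (hσ := hσ) (hne := hne).nd _ fun y => ?_),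
    fun h => by simp [h]⟩
  simp [h]

theorem det_le {A : Matrix J J F} {e : (J → F) ≃ₗ[F] (J → F)} (h : ∀ x, e x = A *ᵥ x) :
    LinearEquiv.det e = 1 ↔ A.det = 1 := by
  rw [Units.ext_iff, LinearEquiv.coe_det, show (e : (J → F) →ₗ[F] (J → F)) = toLin' A from LinearMap.ext h,
    LinearMap.det_toLin', Units.val_one]

theorem ht_iff {P : Matrix J J F → Prop} {h1 h2 h3} {v : J → F} {c : F} (hv : (herm J hσ hne).B v v = 0) :
    HT (herm J hσ hne) (subOf P h1 h2 h3) v c ↔ P (Tm v (c • σ ∘ v)) := by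
  have e : ∀ x, Tm v (c • σ ∘ v) *ᵥ x = x + (c * (herm J hσ hne).B x v) • v := fun x => by
    simp [Tm_mulVec, herm_B, dotProduct_comm]
  refine ⟨fun ⟨g, ⟨A, a1, a2⟩, a3⟩ => ?_, fun h => ⟨le (B := Tm v (-c • σ ∘ v)) (mulVec_ext fun x => ?_), ⟨_, h, fun _ => rfl⟩, e⟩⟩
  · rwa [mulVec_ext (A := Tm v (c • σ ∘ v)) (B := A) fun x => by rw [e, ← a3, a2]]
  · rw [herm_B, dotProduct_comm] at hv
    simp [← mulVec_mulVec, Tm_mulVec, hv]

theorem mem_of_sisom {X : Gp F (Matrix J J F)} (h : sisom (herm J hσ hne) ≤ sub X) {A : Matrix J J F}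
    (h1 : (A.map σ)ᵀ * A = 1) (h2 : A.det = 1) : X.mem A := by
  obtain ⟨B, b1, b2⟩ := h (x := le (mul_eq_one_comm.1 h1)) ⟨(isom_iff fun _ => rfl).2 h1, (det_le fun _ => rfl).2 h2⟩
  rwa [mulVec_ext (B := B) b2]

end gen

section su
variable {σ : F →+* F} {hσ : ∀ a, σ (σ a) = a} {V : Type*} [AddCommGroup V] [Module F V] [Finite F]
  [FiniteDimensional F V] {S : PQ (FP.unit σ hσ) V} {X Y : Subgroup (V ≃ₗ[F] V)}

theorem ctr_of_normal (hne : ∃ a, σ a ≠ a) (h2 : (2 : F) ≠ 0) (h3 : (3 : F) ≠ 0) (hY : Y ≤ X)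
    (hn : ∀ g ∈ X, ∀ y ∈ Y, g * y * g⁻¹ ∈ Y) {y : V ≃ₗ[F] V} (hy : y ∈ Y) (hy' : y ∈ S.isom) {v : V}
    (hv : Ctr S X v) (h : S.B v (y v) ≠ 0) : Ctr S Y v := by
  let Z : Subgroup (V ≃ₗ[F] V) :=
    { carrier := {g | g ∈ X ∧ ∀ c h, g * S.tau v c h * g⁻¹ * (S.tau v c h)⁻¹ ∈ Y}
      one_mem' := ⟨X.one_mem, fun c h => by simp⟩
      mul_mem' := fun {g k} a b => ⟨X.mul_mem a.1 b.1, fun c h => by
        convert Y.mul_mem (hn g a.1 _ (b.2 c h)) (a.2 c h) using 1; group⟩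
      inv_mem' := fun {g} a => ⟨X.inv_mem a.1, fun c h => by
        convert hn _ (X.inv_mem a.1) _ (Y.inv_mem (a.2 c h)) using 1; group⟩ }
  have hs := hv.1.B_self
  have z1 : Ctr S Z v := ⟨hv.1, fun c h => ⟨hv.2 c h, fun c' h' => by
    convert Y.one_mem
    rw [S.conj_tau _ _ _ (S.tau_mem _ _ _), mul_inv_eq_one]
    ext x; simp [hs]⟩⟩
  have z2 : y ∈ Z := ⟨hY hy, fun c h => by
    convert Y.mul_mem hy (hn _ (hv.2 c h) _ (Y.inv_mem hy)) using 1; group⟩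
  obtain ⟨k, k1, k2, k3⟩ := exists_torus hne z1 ((z1.map z2 hy').smul (σ (S.B v (y v))⁻¹))
    (by rw [Bsr, hσ, inv_mul_cancel₀ h]) (a := 2) (map_ofNat σ 2) h2
  have k4 : k v = (2 : F) • v := by rw [k3, hs, Bsr, hσ, inv_mul_cancel₀ h]; module
  refine ctr_iff.2 ⟨hs, fun c hc => ?_⟩
  have t : S.TauOK v (c / 3) := tauOK_of hs (by rw [map_div₀, map_ofNat, ← add_div, hc, zero_div])
  refine ⟨_, k1.2 _ t, fun x => ?_⟩
  rw [S.conj_tau _ _ _ k2, LinearEquiv.mul_apply, ← (S.tau v _ t).symm_apply_apply (x + _)]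
  have e : ∀ x, (S.tau v _ t)⁻¹ x = x - (c / 3 * S.B x v) • v := fun x =>
    (LinearEquiv.symm_apply_eq _).2 (by simp [hs])
  change _ = (S.tau v _ t)⁻¹ _
  simp only [e, PQ.tau_apply, k4, Bsr, PQ.B_add_left, PQ.B_sub_left, PQ.B_smul_left, hs, map_ofNat]
  match_scalars <;> field_simp <;> ring

end su

variable {o : Om F}

theorem sum_z3 {M : Type*} [AddCommMonoid M] (g : Z3 → M) : ∑ i, g i = g 0 + g 1 + g 2 := Fin.sum_univ_three g
theorem prod_z3 {M : Type*} [CommMonoid M] (g : Z3 → M) : ∏ i, g i = g 0 * g 1 * g 2 := Fin.prod_univ_three g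
theorem z3' (a : Z3) : a = 0 ∨ a = 1 ∨ a = 2 := z3 a

section gen
variable {J : Type} [AddCommGroup J] [Module Z3 J] [Bf J] [Fintype J] [DecidableEq J]

theorem not_par {w y : J × J} {v : J → F} {c t : F} (hv : v ≠ 0) (h : o.η w *ᵥ v = c • v) (hf : f w y ≠ 0) :
    o.η y *ᵥ v ≠ t • v := fun e => by
  have n : ∀ {w} {c : F}, o.η w *ᵥ v = c • v → c ≠ 0 := fun {w c} h c0 => hv (by
    simpa [c0] using congrArg (o.η (-w) *ᵥ ·) h)
  have := congrArg (· *ᵥ v) (o.η_comm w y)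
  simp only [← mulVec_mulVec, smul_mulVec, e, h, mulVec_smul, smul_smul] at this
  exact hf (o.χ_eq_one (mul_right_cancel₀ (mul_ne_zero (n e) (n h))
    (by linear_combination -(smul_left_injective F hv this))))

theorem common3 (φ ψ : Z3 → F) : ∃ u : Z3 → F, u ≠ 0 ∧ φ ⬝ᵥ u = 0 ∧ ψ ⬝ᵥ u = 0 := exists_common φ ψ

theorem full_of_orbit [Finite F] {σ : F →+* F} {hσ : ∀ a, σ (σ a) = a} {hne : ∃ a, σ a ≠ a} (o : Om F)
    {Y : Subgroup ((Z3 → F) ≃ₗ[F] (Z3 → F))} {v : Z3 → F} (hv : v ≠ 0)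
    (h : ∀ w, Ctr (herm Z3 hσ hne) Y (o.η w *ᵥ v)) : Full (herm Z3 hσ hne) Y ⊤ := by
  obtain ⟨w, hw⟩ := o.exists_ne (φ := σ ∘ v) (fun e => hv (funext fun i => by simpa using congrFun e i)) hv
  obtain ⟨φ, φ0, φ1, φ2⟩ := common3 v (o.η w *ᵥ v)
  obtain ⟨w', hw'⟩ := o.exists_ne (J := Z3) φ0 hv
  refine full_three hne ((PQ.nondegOn_top _).2 herm_on.nd) (by simp) trivial trivial trivial (h w)
    (by simpa using h 0) (h w') (by rwa [herm_B, dotProduct_comm]) fun e => hw' ?_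
  obtain ⟨a, b, e⟩ := Submodule.mem_span_pair.1 e
  simp [← e, dotProduct_comm φ, φ1, φ2]

end gen

/-- matrices of size three -/
abbrev N3 (F : Type*) := Matrix Z3 Z3 F

/-- the projective representation -/
noncomputable def pr (X : Gp F (N3 F)) : PRep X.PG F where
  r x A := ∃ h : X.mem A, (Gp.el h : X.PG) = x
  r_ex x := QuotientGroup.induction_on x fun g => ⟨_, g.2, congrArg _ (Subtype.ext (Units.ext rfl))⟩
  r_det := fun ⟨h, _⟩ => ((isUnit_iff_isUnit_det _).1 (Gp.isUnit h)).ne_zero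
  r_one := ⟨X.one, congrArg _ (Subtype.ext (Units.ext rfl))⟩
  r_mul := by rintro _ _ _ _ ⟨h, rfl⟩ ⟨h', rfl⟩; exact ⟨X.mul h h', congrArg _ (Subtype.ext (Units.ext rfl))⟩
  r_smul := by rintro _ _ c ⟨h, rfl⟩ c0; exact ⟨X.smul c0 h, (Gp.π_eq.2 ⟨c, c0, rfl⟩).symm⟩
  r_inj := by rintro _ _ _ ⟨h, rfl⟩ ⟨h', rfl⟩; rfl
  r_uniq := by
    rintro _ _ _ ⟨h, rfl⟩ ⟨h', e⟩
    obtain ⟨c, -, e⟩ := Gp.π_eq.1 e.symm
    exact ⟨c, e⟩

variable {X : Gp F (N3 F)}

theorem pe_iff {v φ : Z3 → F} : (pr X).Pe v φ ↔ X.mem (Tm v φ) := ⟨fun ⟨_, h, _⟩ => h, fun h => ⟨_, h, rfl⟩⟩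
theorem el_iff {v φ : Z3 → F} : (pr X).El v φ ↔ φ ⬝ᵥ v = 0 ∧ X.mem (Tm v φ) := and_congr_right fun _ => pe_iff

/-- `X` contains a transvection -/
def HasT (X : Gp F (N3 F)) : Prop := ∃ v φ, v ≠ 0 ∧ φ ≠ 0 ∧ φ ⬝ᵥ v = 0 ∧ X.mem (Tm v φ)

theorem small_of (h : ¬ HasT X) : (pr X).Small := fun v φ _ h1 h2 h3 _ =>
  absurd ⟨v, φ, h1, h2, (el_iff.1 h3).1, (el_iff.1 h3).2⟩ h

theorem not_tr {v φ : Z3 → F} (hv : v ≠ 0) (hφ : φ ≠ 0) : ∃ w, w ≠ 0 ∧ φ ⬝ᵥ o.η w *ᵥ v ≠ 0 := by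
  by_contra hn
  push Not at hn
  obtain ⟨c, e⟩ := o.scalar_of_tr (g := vecMulVec v φ) fun w hw => by
    rw [mul_vecMulVec, trace_vecMulVec, dotProduct_comm, hn w hw]
  exact (T_eq_scalar (v := v) (φ := φ) (c := 1 + c) (by rw [add_smul, one_smul]; exact congrArg (1 + ·) e)).elim hv hφ

theorem partner (h : o.Over X) {v φ : Z3 → F} (hd : φ ⬝ᵥ v ≠ 0) :
    ∃ g, X.mem g ∧ (∀ t : F, g *ᵥ v ≠ t • v) ∧ φ ⬝ᵥ g *ᵥ v ≠ 0 := by
  by_contra key
  push Not at key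
  have v0 : v ≠ 0 := by rintro rfl; simp at hd
  obtain ⟨w, w0, hw⟩ := not_tr (o := o) v0 (φ := φ) (by rintro rfl; simp at hd)
  obtain ⟨c, hc⟩ : ∃ c : F, o.η w *ᵥ v = c • v := by
    by_contra hc
    exact hw (key _ (h.η w) (not_exists.1 hc))
  obtain ⟨y, hy⟩ := exists_f w0
  have := key _ (h.U y) fun t e => by
    have t0 : t ≠ 0 := fun t0 => v0 (by
      have := congrArg (fun x => ((3 : F)⁻¹ • o.U' y) *ᵥ x) e
      rwa [mulVec_mulVec, mul_eq_one_comm.1 (o.U_inv y), t0, zero_smul, mulVec_zero, one_mulVec] at this)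
    have := congrArg (· *ᵥ v) (o.U_η y w)
    simp only [← mulVec_mulVec, e, hc, mulVec_smul, hy, one_smul] at this
    exact not_par v0 hc (y := w + y) (t := c) (by simp [hy]) (smul_right_injective _ t0 (by
      simpa [smul_comm c] using this.symm))
  rw [Om.U, add_mulVec, add_mulVec, dotProduct_add, dotProduct_add,
    key _ (h.η y) fun t => not_par v0 hc (by simp [hy]), key _ (h.η (-y)) fun t => not_par v0 hc (by simp [hy])] at this
  exact mul_ne_zero o.ne0 hd (by simpa [smul_mulVec] using this)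

theorem hp_of (h : o.Over X) : HP (pr X) := fun d x v φ hd h1 => by
  obtain ⟨g, hg, h2, h3⟩ := partner h (v := v) (φ := φ) (h1.e.trans_ne hd)
  obtain ⟨k, -, hk, -⟩ := X.inv hg
  exact ⟨_, _, _, h1.conj (X := g) (Y := k) ⟨hg, rfl⟩ hk, (ind_iff (h1.ne hd)).2 h2, h3⟩

theorem tri3 [Finite F] (h : o.Over X) (hT : ¬ HasT X) {v φ w ψ : Z3 → F} (m1 : X.mem (Tm v φ))
    (e1 : φ ⬝ᵥ v = o.ω - 1) (m2 : X.mem (Tm w ψ)) (e2 : ψ ⬝ᵥ w = o.ω - 1) :
    Tm w ψ = Tm v φ ∨ φ ⬝ᵥ w = 0 ∨ (φ ⬝ᵥ w) * (ψ ⬝ᵥ v) = -o.ω := by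
  have hs := small_of hT
  have d0 := o.sub_ne
  have k1 : (pr X).Hm (o.ω - 1) _ v φ := ⟨⟨m1, rfl⟩, e1⟩
  have k2 : (pr X).Hm (o.ω - 1) _ w ψ := ⟨⟨m2, rfl⟩, e2⟩
  rcases (hp_of h).tri hs d0 (fun e => pow_ne_zero 2 o.ne0 (by linear_combination o.h - e)) k1 k2 with e | ⟨-, e, -⟩
  · rcases (k1.comm_iff hs d0 k2).1 e with ⟨a, e⟩ | e
    · replace e : w = a • v := e
      subst e
      have : a • ψ = φ := hs.axis k1.pe (PRep.pe_smul.1 k2.pe) (e1.trans_ne d0)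
        (show (a • ψ) ⬝ᵥ v = φ ⬝ᵥ v by rw [e1, ← e2]; simp)
      exact Or.inl (by rw [Tm_smul, this])
    · exact Or.inr (Or.inl e)
  · exact Or.inr (Or.inr (e.trans (by ring)))

/-- basis vectors -/
abbrev E (j : Z3) : Z3 → F := Pi.single j 1

theorem η_diag (a : Z3) : o.η (a, (0 : Z3)) = diagonal fun j => o.χ (a * j) := by
  rw [diagonal_eq]; exact Mon_congr (by simp) fun j => by simp [Bf.β]
theorem η_shift {J : Type} [AddCommGroup J] [Module Z3 J] [Bf J] [DecidableEq J] (b : J) :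
    o.η ((0 : J), b) = Mon (· + b) 1 := Mon_congr (by simp) fun j => by simp [β_zero]

theorem nrm_of_gen {g : N3 F} (h1 : ∃ v, o.Cj g (1, 0) v) (h2 : ∃ v, o.Cj g (0, 1) v) : o.Nrm g := fun u => by
  obtain ⟨v, h1⟩ := h1
  obtain ⟨w, h2⟩ := h2
  exact ⟨_, by simpa using (h1.zsmul u.1).add (h2.zsmul u.2)⟩

theorem dg_nrm (q : Z3 → Z3) : o.Nrm (diagonal fun j => o.χ (q j)) := by
  obtain ⟨a, c, h⟩ : ∃ a c, ∀ j, q (j + 1) = c + (a * (j - 1) + q j) := by revert q; decide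
  refine nrm_of_gen ⟨(1, 0), 1, by simp [η_diag, mul_comm]⟩ ⟨(a, 1), o.χ c, ?_⟩
  rw [η_shift, Om.η, diagonal_eq, Mon_mul, Mon_mul, smul_Mon]
  exact Mon_congr (by simp) fun j => by simp [← Om.χ_add, h, Bf.β]

theorem dg_nrm' {q : Z3 → F} (h : ∀ j, q j ^ 3 = 1) : o.Nrm (diagonal q) := by
  choose a ha using fun j => o.exists_χ (h j)
  rw [funext ha]; exact dg_nrm a

theorem eig_zero {u : Z3 × Z3} (hu : u ≠ 0) {a : Z3 → F} {c : F} (h : o.η u *ᵥ a = c • a) (h0 : a 0 = 0) :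
    a 1 = 0 ∨ a 2 = 0 := by
  obtain ⟨s, b⟩ := u
  have e : ∀ j, o.χ (s * (j - b)) * a j = c * a (j + b) := fun j => by
    simpa [Om.η, mulVec, dotProduct, Mon_apply, Bf.β] using congrFun h (j + b)
  rcases z3' b with rfl | rfl | rfl
  · by_contra hn
    rw [not_or] at hn
    simp only [add_zero] at e
    have := o.χ_inj ((mul_right_cancel₀ hn.1 (e 1)).trans (mul_right_cancel₀ hn.2 (e 2)).symm)
    exact hu (by clear e h hu; revert s; decide)
  · exact Or.inr (by simpa [h0, o.χ_ne, show (2 + 1 : Z3) = 0 from rfl] using e 2)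
  · exact Or.inl (by simpa [h0, o.χ_ne, show (1 + 2 : Z3) = 0 from rfl] using e 1)

theorem nrm_of_std (h : o.Over X) (H : ∀ g, X.mem g → ∃ n k, IsUnit n ∧ o.Nrm n ∧ g = n * k ∧
    ∀ j, j ≠ 0 → k j 0 = 0 ∧ k 0 j = 0) {g : N3 F} (hg : X.mem g) : o.Nrm g := by
  have x0 : ((1, 0) : Z3 × Z3) ≠ 0 := by decide
  have col : ∀ g, X.mem g → ∀ j, g 0 j = 0 → g 1 j = 0 ∨ g 2 j = 0 := fun g hg j e => by
    obtain ⟨n, k, n1, n2, n3, n4⟩ := H _ (X.mul hg (h.η (0, j)))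
    obtain ⟨A, -, hA⟩ := n2.exists_act n1
    obtain ⟨c, hc⟩ := hA (1, 0)
    have e1 : ∀ i, g i j = n i 0 * k 0 0 := fun i => by
      simpa [η_shift, mul_Mon, mul_apply (M := n), sum_z3, (n4 1 (by decide)).1, (n4 2 (by decide)).1] using
        congrFun (congrFun n3 i) 0
    refine eig_zero (o := o) (a := fun i => g i j) (c := c⁻¹) (A.map_ne_zero_iff.2 x0) (funext fun i => ?_) e
    have := congrFun (congrFun hc i) 0
    rw [η_diag, mul_diagonal, mul_zero, Om.χ0, mul_one, Matrix.smul_apply, mul_apply, smul_eq_mul] at this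
    simp only [mulVec, dotProduct, e1, ← mul_assoc, ← Finset.sum_mul, Pi.smul_apply, smul_eq_mul]
    rw [this, inv_mul_cancel_left₀ (Om.cj_ne n1 hc)]
  have key : ∀ g, X.mem g → ∃ v, o.Cj g (1, 0) v := fun g hg => by
    obtain ⟨n, k, n1, n2, rfl, n4⟩ := H g hg
    have hk := Gp.of_mul_left (h n n1 n2) hg
    obtain ⟨a1, a2⟩ := n4 1 (by decide)
    obtain ⟨a3, a4⟩ := n4 2 (by decide)
    have d : k 0 0 * (k 1 1 * k 2 2 - k 1 2 * k 2 1) ≠ 0 := by
      have := ((isUnit_iff_isUnit_det _).1 (Gp.isUnit hk)).ne_zero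
      rw [show k.det = _ from det_fin_three k] at this
      convert this using 1
      change _ = k 0 0 * k 1 1 * k 2 2 - k 0 0 * k 1 2 * k 2 1 - k 0 1 * k 1 0 * k 2 2 + k 0 1 * k 1 2 * k 2 0 +
        k 0 2 * k 1 0 * k 2 1 - k 0 2 * k 1 1 * k 2 0
      rw [a2, a4]; ring
    suffices ∃ v, o.Cj k (1, 0) v by
      obtain ⟨v, hv⟩ := this
      obtain ⟨w, hw⟩ := n2 v
      exact ⟨w, hw.mul hv⟩
    have fin : ∀ s : Z3, (∀ i j, k i j ≠ 0 → j = s * i) → ∃ v, o.Cj k (1, 0) v := fun s hs => ⟨(s, 0), 1, by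
      ext i j
      by_cases e : k i j = 0
      · simp [η_diag, e]
      · simp [η_diag, hs i j e, mul_comm]⟩
    rcases col k hk 1 a2 with b1 | b1 <;> rcases col k hk 2 a4 with b2 | b2
    · simp [b1, b2] at d
    · refine fin 2 fun i j => ?_
      rcases z3' i with rfl | rfl | rfl <;> rcases z3' j with rfl | rfl | rfl <;>
        first | exact fun _ => by decide | simp [*]
    · refine fin 1 fun i j => ?_
      rcases z3' i with rfl | rfl | rfl <;> rcases z3' j with rfl | rfl | rfl <;>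
        first | exact fun _ => by decide | simp [*]
    · simp [b1, b2] at d
  intro u
  by_cases hu : u = 0
  · exact ⟨0, by rw [hu]; exact Om.cj_zero g⟩
  obtain ⟨n, n1, n2, n3⟩ := o.exists_conj x0 hu
  obtain ⟨v, hv⟩ := key _ (X.mul hg (h n n1 n2))
  obtain ⟨n, rfl⟩ := n1
  exact ⟨v, by simpa using hv.mul (Om.Cj.inv (u := (1, 0)) n.inv_mul ⟨1, by simpa using n3⟩)⟩

theorem δ_eq (j : Z3) (a : F) : Tm (E j) ((a - 1) • E j) = diagonal (Function.update 1 j a) := by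
  ext i k
  by_cases e : i = k
  · by_cases e' : k = j <;> simp [Tm, vecMulVec, e, e']
  · by_cases e' : k = j <;> simp [Tm, vecMulVec, e, e', Pi.single_apply, one_apply, diagonal_apply]
    · subst e'; simp [e]

theorem δ_mem (h : o.Over X) (j : Z3) : X.mem (Tm (E j) ((o.ω - 1) • E j)) := by
  have e : ∀ i, Function.update (1 : Z3 → F) j o.ω i ^ 3 = 1 := fun i => by
    by_cases e : i = j <;> simp [e, o.cube]
  rw [δ_eq]
  exact h _ (isUnit_diagonal.2 (Pi.isUnit_iff.2 fun i => .of_pow_eq_one (e i) (by simp))) (dg_nrm' e)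

theorem base [Finite F] (h : o.Over X) (h2 : (2 : F) ≠ 0) (hT : ¬ HasT X) {g : N3 F} (hg : X.mem g) : o.Nrm g := by
  have d0 := o.sub_ne
  have std : ∀ w ψ, X.mem (Tm w ψ) → ψ ⬝ᵥ w = o.ω - 1 → ∃ n n', n * n' = 1 ∧ o.Nrm n ∧
      Tm w ψ = n * Tm (E 0) ((o.ω - 1) • E 0) * n' := fun w ψ h1 e1 => by
    by_contra hn
    have w0 : w ≠ 0 := by rintro rfl; exact d0 (by simpa using e1.symm)
    have ψ0 : ψ ≠ 0 := by rintro rfl; exact d0 (by simpa using e1.symm)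
    obtain ⟨u, u0, hu⟩ := not_tr (o := o) w0 ψ0
    obtain ⟨n, ⟨n, rfl⟩, n2, n3⟩ := o.exists_conj (u := (1, 0)) (by decide) u0
    have key : ∀ j, (o.ω - 1) * (n.inv *ᵥ w) j * (ψ ᵥ* n.val) j = 0 ∨
        (o.ω - 1) * (n.inv *ᵥ w) j * (ψ ᵥ* n.val) j = -o.ω := fun j => by
      have m := conj_mem' (h _ n.isUnit n2) n.val_inv (δ_mem h j)
      rw [conj_Tm n.val_inv] at m
      have e2 : ((o.ω - 1) • E j) ᵥ* n.inv ⬝ᵥ n.val *ᵥ E j = o.ω - 1 := by rw [dot_conj' n.val_inv]; simp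
      have e3 : ((o.ω - 1) • E j) ᵥ* n.inv ⬝ᵥ w = (o.ω - 1) * (n.inv *ᵥ w) j := by
        rw [← dotProduct_mulVec]; simp
      have e4 : ψ ⬝ᵥ n.val *ᵥ E j = (ψ ᵥ* n.val) j := by rw [dotProduct_mulVec]; simp
      rcases tri3 h hT m e2 h1 e1 with e | e | e
      · refine absurd ⟨n.val * o.η (0, j), o.η (-(0, j)) * n.inv,
          by rw [mul_assoc, ← mul_assoc (o.η _), Om.η_neg, one_mul, n.val_inv], n2.mul (Om.nrm_η _), ?_⟩ hn
        rw [e, ← conj_Tm n.val_inv, mul_assoc n.val (o.η _), mul_assoc n.val (o.η _ * _),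
          ← mul_assoc _ _ n.inv, conj_Tm (o.η_neg _), mul_assoc]
        congr 3
        · ext i; simp [η_shift, mulVec, dotProduct, Mon_apply, Pi.single_apply]
        · ext i; simp [η_shift, vecMul, dotProduct, Mon_apply, Pi.single_apply, add_neg_eq_zero, eq_comm]
      · exact Or.inl (by rw [← e3, e, zero_mul])
      · exact Or.inr (by rw [← e3, ← e4, e])
    have e1' : (n.inv *ᵥ w) ⬝ᵥ (ψ ᵥ* n.val) = o.ω - 1 := by rw [dotProduct_comm, dot_conj' n.inv_val, e1]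
    have e2 : ψ ⬝ᵥ o.η u *ᵥ w = (ψ ᵥ* n.val) ⬝ᵥ o.η (1, 0) *ᵥ n.inv *ᵥ w := by
      rw [← dotProduct_mulVec, mulVec_mulVec, mulVec_mulVec, n3, mul_assoc, n.val_inv, mul_one]
    refine hu (mul_left_cancel₀ d0 ?_)
    rw [e2, η_diag]
    simp only [dotProduct, mulVec_diagonal, sum_z3, one_mul, Om.χ0, Om.χ1, Om.χ2] at e1' ⊢
    have t3 := mul_ne_zero o.three o.ne0
    have t2 := mul_ne_zero h2 o.ne0
    have t1 := o.ne0
    have hh := o.h
    rcases key 0 with k0 | k0 <;> rcases key 1 with k1 | k1 <;> rcases key 2 with k2 | k2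
    all_goals first
      | linear_combination k0 + o.ω * k1 + o.ω ^ 2 * k2 - o.ω * o.h
      | exact absurd (by linear_combination o.h + (o.ω - 1) * e1' - k0 - k1 - k2) t3
      | exact absurd (by linear_combination o.h + (o.ω - 1) * e1' - k0 - k1 - k2) t2
      | exact absurd (by linear_combination o.h + (o.ω - 1) * e1' - k0 - k1 - k2) t1
  refine nrm_of_std h (fun g hg => ?_) hg
  obtain ⟨g', -, e, e'⟩ := X.inv hg
  have m := conj_mem' hg e (δ_mem h 0)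
  rw [conj_Tm e] at m
  obtain ⟨n, n', n1, n2, n3⟩ := std _ _ m (by rw [dot_conj' e]; simp)
  have n1' := mul_eq_one_comm.1 n1
  refine ⟨n, n' * g, ⟨⟨n, n', n1, n1'⟩, rfl⟩, n2, by rw [← mul_assoc, n1, one_mul], fun j hj => ?_⟩
  have c : n' * g * Tm (E 0) ((o.ω - 1) • E 0) = Tm (E 0) ((o.ω - 1) • E 0) * (n' * g) := by
    rw [← conj_Tm e] at n3
    calc _ = n' * (g * Tm (E 0) ((o.ω - 1) • E 0) * g') * g := by simp [mul_assoc, e']
      _ = _ := by rw [n3]; simp [← mul_assoc, n1']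
  rw [δ_eq] at c
  have c1 := congrFun (congrFun c j) 0
  have c2 := congrFun (congrFun c 0) j
  simp only [mul_diagonal, diagonal_mul, Function.update_self, Function.update_of_ne hj, Pi.one_apply] at c1 c2
  exact ⟨mul_left_cancel₀ d0 (by linear_combination c1), mul_left_cancel₀ d0 (by linear_combination -c2)⟩

/-- `X` contains all transvections -/
def BigL {J : Type} [Fintype J] [DecidableEq J] (X : Gp F (Matrix J J F)) : Prop :=
  ∀ v φ, φ ⬝ᵥ v = 0 → X.mem (Tm v φ)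

theorem main3_lin [Finite F] (hp : ∀ a : F, ∃ n : ℕ, a = n) (h2 : (2 : F) ≠ 0) (h : o.Over X) :
    (∀ g, X.mem g → o.Nrm g) ∨ BigL X := by
  by_cases hT : HasT X
  · obtain ⟨c, χ, h3, h4, h5⟩ := hT
    refine Or.inr fun v φ e => (el_iff.1 (el_of_one (fun v φ a e => ?_) (fun v φ hv hφ => ?_) (el_iff.2 h5) h3 h4 e)).2
    · obtain ⟨n, rfl⟩ := hp a
      obtain ⟨e1, e2⟩ := (el_iff (v := v) (φ := φ)).1 e
      exact (el_iff (v := v) (φ := (n : F) • φ)).2 ⟨(smul_dotProduct _ _ _).trans (by rw [e1, smul_zero]), Tm_pow e1 n ▸ pow_mem' e2 n⟩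
    · obtain ⟨w, hw⟩ := o.exists_ne (J := Z3) hφ hv
      exact ⟨_, _, ⟨h.η w, rfl⟩, hw⟩
  · exact Or.inl fun g hg => base h h2 hT hg

/-- a diagonal involution -/
def dm (F : Type*) [Field F] : N3 F := diagonal fun j => if j = 2 then 1 else -1

theorem BigL.dm_mem (h : BigL X) : X.mem (dm F) := by
  have h1 := h (E 0) (E 1) (by simp)
  have h2 := h (E 1) (-E 0) (by simp)
  convert X.mul (X.mul (X.mul h1 h2) h1) (X.mul (X.mul h1 h2) h1) using 1
  ext i j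
  rcases z3' i with rfl | rfl | rfl <;> rcases z3' j with rfl | rfl | rfl <;>
    simp +decide [dm, Tm, mul_apply, sum_z3, vecMulVec, one_apply, Pi.single_apply]

theorem not_nrm_dg {q : Z3 → F} (h0 : ∀ j, q j ≠ 0) (h : o.Nrm (diagonal q)) (i j : Z3) : q i ^ 3 = q j ^ 3 := by
  obtain ⟨⟨a, b⟩, c, e⟩ := h (0, 1)
  rw [η_shift, Om.η, diagonal_eq, Mon_mul, Mon_mul, smul_Mon] at e
  have key : ∀ j, q (j + 1) ^ 3 = c ^ 3 * q j ^ 3 := fun j => by
    have := congrFun (congrFun e (j + 1)) j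
    simp only [Mon_apply, id, if_true, Pi.one_apply, mul_one] at this
    split_ifs at this
    · rw [this, mul_pow, mul_pow, o.χ_cube, one_mul]
    · exact absurd this (h0 _)
  have c3 : c ^ 3 = 1 := Om.cj_cube (g := diagonal q) (u := (0, 1)) (v := (a, b))
    (isUnit_diagonal.2 (Pi.isUnit_iff.2 fun i => (h0 i).isUnit)) (by
      rw [η_shift, Om.η, diagonal_eq, Mon_mul, Mon_mul, smul_Mon, e])
  simp only [c3, one_mul] at key
  have k1 : q 1 ^ 3 = q 0 ^ 3 := key 0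
  have k2 : q 2 ^ 3 = q 0 ^ 3 := (key 1).trans k1
  rcases z3' i with rfl | rfl | rfl <;> rcases z3' j with rfl | rfl | rfl <;> simp [k1, k2]

theorem not_nrm_dm (h2 : (2 : F) ≠ 0) : ¬ o.Nrm (dm F) := fun h => h2 (by
  have := not_nrm_dg (fun j => by split_ifs <;> simp) h 2 0
  simp only [if_true, if_neg (show (0 : Z3) ≠ 2 by decide)] at this
  linear_combination this)

section unit
variable {σ : F →+* F} {hσ : ∀ a, σ (σ a) = a} {hne : ∃ a, σ a ≠ a}

theorem ctr_of_T {P : N3 F → Prop} {h1 h2 h3} (hp : ∀ a : F, σ a = a → ∃ n : ℕ, a = n) {v φ : Z3 → F} (hv : v ≠ 0)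
    (hφ : φ ≠ 0) (e : φ ⬝ᵥ v = 0) (hs : Sim σ (Tm v φ)) (h : P (Tm v φ)) :
    Ctr (herm Z3 hσ hne) (subOf P h1 h2 h3) v := by
  obtain ⟨μ, hμ⟩ := hs
  have key : ∀ x y, (herm Z3 hσ hne).B (x + (φ ⬝ᵥ x) • v) (y + (φ ⬝ᵥ y) • v) = μ * (herm Z3 hσ hne).B x y :=
    fun x y => by
      rw [← Tm_mulVec, ← Tm_mulVec, herm_adj, mulVec_mulVec, show ((Tm v φ).map σ)ᵀ * _ = _ from hμ]; simp [smul_mulVec]
  have nd := (herm_on (J := Z3) (hσ := hσ) (hne := hne)).nd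
  generalize hS : herm Z3 hσ hne = S at key nd
  obtain ⟨x, x0, x1, x2⟩ := common3 φ (σ ∘ v)
  replace x2 : S.B x v = 0 := by rwa [← hS, herm_B, dotProduct_comm]
  obtain ⟨y, hy⟩ := not_forall.1 (mt (nd x) x0)
  obtain rfl : 1 = μ := mul_right_cancel₀ hy (by simpa [x1, x2] using key x y)
  obtain ⟨z, hz⟩ : ∃ z, φ ⬝ᵥ z = 1 := by
    obtain ⟨i, hi⟩ := Function.ne_iff.1 hφ
    exact ⟨Pi.single i (φ i)⁻¹, by simpa using mul_inv_cancel₀ hi⟩
  have vv : S.B v v = 0 := by simpa [e, hz] using key v z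
  have k2 : ∀ x, S.B x v + φ ⬝ᵥ x * S.B v z = 0 := fun x => by
    have := key x z
    simp only [hz, one_smul, PQ.B_add_left, PQ.B_add_right, PQ.B_smul_left, vv] at this
    linear_combination this
  have z0 : S.B v z ≠ 0 := fun h => hv (nd.right _ fun x => by simpa [h] using k2 x)
  have k3 : ∀ x, φ ⬝ᵥ x = -(S.B v z)⁻¹ * S.B x v := fun x => by
    field_simp; linear_combination k2 x
  have k4 : HT S (subOf P h1 h2 h3) v (-(S.B v z)⁻¹) := by
    subst hS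
    rw [ht_iff vv]
    convert h using 2
    ext i
    simpa [herm_B] using (k3 (Pi.single i 1)).symm
  have k5 : σ (S.B v z) = -S.B v z := by rw [Bs]; linear_combination k2 z - S.B v z * hz
  refine ctr_iff.2 ⟨vv, fun c hc => ?_⟩
  obtain ⟨n, hn⟩ := hp (-c * S.B v z) (by rw [map_mul, map_neg, k5]; linear_combination S.B v z * hc)
  rw [show c = n * -(S.B v z)⁻¹ by rw [← hn]; field_simp]
  clear hn
  induction n with
  | zero => simpa using ht_zero v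
  | succ n ih => simpa [add_mul, add_comm] using ih.add k4 vv

theorem η_le (hω : σ o.ω = o.ω ^ 2) {J : Type} [AddCommGroup J] [Module Z3 J] [Bf J] [Fintype J] [DecidableEq J]
    (w : J × J) : le (o.η_neg w) ∈ (herm J hσ hne).isom :=
  (isom_iff fun _ => rfl).2 ((congrArg (· * _) (Om.adj_η hω w)).trans (o.η_neg' w))

theorem exists_unit (hω : σ o.ω = o.ω ^ 2) (h2 : (2 : F) = 0) (h4 : ∀ c : F, c ≠ 0 → σ c * c = 1 ∧ c ^ 3 = 1)
    {a : Z3 → F} (ha : (σ ∘ a) ⬝ᵥ a ≠ 0) :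
    ∃ (n : N3 F) (t : F), adj σ n * n = 1 ∧ o.Nrm n ∧ ∀ i, a i = t * n i 0 := by
  have sh : ∀ j, (∀ i, i ≠ j → a i = 0) → ∃ (n : N3 F) (t : F), adj σ n * n = 1 ∧ o.Nrm n ∧ ∀ i, a i = t * n i 0 :=
    fun j h => ⟨o.η (0, j), a j, by rw [Om.adj_η hω, Om.η_neg'], Om.nrm_η _, fun i => by
      by_cases e : i = j <;> simp [η_shift, Mon_apply, e, h]⟩
  simp only [dotProduct, sum_z3, Function.comp] at ha
  by_cases h0 : a 0 = 0 <;> by_cases h1 : a 1 = 0 <;> by_cases h2' : a 2 = 0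
  · simp [h0, h1, h2'] at ha
  · exact sh 2 fun i hi => by rcases z3' i with rfl | rfl | rfl <;> simp_all
  · exact sh 1 fun i hi => by rcases z3' i with rfl | rfl | rfl <;> simp_all
  · exact absurd (by rw [h0, (h4 _ h1).1, (h4 _ h2').1]; linear_combination h2) ha
  · exact sh 0 fun i hi => by rcases z3' i with rfl | rfl | rfl <;> simp_all
  · exact absurd (by rw [h1, (h4 _ h0).1, (h4 _ h2').1]; linear_combination h2) ha
  · exact absurd (by rw [h2', (h4 _ h0).1, (h4 _ h1).1]; linear_combination h2) ha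
  have a0 : ∀ i, a i ≠ 0 := fun i => by rcases z3' i with rfl | rfl | rfl <;> assumption
  have u0 : ∀ i, o.U ((0, 1) : Z3 × Z3) i 0 ≠ 0 := fun i => by
    rcases z3' i with rfl | rfl | rfl <;> simp +decide [Om.U, η_shift, Mon_apply, o.ne0, one_apply]
  have q0 := fun i => h4 _ (div_ne_zero (a0 i) (u0 i))
  refine ⟨diagonal (fun i => a i / o.U ((0, 1) : Z3 × Z3) i 0) * o.U (0, 1), 1, ?_,
    (dg_nrm' fun i => (q0 i).2).mul (o.nrm_U _), fun i => by simp [u0]⟩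
  rw [adj_mul, mul_assoc, ← mul_assoc (adj σ (diagonal _)), Om.adj_U hω, adj, diagonal_map (map_zero σ),
    diagonal_transpose, diagonal_mul_diagonal, funext fun i => (q0 i).1, diagonal_one, one_mul]
  refine mul_eq_one_comm.1 ((o.U_mul _).trans ?_)
  rw [show (3 : F) = 1 by linear_combination h2, one_smul]

theorem base_four (hω : σ o.ω = o.ω ^ 2) (h2 : (2 : F) = 0) (h4 : ∀ c : F, c ≠ 0 → σ c * c = 1 ∧ c ^ 3 = 1)
    (h : o.Over X) (hs : ∀ g, X.mem g → Sim σ g) {g : N3 F} (hg : X.mem g) : o.Nrm g := by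
  refine nrm_of_std h (fun g hg => ?_) hg
  obtain ⟨μ, hμ⟩ := hs g hg
  have μ0 : μ ≠ 0 := by
    rintro rfl
    obtain ⟨k, -, hk, -⟩ := X.inv hg
    have : adj σ g = 0 := by simpa [mul_assoc, hk] using congrArg (· * k) hμ
    have := congrArg (adj σ k * ·) this
    simp [← adj_mul, hk] at this
  obtain ⟨n, t, n1, n2, n3⟩ := exists_unit hω h2 h4 (a := fun i => g i 0) (by
    convert μ0 using 1
    simpa [mul_apply, adj, dotProduct] using congrFun (congrFun hμ 0) 0)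
  have n1' := mul_eq_one_comm.1 n1
  have c : ∀ j, (adj σ n * g) j 0 = t * (1 : N3 F) j 0 := fun j => by
    rw [← n1]; simp only [mul_apply, n3, Finset.mul_sum]; exact Finset.sum_congr rfl fun i _ => by ring
  have k : adj σ (adj σ n * g) * (adj σ n * g) = μ • 1 := by
    have : adj σ (adj σ n) * adj σ n = 1 := by rw [← adj_mul, n1', adj_one]
    rw [adj_mul, mul_assoc, ← mul_assoc _ (adj σ n), this, one_mul, hμ]
  refine ⟨n, adj σ n * g, ⟨⟨n, _, n1', n1⟩, rfl⟩, n2, by rw [← mul_assoc, n1', one_mul], fun j hj =>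
    ⟨by simp [c, hj], ?_⟩⟩
  generalize adj σ n * g = k' at *
  have k0 := congrFun (congrFun k 0) 0
  have k1 := congrFun (congrFun k 0) j
  simp +decide [mul_apply, adj, sum_z3, c, one_apply, hj.symm] at k0 k1
  exact k1.resolve_left fun e => μ0 (by simpa [e] using k0.symm)

theorem four_of [Finite F] (hσ : ∀ a, σ (σ a) = a) (hp : ∀ a : F, σ a = a → ∃ n : ℕ, a = n)
    (hω : σ o.ω = o.ω ^ 2) (h2 : (2 : F) = 0) (c : F) (hc : c ≠ 0) : σ c * c = 1 ∧ c ^ 3 = 1 := by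
  have fix : ∀ a : F, σ a = a → a = 0 ∨ a = 1 := fun a ha => by
    obtain ⟨n, rfl⟩ := hp a ha
    rcases Nat.even_or_odd' n with ⟨k, rfl | rfl⟩ <;> simp [h2]
  have h1 := (fix (σ c * c) (by rw [map_mul, hσ, mul_comm])).resolve_left (mul_ne_zero ((map_ne_zero σ).2 hc) hc)
  refine ⟨h1, ?_⟩
  rcases fix (σ c + c) (by rw [map_add, hσ, add_comm]) with e | e
  · have : c * c = 1 := by linear_combination h1 - c * e + c * c * h2
    have : (c - 1) ^ 2 = 0 := by linear_combination this + (1 - c) * h2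
    rw [sub_eq_zero.1 (pow_eq_zero_iff two_ne_zero |>.1 this), one_pow]
  · have : c ^ 2 + c + 1 = 0 := by linear_combination c * e - h1 + c * h2
    linear_combination (c - 1) * this

theorem main3_unit [Finite F] (hp : ∀ a : F, σ a = a → ∃ n : ℕ, a = n) (hω : σ o.ω = o.ω ^ 2) (h : o.Over X)
    (hs : ∀ g, X.mem g → Sim σ g) :
    (∀ g, X.mem g → o.Nrm g) ∨ ((2 : F) ≠ 0 ∧ sisom (herm Z3 hσ hne) ≤ sub X) := by
  by_cases h2 : (2 : F) = 0
  · exact Or.inl fun g hg => base_four hω h2 (four_of hσ hp hω h2) h hs hg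
  by_cases hT : HasT X
  · obtain ⟨v, φ, h3, h4, h5, h6⟩ := hT
    refine Or.inr ⟨h2, Full.sisom_le_three hne ⟨-1, by simp, by simp, fun e => h2 (by linear_combination -e)⟩
      herm_on.nd (by simp) (full_of_orbit o h3 fun w => ?_)⟩
    exact (ctr_of_T hp h3 h4 h5 (hs _ h6) h6).map (g := le (o.η_neg w)) ⟨_, h.η w, fun _ => rfl⟩ (η_le hω w)
  · exact Or.inl fun g hg => base h h2 hT hg

theorem dm_mem_unit (h : sisom (herm Z3 hσ hne) ≤ sub X) : X.mem (dm F) := by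
  refine mem_of_sisom h ?_ ?_
  · rw [dm, diagonal_map (map_zero σ), diagonal_transpose, diagonal_mul_diagonal, ← diagonal_one]
    congr 1; ext j; split_ifs <;> simp
  · rw [dm, det_diagonal]; rw [prod_z3]; simp +decide

end unit

end Cfsg.Agent.H6.T
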