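import Cfsg.Agent.H6.T1
import Cfsg.Agent.MH.Grp
import Cfsg.Agent.H6.SUMono2

/-! Actions of the elementary abelian group of order nine; dihedral groups modulo a normal subgroup. -/

set_option autoImplicit false
set_option linter.unusedSectionVars false
set_option linter.unusedSimpArgs false
set_option linter.unusedVariables false

namespace Cfsg.Agent.H6.T

open Cfsg.Agent.MH

theorem fp {H : Type*} [Group H] [Finite H] (σ : I → H →* H) (h0 : ∀ x, σ 0 x = x)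
    (ha : ∀ u v x, σ u (σ v x) = σ (u + v) x) (hf : ∀ u, u ≠ 0 → ∀ x, σ u x = x → x = 1) (x : H) : x = 1 := by
  have n : ∀ u, u ≠ 0 → ∀ x, σ u x * σ (-u) x = x⁻¹ := fun u hu x => by
    obtain ⟨y, rfl⟩ := Finite.surjective_of_injective (f := fun y => y⁻¹ * σ u y) (fun y z e => by
      refine mul_inv_eq_one.1 (hf u hu _ ?_)
      rw [map_mul, map_inv, ← mul_inv_cancel_left y (σ u y), show y⁻¹ * σ u y = _ from e]; group) x
    simp [ha, add3, h0]
  have c0 : ∀ u x, x * σ u x = σ u x * x := fun u x => by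
    by_cases hu : u = 0
    · simp [hu, h0]
    · have := congrArg (σ (-u)) ((n (-u) (neg_ne_zero.2 hu) x).trans (n u hu x).symm)
      simpa [ha, add3, h0] using this.symm
  have c : ∀ x u v, σ u x * σ v x = σ v x * σ u x := fun x u v => by
    simpa [ha] using congrArg (σ u) (c0 (v - u) x)
  have cube : ∀ x : H, x⁻¹ * (x⁻¹ * x⁻¹) = 1 := fun x => by
    have c' : ∀ u v t, σ u x * (σ v x * t) = σ v x * (σ u x * t) := fun u v t => by rw [← mul_assoc, c, mul_assoc]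
    have e1 := n (1, 0) (by decide) (σ (0, 1) x)
    have e2 := n (1, 0) (by decide) (σ (0, 2) x)
    rw [ha, ha, eq_inv_iff_mul_eq_one] at e1 e2
    nth_rewrite 1 [← n (0, 1) (by decide) x, ← n (1, 1) (by decide) x, ← n (1, 2) (by decide) x]
    rw [← mul_one (1 : H), ← congrArg₂ (· * ·) e1 e2]
    change σ (0, 1) x * σ (0, 2) x * (σ (1, 1) x * σ (2, 2) x * (σ (1, 2) x * σ (2, 1) x)) =
      σ (1, 1) x * σ (2, 1) x * σ (0, 1) x * (σ (1, 2) x * σ (2, 2) x * σ (0, 2) x)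
    simp only [mul_assoc, c x, c']
  refine hf (1, 0) (by decide) x (inv_mul_eq_one.1 (hf (1, 0) (by decide) _ ?_)).symm
  rw [map_mul, map_inv, ha, add3, eq_inv_mul_of_mul_eq (n _ (by decide) x), ← mul_assoc,
    eq_inv_of_mul_eq_one_right (cube _), inv_inv, eq_comm, inv_mul_eq_iff_eq_mul, ← mul_assoc, c0, mul_inv_cancel_right]

variable {G : Type*} [Group G] [Finite G] {t : I → G}

theorem fp_rel (ht : ∀ u v, t (u + v) = t u * t v) {H Q : Subgroup G} (hn : ∀ x ∈ H, ∀ q ∈ Q, x * q * x⁻¹ ∈ Q)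
    (hH : ∀ u, ∀ x ∈ H, t u * x * (t u)⁻¹ ∈ H) (hQ : ∀ u, ∀ x ∈ Q, t u * x * (t u)⁻¹ ∈ Q)
    (hf : ∀ u, u ≠ 0 → ∀ x ∈ H, x⁻¹ * (t u * x * (t u)⁻¹) ∈ Q → x ∈ Q) : H ≤ Q := fun x hx => by
  have t0 : t 0 = 1 := by simpa using ht 0 0
  have : (Q.subgroupOf H).Normal := ⟨fun q hq x => hn x x.2 q hq⟩
  let τ : I → H →* H := fun u => ((MulAut.conj (t u)).toMonoidHom.comp H.subtype).codRestrict H fun x => hH u x x.2
  let σ : I → H ⧸ Q.subgroupOf H →* H ⧸ Q.subgroupOf H := fun u => QuotientGroup.map _ _ (τ u) fun x h => hQ u x h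
  refine (QuotientGroup.eq_one_iff (N := Q.subgroupOf H) ⟨x, hx⟩).1 (fp σ (fun x => ?_) (fun u v x => ?_)
    (fun u hu x => ?_) _) <;> induction x using QuotientGroup.induction_on with | H x => ?_
  · exact congrArg _ (Subtype.ext (by simp [τ, t0]))
  · exact congrArg _ (Subtype.ext (by simp [τ, ht, mul_assoc]))
  · intro e
    have : x⁻¹ * τ u x ∈ Q.subgroupOf H := QuotientGroup.eq.1 e.symm
    exact (QuotientGroup.eq_one_iff _).2 (hf u hu x x.2 this)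

/-- the homomorphism -/
def tm (ht : ∀ u v, t (u + v) = t u * t v) : Multiplicative I →* G := MonoidHom.mk' (fun u => t u.toAdd) fun u v => ht _ _

theorem t_cube (ht : ∀ u v, t (u + v) = t u * t v) (u : I) : t u * (t u * t u) = 1 := by
  rw [← ht, ← ht, add3, add_neg_cancel]; simpa using ht 0 0

theorem le_of_nilp (ht : ∀ u v, t (u + v) = t u * t v) {P L : Subgroup G} [Group.IsNilpotent P]
    (h3 : ¬ 3 ∣ Nat.card P) (hP : ∀ u, ∀ x ∈ P, t u * x * (t u)⁻¹ ∈ P) (hL : ∀ u, ∀ x ∈ L, t u * x * (t u)⁻¹ = x)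
    (hC : ∀ u, u ≠ 0 → ∀ x ∈ P, t u * x * (t u)⁻¹ = x → x ∈ L) : P ≤ L := by
  have key : P ⊓ Nm (P ⊓ L) ≤ P ⊓ L := by
    refine fp_rel ht (fun x hx q hq => Nm_conj hx.2 hq) (fun u x hx => ⟨hP u x hx.1, mem_Nm fun q hq => ?_⟩)
      (fun u x hx => by rwa [hL u x hx.2]) fun u hu x hx hq => ⟨hx.1, hC u hu x hx.1 ?_⟩
    · have := Nm_conj hx.2 hq
      have e := hL u q hq.2
      rw [← hL u _ this.2] at this
      convert this using 1
      rw [mul_inv_eq_iff_eq_mul] at e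
      calc _ = t u * x * ((t u)⁻¹ * (q * t u)) * x⁻¹ * (t u)⁻¹ := by group
        _ = _ := by rw [← e]; group
    · obtain ⟨q, e⟩ : ∃ q, q = x⁻¹ * (t u * x * (t u)⁻¹) := ⟨_, rfl⟩
      rw [← e] at hq
      have e1 : t u * x * (t u)⁻¹ = x * q := by rw [e]; group
      have e2 : ∀ n : ℕ, t u ^ n * x * (t u ^ n)⁻¹ = x * q ^ n := fun n => by
        induction n with
        | zero => simp
        | succ n ih =>
          calc _ = t u * (t u ^ n * x * (t u ^ n)⁻¹) * (t u)⁻¹ := by rw [pow_succ']; group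
            _ = (t u * x * (t u)⁻¹) * (t u * q ^ n * (t u)⁻¹) := by rw [ih]; group
            _ = _ := by rw [e1, hL u _ (L.pow_mem hq.2 n), pow_succ', mul_assoc]
      have e3 := e2 3
      rw [show t u ^ 3 = 1 by simpa [pow_succ, mul_assoc] using t_cube ht u] at e3
      have e4 : q = 1 := by
        by_contra q1
        exact h3 (orderOf_eq_prime (hp := ⟨Nat.prime_three⟩) (by simpa using e3.symm) q1 ▸ orderOf_dvd_card_of_mem hq.1)
      rw [e1, e4, mul_one]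
  have := normalizerCondition_iff_only_full_group_self_normalizing.1 (Group.normalizerCondition_of_isNilpotent (G := P))
    ((P ⊓ L).subgroupOf P) (le_antisymm (fun x hx => key ⟨x.2, mem_Nm fun q hq =>
      (Subgroup.mem_normalizer_iff.1 hx ⟨q, hq.1⟩).1 hq⟩) Subgroup.le_normalizer)
  exact fun x hx => (this.ge (Subgroup.mem_top (⟨x, hx⟩ : P))).2

theorem le_of_cop (ht : ∀ u v, t (u + v) = t u * t v) {H L : Subgroup G}
    (h3 : ¬ 3 ∣ Nat.card H) (hH : ∀ u, ∀ x ∈ H, t u * x * (t u)⁻¹ ∈ H) (hL : ∀ u, ∀ x ∈ L, t u * x * (t u)⁻¹ = x)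
    (hC : ∀ u, u ≠ 0 → ∀ x ∈ H, t u * x * (t u)⁻¹ = x → x ∈ L) : H ≤ L := by
  refine inf_eq_left.1 (Subgroup.eq_of_le_of_card_ge inf_le_left (Nat.le_of_dvd Nat.card_pos ?_))
  refine (Nat.dvd_iff_prime_pow_dvd_dvd _ _).2 fun r k hr hk => ?_
  have := Fact.mk hr
  let α : Multiplicative I →* MulAut H :=
    H.normalizerMonoidHom.comp ((tm ht).codRestrict _ fun u => mem_Nm (hH _))
  let _ := MulAction.compHom (Sylow r H) α
  obtain ⟨P, hP⟩ := (IsPGroup.of_card (p := 3) (n := 2) (by simp : Nat.card (Multiplicative I) = _)).nonempty_fixed_point_of_prime_not_dvd_card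
    (hp := ⟨Nat.prime_three⟩) (Sylow r H) fun h => h3
      (h.trans ((Sylow.card_dvd_index default).trans (Subgroup.index_dvd_card _)))
  have e : Nat.card ((P : Subgroup H).map H.subtype) = Nat.card P := Subgroup.card_map_of_injective H.subtype_injective
  have hp : IsPGroup r ((P : Subgroup H).map H.subtype) := P.2.map _
  have := hp.isNilpotent
  have h1 : (P : Subgroup H).map H.subtype ≤ H := Subgroup.map_subtype_le _
  have h2 : (P : Subgroup H).map H.subtype ≤ L := le_of_nilp ht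
    (fun h => h3 (h.trans (Subgroup.card_dvd_of_le h1))) (by
      rintro u _ ⟨x, hx, rfl⟩
      have : α (.ofAdd u) • x ∈ ((α (.ofAdd u) • P : Sylow r H) : Subgroup H) := by
        rw [Sylow.pointwise_smul_def]; exact Subgroup.smul_mem_pointwise_smul _ _ _ hx
      rw [show α (.ofAdd u) • P = P from hP (.ofAdd u)] at this
      exact ⟨_, this, rfl⟩) hL fun u hu x hx => hC u hu x (h1 hx)
  exact ((P.pow_dvd_card_of_pow_dvd_card hk).trans e.symm.dvd).trans (Subgroup.card_dvd_of_le (le_inf h1 h2))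

theorem z_cases {d x : G} (h : d ^ 3 = 1) (hx : x ∈ Subgroup.zpowers d) : x = 1 ∨ x = d ∨ x = d⁻¹ := by
  classical
  obtain ⟨k, rfl⟩ := (mem_zpowers_iff_mem_range_orderOf.1 hx |> Finset.mem_image.1).imp fun _ h => h.2
  rw [pow_eq_pow_mod k h]
  have : k % 3 < 3 := Nat.mod_lt _ (by norm_num)
  interval_cases k % 3
  exacts [Or.inl (pow_zero _), Or.inr (Or.inl (pow_one _)),
    Or.inr (Or.inr (eq_inv_of_mul_eq_one_left (by rw [← pow_succ, h])))]

theorem le_of_fix (ht : ∀ u v, t (u + v) = t u * t v) {K L : Subgroup G} (hLK : L ≤ K)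
    (hK : ∀ u, ∀ x ∈ K, t u * x * (t u)⁻¹ ∈ K) (hL : ∀ u, ∀ x ∈ L, t u * x * (t u)⁻¹ = x)
    (hC : ∀ u, u ≠ 0 → ∀ x ∈ K, t u * x * (t u)⁻¹ = x → x ∈ L) (h9 : ¬ 9 ∣ Nat.card L) {d : G} (hd : d ∈ L)
    (d1 : d ≠ 1) (d3 : d ^ 3 = 1) (hr : ∀ k ∈ K, k * d * k⁻¹ ≠ d⁻¹) : K ≤ L := by
  by_contra hn
  obtain ⟨k0, k1, k2⟩ := SetLike.not_le_iff_exists.1 hn
  have := Fact.mk Nat.prime_three
  have inj : Function.Injective (tm ht) := (injective_iff_map_eq_one _).2 fun u e => by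
    by_contra hu
    exact k2 (hC u.toAdd hu k0 k1 (by rw [show t u.toAdd = 1 from e]; simp))
  obtain ⟨m, hm⟩ := card_dvd_of_conj_free (tm ht).range ⊥ bot_le ((K : Set G) \ L) (by
    rintro _ ⟨u, rfl⟩ x ⟨h1, h2⟩
    refine ⟨hK _ x h1, fun h => h2 ?_⟩
    have := hL u⁻¹.toAdd _ h
    change tm ht u⁻¹ * _ * (tm ht u⁻¹)⁻¹ = _ at this
    rw [map_inv, show (tm ht u)⁻¹ * (tm ht u * x * (tm ht u)⁻¹) * (tm ht u)⁻¹⁻¹ = x by group] at this
    exact this ▸ h) (by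
    rintro _ ⟨u, rfl⟩ x ⟨h1, h2⟩
    refine ⟨fun h => by_contra fun hu => h2 (hC u.toAdd (fun e => hu ?_) x h1 ?_), fun h => by
      rw [Subgroup.mem_bot.1 h]; exact one_mem _⟩
    · rw [show u = 1 from e]; simp
    · exact mul_inv_eq_iff_eq_mul.2 (mem_Cn.1 h).symm)
  rw [← Nat.card_congr (MonoidHom.ofInjective inj).toEquiv, Subgroup.card_bot, one_mul,
    show Nat.card (Multiplicative I) = 9 by simp] at hm
  have hc := Set.ncard_sdiff_add_ncard_of_subset (show (L : Set G) ⊆ K from hLK)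
  rw [hm, ncard_coe, ncard_coe] at hc
  have h9' : ¬ 9 ∣ Nat.card K := fun h => h9 ((Nat.dvd_add_right (Dvd.intro_left m rfl)).1 (hc ▸ h))
  let d' : K := ⟨d, hLK hd⟩
  have od : orderOf d' = 3 := orderOf_eq_prime (Subtype.ext d3) fun e => d1 (congrArg Subtype.val e)
  let P : Sylow 3 K := Sylow.ofCard (Subgroup.zpowers d') (by
    have a1 := (Nat.prime_three.dvd_iff_one_le_factorization Nat.card_pos.ne').1 (od ▸ orderOf_dvd_natCard d')
    have a2 := mt (Nat.prime_three.pow_dvd_iff_le_factorization (k := 2) Nat.card_pos.ne').2 h9'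
    rw [Nat.card_zpowers, od, show (Nat.card K).factorization 3 = 1 by omega, pow_one])
  have hP : Subgroup.normalizer ((P : Subgroup K) : Set K) ≤ Subgroup.centralizer ((P : Subgroup K) : Set K) :=
    fun g hg => Subgroup.mem_centralizer_iff.2 fun x hx => by
      have e : g * d' * g⁻¹ = d' := by
        rcases z_cases (d := d') (Subtype.ext d3) ((Subgroup.mem_normalizer_iff.1 hg d').1 (Subgroup.mem_zpowers d')) with e | e | e
        · exact absurd (congrArg Subtype.val (conj_eq_one_iff.1 e)) d1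
        · exact e
        · exact absurd (congrArg Subtype.val e) (hr g g.2)
      obtain ⟨n, rfl⟩ := Subgroup.mem_zpowers_iff.1 hx
      exact ((show Commute g d' from mul_inv_eq_iff_eq_mul.1 e).zpow_right n).eq.symm
  let φ := MonoidHom.transferSylow P hP
  have hO := MonoidHom.not_dvd_card_ker_transferSylow P hP
  have e : Nat.card (φ.ker.map K.subtype) = Nat.card φ.ker := Subgroup.card_map_of_injective K.subtype_injective
  have h1 : φ.ker.map K.subtype ≤ L := le_of_cop ht (e ▸ hO) (by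
    rintro u _ ⟨x, hx, rfl⟩
    refine ⟨⟨_, hK u x x.2⟩, (MonoidHom.mem_ker).2 (orderOf_eq_one_iff.1 (Nat.eq_one_of_dvd_coprimes
      ((Nat.Prime.coprime_iff_not_dvd Nat.prime_three).2 hO) ?_ ?_)), rfl⟩
    · exact (orderOf_dvd_natCard _).trans (by simp [P, od])
    · refine orderOf_dvd_of_pow_eq_one ?_
      rw [← map_pow, show (⟨_, hK u x x.2⟩ : K) ^ Nat.card φ.ker = 1 from Subtype.ext ?_, map_one]
      have : (x : G) ^ Nat.card φ.ker = 1 := congrArg (fun y : φ.ker => (y.1 : G)) (pow_card_eq_one' (x := ⟨x, hx⟩))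
      rw [Subgroup.coe_pow, Subgroup.coe_mk, conj_pow, this]; simp) hL fun u hu x hx => hC u hu x (Subgroup.map_subtype_le _ hx)
  obtain ⟨⟨a, b⟩, e, -⟩ := (MonoidHom.ker_transferSylow_isComplement' P hP).existsUnique ⟨k0, k1⟩
  obtain ⟨n, hn⟩ := Subgroup.mem_zpowers_iff.1 b.2
  refine k2 ((show ((a : K) : G) * (b : K) = k0 from congrArg Subtype.val e) ▸ L.mul_mem (h1 ⟨_, a.2, rfl⟩) ?_)
  rw [← hn]; exact L.zpow_mem hd n

theorem dihedral_q {H Z : Subgroup G} (hZ : ∀ h ∈ H, ∀ z ∈ Z, h * z * h⁻¹ ∈ Z) (P : G → Prop)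
    (hP : ∀ h ∈ H, ∀ x, P x → P (h * x * h⁻¹)) {i j : G} (hi : i ∈ H) (hj : j ∈ H) (pi : P i) (pj : P j)
    (ii : i * i ∈ Z) (jj : j * j ∈ Z) : (∃ k ∈ H, k * i * k⁻¹ * j⁻¹ ∈ Z) ∨
      ∃ k ∈ H, P k ∧ k * k ∈ Z ∧ k * i ∉ Z ∧ k * i * k⁻¹ * i⁻¹ ∈ Z ∧ j * (k * i) * j⁻¹ * (k * i)⁻¹ ∈ Z := by
  have : (Z.subgroupOf H).Normal := ⟨fun q hq x => hZ x x.2 q hq⟩
  have q : ∀ x : H, (x : H ⧸ Z.subgroupOf H) = 1 ↔ (x : G) ∈ Z := fun x => QuotientGroup.eq_one_iff x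
  rcases SU.dihedral (G := H ⧸ Z.subgroupOf H) (M := ⊤) (fun x => x * x = 1 ∧ ∃ k : H, P k ∧ x = k) (by
    rintro g - _ ⟨h, k, hk, rfl⟩
    obtain ⟨g, rfl⟩ := QuotientGroup.mk_surjective g
    exact ⟨conj_mul_self.2 h, g * k * g⁻¹, hP g g.2 _ hk, rfl⟩) (i := (⟨i, hi⟩ : H)) (j := (⟨j, hj⟩ : H)) trivial trivial
    ⟨(q _).2 ii, _, pi, rfl⟩ ⟨(q _).2 jj, _, pj, rfl⟩ ((q _).2 ii) ((q _).2 jj) (isOfFinOrder_of_finite _) with
    ⟨-, -, _, ⟨h, k, -, rfl⟩, e⟩ | ⟨_, ⟨h, k, hk, rfl⟩, e1, e2, e3⟩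
  · refine Or.inl ⟨k, k.2, (q (k * ⟨i, hi⟩ * k⁻¹ * (⟨j, hj⟩ : H)⁻¹)).1 ?_⟩
    simp only [QuotientGroup.mk_mul, QuotientGroup.mk_inv]
    rw [inv_eq_of_mul_eq_one_right h, e, mul_inv_cancel]
  · refine Or.inr ⟨k, k.2, hk, (q (k * k)).1 h, fun e => e1 (by exact (q (k * (⟨i, hi⟩ : H))).2 e),
      (q (k * ⟨i, hi⟩ * k⁻¹ * (⟨i, hi⟩ : H)⁻¹)).1 ?_, (q (⟨j, hj⟩ * (k * ⟨i, hi⟩) * (⟨j, hj⟩ : H)⁻¹ * (k * ⟨i, hi⟩)⁻¹)).1 ?_⟩
    · simp only [QuotientGroup.mk_mul, QuotientGroup.mk_inv]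
      rw [e2.eq]; group
    · simp only [QuotientGroup.mk_mul, QuotientGroup.mk_inv]
      rw [← e3.eq]; group

end Cfsg.Agent.H6.T
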