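import Cfsg.Agent.H6.T4

/-! Groups containing `3⁴ : Sp₄(3)`. -/

set_option autoImplicit false
set_option linter.unusedSectionVars false
set_option linter.unusedSimpArgs false
set_option linter.unusedVariables false

namespace Cfsg.Agent.H6.T

open Cfsg.Agent.MH

/-- the symplectic space -/
abbrev W := I × I
/-- its endomorphisms -/
abbrev EW := Module.End Z3 W

def e1 : W := ((1, 0), (0, 0))
def e2 : W := ((0, 1), (0, 0))
def f1 : W := ((0, 0), (1, 0))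
def f2 : W := ((0, 0), (0, 1))

/-- the linear map with given images of the basis -/
def mk4 (p r p' r' : W) : EW where
  toFun w := w.1.1 • p + w.1.2 • r + w.2.1 • p' + w.2.2 • r'
  map_add' u v := by simp only [Prod.fst_add, Prod.snd_add, add_smul]; abel
  map_smul' c v := by simp [mul_smul]

theorem mk4_apply (p r p' r' w : W) : mk4 p r p' r' w = w.1.1 • p + w.1.2 • r + w.2.1 • p' + w.2.2 • r' := rfl
@[simp] theorem mk4_e1 (p r p' r' : W) : mk4 p r p' r' e1 = p := by simp [mk4_apply, e1]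
@[simp] theorem mk4_e2 (p r p' r' : W) : mk4 p r p' r' e2 = r := by simp [mk4_apply, e2]
@[simp] theorem mk4_f1 (p r p' r' : W) : mk4 p r p' r' f1 = p' := by simp [mk4_apply, f1]
@[simp] theorem mk4_f2 (p r p' r' : W) : mk4 p r p' r' f2 = r' := by simp [mk4_apply, f2]

theorem ext4 {A B : EW} (h : ∀ w ∈ [e1, e2, f1, f2], A w = B w) : A = B := LinearMap.ext fun w => by
  have : w = mk4 e1 e2 f1 f2 w := by revert w; decide
  rw [this, mk4_apply]
  simp only [map_add, map_smul, h e1 (by simp), h e2 (by simp), h f1 (by simp), h f2 (by simp)]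

/-- symplectic maps -/
def Sp (A : EW) : Prop := ∀ u v, f (A u) (A v) = f u v

theorem sp_mk4 {p r p' r' : W} (h1 : f p p' = 1) (h2 : f r r' = 1) (h3 : f p r = 0) (h4 : f p r' = 0)
    (h5 : f r p' = 0) (h6 : f p' r' = 0) : Sp (mk4 p r p' r') := fun u v => by
  simp only [mk4_apply, f_add, f_add', f_smul, f_smul', f_self, f_swap p p', f_swap r r', f_swap p r, f_swap p r',
    f_swap r p', f_swap p' r', h1, h2, h3, h4, h5, h6]
  simp only [f, Bf.β]; ring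

theorem Sp.mul {A B : EW} (h : Sp A) (h' : Sp B) : Sp (A * B) := fun u v => (h _ _).trans (h' u v)
theorem sp_one : Sp 1 := fun _ _ => rfl
theorem Sp.pow {A : EW} (h : Sp A) (n : ℕ) : Sp (A ^ n) := by
  induction n with
  | zero => exact sp_one
  | succ n ih => rw [pow_succ]; exact ih.mul h
theorem sp_neg : Sp (-1) := fun _ _ => by simp
theorem Sp.surj {A : EW} (h : Sp A) : Function.Surjective A := Finite.surjective_of_injective
  ((injective_iff_map_eq_zero A).2 fun u e => f_nd fun v => by rw [← h, e, f_zero])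

def A0 : EW := mk4 e1 (-e2) f1 (-f2)
def A4 : EW := mk4 e2 e1 f2 f1
def A1 : EW := mk4 (-e2 - f2) (e1 + f1) (-e2 + f2) (e1 - f1)
def JJ : EW := mk4 f1 f2 (-e1) (-e2)

theorem sp_A0 : Sp A0 := by refine sp_mk4 ?_ ?_ ?_ ?_ ?_ ?_ <;> decide
theorem sp_A4 : Sp A4 := by refine sp_mk4 ?_ ?_ ?_ ?_ ?_ ?_ <;> decide
theorem sp_A1 : Sp A1 := by refine sp_mk4 ?_ ?_ ?_ ?_ ?_ ?_ <;> decide
theorem sp_JJ : Sp JJ := by refine sp_mk4 ?_ ?_ ?_ ?_ ?_ ?_ <;> decide

/-- non-central involutions -/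
def Ty (A : EW) : Prop := Sp A ∧ A * A = 1 ∧ A ≠ 1 ∧ A ≠ -1

theorem ty_of {A : EW} (h : Sp A) (h1 : ∀ w ∈ [e1, e2, f1, f2], A (A w) = w) (w : W) (h2 : A w ≠ w) (w' : W)
    (h3 : A w' ≠ -w') : Ty A := ⟨h, ext4 h1, fun e => h2 (by simp [e]), fun e => h3 (by simp [e])⟩

theorem ty_A0 : Ty A0 := ty_of sp_A0 (by decide) e2 (by decide) e1 (by decide)
theorem ty_A4 : Ty A4 := ty_of sp_A4 (by decide) e1 (by decide) e1 (by decide)
theorem ty_A1 : Ty A1 := ty_of sp_A1 (by decide) e1 (by decide) e1 (by decide)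
theorem ty_A5 : Ty (JJ * (A0 * A4)) := ty_of (sp_JJ.mul (sp_A0.mul sp_A4)) (by decide) e1 (by decide) e1 (by decide)
theorem JJ_sq : JJ * JJ = -1 := ext4 (by decide)

theorem JJ_e1 : JJ e1 = f1 := mk4_e1 ..
theorem JJ_e2 : JJ e2 = f2 := mk4_e2 ..

set_option synthInstance.maxSize 4000 in
theorem fact1 {A : EW} (h : Sp A) (h1 : A * A = 1) (h2 : A * JJ = JJ * A) {T : EW} (hT : T = A0 ∨ T = A4) :
    ∃ m : ℕ, A * T * JJ ^ m * (A * T * JJ ^ m) = 1 := by
  have key : ∀ p r : W, f p (JJ p) = 1 → f r (JJ r) = 1 → f p r = 0 → mk4 p r (JJ p) (JJ r) p = e1 →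
      mk4 p r (JJ p) (JJ r) r = e2 → ∀ T ∈ [A0, A4], ∃ m < 2, ∀ w ∈ [e1, e2, f1, f2],
        mk4 p r (JJ p) (JJ r) (T (JJ^[m] (mk4 p r (JJ p) (JJ r) (T (JJ^[m] w))))) = w := by
    simp only [List.forall_mem_cons, List.not_mem_nil, false_imp_iff, implies_true, and_true]
    decide +kernel
  have c : ∀ w, JJ (A w) = A (JJ w) := fun w => (LinearMap.congr_fun h2 w).symm
  have e : mk4 (A e1) (A e2) (JJ (A e1)) (JJ (A e2)) = A := ext4 (by simp [c, JJ_e1, JJ_e2])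
  obtain ⟨m, -, hm⟩ := key (A e1) (A e2) (by rw [c, h]; decide) (by rw [c, h]; decide) (by rw [h]; decide)
    (by rw [e]; exact LinearMap.congr_fun h1 e1) (by rw [e]; exact LinearMap.congr_fun h1 e2) T (by simpa using hT)
  exact ⟨m, ext4 fun w hw => by simpa [e, Module.End.pow_apply] using hm w hw⟩

set_option synthInstance.maxSize 4000 in
theorem fact2 {A : EW} (h : Sp A) (h1 : A * A = 1) (h2 : A * JJ = -1 * (JJ * A)) : ∃ m : ℕ, A = A1 * JJ ^ m := by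
  have key : ∀ p r : W, f p (-JJ p) = 1 → f r (-JJ r) = 1 → f p r = 0 → mk4 p r (-JJ p) (-JJ r) p = e1 →
      mk4 p r (-JJ p) (-JJ r) r = e2 → ∃ m < 4, ∀ w ∈ [e1, e2, f1, f2],
        mk4 p r (-JJ p) (-JJ r) w = A1 (JJ^[m] w) := by decide +kernel
  have c : ∀ w, -JJ (A w) = A (JJ w) := fun w => (LinearMap.congr_fun h2 w).symm
  have e : mk4 (A e1) (A e2) (-JJ (A e1)) (-JJ (A e2)) = A := ext4 (by simp [c, JJ_e1, JJ_e2])
  obtain ⟨m, -, hm⟩ := key (A e1) (A e2) (by rw [c, h]; decide) (by rw [c, h]; decide) (by rw [h]; decide)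
    (by rw [e]; exact LinearMap.congr_fun h1 e1) (by rw [e]; exact LinearMap.congr_fun h1 e2)
  exact ⟨m, ext4 fun w hw => by simpa [e, Module.End.pow_apply] using hm w hw⟩

theorem neg_z3 {a : Z3} (h : a = -a) : a = 0 := by revert a; decide

theorem Ty.conj {A : EW} (h : Ty A) : ∃ B, Sp B ∧ A * B = B * A0 := by
  obtain ⟨h, h1, h2, h3⟩ := h
  have aa : ∀ w, A (A w) = w := LinearMap.congr_fun h1
  obtain ⟨x, hx⟩ : ∃ x, x + A x ≠ 0 := by
    by_contra! e; exact h3 (LinearMap.ext fun x => eq_neg_of_add_eq_zero_right (e x))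
  obtain ⟨x', hx'⟩ : ∃ x, x - A x ≠ 0 := by
    by_contra! e; exact h2 (LinearMap.ext fun x => (sub_eq_zero.1 (e x)).symm)
  obtain ⟨y, hy⟩ := exists_f hx
  obtain ⟨y', hy'⟩ := exists_f hx'
  have p : ∀ x, A (x + A x) = x + A x := fun x => by simp [aa, add_comm]
  have m : ∀ x, A (x - A x) = -(x - A x) := fun x => by simp [aa]
  have o : ∀ x y, f (x + A x) (y - A y) = 0 := fun x y => neg_z3 (by rw [← f_neg', ← m, ← h, p])
  refine ⟨mk4 (x + A x) (x' - A x') (-(y + A y)) (-(y' - A y')), sp_mk4 ?_ ?_ (o ..) (by rw [f_neg', o, neg_zero])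
    (by rw [f_swap, f_neg, o]; simp) (by rw [f_neg, f_neg', o]; simp), ext4 (by simp [A0, aa, add_comm])⟩
  · rw [f_neg', f_add' _ y, ← p x, h, p, hy]; rfl
  · rw [f_neg', f_sub' _ y', ← h _ (A y'), aa, m, f_neg, hy']; rfl

theorem conj_four {A : EW} (h : Sp A) (h1 : A * A = -1) : ∃ B, Sp B ∧ A * B = B * JJ := by
  have aa : ∀ w, A (A w) = -w := LinearMap.congr_fun h1
  have sw : ∀ u v, f u (A v) = f v (A u) := fun u v => by rw [← h, aa, f_neg', ← f_swap]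
  have key : ∀ U : W → Prop, (∀ u v, U u → U v → U (u + v)) → (∀ u, U u → U (A u)) → ∀ y y', U y → U y' →
      f y y' ≠ 0 → ∃ v, U v ∧ f v (A v) = 1 := fun U h2 h3 y y' hy hy' e => by
    obtain ⟨v, hv, e⟩ : ∃ v, U v ∧ f v (A v) ≠ 0 := by
      by_contra! hn
      have := hn _ (h2 _ _ hy (h3 _ hy'))
      rw [map_add, f_add, f_add', f_add', hn _ hy, hn _ (h3 _ hy'), h, aa, f_neg', f_swap y y'] at this
      exact e (neg_z3 (by linear_combination -this))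
    rcases z3 (f v (A v)) with k | k | k
    exacts [absurd k e, ⟨v, hv, k⟩, ⟨v + A v, h2 _ _ hv (h3 _ hv), by simp [aa, f_swap v (A v), k]; rfl⟩]
  obtain ⟨p, -, hp⟩ := key (fun _ => True) (by simp) (by simp) e1 f1 trivial trivial (by decide)
  obtain ⟨a, b, hab, e⟩ := Fintype.exists_ne_map_eq_of_card_lt (fun w : W => (f p w, f p (A w))) (by simp)
  obtain ⟨y, hy⟩ := exists_f (sub_ne_zero.2 hab)
  simp only [Prod.mk.injEq] at e
  have q1 : f p (a - b) = 0 := by simp [e.1]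
  have q2 : f p (A (a - b)) = 0 := by simp [e.2]
  obtain ⟨r, ⟨r1, r2⟩, hr⟩ := key (fun w => f p w = 0 ∧ f p (A w) = 0) (fun u v a b => by simp [a, b])
    (fun u a => by simp [a, aa]) (a - b) (y - f p y • A p - f p (A y) • p) ⟨q1, q2⟩
    ⟨by simp [hp], by simp [aa, hp]⟩ (by
      rw [f_sub', f_sub', f_smul', f_smul', sw, q2, f_swap p, q1, hy]; simp)
  exact ⟨mk4 p r (A p) (A r), sp_mk4 hp hr r1 r2 (by rw [sw, r2]) (by rw [h, r1]), ext4 (by simp [JJ, aa])⟩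

/-- a group containing `3⁴ : Sp₄(3)` -/
structure GD (G : Type*) [Group G] where
  ι : W → G
  add : ∀ u v, ι (u + v) = ι u * ι v
  inj : ∀ u, ι u = 1 → u = 0
  cent : ∀ g, (∀ u, g * ι u * g⁻¹ = ι u) → ∃ w, g = ι w
  hf : ∀ g u u' v v', g * ι u * g⁻¹ = ι u' → g * ι v * g⁻¹ = ι v' → f u' v' = f u v
  surj : ∀ A : EW, Sp A → ∃ g, ∀ u, g * ι u * g⁻¹ = ι (A u)
  z : G
  zz : z * z = 1
  za : ∀ u, z * ι u * z⁻¹ = ι (-u)

namespace GD
variable {G : Type*} [Group G] (D : GD G)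

theorem ι0 : D.ι 0 = 1 := by simpa using D.add 0 0
theorem ι_neg (u : W) : D.ι (-u) = (D.ι u)⁻¹ := eq_inv_of_mul_eq_one_left (by rw [← D.add, neg_add_cancel, ι0])
theorem ι_inj {u v : W} (h : D.ι u = D.ι v) : u = v :=
  sub_eq_zero.1 (D.inj _ (by rw [sub_eq_add_neg, D.add, ι_neg, h, mul_inv_cancel]))
theorem ι_conj (u v : W) : D.ι u * D.ι v * (D.ι u)⁻¹ = D.ι v := by
  rw [← D.add, add_comm, D.add, mul_inv_cancel_right]

/-- `g` acts as `A` -/
def Act (g : G) (A : EW) : Prop := ∀ u, g * D.ι u * g⁻¹ = D.ι (A u)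

variable {D} {g k : G} {A B : EW}

theorem Act.mul (h : D.Act g A) (h' : D.Act k B) : D.Act (g * k) (A * B) := fun u => by
  rw [Module.End.mul_apply, ← h, ← h']; group
theorem Act.uniq (h : D.Act g A) (h' : D.Act g B) : A = B := LinearMap.ext fun u => D.ι_inj ((h u).symm.trans (h' u))
theorem Act.sp (h : D.Act g A) : Sp A := fun u v => D.hf g _ _ _ _ (h u) (h v)
theorem act_one : D.Act 1 1 := fun u => by simp
theorem act_z : D.Act D.z (-1) := D.za
theorem Act.div (h : D.Act g A) (h' : D.Act k A) : ∃ w, g = D.ι w * k := by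
  obtain ⟨w, e⟩ := D.cent (g * k⁻¹) fun u => by
    obtain ⟨v, rfl⟩ := h.sp.surj u
    conv_lhs => rw [← h']
    rw [← h]; group
  exact ⟨w, by rw [← e, inv_mul_cancel_right]⟩

theorem exists_act (h : ∀ u, ∃ v, g * D.ι u * g⁻¹ = D.ι v) : ∃ A, D.Act g A := by
  choose A hA using h
  let L : W →+ W := AddMonoidHom.mk' A fun u v => D.ι_inj (by rw [D.add, ← hA, ← hA, ← hA, D.add]; group)
  exact ⟨L.toZModLinearMap 3, hA⟩

variable (D) in
/-- the normaliser -/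
def N : Subgroup G where
  carrier := {g | ∃ A, D.Act g A}
  one_mem' := ⟨1, act_one⟩
  mul_mem' := fun ⟨_, h⟩ ⟨_, h'⟩ => ⟨_, h.mul h'⟩
  inv_mem' := fun ⟨A, h⟩ => exists_act fun u => by
    obtain ⟨v, rfl⟩ := h.sp.surj u
    exact ⟨v, by rw [← h]; group⟩

theorem ι_mem (w : W) : D.ι w ∈ D.N := ⟨1, D.ι_conj w⟩
theorem z_mem : D.z ∈ D.N := ⟨_, act_z⟩
theorem z_ne : D.z ≠ 1 := fun e => absurd (LinearMap.congr_fun ((e ▸ act_z).uniq act_one) e1) (by decide)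
theorem z_inv : D.z⁻¹ = D.z := inv_eq_of_mul_eq_one_left D.zz

theorem exists_lift (h : Sp A) : ∃ g, D.Act g A ∧ g * D.z = D.z * g := by
  obtain ⟨g, hg⟩ := D.surj A h
  obtain ⟨w, e⟩ := (Act.mul hg act_z).div (k := D.z * g) (by
    rw [show A * -1 = -1 * A from LinearMap.ext fun u => map_neg A u]; exact act_z.mul hg)
  refine ⟨D.ι w * g, Act.mul (D.ι_conj w) hg (A := 1), ?_⟩
  rw [mul_assoc, e, ← mul_assoc, ← D.add, add3, ← D.za]; group

theorem lift_eq (h : D.Act g A) (h1 : g * D.z = D.z * g) (h' : D.Act k A) (h2 : k * D.z = D.z * k) : g = k := by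
  obtain ⟨w, rfl⟩ := h.div h'
  rw [mul_assoc, h2, ← mul_assoc, ← mul_assoc, mul_left_inj] at h1
  have := D.ι_inj (show D.ι (-w) = D.ι w by rw [← D.za, ← h1, mul_inv_cancel_right])
  rw [← add3, add_eq_left] at this
  rw [this, ι0, one_mul]

variable (D) in
open Classical in
/-- the lift centralising `z` -/
noncomputable def s (A : EW) : G := if h : Sp A then (exists_lift (D := D) h).choose else 1

theorem s_act (h : Sp A) : D.Act (D.s A) A := by rw [s, dif_pos h]; exact (exists_lift h).choose_spec.1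
theorem s_z (A : EW) : D.s A * D.z = D.z * D.s A := by
  by_cases h : Sp A
  · rw [s, dif_pos h]; exact (exists_lift h).choose_spec.2
  · simp [s, h]
theorem s_mem (h : Sp A) : D.s A ∈ D.N := ⟨A, s_act h⟩
theorem Act.eq_s (h : D.Act g A) (h1 : g * D.z = D.z * g) : g = D.s A := lift_eq h h1 (s_act h.sp) (s_z A)
theorem s_mul (h : Sp A) (h' : Sp B) : D.s (A * B) = D.s A * D.s B :=
  (((s_act h).mul (s_act h')).eq_s (by rw [mul_assoc, s_z, ← mul_assoc, s_z, mul_assoc])).symm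
theorem s_one : D.s 1 = 1 := (act_one.eq_s (by simp)).symm
theorem s_pow (h : Sp A) (n : ℕ) : D.s (A ^ n) = D.s A ^ n := by
  induction n with
  | zero => simpa using s_one
  | succ n ih => rw [pow_succ, pow_succ, s_mul (h.pow n) h, ih]
theorem s_neg : D.s (-1) = D.z := (act_z.eq_s rfl).symm
theorem s_inj (h : Sp A) (h' : Sp B) (e : D.s A = D.s B) : A = B := (s_act h).uniq (e ▸ s_act h')
theorem s_conj {C : EW} (h : Sp A) (h' : Sp B) (hC : Sp C) (e : A * B = B * C) :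
    D.s A = D.s B * D.s C * (D.s B)⁻¹ := by rw [← s_mul h' hC, ← e, s_mul h h', mul_inv_cancel_right]
theorem s_sq (h : Ty A) : D.s A * D.s A = 1 := by rw [← s_mul h.1 h.1, h.2.1, s_one]
theorem i_sq : D.s JJ * D.s JJ = D.z := by rw [← s_mul sp_JJ sp_JJ, JJ_sq, s_neg]
theorem i_inv : (D.s JJ)⁻¹ = D.z * D.s JJ :=
  inv_eq_of_mul_eq_one_left (by rw [mul_assoc, i_sq, D.zz])
theorem i_ne : D.s JJ ≠ (D.s JJ)⁻¹ := fun e => z_ne (D := D) (by rw [← i_sq]; nth_rewrite 1 [e]; simp)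

variable (D) in
/-- conjugates of the non-central involution -/
def P (k : G) : Prop := ∃ g, k = g * D.s A0 * g⁻¹

theorem P.conj (h : D.P k) (g : G) : D.P (g * k * g⁻¹) := by
  obtain ⟨n, rfl⟩ := h
  exact ⟨g * n, by group⟩
theorem P.sq (h : D.P k) : k * k = 1 := by
  obtain ⟨n, rfl⟩ := h
  exact conj_mul_self.2 (s_sq ty_A0)
theorem P.ne (h : D.P k) : k ≠ 1 := by
  obtain ⟨n, rfl⟩ := h
  exact fun e => ty_A0.2.2.1 (s_inj sp_A0 sp_one (by rw [conj_eq_one_iff.1 e, s_one]))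
theorem ty_conj (h : Ty A) : ∃ n ∈ D.N, D.s A = n * D.s A0 * n⁻¹ := by
  obtain ⟨B, h1, h2⟩ := h.conj
  exact ⟨_, s_mem h1, s_conj h.1 h1 sp_A0 h2⟩
theorem ty_P (h : Ty A) : D.P (D.s A) := (ty_conj h).imp fun _ h => h.2

theorem inv_class {t : G} (ht : t ∈ D.N) (h1 : t * t = 1) (h2 : t ≠ 1) :
    (∃ n ∈ D.N, t = n * D.z * n⁻¹) ∨ ∃ n ∈ D.N, t = n * D.s A0 * n⁻¹ := by
  obtain ⟨A, hA⟩ := ht
  have a := hA.sp
  have aa : A * A = 1 := (hA.mul hA).uniq (h1 ▸ act_one)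
  obtain ⟨w, rfl⟩ := hA.div (s_act a)
  have k : D.s A * D.s A = 1 := by rw [← s_mul a a, aa, s_one]
  have e : A w = -w := eq_neg_of_add_eq_zero_right (D.inj _ (by
    rw [D.add, ← s_act a w, inv_eq_of_mul_eq_one_left k, ← h1]; group))
  have e2 : D.ι w * D.s A = D.ι (-w) * D.s A * (D.ι (-w))⁻¹ := by
    rw [← D.ι_neg, neg_neg, mul_assoc, mul_inv_eq_iff_eq_mul.1 (s_act a w), ← mul_assoc, ← D.add, e,
      add3, neg_neg]
  rw [e2] at h2 ⊢
  by_cases a1 : A = 1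
  · simp [a1, s_one] at h2
  by_cases a2 : A = -1
  · exact Or.inl ⟨_, ι_mem _, by rw [a2, s_neg]⟩
  obtain ⟨n, hn, e⟩ := ty_conj (D := D) ⟨a, aa, a1, a2⟩
  exact Or.inr ⟨_, D.N.mul_mem (ι_mem (-w)) hn, by rw [e]; group⟩

theorem four_class {u : G} (hu : u ∈ D.N) (h1 : u * u = D.z) : ∃ n ∈ D.N, n * D.z = D.z * n ∧ u = n * D.s JJ * n⁻¹ := by
  obtain ⟨A, hA⟩ := hu
  obtain ⟨B, h2, h3⟩ := conj_four hA.sp ((hA.mul hA).uniq (h1 ▸ act_z))
  exact ⟨_, s_mem h2, s_z B, (hA.eq_s (by rw [← h1, mul_assoc])).trans (s_conj hA.sp h2 sp_JJ h3)⟩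

section tower
variable [Finite G] (H3 : ¬ D.P D.z) (hβ : ∀ g, g * D.s A0 = D.s A0 * g → g ∈ D.N)
include H3 hβ

theorem uf {t : G} (ht : t ∈ D.N) (hP : D.P t) (h : g * t * g⁻¹ ∈ D.N) : g ∈ D.N := by
  have key : ∀ t ∈ D.N, D.P t → ∃ n ∈ D.N, t = n * D.s A0 * n⁻¹ := fun t ht hP =>
    (inv_class ht hP.sq hP.ne).resolve_left fun ⟨n, _, e⟩ => H3 (by
      convert hP.conj n⁻¹ using 1; rw [e]; group)
  obtain ⟨n, hn, rfl⟩ := key t ht hP
  obtain ⟨m, hm, e⟩ := key _ h (hP.conj g)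
  have := hβ (m⁻¹ * g * n) (by
    calc _ = m⁻¹ * (g * (n * D.s A0 * n⁻¹) * g⁻¹) * g * n := by group
      _ = _ := by rw [e]; group)
  exact (D.N.mul_mem_cancel_left (D.N.inv_mem hm)).1 ((D.N.mul_mem_cancel_right hn).1 this)

theorem level3 {h : G} (hh : h * D.s JJ * h⁻¹ = D.s JJ ∨ h * D.s JJ * h⁻¹ = (D.s JJ)⁻¹) : h ∈ D.N := by
  generalize hi : D.s JJ = i at hh
  have iN : i ∈ D.N := hi ▸ s_mem sp_JJ
  have c1 : ∀ {g}, g * i * g⁻¹ = i⁻¹ → g * i⁻¹ * g⁻¹ = i := fun e => by rw [← conj_inv, e, inv_inv]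
  have c2 : ∀ {g}, g * i * g⁻¹ = i → g * i⁻¹ * g⁻¹ = i⁻¹ := fun e => by rw [← conj_inv, e]
  have c3 : ∀ g k, g * k * i * (g * k)⁻¹ = g * (k * i * k⁻¹) * g⁻¹ := fun g k => by group
  let H : Subgroup G :=
    { carrier := {h | h * i * h⁻¹ = i ∨ h * i * h⁻¹ = i⁻¹}
      one_mem' := Or.inl (by simp)
      mul_mem' := fun {g k} a b => by
        rw [Set.mem_ofPred_eq, c3]
        rcases a with a | a <;> rcases b with b | b <;> simp only [b, a, c1, c2, true_or, or_true]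
      inv_mem' := fun {g} a => a.imp (fun a => by nth_rewrite 1 [← a]; group) fun a => by
        nth_rewrite 1 [← c1 a]; group }
  have hZ : ∀ h ∈ H, ∀ z ∈ Subgroup.zpowers i, h * z * h⁻¹ ∈ Subgroup.zpowers i := by
    rintro h hh _ ⟨n, rfl⟩
    simp only [← conj_zpow]
    rcases hh with e | e <;> rw [e]
    exacts [⟨n, rfl⟩, zpow_mem (inv_mem (Subgroup.mem_zpowers i)) n]
  have ZN : Subgroup.zpowers i ≤ D.N := Subgroup.zpowers_le.2 iN
  have cc : ∀ k ∈ H, ∀ t, (t * i * t⁻¹ = i → k * t * k⁻¹ * i * (k * t * k⁻¹)⁻¹ = i) ∧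
      (t * i * t⁻¹ = i⁻¹ → k * t * k⁻¹ * i * (k * t * k⁻¹)⁻¹ = i⁻¹) := fun k hk t => by
    rw [c3, mul_inv_rev, show ∀ x, k * t * x * (t⁻¹ * k⁻¹) = k * (t * x * t⁻¹) * k⁻¹ from fun x => by group]
    rcases hk with a | a
    · rw [show k⁻¹ * i * k⁻¹⁻¹ = i by nth_rewrite 1 [← a]; group]
      exact ⟨fun e => by rw [e, a], fun e => by rw [e, c2 a]⟩
    · rw [show k⁻¹ * i * k⁻¹⁻¹ = i⁻¹ by nth_rewrite 1 [← c1 a]; group]
      exact ⟨fun e => by rw [c2 e, c1 a], fun e => by rw [c1 e, a]⟩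
  have lin : ∀ {T}, Sp T → T * JJ = JJ * T → D.s T * i * (D.s T)⁻¹ = i := fun h e => by
    rw [← hi, ← s_conj sp_JJ h sp_JJ e.symm]
  have a1 : D.s A1 * i * (D.s A1)⁻¹ = i⁻¹ := by
    rw [← hi, i_inv, ← s_neg, ← s_mul sp_neg sp_JJ, s_conj (sp_neg.mul sp_JJ) sp_A1 sp_JJ (ext4 (by decide))]
  have jH : h * D.s A1 * h⁻¹ ∈ H := Or.inr ((cc h hh _).2 a1)
  have jP := (ty_P (D := D) ty_A1).conj h
  refine uf H3 hβ (s_mem sp_A1) (ty_P ty_A1) ?_
  have ji := (cc h hh _).2 a1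
  generalize h * D.s A1 * h⁻¹ = j at *
  by_contra hn
  let N' := D.N.comap (MulAut.conj j).toMonoidHom
  have ZN' : Subgroup.zpowers i ≤ N' := fun z hz => ZN (hZ j jH z hz)
  have nP : ∀ {T}, Ty T → D.s T ∉ N' := fun h e => hn (uf H3 hβ (s_mem h.1) (ty_P h) e)
  have key : ∀ T, T = A0 ∨ T = A4 → D.s A1 * D.s T ∈ N' := fun T hT => by
    have t : Ty T := by rcases hT with rfl | rfl; exacts [ty_A0, ty_A4]
    have ti := lin t.1 (by rcases hT with rfl | rfl <;> exact ext4 (by decide))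
    rcases dihedral_q hZ D.P (fun h _ x hx => hx.conj h) (Or.inl ti) jH (ty_P t) jP (by simp [s_sq t])
      (by simp [jP.sq]) with ⟨k, k1, n, e⟩ | ⟨k, k1, k2, -, k3, k4, k5⟩
    · have := (cc k k1 _).1 ti
      rw [mul_inv_eq_iff_eq_mul.1 e.symm, c3, ji, mul_inv_eq_iff_eq_mul, ← zpow_neg_one, ← zpow_add, ← zpow_one_add,
        add_comm n, zpow_add, zpow_add, mul_left_inj, zpow_neg_one, zpow_one] at this
      exact absurd (hi ▸ this.symm) i_ne
    obtain ⟨A, hA⟩ := uf H3 hβ (s_mem t.1) (ty_P t) (g := k)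
      ((D.N.mul_mem_cancel_right (D.N.inv_mem (s_mem t.1))).1 (ZN k4))
    have kN : k * D.s T ∈ N' :=
      (D.N.mul_mem_cancel_right (D.N.inv_mem (D.N.mul_mem ⟨A, hA⟩ (s_mem t.1)))).1 (ZN k5)
    have aa : A * A = 1 := (hA.mul hA).uniq (k2.sq ▸ act_one)
    obtain rfl := hA.eq_s (mul_inv_eq_iff_eq_mul.1 (by
      rw [← i_sq, hi, ← conj_mul]
      rcases k1 with e | e <;> rw [e]
      rw [← mul_inv_rev, ← hi, i_sq, z_inv]))
    have a := hA.sp
    rcases k1 with e | e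
    · obtain ⟨m, hm⟩ := fact1 a aa (s_inj (D := D) (a.mul sp_JJ) (sp_JJ.mul a) (by
        rw [s_mul a sp_JJ, s_mul sp_JJ a, hi, ← mul_inv_eq_iff_eq_mul, e])) hT
      have b := (a.mul t.1).mul (sp_JJ.pow m)
      have e2 : D.s (A * T * JJ ^ m) = D.s A * D.s T * i ^ m := by
        rw [s_mul (a.mul t.1) (sp_JJ.pow m), s_mul a t.1, s_pow sp_JJ, hi]
      have im := pow_mem (Subgroup.mem_zpowers i) m
      refine absurd (e2 ▸ N'.mul_mem kN (ZN' im)) (nP ⟨b, hm, fun e => k3 ?_, fun e => k3 ?_⟩) <;>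
        rw [← (Subgroup.zpowers i).mul_mem_cancel_right im, ← e2, e]
      · simp [s_one]
      · rw [s_neg, ← i_sq, hi]; exact mul_mem (Subgroup.mem_zpowers i) (Subgroup.mem_zpowers i)
    · obtain ⟨m, rfl⟩ := fact2 a aa (s_inj (D := D) (a.mul sp_JJ) (sp_neg.mul (sp_JJ.mul a)) (by
        rw [s_mul sp_neg (sp_JJ.mul a), s_mul a sp_JJ, s_mul sp_JJ a, s_neg, ← mul_assoc, ← i_inv, hi,
          ← mul_inv_eq_iff_eq_mul, e]))
      rw [s_mul sp_A1 (sp_JJ.pow m), s_pow sp_JJ, hi, mul_assoc,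
        ← ((show Commute (D.s T) i from mul_inv_eq_iff_eq_mul.1 ti).pow_right m).eq, ← mul_assoc] at kN
      exact (N'.mul_mem_cancel_right (ZN' (pow_mem (Subgroup.mem_zpowers i) m))).1 kN
  refine nP ty_A5 ?_
  rw [s_mul sp_JJ (sp_A0.mul sp_A4), s_mul sp_A0 sp_A4, hi]
  convert N'.mul_mem (ZN' (Subgroup.mem_zpowers i)) (N'.mul_mem (N'.inv_mem (key _ (Or.inl rfl))) (key _ (Or.inr rfl)))
    using 2
  rw [mul_inv_rev, inv_eq_of_mul_eq_one_left (s_sq ty_A0)]; group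

theorem level2 {c : G} (hc : c * D.z = D.z * c) : c ∈ D.N := by
  have zc : ∀ {x}, x ∈ Subgroup.zpowers D.z → x = 1 ∨ x = D.z := fun hx => by
    obtain ⟨n, rfl⟩ := Subgroup.mem_zpowers_iff.1 hx
    rw [zpow_eq_zpow_emod n (show D.z ^ (2 : ℤ) = 1 by rw [zpow_two, D.zz])]
    rcases Int.emod_two_eq_zero_or_one n with e | e <;> simp [e]
  have ZN : Subgroup.zpowers D.z ≤ D.N := Subgroup.zpowers_le.2 z_mem
  have jH : c * D.s JJ * c⁻¹ ∈ Cn D.z := mul_mem (mul_mem (mem_Cn.2 hc.symm) (mem_Cn.2 (s_z _).symm))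
    (inv_mem (mem_Cn.2 hc.symm))
  have jj : c * D.s JJ * c⁻¹ * (c * D.s JJ * c⁻¹) = D.z := by rw [conj_mul, i_sq, hc, mul_inv_cancel_right]
  suffices c * D.s JJ * c⁻¹ ∈ D.N by
    obtain ⟨n, n1, -, e⟩ := four_class this jj
    exact (D.N.mul_mem_cancel_left (D.N.inv_mem n1)).1 (level3 H3 hβ (Or.inl (by
      calc _ = n⁻¹ * (c * D.s JJ * c⁻¹) * n := by group
        _ = _ := by rw [e]; group)))
  generalize c * D.s JJ * c⁻¹ = j at *
  have a0 := s_mem (D := D) sp_A0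
  have az := mem_Cn.2 (s_z (D := D) A0).symm
  rcases dihedral_q (H := Cn D.z) (Z := Subgroup.zpowers D.z) (fun h hh z hz => by
    rcases zc hz with rfl | rfl
    · simp
    · rw [← mem_Cn.1 hh]; simp) (fun _ => True) (by simp) az jH trivial trivial (by simp [s_sq ty_A0])
    (by simp [jj]) with ⟨k, k1, e⟩ | ⟨k, k1, -, k2, k3, k4, k5⟩
  · have := (conj_mul_self (g := k)).2 (s_sq (D := D) ty_A0)
    rcases zc e with e | e <;> rw [mul_inv_eq_iff_eq_mul.1 e] at this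
    · exact absurd (by rw [← jj, ← this, one_mul]) z_ne
    · rw [mul_assoc, ← mul_assoc j, ← mem_Cn.1 jH, mul_assoc, jj, D.zz, mul_one] at this
      exact absurd this z_ne
  have kN : k ∈ D.N := uf H3 hβ a0 (ty_P ty_A0) ((D.N.mul_mem_cancel_right (D.N.inv_mem a0)).1 (ZN k4))
  have uN := D.N.mul_mem kN a0
  have uu : k * D.s A0 * (k * D.s A0) ∈ Subgroup.zpowers D.z := by
    have : D.s A0 * (k * k) * (D.s A0)⁻¹ ∈ Subgroup.zpowers D.z := by
      rcases zc k2 with e | e <;> simp [e, s_z]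
    convert mul_mem k4 this using 1
    nth_rewrite 2 [← inv_eq_of_mul_eq_one_left (s_sq (D := D) ty_A0)]; group
  have uz := mem_Cn.1 (mul_mem k1 az)
  generalize k * D.s A0 = u at *
  have ju := (D.N.mul_mem_cancel_right (D.N.inv_mem uN)).1 (ZN k5)
  rcases zc uu with e | e
  · obtain ⟨A, hA⟩ := uN
    obtain rfl := hA.eq_s uz.symm
    have t : Ty A := ⟨hA.sp, (hA.mul hA).uniq (e ▸ act_one), fun e => k3 (by simp [e, s_one]),
      fun e => k3 (by simp [e, s_neg])⟩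
    exact uf H3 hβ (s_mem t.1) (ty_P t) ju
  · obtain ⟨n, n1, n2, rfl⟩ := four_class uN e
    have : n⁻¹ * j * n ∈ D.N := level3 H3 hβ (by
      have e : n⁻¹ * j * n * D.s JJ * (n⁻¹ * j * n)⁻¹ =
        n⁻¹ * (j * (n * D.s JJ * n⁻¹) * j⁻¹ * (n * D.s JJ * n⁻¹)⁻¹) * n * D.s JJ := by group
      rw [e]
      refine (zc k5).imp (fun e => by rw [e]; simp) fun e => ?_
      rw [e, mul_assoc n⁻¹, ← n2, inv_mul_cancel_left, i_inv])
    exact (D.N.mul_mem_cancel_left (D.N.inv_mem n1)).1 ((D.N.mul_mem_cancel_right n1).1 this)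

theorem level1 (g : G) : g ∈ D.N := by
  have cz : ∀ n ∈ D.N, ∀ j, j * (n * D.z * n⁻¹) * j⁻¹ = n * D.z * n⁻¹ → j ∈ D.N := fun n hn j e => by
    have : n⁻¹ * j * n ∈ D.N := level2 H3 hβ (by
      calc _ = n⁻¹ * (j * (n * D.z * n⁻¹) * j⁻¹) * j * n := by group
        _ = _ := by rw [e]; group)
    exact (D.N.mul_mem_cancel_left (D.N.inv_mem hn)).1 ((D.N.mul_mem_cancel_right hn).1 this)
  have jj : g * D.z * g⁻¹ * (g * D.z * g⁻¹) = 1 := conj_mul_self.2 D.zz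
  have nP : ¬ D.P (g * D.z * g⁻¹) := fun h => H3 (by simpa [mul_assoc] using h.conj g⁻¹)
  suffices g * D.z * g⁻¹ ∈ D.N by
    obtain ⟨n, n1, e⟩ := (inv_class this jj fun e => z_ne (conj_eq_one_iff.1 e)).resolve_right
      fun ⟨n, _, e⟩ => nP ⟨n, e⟩
    exact (D.N.mul_mem_cancel_left (D.N.inv_mem n1)).1 (level2 H3 hβ (by
      calc _ = n⁻¹ * (g * D.z * g⁻¹) * g := by group
        _ = _ := by rw [e]; group))
  generalize g * D.z * g⁻¹ = j at *
  rcases dihedral_q (H := ⊤) (Z := ⊥) (by simp) (fun _ => True) (by simp) trivial trivial trivial trivial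
    (s_sq (D := D) ty_A0) jj with ⟨k, -, e⟩ | ⟨k, -, -, k2, k3, k4, k5⟩
  · exact absurd ⟨k, (mul_inv_eq_one.1 e).symm⟩ nP
  have c := mul_inv_eq_iff_eq_mul.1 (mul_inv_eq_one.1 k4)
  have uN := D.N.mul_mem (hβ k c) (s_mem sp_A0)
  replace k5 := mul_inv_eq_one.1 k5
  rcases inv_class uN (by rw [mul_assoc, ← mul_assoc _ k, ← c, mul_assoc, s_sq ty_A0, mul_one]; exact k2) k3 with
    ⟨n, n1, e⟩ | ⟨n, n1, e⟩
  · exact cz n n1 j (e ▸ k5)
  · exact uf H3 hβ uN ⟨n, e⟩ (k5.symm ▸ uN)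

end tower

end GD

/-- the first plane -/
def emb (u : I) : W := ((u.1, 0), (u.2, 0))

theorem emb_add (u v : I) : emb (u + v) = emb u + emb v := by simp [emb]
theorem emb_ne {u : I} (h : u ≠ 0) : emb u ≠ 0 := by revert u; decide
theorem A0_emb (u : I) : A0 (emb u) = emb u := by revert u; decide
theorem of_A0 {w : W} (h : A0 w = w) : w = emb (w.1.1, w.2.1) := by revert w; decide
theorem perp2 {w : W} (h : f w e1 = 0) (h' : f w f1 = 0) : w = w.1.2 • e2 + w.2.2 • f2 := by revert w; decide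

/-- the action on the second plane -/
def m2 (A : EW) : Matrix (Fin 2) (Fin 2) Z3 := !![(A e2).1.2, (A f2).1.2; (A e2).2.2, (A f2).2.2]

namespace GD
variable {G : Type*} [Group G] {D : GD G} [Finite G]
  (hI : ∀ w, w ≠ 0 → ∀ g, g * D.ι w * g⁻¹ = D.ι w → g ∈ D.N) {K : Subgroup G}
  (hKn : ∀ g, g * D.s A0 = D.s A0 * g → ∀ k ∈ K, g * k * g⁻¹ ∈ K) (hKW : ∀ w, D.ι w ∈ K → w = 0)

theorem emb_comm (u : I) : D.ι (emb u) * D.s A0 = D.s A0 * D.ι (emb u) := by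
  rw [eq_comm, ← mul_inv_eq_iff_eq_mul, s_act sp_A0, A0_emb]

include hKn hKW

theorem fix_emb {x : G} {A : EW} (hx : x ∈ K) (h : D.Act x A) (u : I) : A (emb u) = emb u :=
  (sub_eq_zero.1 (hKW _ (by
    rw [sub_eq_add_neg, D.add, D.ι_neg, ← h]
    convert K.mul_mem (hKn _ (emb_comm u) _ hx) (K.inv_mem hx) using 1; group))).symm

theorem comm_emb (u : I) (x : G) (hx : x ∈ K ⊓ D.N) : D.ι (emb u) * x * (D.ι (emb u))⁻¹ = x := by
  obtain ⟨h, A, hA⟩ := hx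
  nth_rewrite 1 [← fix_emb hKn hKW h hA u, ← hA]; group

theorem not_nine : ¬ 9 ∣ Nat.card (K ⊓ D.N : Subgroup G) := fun h => by
  choose A hA using fun x : (K ⊓ D.N : Subgroup G) => x.2.2
  have a1 : ∀ x, A x e1 = e1 := fun x => fix_emb hKn hKW x.2.1 (hA x) (1, 0)
  have a2 : ∀ x, A x f1 = f1 := fun x => fix_emb hKn hKW x.2.1 (hA x) (0, 1)
  have a3 : ∀ x w, f w e1 = 0 → f w f1 = 0 → A x w = (A x w).1.2 • e2 + (A x w).2.2 • f2 := fun x w h h' =>
    perp2 (by rw [← a1 x, (hA x).sp, h]) (by rw [← a2 x, (hA x).sp, h'])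
  let φ : (K ⊓ D.N : Subgroup G) →* Matrix (Fin 2) (Fin 2) Z3 :=
    { toFun x := m2 (A x)
      map_one' := by rw [(hA 1).uniq act_one]; decide
      map_mul' x y := by
        rw [(hA (x * y)).uniq ((hA x).mul (hA y)), m2, Module.End.mul_apply, Module.End.mul_apply,
          a3 y e2 (by decide) (by decide), a3 y f2 (by decide) (by decide)]
        simp [m2, mul_comm] }
  have := Subgroup.card_dvd_of_injective φ.toHomUnits ((injective_iff_map_eq_one _).2 fun x e => by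
    replace e : m2 (A x) = 1 := congrArg Units.val e
    have e' : A x = 1 := ext4 (by
      have b1 : (A x e2).1.2 = 1 := congrFun (congrFun e 0) 0
      have b2 : (A x f2).1.2 = 0 := congrFun (congrFun e 0) 1
      have b3 : (A x e2).2.2 = 0 := congrFun (congrFun e 1) 0
      have b4 : (A x f2).2.2 = 1 := congrFun (congrFun e 1) 1
      have c1 := a3 x e2 (by decide) (by decide)
      have c2 := a3 x f2 (by decide) (by decide)
      rw [b1, b3] at c1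
      rw [b2, b4] at c2
      simp [a1, a2, c1, c2])
    obtain ⟨w, hw⟩ := D.cent x (e' ▸ hA x : D.Act x 1)
    exact Subtype.ext (by rw [hw, hKW w (hw ▸ x.2.1), D.ι0]; rfl))
  rw [show Nat.card (Matrix (Fin 2) (Fin 2) Z3)ˣ = _ from Matrix.card_GL_field 2] at this
  exact absurd (h.trans this) (by simp [Fin.prod_univ_two])

variable {d d' : G} (hd : d ∈ K) (ad : ∀ w, d * D.ι w * d⁻¹ = D.ι (w + f w e2 • e2)) (d3 : d ^ 3 = 1)
  (hr : ∀ g, g * d * g⁻¹ ≠ d⁻¹)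
include hI hd ad d3 hr

theorem G1 : K ≤ D.N := (le_of_fix (t := fun u => D.ι (emb u)) (fun u v => by rw [emb_add, D.add]) inf_le_left
  (fun u => hKn _ (emb_comm u)) (comm_emb hKn hKW) (fun u hu x hx e => ⟨hx, hI _ (emb_ne hu) x (by
    nth_rewrite 1 [← e]; group)⟩) (not_nine hKn hKW) ⟨hd, exists_act fun u => ⟨_, ad u⟩⟩
  (fun e => hr 1 (by simp [e])) d3 fun k _ => hr k).trans inf_le_right

theorem G2 (hd' : d' ∈ K) (ad' : ∀ w, d' * D.ι w * d'⁻¹ = D.ι (w + f w f2 • f2)) {g : G}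
    (hg : g * D.s A0 = D.s A0 * g) {u : I} (hu : u ≠ 0) (h : g * D.ι (emb u) * g⁻¹ * (D.ι (emb u))⁻¹ ∈ K) :
    g ∈ D.N := by
  have KN := G1 hI hKn hKW hd ad d3 hr
  have t3 := t_cube (t := fun u => D.ι (emb u)) (fun u v => by rw [emb_add, D.add]) u
  have c1 : ∀ x ∈ K, Commute (D.ι (emb u)) x := fun x hx => mul_inv_eq_iff_eq_mul.1 (comm_emb hKn hKW u x ⟨hx, KN hx⟩)
  obtain ⟨k, hk⟩ : ∃ k, k = g * D.ι (emb u) * g⁻¹ * (D.ι (emb u))⁻¹ := ⟨_, rfl⟩
  have c2 : ∀ x ∈ K, Commute k x := fun x hx => by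
    have := c1 _ (hKn g⁻¹ (show Commute g _ from hg).inv_left x hx)
    refine hk ▸ Commute.mul_left ?_ (c1 x hx).inv_left
    simpa [mul_assoc] using this.map (MulAut.conj g)
  rw [← hk] at h
  have k3 : k * (k * k) = 1 := by
    have := (c1 k h).symm.mul_pow 3
    rw [show D.ι (emb u) ^ 3 = 1 by simpa [pow_succ, mul_assoc] using t3, hk, inv_mul_cancel_right, conj_pow,
      show D.ι (emb u) ^ 3 = 1 by simpa [pow_succ, mul_assoc] using t3, ← hk] at this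
    simpa [pow_succ, mul_assoc] using this.symm
  obtain ⟨A, hA⟩ := KN h
  have c3 : ∀ {x v}, x ∈ K → (∀ w, x * D.ι w * x⁻¹ = D.ι (w + f w v • v)) → ∀ w,
      f w v • A v = f (A w) v • v := fun {x v} hx e w => add_left_cancel (a := A w) (D.ι_inj (by
    rw [← e, ← hA, ← map_smul, ← map_add, ← hA, ← e, ← mul_assoc, ← mul_assoc, (c2 x hx).eq, mul_assoc,
      ← mul_inv_rev, (c2 x hx).eq]; group))
  have b1 := c3 hd ad (-f2)
  have b2 := c3 hd' ad' e2
  rw [show f (-f2) e2 = 1 by decide, one_smul] at b1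
  rw [show f e2 f2 = 1 by decide, one_smul] at b2
  generalize f (A (-f2)) e2 = c at b1
  have b3 := LinearMap.congr_fun ((hA.mul (hA.mul hA)).uniq (k3 ▸ act_one)) e2
  simp only [Module.End.mul_apply, b1, map_smul, Module.End.one_apply] at b3
  obtain rfl : c = 1 := by clear b1; revert c; decide
  rw [one_smul] at b1
  rw [b1, show f e2 f2 = 1 by decide, one_smul] at b2
  have e' : A = 1 := ext4 (by
    have a1 : A e1 = e1 := fix_emb hKn hKW h hA (1, 0)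
    have a2 : A f1 = f1 := fix_emb hKn hKW h hA (0, 1)
    simp [a1, a2, b1, b2])
  obtain ⟨w, hw⟩ := D.cent k (e' ▸ hA : D.Act k 1)
  rw [hKW w (hw ▸ h), D.ι0, hk] at hw
  exact hI _ (emb_ne hu) g (mul_inv_eq_one.1 hw)

end GD

end Cfsg.Agent.H6.T
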