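import Cfsg.Agent.H6.T3
import Cfsg.Agent.H6.T4

/-! The centraliser of an element of `3⁴` in an overgroup of `3⁴ : Sp₄(3)`. -/

set_option autoImplicit false
set_option linter.unusedSectionVars false
set_option linter.unusedSimpArgs false
set_option linter.unusedVariables false

namespace Cfsg.Agent.H6.T

open Matrix Cfsg.Agent.H4.E Cfsg.Agent.Form

variable {F : Type*} [Field F] {o : Om F}

section gen
variable {J : Type} [Fintype J] [DecidableEq J] {π : J → J}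

theorem Mon_mul_apply (hπ : π.Injective) (d : J → F) (A : Matrix J J F) (i j : J) :
    (Mon π d * A) (π i) j = d i * A i j := by
  simp [mul_apply, Mon_apply, hπ.eq_iff]

theorem Mon_adj (hπ : π.Injective) {σ : F →+* F} {d : J → F} (hd : ∀ j, σ (d j) * d j = 1) :
    ((Mon π d).map σ)ᵀ * Mon π d = 1 := by
  ext i j
  by_cases e : i = j
  · subst e; simp [mul_Mon, Mon_apply, hd]
  · simp [mul_Mon, Mon_apply, hπ.eq_iff, e, Ne.symm e]

theorem Mon_unit (hπ : π.Injective) : IsUnit (Mon π (1 : J → F)) :=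
  .of_mul_eq_one_right _ (Mon_adj hπ (σ := RingHom.id F) (by simp))

theorem mem_of_conj {A : Type*} [Ring A] [Algebra F A] {M : Gp F A} {n a b : A} (hn : M.mem n) (ha : M.mem a)
    (h : b * n = n * a) : M.mem b := Gp.of_mul_right hn (h ▸ M.mul hn ha)

/-- diagonal matrices -/
def hh (b c : J) (l : F) : Matrix J J F := diagonal fun j => if j = b then l else if j = c then l⁻¹ else 1

theorem hh_swap {b c : J} (h : b ≠ c) (l : F) : hh b c l⁻¹ = hh c b l := by
  refine congrArg diagonal (funext fun j => ?_)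
  by_cases e : j = b <;> simp [e, h]

theorem hh_conj (hπ : π.Injective) (b c : J) (l : F) : hh (π b) (π c) l * Mon π 1 = Mon π 1 * hh b c l := by
  rw [hh, hh, diagonal_eq, diagonal_eq, Mon_mul, Mon_mul]
  exact Mon_congr (fun _ => rfl) fun j => by simp [hπ.eq_iff]

end gen

theorem Om.Over.aff {J : Type} [AddCommGroup J] [Module Z3 J] [Bf J] [Fintype J] [DecidableEq J]
    {M : Gp F (Matrix J J F)} (h : o.Over M) {π : J → J} (L : J → J) (hi : π.Injective)
    (hπ : ∀ j b, π (j + b) = π j + L b) (hL : ∀ a, ∃ a', ∀ j, Bf.β a' (L j) = Bf.β a j) : M.mem (Mon π 1) :=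
  h _ (Mon_unit hi) fun u => (hL u.1).elim fun a' e => ⟨_, Om.cj_aff hπ u.2 e⟩

/-- matrices of size nine -/
abbrev N9 (F : Type*) := Matrix I I F

/-- multiplication in the field of order nine -/
def cm (s j : I) : I := (s.1 * j.1 - s.2 * j.2, s.1 * j.2 + s.2 * j.1)

theorem cm_add : ∀ s j k : I, cm s (j + k) = cm s j + cm s k := by decide
theorem cm_inj : ∀ s : I, s ≠ 0 → (cm s).Injective := by decide

variable {M : Gp F (N9 F)}

theorem cm_mem (h : o.Over M) (t : I) {s : I} (hs : s ≠ 0) : M.mem (Mon (fun j => t + cm s j) 1) :=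
  h.aff (cm s) ((add_right_injective t).comp (cm_inj s hs)) (fun j b => by rw [cm_add, add_assoc])
    (by clear h; revert s; decide)

theorem trans2 (h : o.Over M) {a c b d : I} (h1 : a ≠ c) (h2 : b ≠ d) :
    ∃ π : I → I, π.Injective ∧ M.mem (Mon π 1) ∧ π a = b ∧ π c = d := by
  obtain ⟨s, s0, e⟩ := (by decide : ∀ u v : I, u ≠ 0 → v ≠ 0 → ∃ s, s ≠ 0 ∧ cm s u = v) (c - a) (d - b)
    (sub_ne_zero.2 h1.symm) (sub_ne_zero.2 h2.symm)
  refine ⟨_, (add_right_injective (b - cm s a)).comp (cm_inj s s0), cm_mem h _ s0, by simp, ?_⟩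
  rw [← add_sub_cancel a c, Function.comp, cm_add, e]; abel

theorem hh_all (h : o.Over M) {a c : I} (h1 : a ≠ c) {l : F} (hl : M.mem (hh a c l)) (b d : I) (h2 : b ≠ d) :
    M.mem (hh b d l) := by
  obtain ⟨π, p1, p2, rfl, rfl⟩ := trans2 h h1 h2
  exact mem_of_conj p2 hl (hh_conj p1 ..)

theorem η_bd (v : Z3 × Z3) (a : Z3) :
    o.η (((v.1, a), (v.2, 0)) : I × I) = blockDiagonal fun k => o.χ (a * k) • o.η v := by
  ext ⟨i, k⟩ ⟨j, l⟩
  by_cases e : k = l <;> simp [Om.η, Mon_apply, blockDiagonal_apply, Bf.β, e, Om.χ_add, mul_comm]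

theorem bd_shift (g : Z3 → N3 F) : blockDiagonal g * o.η ((0 : I), (0, 1)) =
    o.η ((0 : I), (0, 1)) * blockDiagonal fun k => g (k + 1) := by
  ext i j
  obtain ⟨i, rfl⟩ := add_right_surjective ((0, 1) : I) i
  rw [η_shift, mul_Mon, Mon_mul_apply (add_left_injective _)]
  simp [blockDiagonal_apply]

theorem bd_nrm {g : Z3 → N3 F} (h1 : ∀ y, ∃ v a c, ∀ k, g k * o.η y = (c * o.χ (a * k)) • (o.η v * g k))
    (h2 : ∃ v a c, ∀ k, g (k + 1) = (c * o.χ (a * k)) • (o.η v * g k)) : o.Nrm (blockDiagonal g : N9 F) := by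
  have key : ∀ v a (c : F), (blockDiagonal fun k => (c * o.χ (a * k)) • (o.η v * g k)) =
      c • (o.η (((v.1, a), (v.2, 0)) : I × I) * blockDiagonal g) := fun v a c => by
    rw [η_bd, ← blockDiagonal_mul, ← blockDiagonal_smul]; congr 1; ext; simp [mul_assoc]
  rintro ⟨⟨a1, a2⟩, b1, b2⟩
  obtain ⟨v, a, c, e⟩ := h1 (a1, b1)
  obtain ⟨v', a', c', e'⟩ := h2
  have k1 : o.Cj (blockDiagonal g : N9 F) ((a1, 0), (b1, 0)) ((v.1, a), (v.2, 0)) :=
    ⟨c, by rw [η_bd (a1, b1), ← key, ← blockDiagonal_mul]; simp [e]⟩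
  have k2 : o.Cj (blockDiagonal g : N9 F) ((0, 1), (0, 0)) ((0, 1), (0, 0)) :=
    ⟨1, by rw [show o.η (((0, 1), (0, 0)) : I × I) = _ from η_bd 0 1, ← blockDiagonal_mul, ← blockDiagonal_mul]; simp⟩
  have k3 : o.Cj (blockDiagonal g : N9 F) (0, (0, 1)) ((0, (0, 1)) + ((v'.1, a'), (v'.2, 0))) :=
    ⟨_, by rw [bd_shift, funext e', key, mul_smul_comm, ← mul_assoc, Om.η_mul, smul_mul_assoc, smul_smul]⟩
  exact ⟨_, by simpa using (k1.add (k2.zsmul a2)).add (k3.zsmul b2)⟩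

theorem bd_unit {g : Z3 → N3 F} : IsUnit (blockDiagonal g : N9 F) ↔ ∀ k, IsUnit (g k) := by
  simp [isUnit_iff_isUnit_det, det_blockDiagonal, Finset.prod_ne_zero_iff]

/-- the block diagonal members -/
def Dg (M : Gp F (N9 F)) : Gp F (Z3 → N3 F) where
  mem g := M.mem (blockDiagonal g)
  one := by rw [blockDiagonal_one]; exact M.one
  mul h h' := by convert M.mul h h' using 1; exact blockDiagonal_mul ..
  smul c h := by rw [blockDiagonal_smul]; exact M.smul c h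
  inv {a} h := by
    have u := fun k => (isUnit_iff_isUnit_det _).1 (bd_unit.1 (Gp.isUnit h) k)
    exact ⟨fun k => (a k)⁻¹, inv_mem' h ((blockDiagonal_mul ..).symm.trans ((congrArg _ (funext fun k => mul_nonsing_inv _ (u k))).trans blockDiagonal_one)),
      funext fun k => mul_nonsing_inv _ (u k), funext fun k => nonsing_inv_mul _ (u k)⟩

theorem nrm_s (m : Z3) (y : Z3 × Z3) : o.Nrm (blockDiagonal fun k => o.η ((k - m) • y) : N9 F) :=
  bd_nrm (fun y' => ⟨y', f y y', o.χ (-(m * f y y')), fun k => by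
    rw [Om.η_comm, ← Om.χ_add]; congr 2; simp; ring⟩)
    ⟨y, 0, 1, fun k => by simp [Om.η_mul]; congr 1; module⟩

theorem nrm_cst {n : N3 F} (h : o.Nrm n) : o.Nrm (blockDiagonal fun _ : Z3 => n : N9 F) :=
  bd_nrm (fun y => by obtain ⟨v, c, e⟩ := h y; exact ⟨v, 0, c, by simp [e]⟩) ⟨0, 0, 1, by simp⟩

theorem nrm_sc (q : Z3 → Z3) : o.Nrm (blockDiagonal fun k => o.χ (q k) • (1 : N3 F) : N9 F) := by
  obtain ⟨a, c, h⟩ : ∃ a c, ∀ j, q (j + 1) = c + a * j + q j := by revert q; decide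
  exact bd_nrm (fun y => ⟨y, 0, 1, by simp⟩) ⟨0, a, o.χ c, fun k => by simp [h, Om.χ_add, smul_smul]⟩

section ov
variable (h : o.Over M)
include h

theorem D_sh {g : Z3 → N3 F} (hg : (Dg M).mem g) (m : Z3) : (Dg M).mem fun k => g (k + m) := by
  have key : ∀ {g}, (Dg M).mem g → (Dg M).mem fun k => g (k + 1) := fun hg =>
    Gp.of_mul_left (M := M) (h.η _) (bd_shift (o := o) _ ▸ M.mul hg (h.η _))
  rcases z3' m with rfl | rfl | rfl
  exacts [by simpa using hg, key hg, by simpa [add_assoc, one_add_one_eq_two] using key (key hg)]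

theorem D_s (m : Z3) (y : Z3 × Z3) : (Dg M).mem fun k => o.η ((k - m) • y) :=
  h _ (bd_unit.2 fun _ => o.η_unit _) (nrm_s m y)

theorem D_cst {n : N3 F} (hn : IsUnit n) (h' : o.Nrm n) : (Dg M).mem fun _ => n :=
  h _ (bd_unit.2 fun _ => hn) (nrm_cst h')

theorem sc_nrm (hY : ∀ g, (Dg M).mem g → (∀ k ≠ 0, ∃ c : F, g k = c • 1) → ∃ c : F, g 0 = c • 1) {d : Z3 → F}
    (hd : (Dg M).mem fun k => d k • 1) : o.Nrm (blockDiagonal fun k => d k • (1 : N3 F) : N9 F) := by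
  have d0 : ∀ k, d k ≠ 0 := fun k e => (bd_unit.1 (Gp.isUnit (M := M) hd) k).ne_zero (by simp [e])
  have k1 : ∀ a, M.mem (diagonal fun j : I => d (a * j.2 + j.1)) := fun a =>
    Gp.of_mul_left (cm_mem h 0 (s := (a, 1)) (by simp)) (by
      convert M.mul hd (cm_mem h 0 (s := (a, 1)) (by simp)) using 1
      simp only [smul_one_eq_diagonal, blockDiagonal_diagonal]
      simp only [diagonal_eq, Mon_mul]
      exact Mon_congr (fun _ => rfl) fun j => by simp [cm])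
  obtain ⟨c, hc⟩ := hY (fun k => diagonal fun i => ∏ a, d (a * k + i)) (by
    simpa [Dg, prod_z3] using M.mul (M.mul (k1 0) (k1 1)) (k1 2)) fun k hk => ⟨∏ a, d a, by
      rw [smul_one_eq_diagonal]; congr 1; ext i
      exact ((by decide : ∀ k ≠ 0, ∀ i, Function.Bijective fun a : Z3 => a * k + i) k hk i).prod_comp d⟩
  have e : ∀ i, d i ^ 3 = c := fun i => by simpa using congrFun (congrFun hc i) i
  choose q hq using fun i => o.exists_χ (c := d i / d 0) (by rw [div_pow, e, ← e 0, div_self (pow_ne_zero _ (d0 0))])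
  convert (nrm_sc q).smul (d 0) using 1
  rw [← blockDiagonal_smul]; congr 1; funext k
  simp [← hq, smul_smul, mul_div_cancel₀, d0]

theorem nrm_of_sc (hY : ∀ g, (Dg M).mem g → (∀ k ≠ 0, ∃ c : F, g k = c • 1) → ∃ c : F, g 0 = c • 1)
    {g : Z3 → N3 F} (hg : (Dg M).mem g) : o.Nrm (blockDiagonal g : N9 F) := by
  have hY' : ∀ m g, (Dg M).mem g → (∀ k ≠ m, ∃ c : F, g k = c • 1) → ∃ c : F, g m = c • 1 := fun m g hg e => by
    simpa using hY _ (D_sh h hg m) fun k hk => e _ (by simpa using hk)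
  have un : ∀ {g}, (Dg M).mem g → ∀ k, IsUnit (g k) := fun hg => bd_unit.1 (Gp.isUnit (M := M) hg)
  have inn : ∀ m m' A, (Dg M).mem A → m' ≠ m → (∀ k, k ≠ m → k ≠ m' → A k = 1) → ∃ w, ∃ c : F, A m = c • o.η w :=
    fun m m' A hA hm e => by
      refine (Om.inner (un hA m) fun y => ?_).imp fun w ⟨c, _, e⟩ => ⟨c, e⟩
      obtain ⟨t, ht⟩ : ∃ t, (m - m') * t = 1 := by clear e; revert m m'; decide
      have hB := D_s h m' (t • y)
      obtain ⟨E, e1, e2, e3⟩ := (Dg M).inv ((Dg M).mul hB hA)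
      obtain ⟨c, hc⟩ := hY' m _ ((Dg M).mul ((Dg M).mul hA hB) e1) fun k hk => ⟨1, by
        rw [one_smul, ← show _ = (1 : N3 F) from congrFun e2 k]
        by_cases e' : k = m' <;> simp [e', e k hk]⟩
      refine ⟨c, ?_⟩
      have := congrFun e3 m
      simp only [Pi.mul_apply, smul_smul, ht, one_smul, Pi.one_apply] at hc this
      rw [← mul_one (A m * _), ← this, ← mul_assoc, hc, smul_mul_assoc, one_mul]
  obtain ⟨g', g1, g2, g3⟩ := (Dg M).inv hg
  have n0 : o.Nrm (g 0) := fun y => by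
    obtain ⟨w, c, e⟩ := inn 0 2 _ ((Dg M).mul ((Dg M).mul hg (D_s h 1 (-y))) g1) (by decide) fun k k0 k2 => by
      obtain rfl : k = 1 := by revert k; decide
      simpa using congrFun g2 1
    refine ⟨w, c, ?_⟩
    rw [← smul_mul_assoc, ← e, Pi.mul_apply, mul_assoc, show g' 0 * g 0 = 1 from congrFun g3 0]; simp
  have i0 : g' 0 * g 0 = 1 := congrFun g3 0
  have hk := (Dg M).mul (D_cst h (un g1 0) (n0.inv i0)) hg
  obtain ⟨w1, c1, e1⟩ := inn 1 2 _ hk (by decide) fun k k0 k2 => by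
    obtain rfl : k = 0 := by revert k; decide
    exact i0
  have hd := (Dg M).mul hk (D_s h 0 (-w1))
  have d1 : ∀ k ≠ (2 : Z3), ∃ c : F, ((fun _ => g' 0) * g * fun k => o.η ((k - 0) • -w1) : Z3 → N3 F) k = c • 1 :=
    fun k hk => by
      rcases z3' k with rfl | rfl | rfl
      exacts [⟨1, by simpa using i0⟩, ⟨c1, by rw [Pi.mul_apply, e1]; simp⟩, absurd rfl hk]
  choose d hd' using fun k => (em (k = 2)).elim (fun e => by rw [e]; exact hY' 2 _ hd d1) (d1 k)
  have := sc_nrm h hY (funext hd' ▸ hd)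
  rw [← funext hd'] at this
  refine Om.Nrm.of_mul_left (nrm_cst (n0.inv i0)) (bd_unit.2 fun _ => un g1 0)
    (Om.Nrm.of_mul_right (nrm_s 0 (-w1)) (bd_unit.2 fun _ => o.η_unit _) ?_)
  rwa [← blockDiagonal_mul, ← blockDiagonal_mul]

end ov

/-- the first block -/
def Xg (D : Gp F (Z3 → N3 F)) : Gp F (N3 F) where
  mem a := ∃ g, D.mem g ∧ g 0 = a
  one := ⟨1, D.one, rfl⟩
  mul := by rintro _ _ ⟨g, h, rfl⟩ ⟨k, h', rfl⟩; exact ⟨_, D.mul h h', rfl⟩
  smul := by rintro _ c c0 ⟨g, h, rfl⟩; exact ⟨_, D.smul c0 h, rfl⟩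
  inv := by
    rintro _ ⟨g, h, rfl⟩
    obtain ⟨k, h1, h2, h3⟩ := D.inv h
    exact ⟨_, ⟨k, h1, rfl⟩, congrFun h2 0, congrFun h3 0⟩

/-- the other blocks are scalar -/
def Yg (D : Gp F (Z3 → N3 F)) : Gp F (N3 F) where
  mem a := ∃ g, D.mem g ∧ g 0 = a ∧ ∀ k ≠ 0, ∃ c : F, g k = c • 1
  one := ⟨1, D.one, rfl, fun _ _ => ⟨1, by simp⟩⟩
  mul := by
    rintro _ _ ⟨g, h, rfl, e⟩ ⟨g', h', rfl, e'⟩
    refine ⟨_, D.mul h h', rfl, fun k hk => ?_⟩
    obtain ⟨c, e⟩ := e k hk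
    obtain ⟨d, e'⟩ := e' k hk
    exact ⟨d * c, by simp [e, e', smul_smul]⟩
  smul := by
    rintro _ c c0 ⟨g, h, rfl, e⟩
    exact ⟨_, D.smul c0 h, rfl, fun k hk => (e k hk).elim fun d e => ⟨c * d, by simp [e, smul_smul]⟩⟩
  inv := by
    rintro _ ⟨g, h, rfl, e⟩
    obtain ⟨g', h1, h2, h3⟩ := D.inv h
    refine ⟨_, ⟨g', h1, rfl, fun k hk => ?_⟩, congrFun h2 0, congrFun h3 0⟩
    obtain ⟨c, e⟩ := e k hk
    have := congrFun h2 k
    simp only [Pi.mul_apply, e, smul_mul_assoc, one_mul, Pi.one_apply] at this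
    exact ⟨c⁻¹, (eq_inv_smul_iff₀ (by rintro rfl; simp at this)).2 this⟩

/-- the other blocks are trivial -/
def Y1 (D : Gp F (Z3 → N3 F)) (a : N3 F) : Prop := D.mem (Function.update 1 0 a)

variable {D : Gp F (Z3 → N3 F)} {a b n n' : N3 F}

theorem Y1.mul (h : Y1 D a) (h' : Y1 D b) : Y1 D (a * b) := by
  simpa [Y1, ← Function.update_mul] using D.mul h h'
theorem y1_one : Y1 D 1 := by simpa [Y1] using D.one
theorem Y1.inv (h : Y1 D a) (e : a * b = 1) : Y1 D b := inv_mem' h (by simp [← Function.update_mul, e])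
theorem Y1.X (h : Y1 D a) : (Xg D).mem a := ⟨_, h, by simp⟩
theorem Y1.Y (h : Y1 D a) : (Yg D).mem a := ⟨_, h, by simp, fun k hk => ⟨1, by simp [hk]⟩⟩

theorem y1_comm {A B : Z3 → N3 F} (hA : D.mem A) (hB : D.mem B) (h : ∀ k ≠ 0, B k * A k = A k * B k)
    (e : a * (B 0 * A 0) = A 0 * B 0) : Y1 D a := Gp.of_mul_right (D.mul hB hA) (by
  convert D.mul hA hB using 1
  funext k
  by_cases hk : k = 0 <;> simp [hk, e, h])

theorem y1_comm' (ha : (Yg D).mem a) (hn : (Xg D).mem n) (e : b * (n * a) = a * n) : Y1 D b := by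
  obtain ⟨A, a1, rfl, a2⟩ := ha
  obtain ⟨B, b1, rfl⟩ := hn
  exact y1_comm a1 b1 (fun k hk => by obtain ⟨c, e⟩ := a2 k hk; simp [e]) e

theorem Y1.conj (h : Y1 D a) (hn : (Xg D).mem n) (e : b * n = n * a) : Y1 D b := by
  obtain ⟨B, b1, rfl⟩ := hn
  refine mem_of_conj b1 h (funext fun k => ?_)
  by_cases hk : k = 0 <;> simp [hk, e]

theorem Y_conj (ha : (Yg D).mem a) (hn : (Xg D).mem n) (e : n * n' = 1) : (Yg D).mem (n * a * n') := by
  obtain ⟨A, a1, rfl, a2⟩ := ha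
  obtain ⟨B, b1, rfl⟩ := hn
  obtain ⟨B', b2, b3, b4⟩ := D.inv b1
  refine ⟨_, D.mul (D.mul b1 a1) b2, ?_, fun k hk => (a2 k hk).imp fun c e => ?_⟩
  · rw [Pi.mul_apply, left_inv_eq_right_inv (congrFun b4 0) e]; rfl
  · simpa [e] using congrArg (c • ·) (congrFun b3 k)

theorem exists_fix [Finite F] (hX : o.Over (Xg D)) (h : (Yg D).mem a) (ha : ∀ c : F, a ≠ c • 1) :
    ∃ a, (Yg D).mem a ∧ (∀ c : F, a ≠ c • 1) ∧ ∃ c : F, o.η (1, 0) * a = c • (a * o.η (1, 0)) := by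
  by_contra hn
  have le : ∀ {a}, (Yg D).mem a → (Xg D).mem a := fun ⟨g, h, e, _⟩ => ⟨g, h, e⟩
  have := fp_rel (G := (Xg D).PG) (t := fun u => Gp.el (hX.η u)) (fun u v => Gp.π_eq.2 ⟨_, o.χ_ne _, o.η_mul u v⟩)
    (H := ((Yg D).grp.subgroupOf (Xg D).grp).map (QuotientGroup.mk' _)) (Q := ⊥) (by simp) (by
      rintro u _ ⟨x, hx, rfl⟩
      exact ⟨Gp.el (hX.η u) * x * (Gp.el (hX.η u))⁻¹, Y_conj hx (hX.η u) (Gp.el (hX.η u)).1.val_inv, rfl⟩)
    (by simp) (by
      rintro u hu _ ⟨x, hx, rfl⟩ e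
      rw [Subgroup.mem_bot, inv_mul_eq_one, eq_mul_inv_iff_mul_eq] at e
      obtain ⟨c, -, e⟩ := (Gp.π_eq (g := x * Gp.el (hX.η u)) (k := Gp.el (hX.η u) * x)).1 e
      obtain ⟨n, ⟨n, rfl⟩, n2, n3⟩ := o.exists_conj hu (v := (1, 0)) (by decide)
      by_contra h1
      refine hn ⟨_, Y_conj hx (hX _ n.isUnit n2) n.val_inv, fun c' e' => h1 ?_, c, ?_⟩
      · replace e' := congrArg (n.inv * · * n.val) e'
        simp only [mul_assoc, n.inv_val, mul_one, ← mul_assoc n.inv, one_mul, smul_mul_assoc, mul_smul_comm] at e'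
        exact (Gp.π_eq.2 ⟨c', fun c0 => x.1.ne_zero (by simp [c0] at e'), e'⟩).symm
      · have e' : n.inv * o.η (1, 0) = o.η u * n.inv := by
          rw [← mul_one (_ * _), ← n.val_inv, ← mul_assoc, mul_assoc n.inv, ← n3, ← mul_assoc, n.inv_val, one_mul]
        replace e : o.η u * x.1.1 = c • (x.1.1 * o.η u) := e
        change _ * (_ * x.1.1 * _) = _ • (_ * x.1.1 * _ * _)
        rw [← mul_assoc, ← mul_assoc, ← n3, mul_assoc n.val, e, mul_assoc _ n.inv, e']; simp [mul_assoc])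
    ⟨Gp.el (le h), h, rfl⟩
  obtain ⟨c, -, e⟩ := Gp.π_eq.1 (Subgroup.mem_bot.1 this).symm
  exact ha c e

theorem exists_hh [Finite F] (hX : o.Over (Xg D)) (h : (Yg D).mem a) (ha : ∀ c : F, a ≠ c • 1) :
    ∃ i j l, i ≠ j ∧ l ≠ 0 ∧ l ≠ 1 ∧ Y1 D (hh i j l) := by
  obtain ⟨a, h, ha, c, e⟩ := exists_fix hX h ha
  have u := Gp.isUnit h
  obtain ⟨b, rfl⟩ := o.exists_χ (Om.cj_cube (o := o) u (c := c⁻¹) (u := (1, 0)) (v := (1, 0)) (by
    rw [e, inv_smul_smul₀]; rintro rfl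
    exact ((o.η_unit _).mul u).ne_zero (by simpa using e)) |> fun h => by rwa [inv_pow, inv_eq_one] at h : c ^ 3 = 1)
  have e' : a = Mon (· + b) fun j => a (j + b) j := by
    ext i j
    rw [Mon_apply]
    split_ifs with k
    · rw [k]
    · have := congrFun (congrFun e i) j
      simp only [η_diag, diagonal_mul, mul_diagonal, Matrix.smul_apply, smul_eq_mul, one_mul] at this
      by_contra k'
      exact k (o.χ_inj (mul_right_cancel₀ k' (by rw [this, Om.χ_add]; ring)))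
  generalize (fun j => a (j + b) j) = q at e'
  subst e'
  have q0 : ∀ j, q j ≠ 0 := fun j e => by
    obtain ⟨k, -, -, hk⟩ := (Yg D).inv h
    simpa [mul_Mon, e] using congrFun (congrFun hk j) j
  by_cases hb : b = 0
  · subst hb
    obtain ⟨i, hi⟩ : ∃ i, q i ≠ q 0 := by
      by_contra! hn
      exact ha (q 0) (by rw [smul_one_eq_diagonal, diagonal_eq]; exact Mon_congr (by simp) hn)
    have i0 : i ≠ 0 := by rintro rfl; exact hi rfl
    refine ⟨i, 0, q i / q 0, i0, div_ne_zero (q0 _) (q0 _), fun e => hi ((div_eq_one_iff_eq (q0 _)).1 e),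
      y1_comm' h (hX.aff (π := fun x => i - x) Neg.neg sub_right_injective (fun j b => by ring)
        fun a => ⟨-a, fun j => by simp [Bf.β]⟩) ?_⟩
    rw [hh, diagonal_eq, Mon_mul, Mon_mul, Mon_mul]
    refine Mon_congr (by simp) fun j => ?_
    by_cases e1 : j = 0
    · simp [e1, q0]
    by_cases e2 : j = i
    · simp [e2, q0, i0, i0.symm]
    have e3 : i - j = j := by clear * - i0 e1 e2; revert i j; decide
    simp [e1, e2, e3]
  · refine ⟨b, 0, o.ω, hb, o.ne0, o.ne1, y1_comm' h (δ_mem hX 0) ?_⟩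
    rw [δ_eq, hh, diagonal_eq, diagonal_eq, Mon_mul, Mon_mul, Mon_mul]
    refine Mon_congr (by simp) fun j => ?_
    by_cases e1 : j = 0
    · simp [e1, hb, mul_comm]
    by_cases e2 : j + b = 0
    · simp [e1, e2, hb, Ne.symm hb, o.ne0]
    simp [e1, e2]

theorem bd_Mon (π : Z3 → Z3) (d : Z3 → F) : (blockDiagonal (Function.update 1 0 (Mon π d)) : N9 F) =
    Mon (fun j => if j.2 = 0 then (π j.1, 0) else j) fun j => if j.2 = 0 then d j.1 else 1 := by
  ext ⟨i, k⟩ ⟨j, l⟩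
  by_cases e : k = l <;> by_cases e' : l = 0 <;> simp [Mon_apply, blockDiagonal_apply, e, e', one_apply]
  subst e'; simp [e]

theorem y1_hh {i j : Z3} {l : F} : Y1 (Dg M) (hh i j l) ↔ M.mem (hh (i, 0) (j, 0) l) := by
  rw [Y1, Dg, hh, hh, diagonal_eq, diagonal_eq]
  dsimp only
  rw [bd_Mon, Mon_congr (π' := id) (fun j => by split_ifs with e <;> simp [Prod.ext_iff, e]) fun j => ?_]
  by_cases e : j.2 = 0 <;> simp [e, Prod.ext_iff]

theorem X_over (h : o.Over M) : o.Over (Xg (Dg M)) := fun _ hn hn' => ⟨_, D_cst h hn hn', rfl⟩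

theorem U01 (a : F) : a • 1 + o.η ((0, 1) : Z3 × Z3) + o.η (-(0, 1)) = of fun i j => if i = j then a else 1 := by
  ext i j
  rcases z3' i with rfl | rfl | rfl <;> rcases z3' j with rfl | rfl | rfl <;>
    simp +decide [η_shift, Mon_apply, one_apply]

theorem j_mem (h : o.Over M) (hω : ∀ b c, b ≠ c → M.mem (hh b c o.ω)) : Y1 (Dg M) (Mon Neg.neg fun _ => -1) := by
  have ωi : o.ω⁻¹ = o.ω ^ 2 := inv_eq_of_mul_eq_one_left (by linear_combination o.cube)
  have hA : (Dg M).mem fun k => diagonal (Function.update 1 0 (o.χ (k + 1))) := by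
    convert hω (0, 0) (0, 1) (by decide) using 1
    simp only [Dg, blockDiagonal_diagonal, hh]
    refine iff_of_eq (congrArg _ (congrArg _ (funext fun ⟨i, k⟩ => ?_)))
    rcases z3' i with rfl | rfl | rfl <;> rcases z3' k with rfl | rfl | rfl <;> simp +decide [ωi, one_add_one_eq_two]
    exact o.χ0
  have hB : (Dg M).mem fun k => diagonal (Function.update 1 0 (o.χ (1 - k))) := by
    convert hω (0, 0) (0, 2) (by decide) using 1
    simp only [Dg, blockDiagonal_diagonal, hh]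
    refine iff_of_eq (congrArg _ (congrArg _ (funext fun ⟨i, k⟩ => ?_)))
    rcases z3' i with rfl | rfl | rfl <;> rcases z3' k with rfl | rfl | rfl <;> simp +decide [ωi]
    exact o.χm
  have hU := D_cst h (o.U_unit (0, 1)) (o.nrm_U _)
  have t3 : 3 * (3 : F)⁻¹ = 1 := mul_inv_cancel₀ o.three
  have hh := o.h
  have := y1_comm (a := ((1 - o.ω) * 3⁻¹) • of fun i j => if i = 0 ∧ j = 0 then o.ω else if i = 0 ∨ i = j then 1
    else o.ω ^ 2) hA ((Dg M).mul ((Dg M).mul hU hB) (inv_mem' hU (funext fun _ => o.U_inv _))) (fun k hk => by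
      rcases z3' k with rfl | rfl | rfl
      · exact absurd rfl hk
      · simp [← mul_smul_comm, o.U_inv]
      · simp [show (2 + 1 : Z3) = 0 from rfl]) (by
    simp only [Pi.mul_apply, Om.U, Om.U', U01]
    ext i j
    generalize (3 : F)⁻¹ = t at *
    rcases z3' i with rfl | rfl | rfl <;> rcases z3' j with rfl | rfl | rfl <;>
      simp +decide [mul_apply, sum_z3, diagonal_apply] <;> grind)
  convert this.mul this using 1
  ext i j
  generalize (3 : F)⁻¹ = t at *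
  rcases z3' i with rfl | rfl | rfl <;> rcases z3' j with rfl | rfl | rfl <;>
    simp +decide [mul_apply, sum_z3, Mon_apply] <;> grind

theorem neg_mem (h : o.Over M) (hj : Y1 (Dg M) (Mon Neg.neg fun _ => -1)) : M.mem (hh (0, 0) (1, 0) (-1)) := by
  have h1 : Y1 (Dg M) (Mon (· + 1) 1) := by
    convert (hj.conj (b := Mon (fun x => 1 - x) fun _ => -1) ((X_over h).η (0, 2)) (by
      rw [η_shift, Mon_mul, Mon_mul]; exact Mon_congr (by decide) (by simp))).mul hj using 1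
    rw [Mon_mul]; exact Mon_congr (by decide) (by simp)
  have h2 : M.mem (Mon (fun j => if j.1 = 0 then -j else j) fun j => if j.1 = 0 then -1 else 1) :=
    mem_of_conj (cm_mem h 0 (s := (0, 1)) (by decide)) hj (by
      rw [bd_Mon, Mon_mul, Mon_mul]; exact Mon_congr (by decide) (by simp [cm]))
  refine Gp.of_mul_right (M := M) h1 ?_
  convert M.mul (M.mul h2 h1) h2 using 1
  rw [bd_Mon, hh, diagonal_eq, Mon_mul, Mon_mul, Mon_mul]
  refine Mon_congr (by decide) fun ⟨i, k⟩ => ?_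
  rcases z3' i with rfl | rfl | rfl <;> rcases z3' k with rfl | rfl | rfl <;> simp +decide

theorem swap_mem (h : o.Over M) (h2 : (2 : F) = 0) (hj : Y1 (Dg M) (Mon Neg.neg fun _ => -1)) (b d : I) (e : b ≠ d) :
    M.mem (Mon (Equiv.swap b d) 1) := by
  obtain ⟨π, p1, p2, rfl, rfl⟩ := trans2 h (a := (1, 0)) (c := (2, 0)) (by decide) e
  refine mem_of_conj p2 hj ?_
  rw [bd_Mon, Mon_mul, Mon_mul]
  refine Mon_congr (fun j => (p1.map_swap ..).symm.trans (congrArg π (by revert j; decide))) fun j => ?_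
  simp [show (-1 : F) = 1 by linear_combination -h2]

theorem I_gen [Finite F] (h : o.Over M) : (∀ g, (Dg M).mem g → o.Nrm (blockDiagonal g : N9 F)) ∨
    (∃ l : F, l ≠ 0 ∧ l ^ 3 ≠ 1 ∧ ∀ b c, b ≠ c → M.mem (hh b c l)) ∨
    ((2 : F) = 0 ∧ (∀ b c, b ≠ c → M.mem (hh b c o.ω)) ∧ ∀ b c, b ≠ c → M.mem (Mon (Equiv.swap b c) 1)) := by
  by_cases hY : ∀ a, (Yg (Dg M)).mem a → ∃ c : F, a = c • 1
  · exact Or.inl fun g hg => nrm_of_sc h (fun g hg e => hY _ ⟨g, hg, rfl, e⟩) hg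
  push Not at hY
  obtain ⟨a, h1, h2⟩ := hY
  obtain ⟨i, j, l, ij, l0, l1, hl⟩ := exists_hh (X_over h) h1 h2
  replace hl := hh_all h (by simpa) (y1_hh.1 hl)
  by_cases l3 : l ^ 3 = 1
  swap
  · exact Or.inr (Or.inl ⟨l, l0, l3, hl⟩)
  have hω : ∀ b c, b ≠ c → M.mem (hh b c o.ω) := fun b c e => by
    obtain ⟨q, rfl⟩ := o.exists_χ l3
    rcases z3 q with rfl | rfl | rfl
    · exact absurd o.χ0 l1
    · simpa using hl b c e
    · have := hl c b e.symm
      rwa [← hh_swap e, inv_eq_of_mul_eq_one_right (o.χ_neg 1), Om.χ1] at this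
  by_cases h2 : (2 : F) = 0
  · exact Or.inr (Or.inr ⟨h2, hω, swap_mem h h2 (j_mem h hω)⟩)
  · exact Or.inr (Or.inl ⟨-1, by simp, fun e => h2 (by linear_combination -e),
      hh_all h (by decide) (neg_mem h (j_mem h hω))⟩)

theorem I_all (h : o.Over M) (H : ∀ g, (Dg M).mem g → o.Nrm (blockDiagonal g : N9 F)) {w : I × I} (hw : w ≠ 0)
    {g : N9 F} (hg : M.mem g) (e : o.Cj g w w) : o.Nrm g := by
  obtain ⟨n, ⟨n, rfl⟩, n2, n3⟩ := o.exists_conj hw (v := ((0, 1), 0)) (by decide)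
  have c : o.Cj n.val w ((0, 1), 0) := ⟨1, by simpa using n3⟩
  have n4 := n2.inv n.inv_val
  have u := (n.isUnit.mul (Gp.isUnit hg)).mul n⁻¹.isUnit
  obtain ⟨c, e⟩ := (c.mul e).mul (c.inv n.inv_val)
  obtain ⟨a, rfl⟩ := o.exists_χ (Om.cj_cube u e)
  refine Om.Nrm.of_mul_left n2 n.isUnit (Om.Nrm.of_mul_right n4 n⁻¹.isUnit
    (Om.Nrm.of_mul_right (Om.nrm_η (0, (0, a))) (o.η_unit _) ?_))
  have m := M.mul (conj_mem' (h _ n.isUnit n2) n.val_inv hg) (h.η (0, (0, a)))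
  have e2 : n.val * g * n.inv * o.η (0, (0, a)) * o.η ((0, 1), 0) = o.η ((0, 1), 0) * (n.val * g * n.inv * o.η (0, (0, a))) := by
    rw [mul_assoc, Om.η_comm, mul_smul_comm, ← mul_assoc, e, smul_mul_assoc, smul_smul, ← Om.χ_add]
    simp [f, Bf.β, mul_assoc]
  generalize n.val * g * n.inv * o.η (0, (0, a)) = k at *
  have e3 : blockDiagonal k.blockDiag = k := by
    ext ⟨i, l⟩ ⟨j, l'⟩
    rw [blockDiagonal_apply']
    split_ifs with e'
    · rw [e']; rfl
    · rw [show o.η (((0, 1), 0) : I × I) = _ from η_bd 0 1] at e2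
      simp only [Om.η0, smul_one_eq_diagonal, blockDiagonal_diagonal, one_mul] at e2
      have := congrFun (congrFun e2 (i, l)) (j, l')
      simp only [mul_diagonal, diagonal_mul] at this
      by_contra k0
      exact e' (o.χ_inj (mul_right_cancel₀ (Ne.symm k0) (by rw [← this, mul_comm])))
  exact e3 ▸ H _ (show M.mem _ by rwa [e3])

end Cfsg.Agent.H6.T
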