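import Cfsg.Agent.H6.T5
import Cfsg.Agent.H6.T6
import Cfsg.Agent.H1.Root

/-! Overgroups of `3^{1+4} : Sp₄(3)` in dimension nine. -/

set_option autoImplicit false
set_option linter.unusedSectionVars false
set_option linter.unusedSimpArgs false
set_option linter.unusedVariables false

namespace Cfsg.Agent.H6.T

open Matrix Cfsg.Agent.H4.E Cfsg.Agent.Form Cfsg.Agent.H6.SU Cfsg.Agent.H7

variable {F : Type*} [Field F] {o : Om F} {M : Gp F (N9 F)}

/-- extension by zero -/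
def ex0 (v : Z3 → F) : I → F := fun j => if j.2 = 0 then v j.1 else 0

theorem bd_Tm (v φ : Z3 → F) : (blockDiagonal (Function.update 1 0 (Tm v φ)) : N9 F) = Tm (ex0 v) (ex0 φ) := by
  ext ⟨i, k⟩ ⟨j, l⟩
  by_cases e : k = l <;> by_cases e' : l = 0 <;>
    simp [Tm, ex0, blockDiagonal_apply, e, e', one_apply, vecMulVec_apply]
  subst e'; simp [e]

theorem not_nrm_hh {l : F} (l0 : l ≠ 0) (l3 : l ^ 3 ≠ 1) : ¬ o.Nrm (hh (0 : Z3) 1 l) := fun h => l3 (by
  simpa +decide using not_nrm_dg (fun j => by split_ifs <;> simp [l0]) h 0 2)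

theorem end_lin [Finite F] (hp : ∀ a : F, ∃ n : ℕ, a = n) (h2 : (2 : F) ≠ 0) (h : o.Over M) {l : F} (l0 : l ≠ 0)
    (l3 : l ^ 3 ≠ 1) (hl : ∀ b c, b ≠ c → M.mem (hh b c l)) (A : N9 F) (hA : A.det = 1) : M.mem A := by
  have y := y1_hh.2 (hl (0, 0) (1, 0) (by decide))
  have hT := (main3_lin hp h2 (X_over h)).resolve_left (fun H => not_nrm_hh l0 l3 (H _ y.X)) (E 0) (E 2) (by simp +decide)
  have l1 : l - 1 ≠ 0 := fun e => l3 (by rw [sub_eq_zero.1 e, one_pow])
  have k : M.mem _ := y1_comm' (b := Tm (E 0) ((l - 1) • E 2)) y.Y hT (by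
    ext i j
    rcases z3' i with rfl | rfl | rfl <;> rcases z3' j with rfl | rfl | rfl <;>
      simp +decide [Tm, hh, mul_apply, sum_z3, vecMulVec_apply, one_apply, diagonal_apply, Pi.single_apply])
  rw [bd_Tm] at k
  have key : ∀ i j, i ≠ j → ∀ a, H1.Root.Rt (sub M) i j a := fun i j e a => by
    obtain ⟨π, p1, p2, rfl, rfl⟩ := trans2 h (a := (0, 0)) (c := (2, 0)) (by decide) e
    obtain ⟨n, hn⟩ := hp (a / (l - 1))
    have k2 := pow_mem' k n
    rw [Tm_pow (by simp +decide [dotProduct, ex0, Fintype.sum_prod_type, sum_z3])] at k2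
    have k3 : M.mem (Tm (Pi.single (π (0, 0)) 1) (a • Pi.single (π (2, 0)) 1)) := mem_of_conj p2 k2 (by
      ext i j
      obtain ⟨i, rfl⟩ := Finite.surjective_of_injective p1 i
      rw [mul_Mon, Mon_mul_apply p1, ← hn]
      simp [Tm, ex0, vecMulVec_apply, one_apply, Pi.single_apply, p1.eq_iff, Prod.ext_iff, l1, ite_and]
      split_ifs <;> simp)
    obtain ⟨B, -, b, -⟩ := M.inv k3
    exact ⟨le b, ⟨_, k3, fun _ => rfl⟩, fun x => by simp [Tm_mulVec]⟩
  have u := mul_nonsing_inv A (by simp [hA])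
  obtain ⟨B, b1, b2⟩ := H1.Root.mem_of_rt_all key (le u) ((det_le fun _ => rfl).2 hA)
  rwa [mulVec_ext (B := B) b2]

theorem det_U (v : I × I) (hv : v ≠ 0) : (o.U v).det = (o.ω - 1) ^ 9 := by
  obtain ⟨n, n1, -, n3⟩ := o.exists_conj hv (v := ((0, 1), 0)) (by decide)
  have := congrArg det (o.conj_U n3)
  rw [det_mul, det_mul, mul_comm] at this
  rw [mul_right_cancel₀ ((isUnit_iff_isUnit_det _).1 n1).ne_zero this, Om.U,
    show o.η (((0, 1), 0) : I × I) = _ from η_bd 0 1, show o.η (-((0, 1), 0) : I × I) = _ from η_bd 0 (-1)]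
  simp only [Om.η0, smul_one_eq_diagonal, blockDiagonal_diagonal, diagonal_add, det_diagonal, Fintype.prod_prod_type,
    prod_z3]
  simp only [mul_zero, mul_one, Om.χ0, Om.χ1, Om.χ2, Om.χm, one_mul, show (-1 * 2 : Z3) = 1 from rfl]
  have := o.h
  grind

theorem det_uh (v : I × I) (hv : v ≠ 0) : ((o.ω - 1)⁻¹ • o.U v).det = 1 := by
  simp [det_U v hv, o.sub_ne]

theorem adj_uh {σ : F →+* F} (hω : σ o.ω = o.ω ^ 2) (v : I × I) :
    adj σ ((o.ω - 1)⁻¹ • o.U v) * ((o.ω - 1)⁻¹ • o.U v) = 1 := by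
  have : o.U' v * o.U v = (3 : F) • 1 := by
    rw [← mul_eq_one_comm.1 (o.U_inv v), smul_mul_assoc, smul_inv_smul₀ o.three]
  rw [adj_smul, Om.adj_U hω, smul_mul_smul_comm, this, smul_smul, map_inv₀, ← mul_inv, map_sub, hω, map_one,
    show (o.ω ^ 2 - 1) * (o.ω - 1) = 3 by linear_combination (o.ω - 2) * o.h, inv_mul_cancel₀ o.three, one_smul]

section unit
variable {σ : F →+* F} {hσ : ∀ a, σ (σ a) = a} {hne : ∃ a, σ a ≠ a} [Finite F]

theorem X_sim (hs : ∀ g, M.mem g → Sim σ g) (g : N3 F) (hg : (Xg (Dg M)).mem g) : Sim σ g := by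
  obtain ⟨g, hg, rfl⟩ := hg
  obtain ⟨μ, e⟩ := hs _ hg
  rw [adj, blockDiagonal_map _ _ (map_zero σ), blockDiagonal_transpose, ← blockDiagonal_mul, ← blockDiagonal_one,
    ← blockDiagonal_smul, blockDiagonal_inj] at e
  exact ⟨μ, congrFun e 0⟩

theorem perm_isom {π : I → I} (hπ : π.Injective) (h : M.mem (Mon π 1)) :
    ∃ g ∈ sub M, g ∈ (herm I hσ hne).isom ∧ ∀ i, g (Pi.single i 1) = Pi.single (π i) 1 := by
  have := Mon_adj hπ (σ := σ) (d := 1) (by simp)
  exact ⟨le (mul_eq_one_comm.1 this), ⟨_, h, fun _ => rfl⟩, (isom_iff fun _ => rfl).2 this, fun i => by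
    ext j; simp [Mon_apply, Pi.single_apply]⟩

theorem end_unit (hp : ∀ a : F, σ a = a → ∃ n : ℕ, a = n) (hω : σ o.ω = o.ω ^ 2) (h : o.Over M)
    (hs : ∀ g, M.mem g → Sim σ g) {l : F} (l0 : l ≠ 0) (l3 : l ^ 3 ≠ 1) (hl : ∀ b c, b ≠ c → M.mem (hh b c l)) :
    sisom (herm I hσ hne) ≤ sub M := by
  have y := y1_hh.2 (hl (0, 0) (1, 0) (by decide))
  obtain ⟨h2, hX⟩ := (main3_unit (hσ := hσ) (hne := hne) hp hω (X_over h) (X_sim hs)).resolve_left
    fun H => not_nrm_hh l0 l3 (H _ y.X)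
  obtain ⟨b, hb⟩ := exists_norm hne hσ (c := -1) (by simp)
  obtain ⟨μ, hμ⟩ := X_sim hs _ y.X
  obtain rfl : 1 = μ := by simpa +decide [adj, hh, diagonal_map] using congrFun (congrFun hμ 2) 2
  rw [one_smul] at hμ
  have yi := (isom_iff (hσ := hσ) (hne := hne) (e := le (mul_eq_one_comm.1 hμ)) fun _ => rfl).2 hμ
  let Y := subOf (Y1 (Dg M)) y1_one Y1.mul Y1.inv
  have hn : ∀ g ∈ sub (Xg (Dg M)), ∀ y ∈ Y, g * y * g⁻¹ ∈ Y := by
    rintro g ⟨A, a1, a2⟩ y ⟨B, b1, b2⟩
    obtain ⟨C, -, c1, c2⟩ := (Xg (Dg M)).inv a1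
    refine ⟨A * B * C, b1.conj a1 (by rw [mul_assoc, c2, mul_one]), fun x => ?_⟩
    obtain ⟨x, rfl⟩ := g.surjective x
    simp [a2, b2, mul_assoc, c2, (LinearEquiv.symm_apply_eq g).2 (a2 x).symm]
  obtain ⟨v, v0, v1, v2⟩ : ∃ v : Z3 → F, v 0 = 1 ∧ v 1 = 0 ∧ v 2 = b := ⟨![1, 0, b], rfl, rfl, rfl⟩
  have vv : (herm Z3 hσ hne).Sing v := sing (by simp [herm_B, dotProduct, sum_z3, v0, v1, v2, hb])
  have hF : Full (herm Z3 hσ hne) Y ⊤ := full_of_orbit o (v := v) (fun e => by simp [e] at v0) fun w => by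
    have e1 : le (o.η_neg w) ∈ sub (Xg (Dg M)) := ⟨_, (X_over h).η w, fun _ => rfl⟩
    have e2 := η_le (hσ := hσ) (hne := hne) hω w
    change Ctr _ Y (le (o.η_neg w) v)
    generalize le (o.η_neg w) = g at e1 e2
    refine ctr_of_normal hne h2 o.three (by rintro _ ⟨A, a1, a2⟩; exact ⟨A, a1.X, a2⟩) hn
      (hn _ e1 _ ⟨_, y, fun _ => rfl⟩) (mul_mem (mul_mem e2 yi) (inv_mem e2))
      (Ctr.map ⟨vv, fun c hc => hX (tau_mem_sisom _ vv c hc)⟩ e1 e2) ?_
    change (herm Z3 hσ hne).B (g _) (g (_ *ᵥ g.symm (g _))) ≠ 0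
    rw [PQ.B_isom e2, LinearEquiv.symm_apply_apply, herm_B, dotProduct, sum_z3]
    intro e
    exact l3 (by rw [show l = 1 from σ.injective (by
      simpa +decide [hh, mulVec_diagonal, v0, v1, v2, hb, add_neg_eq_zero] using e), one_pow])
  have on := herm_on (J := I) (hσ := hσ) (hne := hne)
  obtain ⟨Y, y1, y2, y3⟩ := core hne (on.cs_nd {(0, 0), (1, 0), (2, 0)}) (by rw [on.cs_finrank]; rfl)
    (Full.ef hne ⟨-1, by simp, by simp, fun e => h2 (by linear_combination -e)⟩ (on.cs_nd _) (M := sub M)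
      fun v hv hs => by
        have e : v = ex0 fun i => v (i, 0) := by
          ext ⟨i, k⟩
          by_cases hk : k = 0
          · simp [ex0, hk]
          · simpa [ex0, hk, herm_B, dotProduct, Pi.single_apply, apply_ite σ] using hv (i, k) (by simp [hk])
        generalize (fun i => v (i, 0)) = u at e
        subst e
        have hu : (herm Z3 hσ hne).B u u = 0 := by
          simpa +decide [herm_B, dotProduct, Fintype.sum_prod_type, ex0, sum_z3] using hs
        refine ctr_iff.2 ⟨hs, fun c hc => (ht_iff hs).2 ?_⟩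
        have : M.mem _ := (ht_iff hu).1 (Ctr.ht (hF u trivial hu) hc)
        rw [bd_Tm] at this
        convert this using 2
        ext j; simp [ex0, apply_ite σ])
  refine Full.sisom_le hne on.nd (by simp) (y2.mono fun x _ => ?_)
  rw [← on.sum x]
  refine Y.sum_mem fun j _ => Y.smul_mem _ ?_
  have c0 := y1 (on.e_mem (a := (0, 0)) (by simp))
  by_cases hj : j = (0, 0)
  · exact hj ▸ c0
  obtain ⟨π, p1, p2, rfl, e⟩ := trans2 h (a := (1, 0)) (c := (0, 0)) (by decide) hj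
  obtain ⟨g, g1, g2, g3⟩ := perm_isom (hσ := hσ) (hne := hne) p1 p2
  have := (y2 _ (add_mem (y1 (on.e_mem (a := (1, 0)) (by simp))) (Y.smul_mem b c0)) (by
    simp [on.B_e]; linear_combination hb)).map g1 g2
  rw [map_add, map_smul, g3, g3, e] at this
  rcases y3 _ this with h1 | h1
  · simpa using Y.sub_mem h1 (Y.smul_mem b c0)
  · have := h1 _ c0
    simp [on.B_e, hj] at this
    simp [this] at hb

theorem end_two (hp : ∀ a : F, σ a = a → ∃ n : ℕ, a = n) (hω : σ o.ω = o.ω ^ 2) (h : o.Over M) (h2 : (2 : F) = 0)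
    (hl : ∀ b c, b ≠ c → M.mem (hh b c o.ω)) (hs : ∀ b c, b ≠ c → M.mem (Mon (Equiv.swap b c) 1)) :
    sisom (herm I hσ hne) ≤ sub M := by
  have on := herm_on (J := I) (hσ := hσ) (hne := hne)
  have k1 : ∀ π : Equiv.Perm I, M.mem (Mon π 1) ∧ (Mon π (1 : I → F)).det = 1 := fun π => by
    induction π using Equiv.Perm.swap_induction_on with
    | one => rw [Mon_one (by simp) (by simp)]; exact ⟨M.one, det_one⟩
    | swap_mul π x y e ih =>
      have e1 : Mon (Equiv.swap x y * π) (1 : I → F) = Mon (Equiv.swap x y) 1 * Mon π 1 := by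
        rw [Mon_mul]; exact Mon_congr (by simp) (by simp)
      have e2 := congrArg det (Mon_adj (Equiv.swap x y).injective (σ := RingHom.id F) (d := 1) (by simp))
      rw [det_mul, det_transpose, det_one, show ∀ A : N9 F, A.map (RingHom.id F) = A from fun _ => rfl] at e2
      rw [e1, det_mul, ih.2, mul_one]
      refine ⟨M.mul (hs x y e) ih.1, sub_eq_zero.1 (pow_eq_zero_iff two_ne_zero |>.1 ?_)⟩
      linear_combination e2 + (1 - (Mon (Equiv.swap x y) (1 : I → F)).det) * h2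
  have k2 : ∀ d : I → F, (∀ j, d j ≠ 0) → ∀ s : Finset I, 0 ∉ s →
      M.mem (diagonal fun j => if j ∈ s then d j else if j = 0 then (∏ i ∈ s, d i)⁻¹ else 1) := fun d d0 s => by
    induction s using Finset.induction_on with
    | empty => simpa using M.one
    | insert a s ha ih =>
      intro h0
      rw [Finset.mem_insert, not_or] at h0
      have : M.mem (hh a 0 (d a)) := by
        obtain ⟨q, e⟩ := o.exists_χ (four_of hσ hp hω h2 _ (d0 a)).2
        rw [e]
        rcases z3 q with rfl | rfl | rfl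
        · simpa [hh] using M.one
        · simpa using hl a 0 (Ne.symm h0.1)
        · rw [← inv_inv (o.χ _), inv_eq_of_mul_eq_one_right (o.χ_neg 1), hh_swap (Ne.symm h0.1), Om.χ1]
          exact hl 0 a h0.1
      convert M.mul this (ih h0.2) using 1
      rw [hh, diagonal_mul_diagonal, Finset.prod_insert ha]
      congr 1; ext j
      by_cases e : j = a
      · simp [e, ha, Ne.symm h0.1]
      by_cases e' : j = 0 <;> simp [e, e', h0, mul_comm]
  refine ((MS.max hne (M := sub M ⊓ sisom _) ⟨on, inf_le_right, fun g hg hm => ⟨?_, hg⟩⟩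
    (Or.inl (by simp))).resolve_left fun H => ?_).trans inf_le_left
  · obtain ⟨π, hπ⟩ := on.exists_perm hm
    choose d hd using hπ
    have e : ∀ x, g x = (Mon π 1 * diagonal d) *ᵥ x := fun x => by
      rw [← on.sum x]
      simp only [map_sum, map_smul, mulVec_sum, mulVec_smul, hd]
      refine Finset.sum_congr rfl fun i _ => congrArg _ (funext fun j => ?_)
      simp [Mon_apply, Pi.single_apply]
    have d0 := fun j => on.coeff_ne (hd j)
    have := (det_le e).1 hg.2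
    rw [det_mul, (k1 π).2, one_mul, det_diagonal, ← Finset.mul_prod_erase _ _ (Finset.mem_univ 0)] at this
    refine ⟨_, M.mul (k1 π).1 ?_, e⟩
    convert k2 d d0 (Finset.univ.erase 0) (by simp) using 2
    ext j
    by_cases e : j = 0 <;> simp [e, eq_inv_of_mul_eq_one_left this]
  · have a1 := adj_uh hω (0, (0, 1))
    obtain ⟨j, c, e⟩ := H (le (mul_eq_one_comm.1 a1)) ⟨⟨_, M.smul (inv_ne_zero o.sub_ne) (h.U _), fun _ => rfl⟩,
      (isom_iff fun _ => rfl).2 a1, (det_le fun _ => rfl).2 (det_uh _ (by decide))⟩ 0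
    have e1 := congrFun e (0, 1)
    have e2 := congrFun e (0, 2)
    have := inv_ne_zero o.sub_ne
    simp +decide [Om.U, η_shift, Mon_apply, one_apply, Pi.single_apply] at e1 e2
    split_ifs at e1 e2 with a b <;> first | exact absurd (a.trans b.symm) (by decide) | contradiction

end unit

end Cfsg.Agent.H6.T
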