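import Cfsg.Agent.H6.T7

/-! Maximality of the normaliser of `3^{1+4}` in dimension nine. -/

set_option autoImplicit false
set_option linter.unusedSectionVars false
set_option linter.unusedSimpArgs false
set_option linter.unusedVariables false

namespace Cfsg.Agent.H6.T

open Matrix Cfsg.Agent.H4.E Cfsg.Agent.Form Cfsg.Agent.H6.SU Cfsg.Agent.H7

variable {F : Type*} [Field F] {o : Om F} {M : Gp F (N9 F)}

theorem π_eq' {g k : M.grp} {c : F} (h : (k.1 : N9 F) = c • g.1) : (g : M.PG) = k :=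
  Gp.π_eq.2 ⟨c, fun c0 => k.1.ne_zero (by rw [h, c0, zero_smul]), h⟩

theorem cj_iff (h : o.Over M) (g : M.grp) (u v : W) :
    (g : M.PG) * (Gp.el (h.η u) : M.PG) * (g : M.PG)⁻¹ = (Gp.el (h.η v) : M.PG) ↔ o.Cj g.1.1 u v := by
  rw [mul_inv_eq_iff_eq_mul, eq_comm, ← QuotientGroup.mk_mul, ← QuotientGroup.mk_mul]
  exact ⟨fun e => (Gp.π_eq.1 e).imp fun c e => e.2, fun ⟨c, e⟩ => π_eq' e⟩

theorem z_mem (h : o.Over M) : M.mem (Mon Neg.neg 1) :=
  h _ (.of_mul_eq_one _ Om.neg_sq) fun u => ⟨-u, 1, by rw [Om.neg_η, one_smul]⟩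

/-- the group data -/
noncomputable def gd (h : o.Over M) : GD M.PG where
  ι u := Gp.el (h.η u)
  add u v := π_eq' (o.η_mul u v)
  inj u e := (Gp.π_eq.1 (e.symm : ((1 : M.grp) : M.PG) = _)).elim fun c e =>
    Om.η_inj (o := o) (c := c) (by rw [Om.η0]; exact e.2)
  cent g := QuotientGroup.induction_on g fun g e => by
    obtain ⟨w, c, -, e⟩ := Om.inner g.1.isUnit fun u => (cj_iff h ..).1 (e u)
    exact ⟨w, (π_eq' e).symm⟩
  hf g := QuotientGroup.induction_on g fun g u u' v v' e e' =>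
    ((cj_iff h ..).1 e).f_eq g.1.isUnit ((cj_iff h ..).1 e')
  surj A a := by
    obtain ⟨m, m1, m2⟩ := Om.exists_lift h.U (LinearEquiv.ofBijective A
      ⟨Finite.injective_iff_surjective.2 a.surj, a.surj⟩) a
    exact ⟨Gp.el m1, fun u => (cj_iff h ..).2 (m2 u)⟩
  z := Gp.el (z_mem h)
  zz := π_eq' (c := 1) (by rw [one_smul]; exact Om.neg_sq.symm)
  za u := (cj_iff h ..).2 ⟨1, by rw [one_smul]; exact Om.neg_η o u⟩

theorem mem_N (h : o.Over M) {g : M.grp} : (g : M.PG) ∈ (gd h).N ↔ o.Nrm g.1.1 :=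
  ⟨fun ⟨A, e⟩ u => ⟨_, (cj_iff h ..).1 (e u)⟩, fun e => GD.exists_act fun u => (e u).imp fun _ => (cj_iff h ..).2⟩

/-- the involution -/
def a0 (F : Type*) [Field F] : N9 F := Mon (fun j => (j.1, -j.2)) 1
/-- a basis of the image of `1 - a0` -/
def NN (F : Type*) [Field F] : Matrix I Z3 F :=
  of fun j i => if j = (i, 1) then 1 else if j = (i, 2) then -1 else 0
/-- a left inverse -/
def Nl (F : Type*) [Field F] : Matrix Z3 I F := of fun i j => if j = (i, 1) then 1 else 0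
/-- the action on the image of `1 - a0` -/
def ρ (g : N9 F) : N3 F := Nl F * g * NN F
/-- centralising the involution -/
def CA (g : N9 F) : Prop := g * a0 F = a0 F * g

theorem a0_η (w : W) : a0 F * o.η w = o.η (A0 w) * a0 F := by
  rw [show A0 w = ((w.1.1, -w.1.2), (w.2.1, -w.2.2)) by revert w; decide, a0, Om.η, Om.η, Mon_mul, Mon_mul]
  exact Mon_congr (fun j => by simp [add_comm]) fun j => by simp [Bf.β]; congr 1; ring

theorem a0_sq : a0 F * a0 F = 1 := by rw [a0, Mon_mul]; exact Mon_one (by simp) (by simp)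

theorem a0_eq : a0 F = 1 - NN F * (NN F)ᵀ := by
  ext ⟨i, k⟩ ⟨j, l⟩
  rcases z3' i with rfl | rfl | rfl <;> rcases z3' j with rfl | rfl | rfl <;>
  rcases z3' k with rfl | rfl | rfl <;> rcases z3' l with rfl | rfl | rfl <;>
    simp +decide [a0, NN, Mon_apply, mul_apply, sum_z3, one_apply]

theorem ρ_apply (g : N9 F) (i j : Z3) : ρ g i j = g (i, 1) (j, 1) - g (i, 1) (j, 2) := by
  have : ∀ k, (Nl F * g) i k = g (i, 1) k := fun k => by simp [Nl, mul_apply]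
  rw [ρ, mul_apply]
  simp only [this, Fintype.sum_prod_type, sum_z3, NN]
  rcases z3' j with rfl | rfl | rfl <;> simp +decide [sub_eq_add_neg]

@[simp] theorem ρ_one : ρ (1 : N9 F) = 1 := by ext i j; simp +decide [ρ_apply, one_apply]
theorem Nl_NN : Nl F * NN F = 1 := by simpa [ρ, -ρ_one] using ρ_one (F := F)
theorem ρ_smul (c : F) (g : N9 F) : ρ (c • g) = c • ρ g := by simp [ρ]
theorem ρ_cst (n : N3 F) : ρ (blockDiagonal fun _ => n) = n := by
  ext i j; simp +decide [ρ_apply, blockDiagonal_apply]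
theorem η_emb (u : I) : o.η (emb u) = blockDiagonal fun _ => o.η u := by simpa [emb] using η_bd (o := o) u 0

variable {g k : N9 F}

theorem CA.r (h : CA g) : ρ g * (NN F)ᵀ = (NN F)ᵀ * g := by
  rw [CA, a0_eq, mul_sub, sub_mul, mul_one, one_mul, sub_right_inj] at h
  rw [ρ, Matrix.mul_assoc, Matrix.mul_assoc, h, ← Matrix.mul_assoc, ← Matrix.mul_assoc, Nl_NN, Matrix.one_mul]

theorem CA.l (h : CA g) : g * NN F = NN F * ρ g := by
  have e : (NN F)ᵀ * (Nl F)ᵀ = 1 := by rw [← transpose_mul, Nl_NN, transpose_one]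
  have := h.r
  rw [CA, a0_eq, mul_sub, sub_mul, mul_one, one_mul, sub_right_inj] at h
  rw [← Matrix.mul_one (g * NN F), ← Matrix.mul_one (NN F * ρ g), ← e, ← Matrix.mul_assoc, ← Matrix.mul_assoc,
    Matrix.mul_assoc g, h, Matrix.mul_assoc _ (ρ g), this, Matrix.mul_assoc (NN F)]

theorem CA.ρ_mul (h : CA k) (g : N9 F) : ρ (g * k) = ρ g * ρ k := by
  rw [ρ, ← Matrix.mul_assoc, Matrix.mul_assoc, h.l, ← Matrix.mul_assoc]; rfl
theorem CA.mul (h : CA g) (h' : CA k) : CA (g * k) := Commute.mul_left h h'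
theorem CA.smul (h : CA g) (c : F) : CA (c • g) := Commute.smul_left h c
theorem CA.inv (h : CA g) (e : g * k = 1) : CA k := by
  rw [CA, ← mul_one (k * _), ← e, ← mul_assoc, mul_assoc k, ← h, ← mul_assoc, mul_eq_one_comm.1 e, one_mul]
theorem ca_one : CA (1 : N9 F) := Commute.one_left _
theorem ca_cst (n : N3 F) : CA (blockDiagonal fun _ => n) := by
  ext i j
  obtain ⟨i, rfl⟩ := (by decide : Function.Surjective fun j : I => (j.1, -j.2)) i
  rw [a0, mul_Mon, Mon_mul_apply (by decide)]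
  simp [blockDiagonal_apply, neg_eq_iff_eq_neg]
theorem CA.emb {w : W} (h : CA (o.η w)) : ∃ u, w = emb u :=
  ⟨_, of_A0 (Om.η_inj (o := o) (c := 1) (by
    rw [one_smul, ← (IsUnit.of_mul_eq_one _ a0_sq).mul_left_inj, ← a0_η, h]))⟩
theorem ca_U {w : W} (h : A0 w = -w) : CA (o.U w) := by
  rw [CA, o.conj_U (a0_η w), h, Om.U, Om.U, neg_neg, add_right_comm]

theorem CA.nrm (h : CA g) (u : IsUnit g) (hn : o.Nrm g) : o.Nrm (ρ g) := fun y => by
  obtain ⟨v, c, e⟩ := hn (T.emb y)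
  have c1 : ∀ y, CA (o.η (T.emb y)) := fun y => η_emb (o := o) y ▸ ca_cst _
  obtain ⟨v, rfl⟩ := CA.emb (o := o) (w := v) (by
    have := (h.mul (c1 y)).smul c⁻¹
    rw [e, inv_smul_smul₀ (Om.cj_ne u e), CA, mul_assoc, h, ← mul_assoc, ← mul_assoc, u.mul_left_inj] at this
    exact this)
  refine ⟨v, c, ?_⟩
  have := congrArg ρ e
  rwa [(c1 y).ρ_mul, ρ_smul, h.ρ_mul, η_emb, η_emb, ρ_cst, ρ_cst] at this

/-- the image of the centraliser -/
def Xr (M : Gp F (N9 F)) : Gp F (N3 F) where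
  mem a := ∃ g, M.mem g ∧ CA g ∧ ρ g = a
  one := ⟨1, M.one, ca_one, ρ_one⟩
  mul := by rintro _ _ ⟨g, a, b, rfl⟩ ⟨k, c, d, rfl⟩; exact ⟨_, M.mul a c, b.mul d, d.ρ_mul g⟩
  smul := by rintro _ c c0 ⟨g, a, b, rfl⟩; exact ⟨_, M.smul c0 a, b.smul c, ρ_smul c g⟩
  inv := by
    rintro _ ⟨g, a, b, rfl⟩
    obtain ⟨k, c, d, e⟩ := M.inv a
    exact ⟨_, ⟨k, c, b.inv d, rfl⟩, by rw [← (b.inv d).ρ_mul, d, ρ_one], by rw [← b.ρ_mul, e, ρ_one]⟩

/-- the kernel -/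
def Kr (M : Gp F (N9 F)) : Gp F (N9 F) where
  mem g := M.mem g ∧ CA g ∧ ∃ c : F, ρ g = c • 1
  one := ⟨M.one, ca_one, 1, by simp⟩
  mul := fun ⟨a, b, c, e⟩ ⟨a', b', c', e'⟩ => ⟨M.mul a a', b.mul b', c' * c, by simp [b'.ρ_mul, e, e', smul_smul]⟩
  smul := fun {_ c} c0 ⟨a, b, d, e⟩ => ⟨M.smul c0 a, b.smul c, c * d, by rw [ρ_smul, e, smul_smul]⟩
  inv := fun ⟨a, b, c, e⟩ => by
    obtain ⟨k, c', d, e'⟩ := M.inv a
    have := b.ρ_mul k
    rw [e', e, ρ_one, mul_smul_comm, mul_one] at this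
    exact ⟨_, ⟨c', b.inv d, c⁻¹, (eq_inv_smul_iff₀ (by rintro rfl; simp at this)).2 this.symm⟩, d, e'⟩

theorem Xr_over (h : o.Over M) : o.Over (Xr M) := fun n hn hn' => ⟨_, D_cst h hn hn', ca_cst n, ρ_cst n⟩

theorem Xr_sim {σ : F →+* F} (hs : ∀ g, M.mem g → Sim σ g) (a : N3 F) (ha : (Xr M).mem a) : Sim σ a := by
  obtain ⟨g, g1, g2, rfl⟩ := ha
  obtain ⟨μ, e⟩ := hs g g1
  have e1 := congrArg (fun A => (A.map σ)ᵀ) g2.r
  have e2 : (NN F)ᵀ.map σ = (NN F)ᵀ := by ext; simp [NN, apply_ite σ]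
  simp only [Matrix.map_mul, e2, transpose_mul, transpose_transpose] at e1
  refine ⟨μ, ?_⟩
  rw [← Matrix.one_mul (_ * _), ← Nl_NN, Matrix.mul_assoc, ← Matrix.mul_assoc (NN F), adj, e1, Matrix.mul_assoc,
    ← g2.l, ← Matrix.mul_assoc _ g, show (g.map σ)ᵀ * g = _ from e]
  simp

theorem U_sq (v : W) {a : F} (h : a ^ 2 + a + 1 = 0) : (a • 1 + o.η v + o.η (-v)) * (a • 1 + o.η v + o.η (-v)) =
    (2 * a + 1) • (a • 1 + o.η v + o.η (-v)) + (3 : F) • 1 := by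
  simp only [mul_add, add_mul, smul_mul_assoc, mul_smul_comm, one_mul, mul_one, Om.η_sq, Om.η_neg, Om.η_neg', neg_neg]
  match_scalars
  exacts [by linear_combination -h, by ring, by ring]

theorem tr_conj {g g' : N9 F} (e : g * g' = 1) (A : N9 F) : (g * A * g').trace = A.trace := by
  rw [trace_mul_cycle, mul_eq_one_comm.1 e, one_mul]

theorem not_real {v : W} (hv : v ≠ 0) {g g' : N9 F} (e : g * g' = 1) (c : F) : g * o.U v * g' ≠ c • o.U' v := fun h => by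
  have n9 : (9 : F) ≠ 0 := by rw [show (9 : F) = 3 * 3 by norm_num]; exact mul_ne_zero o.three o.three
  have t1 := o.tr_η hv
  have t2 := o.tr_η (neg_ne_zero.2 hv)
  have h1 := congrArg trace h
  rw [tr_conj e] at h1
  have h2 : g * o.U v * g' * (g * o.U v * g') = (2 * o.ω + 1) • (g * o.U v * g') + (3 : F) • 1 := by
    rw [mul_assoc, ← mul_assoc g', ← mul_assoc g', mul_eq_one_comm.1 e, one_mul, ← mul_assoc, mul_assoc g,
      show o.U v * o.U v = _ from U_sq v o.h]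
    simp [mul_add, add_mul, e, Om.U]
  rw [h, smul_mul_smul_comm, show o.U' v * o.U' v = _ from U_sq v (by linear_combination (o.ω ^ 2 - o.ω + 1) * o.h)] at h2
  replace h2 := congrArg (fun A => (o.η (-v) * A).trace) h2
  simp [Om.U, Om.U', t1, t2, mul_add, Om.η_sq] at h1 h2
  have := o.h
  have := o.sq_ne1
  have := o.ne0
  grind

section main
variable (h : o.Over M)
include h

theorem a0_mem : M.mem (a0 F) := h _ (.of_mul_eq_one _ a0_sq) fun u => ⟨_, 1, by rw [a0_η, one_smul]⟩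

theorem s_A0 : (gd h).s A0 = Gp.el (a0_mem h) := (GD.Act.eq_s (D := gd h)
  (fun u => (cj_iff h ..).2 ⟨1, by rw [one_smul]; exact a0_η u⟩) (π_eq' (c := 1) (by
    change Mon _ _ * a0 F = _ • (a0 F * Mon _ _)
    rw [one_smul, a0, Mon_mul, Mon_mul]; exact Mon_congr (by simp) (by simp)))).symm

theorem tr_a0 : (a0 F).trace = 3 := by
  simp only [trace, Fintype.sum_prod_type, sum_z3]
  simp +decide [a0, Mon_apply]; norm_num

theorem ca_iff (g : M.grp) : (g : M.PG) * (gd h).s A0 = (gd h).s A0 * g ↔ CA g.1.1 := by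
  rw [s_A0]
  refine ⟨fun e => ?_, fun e => π_eq' (c := 1) (by rw [one_smul]; exact e.symm)⟩
  obtain ⟨c, -, e⟩ := (Gp.π_eq (g := Gp.el (a0_mem h) * g) (k := g * Gp.el (a0_mem h))).1 e.symm
  replace e : g.1.1 * a0 F = c • (a0 F * g.1.1) := e
  have := tr_conj g.1.val_inv (a0 F)
  rw [e, smul_mul_assoc, mul_assoc, g.1.val_inv, mul_one, trace_smul, tr_a0 h, smul_eq_mul,
    mul_eq_right₀ o.three] at this
  rwa [this, one_smul] at e

theorem not_P : ¬ (gd h).P (gd h).z := by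
  rintro ⟨g, e⟩
  obtain ⟨g, rfl⟩ := QuotientGroup.mk_surjective g
  rw [s_A0] at e
  obtain ⟨c, -, e⟩ := (Gp.π_eq (g := g * Gp.el (a0_mem h) * g⁻¹) (k := Gp.el (z_mem h))).1 e.symm
  replace e : Mon Neg.neg 1 = c • (g.1.1 * a0 F * g.1.inv) := e
  have h1 := congrArg trace e
  rw [trace_smul, tr_conj g.1.val_inv, tr_a0 h] at h1
  have h2 := Om.neg_sq (J := I) (F := F)
  rw [e, smul_mul_smul_comm, mul_assoc, ← mul_assoc g.1.inv, ← mul_assoc g.1.inv, g.1.inv_val, one_mul, ← mul_assoc,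
    mul_assoc g.1.1, a0_sq, mul_one, g.1.val_inv] at h2
  replace h2 : c * c = 1 := by simpa using congrFun (congrFun h2 0) 0
  rw [trace, Fintype.sum_prod_type] at h1
  simp only [sum_z3] at h1
  simp +decide [Mon_apply] at h1
  obtain rfl : c = 1 := sub_eq_zero.1 (pow_eq_zero_iff (three_ne_zero) |>.1 (by grind))
  let r : Fin 4 → I := ![(0, 1), (1, 0), (1, 1), (1, 2)]
  have h3 : (g.1.1 * NN F).submatrix r id * ((NN F)ᵀ * g.1.inv).submatrix id r = 1 := by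
    rw [← submatrix_mul _ _ _ _ _ Function.bijective_id, Matrix.mul_assoc, ← Matrix.mul_assoc (NN F),
      show NN F * (NN F)ᵀ = 1 - a0 F by rw [a0_eq, sub_sub_cancel], sub_mul, mul_sub, one_mul, g.1.val_inv,
      ← mul_assoc, ← one_smul F (_ * _ * _), ← e]
    ext i j
    fin_cases i <;> fin_cases j <;> simp +decide [r, Mon_apply, one_apply]
  have := (rank_mul_le_left ..).trans (rank_le_card_width _) |> (congrArg rank h3).symm.trans_le
  simp at this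

theorem main_of [Finite F] (H : ∀ g, (Dg M).mem g → o.Nrm (blockDiagonal g : N9 F))
    (hX : (∀ g, (Xr M).mem g → o.Nrm g) ∨ ((2 : F) ≠ 0 ∧ (Xr M).mem (dm F))) {g : N9 F} (hg : M.mem g) : o.Nrm g := by
  let K := ((Kr M).grp.subgroupOf M.grp).map (QuotientGroup.mk' M.sca)
  have mK : ∀ {g : M.grp}, (g : M.PG) ∈ K ↔ (Kr M).mem g.1.1 := fun {g} => ⟨fun ⟨k, k1, e⟩ => by
    obtain ⟨c, c0, e⟩ := Gp.π_eq.1 e
    exact e ▸ (Kr M).smul c0 k1, fun e => ⟨g, e, rfl⟩⟩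
  have hI : ∀ w, w ≠ 0 → ∀ g, g * (gd h).ι w * g⁻¹ = (gd h).ι w → g ∈ (gd h).N := fun w hw g =>
    QuotientGroup.induction_on g fun g e => (mem_N h).2 (I_all h H hw g.2 ((cj_iff h ..).1 e))
  have hKn : ∀ g, g * (gd h).s A0 = (gd h).s A0 * g → ∀ k ∈ K, g * k * g⁻¹ ∈ K := fun g =>
    QuotientGroup.induction_on g fun g e k => QuotientGroup.induction_on k fun k hk => by
      obtain ⟨k1, k2, c, k3⟩ := mK.1 hk
      have c1 := (ca_iff h g).1 e
      have c2 := c1.inv g.1.val_inv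
      refine (mK (g := g * k * g⁻¹)).2 ⟨(g * k * g⁻¹).2, (c1.mul k2).mul c2, c, ?_⟩
      change ρ (g.1.1 * k.1.1 * g.1.inv) = _
      rw [c2.ρ_mul, k2.ρ_mul, k3, mul_smul_comm, mul_one, smul_mul_assoc, ← c2.ρ_mul, g.1.val_inv, ρ_one]
  have hKW : ∀ w, (gd h).ι w ∈ K → w = 0 := fun w e => by
    obtain ⟨-, k2, c, k3⟩ := mK.1 e
    obtain ⟨u, rfl⟩ := CA.emb k2
    rw [Gp.el_val, η_emb, ρ_cst, ← o.η0] at k3
    rw [Om.η_inj k3]; rfl
  have hd : (Gp.el (h.U e2) : M.PG) ∈ K := mK.2 ⟨h.U _, ca_U (by decide), o.ω - 1, by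
    ext i j
    by_cases e : i = j <;> simp +decide [ρ_apply, Om.U, Om.η, e2, Mon_apply, Bf.β, one_apply, e]
    linear_combination o.h⟩
  have hd' : (Gp.el (h.U f2) : M.PG) ∈ K := mK.2 ⟨h.U _, ca_U (by decide), o.ω - 1, by
    ext i j
    by_cases e : i = j <;> simp +decide [ρ_apply, Om.U, Om.η, f2, Mon_apply, Bf.β, one_apply, e]⟩
  have ad := fun v w => (cj_iff h (Gp.el (h.U v)) ..).2 (o.cj_U v w)
  have d3 : (Gp.el (h.U e2) : M.PG) ^ 3 = 1 := (π_eq' (g := 1) (k := Gp.el (h.U e2) ^ 3) (c := (2 * o.ω + 1) * 3) (by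
    change o.U e2 ^ 3 = _ • 1
    rw [mul_smul, ← o.U_mul e2, pow_succ', pow_two, show o.U e2 * o.U e2 = _ from U_sq e2 o.h, ← mul_smul_comm, Om.U']
    congr 1
    match_scalars
    exacts [by linear_combination o.h - 2 * o.cube, by ring, by ring])).symm
  have hr : ∀ g : M.PG, g * Gp.el (h.U e2) * g⁻¹ ≠ (Gp.el (h.U e2) : M.PG)⁻¹ := fun g =>
    QuotientGroup.induction_on g fun g e => by
      obtain ⟨c, -, e⟩ := (Gp.π_eq (g := (Gp.el (h.U e2))⁻¹) (k := g * Gp.el (h.U e2) * g⁻¹)).1 e.symm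
      refine not_real (o := o) (v := e2) (by decide) g.1.val_inv (c * 3⁻¹) (e.trans ?_)
      rw [mul_smul]; congr 1
      exact Units.inv_eq_of_mul_eq_one_right (o.U_inv _)
  refine (mem_N h (g := Gp.el hg)).1 (GD.level1 (not_P h) (fun g => QuotientGroup.induction_on g fun g e => ?_) _)
  rcases hX with hX | ⟨h2, k, k1, k2, k3⟩
  · have c1 := (ca_iff h g).1 e
    have x : (Xr M).mem _ := ⟨_, g.2, c1, rfl⟩
    have m : M.mem _ := D_cst h (Gp.isUnit x) (hX _ x)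
    have c2 := (ca_cst (ρ g.1.1)).inv (Gp.el m).1.val_inv
    refine (Subgroup.mul_mem_cancel_right _ (inv_mem ((mem_N h (g := Gp.el m)).2 (nrm_cst (hX _ x))))).1
      (GD.G1 hI hKn hKW hd (ad _) d3 hr ((mK (g := g * (Gp.el m)⁻¹)).2 ⟨(g * (Gp.el m)⁻¹).2, c1.mul c2, 1, ?_⟩))
    change ρ (g.1.1 * (Gp.el m).1.inv) = _
    rw [c2.ρ_mul, one_smul, ← ρ_one, ← (Gp.el m).1.val_inv, c2.ρ_mul, Gp.el_val, ρ_cst]
  · have c1 : ∀ y, CA (o.η (T.emb y)) := fun y => η_emb (o := o) y ▸ ca_cst _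
    have c2 := k2.inv (Gp.el k1).1.val_inv
    have c3 := (c1 (1, 0)).inv (Gp.el (h.η (emb (1, 0)))).1.val_inv
    refine absurd (k3 ▸ k2.nrm (Gp.isUnit k1) ((mem_N h (g := Gp.el k1)).1 (GD.G2 hI hKn hKW hd (ad _) d3 hr hd' (ad _)
      ((ca_iff h _).2 k2) (u := (1, 0)) (by decide) ((mK (g := Gp.el k1 * Gp.el (h.η (emb (1, 0))) * (Gp.el k1)⁻¹ *
        (Gp.el (h.η (emb (1, 0))))⁻¹)).2 ⟨Subtype.prop (p := (· ∈ M.grp)) _, ((k2.mul (c1 _)).mul c2).mul c3, 1, ?_⟩))))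
      (not_nrm_dm h2)
    change ρ (k * o.η (emb (1, 0)) * (Gp.el k1).1.inv * (Gp.el (h.η (emb (1, 0)))).1.inv) = _
    have e1 : ρ k * ρ (o.η (emb (1, 0))) = ρ (o.η (emb (1, 0))) * ρ k := by
      rw [k3, η_emb, ρ_cst, η_diag, dm, diagonal_mul_diagonal, diagonal_mul_diagonal]; simp [mul_comm]
    rw [c3.ρ_mul, c2.ρ_mul, (c1 _).ρ_mul, e1, mul_assoc (ρ _), ← c2.ρ_mul, show k * _ = 1 from (Gp.el k1).1.val_inv,
      ρ_one, mul_one, ← c3.ρ_mul, one_smul, ← ρ_one]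
    exact congrArg ρ (Gp.el (h.η (emb (1, 0)))).1.val_inv

theorem main_lin [Finite F] (hp : ∀ a : F, ∃ n : ℕ, a = n) (h2 : (2 : F) ≠ 0) :
    (∀ g, M.mem g → o.Nrm g) ∨ ∀ A : N9 F, A.det = 1 → M.mem A := by
  rcases I_gen h with H | ⟨l, l0, l3, H⟩ | H
  · exact Or.inl fun g => main_of h H ((main3_lin hp h2 (Xr_over h)).imp_right fun e => ⟨h2, e.dm_mem⟩)
  · exact Or.inr (end_lin hp h2 h l0 l3 H)
  · exact absurd H.1 h2

theorem main_unit [Finite F] {σ : F →+* F} (hσ : ∀ a, σ (σ a) = a) (hne : ∃ a, σ a ≠ a)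
    (hp : ∀ a : F, σ a = a → ∃ n : ℕ, a = n) (hω : σ o.ω = o.ω ^ 2) (hs : ∀ g, M.mem g → Sim σ g) :
    (∀ g, M.mem g → o.Nrm g) ∨ ∀ A : N9 F, adj σ A * A = 1 → A.det = 1 → M.mem A := by
  rcases I_gen h with H | ⟨l, l0, l3, H⟩ | H
  · exact Or.inl fun g => main_of h H ((main3_unit (hσ := hσ) (hne := hne) hp hω (Xr_over h) (Xr_sim hs)).imp_right
      fun e => ⟨e.1, dm_mem_unit e.2⟩)
  · exact Or.inr fun A => mem_of_sisom (end_unit (hσ := hσ) (hne := hne) hp hω h hs l0 l3 H)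
  · exact Or.inr fun A => mem_of_sisom (end_two (hσ := hσ) (hne := hne) hp hω h H.1 H.2.1 H.2.2)

end main

end Cfsg.Agent.H6.T
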