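import Cfsg.Agent.H2.MiK

set_option autoImplicit false

/-! Baer-Suzuki theorem, lifting of `p`-elements, subgroups of `PGL₂` generated by two rotations. -/

namespace Cfsg.Agent.H6.W
open Matrix

section grp
variable {G : Type*} [Group G]

theorem bs_step [Finite G] {p : ℕ} [Fact p.Prime] {D : Set G} (hD : ∀ g, ∀ x ∈ D, g * x * g⁻¹ ∈ D) {P J : Subgroup G}
    (hP : IsPGroup p P) (hJ : J ≤ P) {d : G} (hd : d ∈ D) (hdP : d ∈ P) (hdJ : d ∉ J) :
    ∃ x ∈ D, x ∈ P ∧ x ∉ J ∧ ∀ z ∈ D, z ∈ J → x * z * x⁻¹ ∈ J ∧ x⁻¹ * z * x ∈ J := by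
  obtain ⟨H, ⟨h1, h2, h3⟩, hm⟩ := Set.Finite.exists_maximal
    (s := {H : Subgroup G | J ≤ H ∧ H ≤ P ∧ ∀ z ∈ D, z ∈ H → z ∈ J}) (Set.toFinite _) ⟨J, le_rfl, hJ, fun _ _ h => h⟩
  have hn : Group.IsNilpotent P := hP.isNilpotent
  have hlt : H.subgroupOf P < ⊤ := lt_top_iff_ne_top.2 fun e => hdJ (h3 d hd (Subgroup.subgroupOf_eq_top.1 e hdP))
  have hN := Group.normalizerCondition_of_isNilpotent (H.subgroupOf P) hlt
  let N := (Subgroup.normalizer ((H.subgroupOf P : Subgroup P) : Set P)).map P.subtype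
  have hHN : H ≤ N := fun x hx => ⟨⟨x, h2 hx⟩, hN.le hx, rfl⟩
  by_contra hc
  have : N ≤ H := hm ⟨h1.trans hHN, Subgroup.map_subtype_le _, by
    rintro _ hz ⟨x, hx, rfl⟩
    by_contra hzJ
    refine hc ⟨x, hz, x.2, hzJ, fun z hz' hzJ' => ⟨h3 _ (hD _ _ hz') ?_, ?_⟩⟩
    · exact (hx ⟨z, hJ hzJ'⟩).1 (h1 hzJ')
    · simpa using h3 _ (hD (x : G)⁻¹ _ hz') ((inv_mem hx ⟨z, hJ hzJ'⟩).1 (h1 hzJ'))⟩ hHN
  obtain ⟨x, hx, hx'⟩ := SetLike.exists_of_lt hN
  exact hx' (this ⟨x, hx, rfl⟩)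

/-- the theorem of Baer and Suzuki -/
theorem baer_suzuki [Finite G] {p : ℕ} [Fact p.Prime] {D : Set G} (hD : ∀ g, ∀ x ∈ D, g * x * g⁻¹ ∈ D)
    (h : ∀ x ∈ D, ∀ y ∈ D, IsPGroup p (Subgroup.closure {x, y})) : IsPGroup p (Subgroup.closure D) := by
  have hcard : ∀ P Q : Sylow p G, D ∩ P ⊆ D ∩ Q → D ∩ P = D ∩ Q := fun P Q hs => by
    obtain ⟨g, hg⟩ := MulAction.exists_smul_eq G Q P
    refine Set.eq_of_subset_of_ncard_le hs (Set.ncard_le_ncard_of_injOn (fun x => g * x * g⁻¹) ?_ ?_)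
    · rintro x ⟨h1, h2⟩
      exact ⟨hD g x h1, by rw [← hg]; exact ⟨x, h2, rfl⟩⟩
    · intro x _ y _ e; simpa using e
  have key : ∀ P Q : Sylow p G, D ∩ P = D ∩ Q := by
    by_contra hc
    push Not at hc
    obtain ⟨⟨P, Q⟩, hPQ, hm⟩ := Set.Finite.exists_maximalFor (fun z : Sylow p G × Sylow p G => D ∩ z.1 ∩ z.2)
      {z | D ∩ z.1 ≠ D ∩ z.2} (Set.toFinite _) (by obtain ⟨P, Q, h⟩ := hc; exact ⟨(P, Q), h⟩)
    have st : ∀ P Q : Sylow p G, D ∩ P ≠ D ∩ Q → ∃ x ∈ D, x ∈ P ∧ x ∉ Q ∧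
        x ∈ Subgroup.normalizer (Subgroup.closure (D ∩ P ∩ Q) : Set G) := fun P Q hne => by
      obtain ⟨d, ⟨hd, hdP⟩, hdQ⟩ := Set.not_subset.1 fun hs => hne (hcard P Q hs)
      obtain ⟨x, h1, h2, h3, h4⟩ := bs_step hD P.isPGroup' (J := (P : Subgroup G) ⊓ Q) inf_le_left hd hdP
        fun k => hdQ ⟨hd, k.2⟩
      refine ⟨x, h1, h2, fun k => h3 ⟨h2, k⟩, ?_⟩
      have k : ∀ g : G, (∀ z ∈ D, z ∈ (P : Subgroup G) ⊓ Q → g * z * g⁻¹ ∈ (P : Subgroup G) ⊓ Q) →
          ∀ z ∈ Subgroup.closure (D ∩ P ∩ Q), g * z * g⁻¹ ∈ Subgroup.closure (D ∩ P ∩ Q) := fun g hg z hz => by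
        have : Subgroup.closure (D ∩ P ∩ Q) ≤ (Subgroup.closure (D ∩ P ∩ Q)).comap (MulAut.conj g).toMonoidHom :=
          (Subgroup.closure_le _).2 fun w hw => Subgroup.subset_closure
            ⟨⟨hD g w hw.1.1, (hg w hw.1.1 ⟨hw.1.2, hw.2⟩).1⟩, (hg w hw.1.1 ⟨hw.1.2, hw.2⟩).2⟩
        exact this hz
      refine fun z => ⟨k x (fun z a b => (h4 z a b).1) z, fun hz => ?_⟩
      simpa [mul_assoc] using k x⁻¹ (fun z a b => by simpa using (h4 z a b).2) _ hz
    obtain ⟨x, x1, x2, x3, x4⟩ := st P Q hPQ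
    obtain ⟨y, y1, y2, y3, y4⟩ := st Q P (Ne.symm hPQ)
    rw [Set.inter_right_comm] at y4
    have hJ : IsPGroup p (Subgroup.closure (D ∩ P ∩ Q)) :=
      P.isPGroup'.to_le ((Subgroup.closure_le _).2 fun z hz => hz.1.2)
    obtain ⟨R, hR⟩ := (IsPGroup.to_sup_of_normal_right' (h x x1 y y1) hJ ((Subgroup.closure_le _).2 (by
      rintro _ (rfl | rfl); exacts [x4, y4]))).exists_le_sylow
    have hx : x ∈ R := hR (Subgroup.mem_sup_left (Subgroup.subset_closure (by simp)))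
    have hy : y ∈ R := hR (Subgroup.mem_sup_left (Subgroup.subset_closure (by simp)))
    have hI : ∀ z ∈ D ∩ P ∩ Q, z ∈ R := fun z hz => hR (Subgroup.mem_sup_right (Subgroup.subset_closure hz))
    have e1 : D ∩ P = D ∩ R := by
      by_contra hne
      exact x3 (hm (j := (P, R)) hne (fun z hz => ⟨hz.1, hI z hz⟩) ⟨⟨x1, x2⟩, hx⟩).2
    have e2 : D ∩ Q = D ∩ R := by
      by_contra hne
      exact y3 (hm (j := (Q, R)) hne (fun z hz => ⟨⟨hz.1.1, hz.2⟩, hI z hz⟩) ⟨⟨y1, y2⟩, hy⟩).1.2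
    exact hPQ (e1.trans e2.symm)
  obtain ⟨P⟩ : Nonempty (Sylow p G) := inferInstance
  refine P.isPGroup'.to_le ((Subgroup.closure_le _).2 fun d hd => ?_)
  obtain ⟨Q, hQ⟩ := (h d hd d hd).exists_le_sylow
  have : d ∈ D ∩ Q := ⟨hd, hQ (Subgroup.subset_closure (by simp))⟩
  rw [key Q P] at this
  exact this.2

theorem lift_pair {H : Type*} [Group H] [Finite H] {p : ℕ} [Fact p.Prime] (f : H →* G) {a b : H}
    (ha : f a ^ p = 1) (hb : f b ^ p = 1) (h : f a * f b = f b * f a) :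
    ∃ x y : H, f x = f a ∧ f y = f b ∧ (∃ k, x ^ p ^ k = 1) ∧ (∃ k, y ^ p ^ k = 1) ∧ ∃ k, (x * y) ^ p ^ k = 1 := by
  let g := f.rangeRestrict
  have hg : Function.Surjective g := f.rangeRestrict_surjective
  have : Finite f.range := Finite.of_surjective g hg
  have hc : Commute (g a) (g b) := Subtype.ext h
  have h1 : IsPGroup p (Subgroup.zpowers (g a)) := fun ⟨_, n, rfl⟩ => ⟨1, Subtype.ext (Subtype.ext (by
    simp only [pow_one, SubmonoidClass.coe_pow, SubgroupClass.coe_zpow, OneMemClass.coe_one]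
    rw [← zpow_natCast, ← _root_.zpow_mul, mul_comm, _root_.zpow_mul, zpow_natCast]
    change (f a ^ p) ^ n = 1
    rw [ha, _root_.one_zpow]))⟩
  have h2 : IsPGroup p (Subgroup.zpowers (g b)) := fun ⟨_, n, rfl⟩ => ⟨1, Subtype.ext (Subtype.ext (by
    simp only [pow_one, SubmonoidClass.coe_pow, SubgroupClass.coe_zpow, OneMemClass.coe_one]
    rw [← zpow_natCast, ← _root_.zpow_mul, mul_comm, _root_.zpow_mul, zpow_natCast]
    change (f b ^ p) ^ n = 1
    rw [hb, _root_.one_zpow]))⟩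
  obtain ⟨Q, hQ⟩ := (IsPGroup.to_sup_of_normal_right' h1 h2 (Subgroup.zpowers_le_of_mem (by
    intro z
    constructor
    · rintro ⟨n, rfl⟩; exact ⟨n, by simp only; rw [(hc.zpow_right n).eq]; simp⟩
    · rintro ⟨n, e⟩
      refine ⟨n, ?_⟩
      have : z = (g a)⁻¹ * (g b) ^ n * g a := by simp only at e; rw [e]; group
      simp only; rw [this, mul_assoc, ← (hc.zpow_right n).eq]; simp))).exists_le_sylow
  obtain ⟨R, rfl⟩ := Sylow.mapSurjective_surjective hg p Q
  obtain ⟨x, hx, ex⟩ := hQ (Subgroup.mem_sup_left (Subgroup.mem_zpowers _))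
  obtain ⟨y, hy, ey⟩ := hQ (Subgroup.mem_sup_right (Subgroup.mem_zpowers _))
  have k : ∀ z ∈ R, ∃ k, z ^ p ^ k = 1 := fun z hz => (R.isPGroup' ⟨z, hz⟩).imp fun k e => congrArg Subtype.val e
  exact ⟨x, y, congrArg Subtype.val ex, congrArg Subtype.val ey, k x hx, k y hy, k _ (mul_mem hx hy)⟩

/-- a submonoid of a finite group is a subgroup -/
def subOf [Finite G] (S : Submonoid G) : Subgroup G where
  toSubmonoid := S
  inv_mem' {x} hx := by
    have : x⁻¹ = x ^ (orderOf x - 1) := by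
      rw [inv_eq_iff_mul_eq_one, ← pow_succ', Nat.sub_add_cancel (orderOf_pos x), pow_orderOf_eq_one]
    rw [this]; exact S.pow_mem hx _

end grp

variable {L : Type*} [Field L]

abbrev M2 (L : Type*) := Matrix (Fin 2) (Fin 2) L

theorem nil2 {N : M2 L} (h : IsNilpotent N) : N.trace = 0 ∧ N.det = 0 := by
  refine ⟨(Matrix.isNilpotent_trace_of_isNilpotent h).eq_zero, ?_⟩
  obtain ⟨n, hn⟩ := h
  have := congrArg Matrix.det hn
  rw [Matrix.det_pow, Matrix.det_zero] at this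
  exact pow_eq_zero_iff (by rintro rfl; simp at this) |>.1 this

theorem nil_of_pow {I H : Type*} [Fintype I] [DecidableEq I] [Nonempty I] [Group H] {p : ℕ} [Fact p.Prime] [CharP L p]
    (X : H →* Matrix I I L) {u : H} (h : ∃ k, u ^ p ^ k = 1) : IsNilpotent (X u - 1) := by
  obtain ⟨k, hk⟩ := h
  exact ⟨p ^ k, by rw [sub_pow_char_pow_of_commute _ _ (Commute.one_right _), ← map_pow, hk, map_one]; simp⟩

theorem sq_zero2 {N : M2 L} (h : N.trace = 0 ∧ N.det = 0) : N * N = 0 := by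
  obtain ⟨h1, h2⟩ := h
  rw [Matrix.trace_fin_two] at h1; rw [Matrix.det_fin_two] at h2
  ext i j; fin_cases i <;> fin_cases j <;> simp [Matrix.mul_apply, Fin.sum_univ_two] <;> grind

theorem mul_zero2 {N N' : M2 L} (h : N.trace = 0 ∧ N.det = 0) (h' : N'.trace = 0 ∧ N'.det = 0)
    (t : (N * N').trace = 0) : N * N' = 0 := by
  obtain ⟨h1, h2⟩ := h
  obtain ⟨h3, h4⟩ := h'
  rw [Matrix.trace_fin_two] at h1 h3 t; rw [Matrix.det_fin_two] at h2 h4
  simp only [Matrix.mul_apply, Fin.sum_univ_two] at t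
  have e1 : N 1 1 = -N 0 0 := by linear_combination h1
  have e2 : N' 1 1 = -N' 0 0 := by linear_combination h3
  rw [e1] at h2 t; rw [e2] at h4 t
  have k1 : N 0 0 * N' 0 0 + N 0 1 * N' 1 0 = 0 := pow_eq_zero_iff two_ne_zero |>.1 (by grind)
  have k2 : N 0 0 * N' 0 1 - N 0 1 * N' 0 0 = 0 := pow_eq_zero_iff two_ne_zero |>.1 (by grind)
  have k3 : N 1 0 * N' 0 0 - N 0 0 * N' 1 0 = 0 := pow_eq_zero_iff two_ne_zero |>.1 (by grind)
  ext i j; fin_cases i <;> fin_cases j <;> simp [Matrix.mul_apply, Fin.sum_univ_two, e1, e2] <;> grind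

theorem prop2 {N N' : M2 L} (h : N.trace = 0 ∧ N.det = 0) (h0 : N ≠ 0) (h' : N'.trace = 0) (t : N * N' = 0) :
    ∃ k : L, N' = k • N := by
  obtain ⟨h1, h2⟩ := h
  rw [Matrix.trace_fin_two] at h1 h'; rw [Matrix.det_fin_two] at h2
  have t' := fun i j => congrFun (congrFun t i) j
  have t0 := t' 0 0; have t1 := t' 0 1; have t2 := t' 1 0; have t3 := t' 1 1
  simp only [Matrix.mul_apply, Fin.sum_univ_two, Matrix.zero_apply] at t0 t1 t2 t3
  by_cases a : N 0 1 = 0
  · by_cases b : N 1 0 = 0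
    · exact (h0 (by ext i j; fin_cases i <;> fin_cases j <;> simp <;> grind)).elim
    · exact ⟨N' 1 0 / N 1 0, by ext i j; fin_cases i <;> fin_cases j <;> simp <;> field_simp <;> grind⟩
  · exact ⟨N' 0 1 / N 0 1, by ext i j; fin_cases i <;> fin_cases j <;> simp <;> field_simp <;> grind⟩

theorem comm2 (h2 : (2 : L) ≠ 0) {N N' : M2 L} (h : N.trace = 0 ∧ N.det = 0) (h' : N'.trace = 0 ∧ N'.det = 0) {k : L}
    (e : (N' + 1) * (N + 1) = k • ((N + 1) * (N' + 1))) : (N * N').trace = 0 := by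
  obtain ⟨h1, h2⟩ := h
  obtain ⟨h3, h4⟩ := h'
  have t' := fun i j => congrFun (congrFun e i) j
  have t0 := t' 0 0; have t1 := t' 0 1; have t2 := t' 1 0; have t3 := t' 1 1
  rw [Matrix.trace_fin_two] at h1 h3 ⊢; rw [Matrix.det_fin_two] at h2 h4
  have e1 : N 1 1 = -N 0 0 := by linear_combination h1
  have e2 : N' 1 1 = -N' 0 0 := by linear_combination h3
  simp [Matrix.mul_apply, Fin.sum_univ_two, e1, e2] at t0 t1 t2 t3 h2 h4 ⊢
  generalize N 0 0 = a at *; generalize N 0 1 = b at *; generalize N 1 0 = c at *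
  generalize N' 0 0 = a' at *; generalize N' 0 1 = b' at *; generalize N' 1 0 = c' at *
  by_cases hk : k = 1
  · subst hk
    have q1 : b * c' = b' * c := by linear_combination -t0
    have q2 : a * b' = a' * b := mul_left_cancel₀ ‹_› (by linear_combination -t1)
    have q3 : c * a' = c' * a := mul_left_cancel₀ ‹_› (by linear_combination -t2)
    have : a * a' + b * c' = 0 := pow_eq_zero_iff two_ne_zero |>.1 (by grind)
    grind
  · exfalso
    have q : 2 + (2 * a * a' + b * c' + c * b') = 0 := mul_left_cancel₀ (sub_ne_zero.2 hk) (by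
      linear_combination -t0 - t3)
    have hd := congrArg Matrix.det e
    have q2 : k = -1 := by
      have : (k - 1) * (k + 1) = 0 := by grind
      exact eq_neg_of_add_eq_zero_left ((mul_eq_zero.1 this).resolve_left (sub_ne_zero.2 hk))
    subst q2
    have r1 : a + a' = 0 := mul_left_cancel₀ ‹_› (by linear_combination t0 - q)
    have r2 : b + b' = 0 := mul_left_cancel₀ ‹_› (by linear_combination t1)
    have r3 : c + c' = 0 := mul_left_cancel₀ ‹_› (by linear_combination t2)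
    grind

theorem vmv2 {N : M2 L} (h : N.det = 0) : ∃ v φ : Fin 2 → L, N = vecMulVec v φ := by
  rw [Matrix.det_fin_two] at h
  by_cases a : N 0 0 = 0
  · by_cases b : N 0 1 = 0
    · exact ⟨![0, 1], ![N 1 0, N 1 1], by ext i j; fin_cases i <;> fin_cases j <;> simp [vecMulVec_apply, a, b]⟩
    · exact ⟨![N 0 1, N 1 1], ![0, 1], by
        ext i j; fin_cases i <;> fin_cases j <;> simp [vecMulVec_apply, a] <;> grind⟩
  · exact ⟨![N 0 0, N 1 0], ![1, N 0 1 / N 0 0], by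
      ext i j; fin_cases i <;> fin_cases j <;> simp [vecMulVec_apply] <;> field_simp <;> grind⟩

open Cfsg.Agent.H4.Mob Cfsg.Agent.H2.Mi in
theorem kl {H : Type*} [Group H] [Finite H] (hL : LocFin L) (h2 : (2 : L) ≠ 0) {p : ℕ} [Fact p.Prime] [CharP L p]
    (X : H →* M2 L)
    (HT : ∀ u h : H, (∃ k, u ^ p ^ k = 1) → (X u - 1) * (X (h * u * h⁻¹) - 1) = 0 →
      X u = 1 ∨ X (h * u * h⁻¹) = X u ∨ X (h * u * h⁻¹) * X u = 1)
    {y y' : H} {s t a b c : L} (hy : X y = !![s + t, 0; 0, s - t]) (hy' : X y' = !![s + t * a, t * b; t * c, s - t * a])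
    (hb : b ≠ 0) (hc : c ≠ 0) (e : a ^ 2 + b * c = 1) :
    (s + t) ^ 2 = (s - t) ^ 2 ∨ (s + t) ^ 3 = (s - t) ^ 3 ∨ (s + t) ^ 5 = (s - t) ^ 5 ∨
      ((s + t) ^ 4 = (s - t) ^ 4 ∧ a = 0) := by
  let f : H →* PG L := ProjGenLinGroup.mk.comp X.toHomUnits
  let g := f.rangeRestrict
  have hg : Function.Surjective g := f.rangeRestrict_surjective
  have : Finite f.range := Finite.of_surjective g hg
  have hE : ∀ x y : H, g x = g y ↔ ∃ k : L, X y = k • X x := fun x y => by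
    rw [Subtype.ext_iff]
    change ProjGenLinGroup.mk _ = ProjGenLinGroup.mk _ ↔ _
    rw [mk_eq_mob, mk_eq_mob, mob_eq_mob]
    refine exists_congr fun k => ⟨fun h => ?_, fun h => ?_⟩
    · ext i j; fin_cases i <;> fin_cases j; exacts [h.1, h.2.1, h.2.2.1, h.2.2.2]
    · exact ⟨congrFun (congrFun h 0) 0, congrFun (congrFun h 0) 1, congrFun (congrFun h 1) 0, congrFun (congrFun h 1) 1⟩
  have hdet : ∀ x, (X x).det ≠ 0 := fun x => Matrix.GeneralLinearGroup.det_ne_zero (X.toHomUnits x)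
  have hT : T2 p f.range := by
    intro u h h1 h3 h4
    obtain ⟨u, rfl⟩ := hg u
    obtain ⟨h, rfl⟩ := hg h
    obtain ⟨x, -, ex, -, hx, -⟩ := lift_pair (p := p) g (a := u) (b := 1) h1 (by simp) (by simp)
    rw [← ex] at h3 h4 ⊢
    have n1 := nil2 (nil_of_pow X hx)
    have n2 := nil2 (nil_of_pow X (u := h * x * h⁻¹) (hx.imp fun k e => by rw [conj_pow, e]; simp))
    obtain ⟨k, hk⟩ := (hE (x * (h * x * h⁻¹)) (h * x * h⁻¹ * x)).1 (by simpa using h4)
    rw [map_mul, map_mul X x] at hk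
    have := HT x h hx (mul_zero2 n1 n2 (comm2 h2 n1 n2 (k := k) (by simpa using hk)))
    rcases this with e | e | e
    · exact (h3 ((hE x 1).2 ⟨1, by simp [e]⟩ |>.trans (map_one g))).elim
    · have : g h * g x * (g h)⁻¹ = g x := by simpa using (hE (h * x * h⁻¹) x).2 ⟨1, by simp [e]⟩
      calc g h * g h * g x = g h * (g h * g x * (g h)⁻¹) * g h := by group
        _ = g h * g x * g h := by rw [this]
        _ = g h * g x * (g h)⁻¹ * (g h * g h) := by group
        _ = _ := by rw [this]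
    · have : g h * g x * (g h)⁻¹ * g x = 1 := by
        simpa using (hE (h * x * h⁻¹ * x) 1).2 ⟨1, by rw [map_mul X _ x, e]; simp⟩
      have e2 := eq_inv_of_mul_eq_one_left this
      calc g h * g h * g x = g h * (g h * g x * (g h)⁻¹) * g h := by group
        _ = g h * (g x)⁻¹ * g h := by rw [e2]
        _ = (g h * g x * (g h)⁻¹)⁻¹ * (g h * g h) := by group
        _ = _ := by rw [e2, inv_inv]
  have hp : ∀ n, g y ^ n = 1 → (s + t) ^ n = (s - t) ^ n := fun n hn => by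
    obtain ⟨k, hk⟩ := (hE 1 (y ^ n)).1 (by simp [hn])
    have : !![s + t, 0; 0, s - t] = Matrix.diagonal ![s + t, s - t] := by
      ext i j; fin_cases i <;> fin_cases j <;> simp
    rw [map_pow, hy, this, Matrix.diagonal_pow, map_one] at hk
    have t0 := congrFun (congrFun hk 0) 0; have t1 := congrFun (congrFun hk 1) 1
    simp at t0 t1; rw [t0, t1]
  by_cases q2 : (s + t) ^ 2 = (s - t) ^ 2
  · exact Or.inl q2
  have hs : s ≠ 0 := by rintro rfl; exact q2 (by ring)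
  have ht : t ≠ 0 := by rintro rfl; exact q2 (by ring)
  have hd := hdet y
  rw [hy, Matrix.det_fin_two_of] at hd
  have q2' : g y' ^ 2 ≠ 1 := fun k => by
    obtain ⟨k, hk⟩ := (hE 1 (y' * y')).1 (by simp [← k, sq])
    rw [map_mul, hy', map_one] at hk
    have t0 := congrFun (congrFun hk 0) 1
    simp [Matrix.mul_apply, Fin.sum_univ_two] at t0
    have : 2 * s * t * b = 0 := by linear_combination t0
    simp [h2, hs, ht, hb] at this
  rcases klein hL h2 f.range hT with h | h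
  · exfalso
    obtain ⟨k, hk⟩ := (hE (y * y') (y' * y)).1 (by
      simpa using h (g y) (g y') (fun k => q2 (hp 2 (by rwa [sq]))) (by rwa [← sq]))
    rw [map_mul, map_mul, hy, hy'] at hk
    have t0 := congrFun (congrFun hk 0) 1; have t1 := congrFun (congrFun hk 1) 0
    simp [Matrix.mul_apply, Fin.sum_univ_two] at t0 t1
    have k0 : s - t = k * (s + t) := mul_left_cancel₀ (mul_ne_zero ht hb) (by linear_combination t0)
    have k1 : s + t = k * (s - t) := mul_left_cancel₀ (mul_ne_zero ht hc) (by linear_combination t1)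
    exact q2 (by linear_combination (s + t) * k1 - (s - t) * k0)
  · rcases h.pow (g y) with k | k | k | k
    · exact Or.inl (hp 2 k)
    · exact Or.inr (Or.inl (hp 3 k))
    · have q4 := hp 4 k
      refine Or.inr (Or.inr (Or.inr ⟨q4, ?_⟩))
      have q : s ^ 2 + t ^ 2 = 0 := by
        have : 8 * s * t * (s ^ 2 + t ^ 2) = 0 := by linear_combination q4
        have h8 : (8 : L) ≠ 0 := by rw [show (8 : L) = 2 ^ 3 by norm_num]; exact pow_ne_zero _ h2
        simpa [h8, hs, ht] using this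
      have y2 : X (y ^ 2) = (2 * s * t) • !![1, 0; 0, -1] := by
        rw [sq, map_mul, hy]
        ext i j; fin_cases i <;> fin_cases j <;> simp [Matrix.mul_apply, Fin.sum_univ_two] <;> grind
      have y2' : X (y' ^ 2) = (2 * s * t) • !![a, b; c, -a] := by
        rw [sq, map_mul, hy']
        ext i j; fin_cases i <;> fin_cases j <;> simp [Matrix.mul_apply, Fin.sum_univ_two] <;> grind
      have k' : g y' ^ 4 = 1 := by
        have := (hE 1 (y' ^ 2 * y' ^ 2)).2 ⟨(2 * s * t) ^ 2, by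
          rw [map_mul, y2', map_one]
          ext i j; fin_cases i <;> fin_cases j <;> simp [Matrix.mul_apply, Fin.sum_univ_two] <;> grind⟩
        rw [← pow_add, map_one, map_pow] at this
        exact this.symm
      rcases h.sq _ _ k k' with r | r | r
      · obtain ⟨k, hk⟩ := (hE (y ^ 2 * y' ^ 2) (y' ^ 2 * y ^ 2)).1 (by simpa using r)
        rw [map_mul, map_mul, y2, y2'] at hk
        have t0 := congrFun (congrFun hk 0) 1; have t1 := congrFun (congrFun hk 0) 0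
        simp [Matrix.mul_apply, Fin.sum_univ_two] at t0 t1
        have h0 : (2 * s * t) ^ 2 ≠ 0 := by simp [h2, hs, ht]
        have k0 : k = -1 := mul_left_cancel₀ (mul_ne_zero h0 hb) (by linear_combination -t0)
        subst k0
        exact mul_left_cancel₀ (mul_ne_zero h2 h0) (by linear_combination t1)
      · exact (q2 (hp 2 r)).elim
      · exact (q2' r).elim
    · exact Or.inr (Or.inr (Or.inl (hp 5 k)))

end Cfsg.Agent.H6.W
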