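import Cfsg.Agent.H6.W3

set_option autoImplicit false

/-! Two rotations with an invariant plane on which they act irreducibly. -/

namespace Cfsg.Agent.H6.W
open Matrix Cfsg.Agent.H2.Mi

variable {L : Type*} [Field L] {Γ : Type*} [Group Γ]

abbrev I4 := Fin 2 ⊕ Fin 2

/-- no transvections, few quadratic unipotent elements -/
structure Cx {I : Type*} [Fintype I] [DecidableEq I] (ρ : Γ →* Matrix I I L) : Prop where
  nt : ∀ g v φ, ρ g = 1 + vecMulVec v φ → ρ g = 1
  sq : ∀ u y, (ρ u - 1) * (ρ u - 1) = 0 → (ρ y - 1) * (ρ u - 1) = 0 → (ρ u - 1) * (ρ y - 1) = 0 →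
    ρ u = 1 ∨ ρ y = 1 ∨ ρ y = ρ u ∨ ρ y * ρ u = 1

/-- the conclusion of Dickson's theorem -/
def Cc (s t a : L) : Prop := (s + t) ^ 2 = (s - t) ^ 2 ∨ (s + t) ^ 3 = (s - t) ^ 3 ∨ (s + t) ^ 5 = (s - t) ^ 5 ∨
      ((s + t) ^ 4 = (s - t) ^ 4 ∧ a = 0)

theorem ac2 {A B : M2 L} (h1 : A.trace = 0) (h2 : B.trace = 0) (h3 : (A * B).trace = 0) : A * B + B * A = 0 := by
  rw [Matrix.trace_fin_two] at h1 h2 h3
  simp only [Matrix.mul_apply, Fin.sum_univ_two] at h3
  ext i j; fin_cases i <;> fin_cases j <;> simp [Matrix.mul_apply, Fin.sum_univ_two] <;> grind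

theorem blk_sub (X Z W : M2 L) : fromBlocks X Z 0 W - 1 = fromBlocks (X - 1) Z 0 (W - 1) := by
  rw [← fromBlocks_one, sub_eq_add_neg, fromBlocks_neg, fromBlocks_add]; simp [sub_eq_add_neg]

theorem blk_mul (X Z W X' Z' W' : M2 L) :
    fromBlocks X Z 0 W * fromBlocks X' Z' 0 W' = fromBlocks (X * X') (X * Z' + Z * W') 0 (W * W') := by
  simp [fromBlocks_multiply]

theorem blk_zero {X Z W : M2 L} (h1 : X = 0) (h2 : Z = 0) (h3 : W = 0) : fromBlocks X Z 0 W = 0 := by
  rw [h1, h2, h3, fromBlocks_zero]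

theorem one_of_conj {H M : Type*} [Group H] [Monoid M] (X : H →* M) {u h : H} (e : X (h * u * h⁻¹) = 1) : X u = 1 := by
  rw [show u = h⁻¹ * (h * u * h⁻¹) * h by group, map_mul, map_mul, e, mul_one, ← map_mul, inv_mul_cancel, map_one]

variable [Finite Γ] (p : ℕ) [Fact p.Prime] [CharP L p] {ρ : Γ →* Matrix I4 I4 L}
include p

theorem caseA (hL : LocFin L) (h2 : (2 : L) ≠ 0) (C : Cx ρ) {y y' : Γ} {s t a b c : L} {W W' : M2 L}
    (hy : ρ y = fromBlocks !![s + t, 0; 0, s - t] 0 0 W)
    (hy' : ρ y' = fromBlocks !![s + t * a, t * b; t * c, s - t * a] 0 0 W')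
    (hb : b ≠ 0) (hc : c ≠ 0) (e : a ^ 2 + b * c = 1) : Cc s t a := by
  let H : Subgroup Γ := subOf
    { carrier := {g | ρ g = fromBlocks (ρ g).toBlocks₁₁ 0 0 (ρ g).toBlocks₂₂}
      one_mem' := by simp [← fromBlocks_one]
      mul_mem' := fun {g h} hg hh => by
        change ρ _ = _
        rw [map_mul, hg, hh, blk_mul]; simp }
  have hH : ∀ g : H, ρ g = fromBlocks (ρ g).toBlocks₁₁ 0 0 (ρ g).toBlocks₂₂ := fun g => g.2
  let X : H →* M2 L :=
    { toFun := fun g => (ρ g).toBlocks₁₁
      map_one' := by simp [← fromBlocks_one]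
      map_mul' := fun g h => by
        rw [Subgroup.coe_mul, map_mul, hH g, hH h, blk_mul]; simp }
  let V : H →* M2 L :=
    { toFun := fun g => (ρ g).toBlocks₂₂
      map_one' := by simp [← fromBlocks_one]
      map_mul' := fun g h => by
        rw [Subgroup.coe_mul, map_mul, hH g, hH h, blk_mul]; simp }
  have hX : ∀ g : H, ρ g = fromBlocks (X g) 0 0 (V g) := hH
  refine kl (p := p) hL h2 X (y := ⟨y, by change ρ y = _; rw [hy]; simp⟩) (y' := ⟨y', by change ρ y' = _; rw [hy']; simp⟩)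
    (fun u h hu k => ?_) (by change (ρ y).toBlocks₁₁ = _; rw [hy]; simp) (by change (ρ y').toBlocks₁₁ = _; rw [hy']; simp)
    hb hc e
  have n1 := nil2 (nil_of_pow X hu)
  have n2 := nil2 (nil_of_pow X (u := h * u * h⁻¹) (hu.imp fun k e => by rw [conj_pow, e]; simp))
  have k' := mul_zero2 n2 n1 (by rw [Matrix.trace_mul_comm, k, Matrix.trace_zero])
  have hp : ∀ g : H, (X g - 1) * (X g - 1) = 0 → X.toHomUnits g ^ p = 1 := fun g hg => Units.ext (by
    have := sub_pow_char_of_commute p (Commute.one_right (X g))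
    rw [one_pow, pow_eq_zero_of_le (Fact.out : p.Prime).two_le (by rwa [sq])] at this
    exact sub_eq_zero.1 this.symm)
  obtain ⟨x, x', ex, ex', hx, hx', hxx⟩ := lift_pair X.toHomUnits (hp _ (sq_zero2 n1)) (hp _ (sq_zero2 n2))
    (Units.ext (by
      change X u * X _ = X _ * X u
      have := k.trans k'.symm
      simp only [mul_sub, sub_mul, mul_one, one_mul] at this
      linear_combination (norm := module) this))
  have ex : X x = X u := congrArg Units.val ex
  have ex' : X x' = X (h * u * h⁻¹) := congrArg Units.val ex'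
  have m1 := nil2 (nil_of_pow V hx)
  have m2 := nil2 (nil_of_pow V hx')
  have m3 := (nil2 (nil_of_pow V hxx)).1
  have m4 : ((V x - 1) * (V x' - 1)).trace = 0 := by
    have a1 := m1.1; have a2 := m2.1
    simp only [map_mul, mul_sub, sub_mul, mul_one, one_mul, Matrix.trace_sub] at a1 a2 m3 ⊢
    linear_combination m3 - a1 - a2
  have := C.sq x x' (by rw [hX, blk_sub, blk_mul]; exact blk_zero (ex ▸ sq_zero2 n1) (by simp) (sq_zero2 m1))
    (by rw [hX, hX, blk_sub, blk_sub, blk_mul]
        exact blk_zero (ex ▸ ex' ▸ k') (by simp) (mul_zero2 m2 m1 (by rwa [Matrix.trace_mul_comm])))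
    (by rw [hX, hX, blk_sub, blk_sub, blk_mul]; exact blk_zero (ex ▸ ex' ▸ k) (by simp) (mul_zero2 m1 m2 m4))
  rw [hX, hX, blk_mul, ← fromBlocks_one, ex, ex'] at this
  simp only [fromBlocks_inj] at this
  rcases this with r | r | r | r
  exacts [Or.inl r.1, Or.inl (one_of_conj X r.1), Or.inr (Or.inl r.1), Or.inr (Or.inr r.1)]

theorem caseB (hL : LocFin L) (h2 : (2 : L) ≠ 0) (C : Cx ρ) {y y' : Γ} {s t a b c : L} {Z0 : M2 L}
    (hy : ρ y = fromBlocks !![s + t, 0; 0, s - t] 0 0 !![s + t, 0; 0, s - t])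
    (hy' : ρ y' = fromBlocks !![s + t * a, t * b; t * c, s - t * a] Z0 0 !![s + t * a, t * b; t * c, s - t * a])
    (hZ : (adjugate !![s + t * a, t * b; t * c, s - t * a] * Z0).trace = 0)
    (hb : b ≠ 0) (hc : c ≠ 0) (e : a ^ 2 + b * c = 1) : Cc s t a := by
  by_cases q2 : (s + t) ^ 2 = (s - t) ^ 2
  · exact Or.inl q2
  have hs : s ≠ 0 := by rintro rfl; exact q2 (by ring)
  have ht : t ≠ 0 := by rintro rfl; exact q2 (by ring)
  let H : Subgroup Γ := subOf
    { carrier := {g | ρ g = fromBlocks (ρ g).toBlocks₁₁ (ρ g).toBlocks₁₂ 0 (ρ g).toBlocks₁₁ ∧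
        (adjugate (ρ g).toBlocks₁₁ * (ρ g).toBlocks₁₂).trace = 0}
      one_mem' := by simp [← fromBlocks_one]
      mul_mem' := fun {g h} hg hh => by
        obtain ⟨g1, g2⟩ := hg
        obtain ⟨h1, h2⟩ := hh
        change ρ _ = _ ∧ _
        rw [map_mul, g1, h1, blk_mul]
        refine ⟨by simp, ?_⟩
        simp only [toBlocks_fromBlocks₁₁, toBlocks_fromBlocks₁₂]
        generalize (ρ g).toBlocks₁₁ = A at *; generalize (ρ g).toBlocks₁₂ = B at *
        generalize (ρ h).toBlocks₁₁ = A' at *; generalize (ρ h).toBlocks₁₂ = B' at *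
        simp [adjugate_fin_two, Matrix.trace_fin_two, Matrix.mul_apply, Fin.sum_univ_two, vecMul, dotProduct] at g2 h2 ⊢
        linear_combination (A' 0 0 * A' 1 1 - A' 0 1 * A' 1 0) * g2 + (A 0 0 * A 1 1 - A 0 1 * A 1 0) * h2 }
  have hH : ∀ g : H, ρ g = fromBlocks (ρ g).toBlocks₁₁ (ρ g).toBlocks₁₂ 0 (ρ g).toBlocks₁₁ := fun g => g.2.1
  let X : H →* M2 L :=
    { toFun := fun g => (ρ g).toBlocks₁₁
      map_one' := by simp [← fromBlocks_one]
      map_mul' := fun g h => by
        rw [Subgroup.coe_mul, map_mul, hH g, hH h, blk_mul]; simp }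
  let Z : H → M2 L := fun g => (ρ g).toBlocks₁₂
  have hX : ∀ g : H, ρ g = fromBlocks (X g) (Z g) 0 (X g) := hH
  have hN : ∀ g : H, (adjugate (X g) * Z g).trace = 0 := fun g => g.2.2
  have hM : ∀ g h : H, Z (g * h) = X g * Z h + Z g * X h := fun g h => by
    change (ρ (g * h)).toBlocks₁₂ = _
    rw [map_mul, hX, hX, blk_mul]; simp
  let Y : H := ⟨y, by change ρ y = _ ∧ _; rw [hy]; simp⟩
  let Y' : H := ⟨y', by change ρ y' = _ ∧ _; rw [hy']; simpa using hZ⟩
  have hY : X Y = !![s + t, 0; 0, s - t] := by change (ρ y).toBlocks₁₁ = _; rw [hy]; simp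
  have hY' : X Y' = !![s + t * a, t * b; t * c, s - t * a] := by change (ρ y').toBlocks₁₁ = _; rw [hy']; simp
  have ker : ∀ g : H, X g = 1 → Z g = 0 := fun g hg => by
    have k : ∀ h : H, Z g * X h = X h * Z g ∨ -(Z g * X h) = X h * Z g := fun h => by
      have e1 : X (h * g * h⁻¹) = 1 := by rw [map_mul, map_mul, hg, mul_one, ← map_mul]; simp
      have e2 : Z (h * g * h⁻¹) * X h = X h * Z g := by
        have := hM (h * g * h⁻¹) h
        rw [inv_mul_cancel_right, hM, hg, e1, mul_one, one_mul] at this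
        linear_combination (norm := module) this.symm
      have := C.sq g (h * g * h⁻¹ : H) (by rw [hX, blk_sub, blk_mul, hg]; simp)
        (by rw [hX, hX, blk_sub, blk_sub, blk_mul, hg, e1]; simp) (by rw [hX, hX, blk_sub, blk_sub, blk_mul, hg, e1]; simp)
      rw [hX, hX, blk_mul, ← fromBlocks_one, hg, e1] at this
      simp only [fromBlocks_inj] at this
      rcases this with r | r | r | r
      · simp [r.2.1]
      · have : Z g = 0 := by
          have := congrArg (X h⁻¹ * ·) e2
          simpa [r.2.1, ← mul_assoc, ← map_mul] using this.symm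
        simp [this]
      · exact Or.inl (r.2.1 ▸ e2)
      · right; rw [← e2, ← neg_mul]; congr 1
        have := r.2.1
        rw [mul_one, one_mul] at this
        linear_combination (norm := module) -this
    have k0 := hN g
    have k1 := k Y
    have k2 := k Y'
    have hd : (X Y).det ≠ 0 := Matrix.GeneralLinearGroup.det_ne_zero (X.toHomUnits Y)
    rw [hY] at k1 hd; rw [hY'] at k2; rw [hg] at k0
    generalize Z g = M at *
    simp only [← Matrix.ext_iff, Fin.forall_fin_two] at k1 k2 ⊢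
    simp [Matrix.mul_apply, Fin.sum_univ_two, Matrix.trace_fin_two, Matrix.det_fin_two] at k0 k1 k2 hd ⊢
    grind
  refine kl (p := p) hL h2 X (fun u h hu k => ?_) hY hY' hb hc e
  have n1 := nil2 (nil_of_pow X hu)
  have n2 := nil2 (nil_of_pow X (u := h * u * h⁻¹) (hu.imp fun k e => by rw [conj_pow, e]; simp))
  have k' := mul_zero2 n2 n1 (by rw [Matrix.trace_mul_comm, k, Matrix.trace_zero])
  have t1 : (Z (h * u * h⁻¹)).trace = (Z u).trace := by
    have : ∀ g h : H, (Z (g * h)).trace = (Z (h * g)).trace := fun g h => by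
      rw [hM, hM, Matrix.trace_add, Matrix.trace_add, Matrix.trace_mul_comm, Matrix.trace_mul_comm (Z g), add_comm]
    rw [this, inv_mul_cancel_left]
  have hc := one_of_conj X (u := u) (h := h)
  generalize h * u * h⁻¹ = v at *
  have c1 : X u * X v = X v * X u := by
    have := k.trans k'.symm
    simp only [mul_sub, sub_mul, mul_one, one_mul] at this
    linear_combination (norm := module) this
  have g1 : X (u * v * (v * u)⁻¹) = 1 := by rw [map_mul, map_mul, c1, ← map_mul, ← map_mul]; simp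
  have c2 : X u * Z v + Z u * X v = X v * Z u + Z v * X u := by
    have := hM (u * v * (v * u)⁻¹) (v * u)
    rwa [inv_mul_cancel_right, g1, ker _ g1, hM, hM, one_mul, zero_mul, add_zero] at this
  by_cases h0 : X u - 1 = 0
  · exact Or.inl (sub_eq_zero.1 h0)
  obtain ⟨κ, hκ⟩ := prop2 n1 h0 n2.1 k
  have s1 := sq_zero2 n1
  have a1 := hN u
  have a2 := hN v
  have hU := hX u
  have hV := hX v
  obtain ⟨N, hN'⟩ : ∃ N, X u = 1 + N := ⟨X u - 1, by simp⟩
  have hv : X v = 1 + κ • N := by rw [hN', add_sub_cancel_left] at hκ; exact sub_eq_iff_eq_add'.1 hκ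
  rw [hN', add_sub_cancel_left] at n1 s1
  simp only [hN', hv] at a1 a2 c2 hU hV k k' hc ⊢
  have adj : ∀ M : M2 L, M.trace = 0 → adjugate (1 + M) = 1 - M := fun M hM => by
    rw [Matrix.trace_fin_two] at hM
    ext i j; fin_cases i <;> fin_cases j <;> simp [adjugate_fin_two] <;> grind
  rw [adj _ n1.1] at a1; rw [adj _ (by simp [n1.1])] at a2
  have c3 : Commute N (Z v - κ • Z u) := by
    simp only [Commute, SemiconjBy, add_mul, mul_add, mul_sub, sub_mul, one_mul, mul_one, smul_mul_assoc,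
      mul_smul_comm] at c2 ⊢
    linear_combination (norm := module) c2
  have t2 := (nil2 (c3.isNilpotent_mul_right ⟨2, by rwa [sq]⟩)).1
  simp only [sub_mul, one_mul, mul_sub, Matrix.trace_sub, smul_mul_assoc, mul_smul_comm, Matrix.trace_smul,
    smul_eq_mul] at a1 a2
  by_cases k1 : κ = 1
  · exact Or.inr (Or.inl (by simp [k1]))
  by_cases k2 : κ = -1
  · exact Or.inr (Or.inr (by simp [k2, add_mul, mul_add, s1]))
  have t3 : (Z u).trace = 0 := by
    have := t2
    simp only [mul_sub, Matrix.trace_sub, mul_smul_comm, Matrix.trace_smul, smul_eq_mul] at this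
    grind
  have b1 := ac2 n1.1 t3 (by linear_combination t3 - a1)
  have b2 := ac2 n1.1 (B := Z v - κ • Z u) (by simp [t1, t3]) t2
  have b3 : N * (Z v - κ • Z u) = 0 := by
    rw [← c3.eq, ← two_smul L] at b2
    exact (smul_eq_zero.1 b2).resolve_left h2
  have b4 := c3.eq.symm.trans b3
  have := C.sq u v (by rw [hU, blk_sub, blk_mul]; exact blk_zero (by simpa using s1) (by simpa using b1) (by simpa using s1))
    (by rw [hU, hV, blk_sub, blk_sub, blk_mul]
        refine blk_zero k' ?_ k'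
        simp only [add_sub_cancel_left, sub_mul, smul_mul_assoc] at b4 ⊢
        linear_combination (norm := module) b4 + κ • b1)
    (by rw [hU, hV, blk_sub, blk_sub, blk_mul]
        refine blk_zero k ?_ k
        simp only [add_sub_cancel_left, mul_sub, mul_smul_comm] at b3 ⊢
        linear_combination (norm := module) b3 + κ • b1)
  rw [hU, hV, blk_mul, ← fromBlocks_one] at this
  simp only [fromBlocks_inj] at this
  rcases this with r | r | r | r
  exacts [Or.inl r.1, Or.inl (hc r.1), Or.inr (Or.inl r.1), Or.inr (Or.inr r.1)]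

end Cfsg.Agent.H6.W
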