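import Cfsg.Agent.H6.W4

set_option autoImplicit false

/-! Two rotations: the algebra generated by two involutions. -/

namespace Cfsg.Agent.H6.W
open Matrix

variable {L : Type*} [Field L] {Γ : Type*} [Group Γ] {ρ : Γ →* Matrix I4 I4 L}

theorem inv_of {M : Type*} [Monoid M] (ρ : Γ →* M) {g : Γ} {X : M} (h : ρ g * X = 1) : ρ g⁻¹ = X := by
  rw [← mul_one (ρ g⁻¹), ← h, ← mul_assoc, ← map_mul, inv_mul_cancel, map_one, one_mul]

theorem k0 (C : Cx ρ) {y g : Γ} {l m : L} {β γ : M2 L} (hy : ρ y = fromBlocks (l • 1) 0 0 (m • 1)) (hl : l ≠ 0) (hm : m ≠ 0)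
    (h : l ^ 2 ≠ m ^ 2) (hg : ρ g = fromBlocks 1 β γ 1) (h1 : β * γ = 0) (h2 : γ * β = 0) : β = 0 ∧ γ = 0 := by
  have e1 : ρ y⁻¹ = fromBlocks (l⁻¹ • 1) 0 0 (m⁻¹ • 1) := inv_of ρ (by
    rw [hy, fromBlocks_multiply, ← fromBlocks_one]; simp [smul_smul, hl, hm])
  have e2 : ρ (y * g * y⁻¹) = fromBlocks 1 ((l * m⁻¹) • β) ((m * l⁻¹) • γ) 1 := by
    rw [map_mul, map_mul, hy, hg, e1, fromBlocks_multiply, fromBlocks_multiply]
    simp [smul_smul, hl, hm, mul_comm]
  have sb : ∀ β γ : M2 L, fromBlocks 1 β γ 1 - 1 = fromBlocks 0 β γ 0 := fun β γ => by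
    rw [← fromBlocks_one, sub_eq_add_neg, fromBlocks_neg, fromBlocks_add]; simp
  have := C.sq g (y * g * y⁻¹) (by rw [hg, sb, fromBlocks_multiply]; simp [h1, h2])
    (by rw [hg, e2, sb, sb, fromBlocks_multiply]; simp [h1, h2]) (by rw [hg, e2, sb, sb, fromBlocks_multiply]; simp [h1, h2])
  rw [hg, e2, fromBlocks_multiply, ← fromBlocks_one] at this
  simp only [fromBlocks_inj] at this
  have k : ∀ {c : L} {M : M2 L}, c ≠ 0 → c • M = 0 → M = 0 := fun hc h => (smul_eq_zero.1 h).resolve_left hc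
  have a1 : l ≠ m := fun e => h (by rw [e])
  have a2 : l ≠ -m := fun e => h (by rw [e]; ring)
  rcases this with r | r | r | r
  · exact ⟨r.2.1, r.2.2.1⟩
  · exact ⟨k (by simp [hl, hm]) r.2.1, k (by simp [hl, hm]) r.2.2.1⟩
  · exact ⟨k (c := l * m⁻¹ - 1) (fun e => a1 (by field_simp at e; grind)) (by rw [sub_smul, r.2.1]; simp),
      k (c := m * l⁻¹ - 1) (fun e => a1 (by field_simp at e; grind)) (by rw [sub_smul, r.2.2.1]; simp)⟩
  · exact ⟨k (c := 1 + l * m⁻¹) (fun e => a2 (by field_simp at e; grind)) (by simpa [add_smul] using r.2.1),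
      k (c := m * l⁻¹ + 1) (fun e => a2 (by field_simp at e; grind)) (by simpa [add_smul] using r.2.2.1)⟩

theorem k1 (C : Cx ρ) {g : Γ} {X W : M2 L} (hg : ρ g = fromBlocks (1 + X) 0 0 (1 + W))
    (h : X = 0 ∧ W.det = 0 ∨ W = 0 ∧ X.det = 0) : X = 0 ∧ W = 0 := by
  have : ρ g = 1 := by
    rcases h with ⟨rfl, h⟩ | ⟨rfl, h⟩ <;> obtain ⟨v, φ, rfl⟩ := vmv2 h
    · refine C.nt g (Sum.elim 0 v) (Sum.elim 0 φ) ?_
      rw [hg]; ext (i | i) (j | j) <;> simp [vecMulVec_apply, one_apply]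
    · refine C.nt g (Sum.elim v 0) (Sum.elim φ 0) ?_
      rw [hg]; ext (i | i) (j | j) <;> simp [vecMulVec_apply, one_apply]
  rw [hg, ← fromBlocks_one, fromBlocks_inj] at this
  exact ⟨by simpa using this.1, by simpa using this.2.2.2⟩

theorem bcb {B C : M2 L} (h1 : B * C * B = 0) (h2 : C * B * C = 0) : B * C = 0 ∨ C * B = 0 := by
  by_cases hB : B.det = 0
  · by_cases hC : C.det = 0
    · obtain ⟨v, φ, rfl⟩ := vmv2 hB
      obtain ⟨w, ψ, rfl⟩ := vmv2 hC
      simp only [vecMulVec_mul_vecMulVec] at h1 ⊢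
      by_cases a : φ ⬝ᵥ w = 0
      · simp [a]
      by_cases b : ψ ⬝ᵥ v = 0
      · simp [b]
      left
      rw [smul_dotProduct, vecMulVec_smul] at h1
      have := (smul_eq_zero.1 h1).resolve_left (mul_ne_zero a b)
      rcases vecMulVec_eq_zero.1 this with r | r <;> simp [r]
    · have : Invertible C := invertibleOfIsUnitDet C (Ne.isUnit hC)
      right
      rw [← mul_invOf_cancel_right (C * B) C, h2, zero_mul]
  · have : Invertible B := invertibleOfIsUnitDet B (Ne.isUnit hB)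
    left
    rw [← mul_invOf_cancel_right (B * C) B, h1, zero_mul]

variable {R : Type*} [CommRing R] [Algebra L R]

/-- coordinates for the algebra generated by two involutions -/
structure Ef (f g : R →ₐ[L] M2 L) (B C : M2 L) (Δ : R) : Prop where
  h1 : ∀ r, f r * B = B * g r
  h2 : ∀ r, g r * C = C * f r
  h3 : B * C = f Δ
  h4 : C * B = g Δ

/-- an element of the algebra -/
def E (f g : R →ₐ[L] M2 L) (B C : M2 L) (p q r t : R) : Matrix I4 I4 L := fromBlocks (f p) (f q * B) (C * f r) (g t)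

variable {f g : R →ₐ[L] M2 L} {B C : M2 L} {Δ : R}

theorem Ef.mul (h : Ef f g B C Δ) (p q r t p' q' r' t' : R) : E f g B C p q r t * E f g B C p' q' r' t' =
    E f g B C (p * p' + Δ * q * r') (p * q' + q * t') (r * p' + t * r') (Δ * r * q' + t * t') := by
  simp only [E, fromBlocks_multiply, fromBlocks_inj]
  refine ⟨?_, ?_, ?_, ?_⟩
  · rw [mul_comm Δ, mul_assoc (f q), ← mul_assoc B, h.h3]; simp [mul_assoc]
  · rw [mul_assoc (f q), ← h.h1]; simp [mul_assoc, add_mul]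
  · rw [← mul_assoc (g t), h.h2]; simp [mul_assoc, mul_add]
  · rw [mul_assoc C, ← mul_assoc (f r), ← map_mul, h.h1, ← mul_assoc, h.h4]; simp [mul_assoc]

theorem E_one : E f g B C 1 0 0 1 = 1 := by simp [E]

theorem E_congr {p q r t p' q' r' t' : R} (h1 : p = p') (h2 : q = q') (h3 : r = r') (h4 : t = t') :
    E f g B C p q r t = E f g B C p' q' r' t' := by rw [h1, h2, h3, h4]

theorem Ef.k0 (h : Ef f g B C Δ) (X : Cx ρ) {y x : Γ} {l m : L}
    (hy : ρ y = E f g B C (algebraMap L R l) 0 0 (algebraMap L R m)) (hl : l ≠ 0) (hm : m ≠ 0)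
    (hlm : l ^ 2 ≠ m ^ 2) {q r : R} (hx : ρ x = E f g B C 1 q r 1) (e : Δ * q * r = 0) : f q * B = 0 ∧ C * f r = 0 := by
  refine W.k0 X (y := y) (g := x) (by rw [hy]; simp [E, Algebra.algebraMap_eq_smul_one]) hl hm hlm (by rw [hx]; simp [E]) ?_ ?_
  · rw [mul_assoc, ← mul_assoc B, h.h3, ← map_mul, ← map_mul, show q * (Δ * r) = 0 by linear_combination e, map_zero]
  · rw [mul_assoc, ← mul_assoc (f r), ← map_mul, h.h1, ← mul_assoc, h.h4, ← map_mul,
      show Δ * (r * q) = 0 by linear_combination e, map_zero]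

theorem cancel_r {q : R} (hq : IsUnit q) {x : R} (h : f (q * x) * B = 0) : f x * B = 0 := by
  obtain ⟨u, hu⟩ := hq.exists_left_inv
  rw [← one_mul x, ← hu, mul_assoc, map_mul, mul_assoc, h, mul_zero]

theorem cancel_l {q : R} (hq : IsUnit q) {x : R} (h : C * f (q * x) = 0) : C * f x = 0 := by
  obtain ⟨u, hu⟩ := hq.exists_left_inv
  rw [← one_mul x, ← hu, mul_assoc, mul_comm u, map_mul, ← mul_assoc, h, zero_mul]

theorem Ef.step (h : Ef f g B C Δ) (h2 : (2 : L) ≠ 0) (X : Cx ρ) {y w : Γ} {l m : L}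
    (hy : ρ y = E f g B C (algebraMap L R l) 0 0 (algebraMap L R m)) (hl : l ≠ 0) (hm : m ≠ 0)
    (hlm : l ^ 2 ≠ m ^ 2) (hΔ : Δ * Δ = 0) {a β γ d : R} (hw : ρ w = E f g B C (1 + Δ * a) β γ (1 + Δ * d))
    (hn : Δ * (a + d) = Δ * β * γ) (hβ : IsUnit β) (hγ : IsUnit γ) : B = 0 ∧ C = 0 := by
  obtain ⟨κ, hκ⟩ : ∃ κ, κ = algebraMap L R (l * m⁻¹) := ⟨_, rfl⟩
  obtain ⟨κ', hκ'⟩ : ∃ κ, κ = algebraMap L R (m * l⁻¹) := ⟨_, rfl⟩
  have e0 : κ * κ' = 1 := by rw [hκ, hκ', ← map_mul, ← map_one (algebraMap L R)]; congr 1; field_simp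
  have a1 : algebraMap L R l * algebraMap L R l⁻¹ = 1 := by rw [← map_mul, mul_inv_cancel₀ hl, map_one]
  have a2 : algebraMap L R m * algebraMap L R m⁻¹ = 1 := by rw [← map_mul, mul_inv_cancel₀ hm, map_one]
  have e1 : ρ y⁻¹ = E f g B C (algebraMap L R l⁻¹) 0 0 (algebraMap L R m⁻¹) := inv_of ρ (by
    rw [hy, h.mul, ← E_one (f := f) (g := g) (B := B) (C := C)]; exact E_congr (by grind) (by grind) (by grind) (by grind))
  have e2 : ρ (y * w * y⁻¹) = E f g B C (1 + Δ * a) (κ * β) (κ' * γ) (1 + Δ * d) := by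
    rw [map_mul, map_mul, hy, hw, e1, h.mul, h.mul, hκ, hκ', map_mul, map_mul]
    exact E_congr (by grind) (by grind) (by grind) (by grind)
  have u1 : IsUnit (κ' - κ) := by
    rw [hκ, hκ', ← map_sub]
    exact (Ne.isUnit fun e => hlm (by field_simp at e; grind)).map _
  have u2 : IsUnit (2 : R) := by
    rw [← map_ofNat (algebraMap L R) 2]; exact (Ne.isUnit h2).map _
  clear hκ hκ' a1 a2 e1
  generalize y * w * y⁻¹ = v at e2
  have e3 : ρ w⁻¹ = E f g B C (1 + Δ * d) (-β) (-γ) (1 + Δ * a) := inv_of ρ (by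
    rw [hw, h.mul, ← E_one (f := f) (g := g) (B := B) (C := C)]; exact E_congr (by grind) (by grind) (by grind) (by grind))
  have e4 : ρ v⁻¹ = E f g B C (1 + Δ * d) (-(κ * β)) (-(κ' * γ)) (1 + Δ * a) := inv_of ρ (by
    rw [e2, h.mul, ← E_one (f := f) (g := g) (B := B) (C := C)]; exact E_congr (by grind) (by grind) (by grind) (by grind))
  obtain ⟨q, r, e5⟩ : ∃ q r, ρ (w * v * (w⁻¹ * v⁻¹)) =
      E f g B C (1 + Δ * ((κ' - κ) * β * γ)) (Δ * q) (Δ * r) (1 - Δ * ((κ' - κ) * β * γ)) :=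
    ⟨β * ((a - d) * (κ - 1) + (1 + κ) * (κ - κ') * β * γ), γ * ((a - d) * (1 - κ') + (1 + κ') * (κ' - κ) * β * γ), by
      rw [map_mul, map_mul, map_mul, hw, e2, e3, e4, h.mul, h.mul, h.mul]
      exact E_congr (by grind) (by grind) (by grind) (by grind)⟩
  have u3 := (u1.mul hβ).mul hγ
  generalize (κ' - κ) * β * γ = σ at e5 u3
  generalize w * v * (w⁻¹ * v⁻¹) = u at e5
  have e6 : ρ u⁻¹ = E f g B C (1 - Δ * σ) (-(Δ * q)) (-(Δ * r)) (1 + Δ * σ) := inv_of ρ (by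
    rw [e5, h.mul, ← E_one (f := f) (g := g) (B := B) (C := C)]; exact E_congr (by grind) (by grind) (by grind) (by grind))
  obtain ⟨b1, b2⟩ := h.k0 X hy hl hm hlm (x := u * w * u⁻¹ * w⁻¹) (q := 2 * σ * β * Δ) (r := -(2 * σ * γ) * Δ) (by
    rw [map_mul, map_mul, map_mul, hw, e5, e6, e3, h.mul, h.mul, h.mul]
    exact E_congr (by grind) (by grind) (by grind) (by grind)) (by grind)
  have b1 := cancel_r ((u2.mul u3).mul hβ) b1
  have b2 := cancel_l ((u2.mul u3).mul hγ).neg b2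
  have n1 : (f (Δ * σ)).det = 0 := (nil2 ⟨2, by rw [← map_pow, show (Δ * σ) ^ 2 = 0 by grind, map_zero]⟩).2
  have n2 : (g (-(Δ * σ))).det = 0 := (nil2 ⟨2, by rw [← map_pow, show (-(Δ * σ)) ^ 2 = 0 by grind, map_zero]⟩).2
  obtain ⟨c1, c2⟩ := k1 X (g := u) (X := f (Δ * σ)) (W := g (-(Δ * σ))) (by
    rw [e5, E, mul_comm Δ q, map_mul f q, map_mul f Δ r, mul_assoc, b1, ← mul_assoc, b2]; simp [sub_eq_add_neg]) (by
    rcases bcb (B := B) (C := C) (by rw [h.h3, b1]) (by rw [mul_assoc, h.h3, b2]) with r | r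
    · exact Or.inl ⟨by rw [map_mul, ← h.h3, r, zero_mul], n2⟩
    · exact Or.inr ⟨by rw [map_neg, map_mul, ← h.h4, r]; simp, n1⟩)
  obtain ⟨σ', hσ⟩ := u3.exists_right_inv
  have d1 : f Δ = 0 := by rw [← mul_one Δ, ← hσ, ← mul_assoc, map_mul, c1, zero_mul]
  have d2 : g Δ = 0 := by
    rw [map_neg, neg_eq_zero] at c2
    rw [← mul_one Δ, ← hσ, ← mul_assoc, map_mul, c2, zero_mul]
  obtain ⟨f1, f2⟩ := W.k0 X (y := y) (g := w) (β := f β * B) (γ := C * f γ)
    (by rw [hy]; simp [E, Algebra.algebraMap_eq_smul_one]) hl hm hlm (by rw [hw]; simp [E, d1, d2])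
    (by rw [mul_assoc, ← mul_assoc B, h.h3, d1]; simp)
    (by rw [mul_assoc, ← mul_assoc (f γ), ← map_mul, h.h1, ← mul_assoc, h.h4, d2]; simp)
  have f3 := cancel_r (f := f) (B := B) (x := 1) hβ (by rwa [mul_one])
  have f4 := cancel_l (f := f) (C := C) (x := 1) hγ (by rwa [mul_one])
  rw [map_one] at f3 f4
  exact ⟨by simpa using f3, by simpa using f4⟩

theorem Ef.caseI (h : Ef f g B C Δ) (h2 : (2 : L) ≠ 0) (X : Cx ρ) {y y' : Γ} {s t : L} {ω : R} (hω : ω * ω + Δ = 1)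
    (hy : ρ y = E f g B C (algebraMap L R (s + t)) 0 0 (algebraMap L R (s - t)))
    (hy' : ρ y' = E f g B C (algebraMap L R s + algebraMap L R t * ω) (algebraMap L R t) (algebraMap L R t)
      (algebraMap L R s - algebraMap L R t * ω))
    (hl : s + t ≠ 0) (hm : s - t ≠ 0) (hlm : (s + t) ^ 2 ≠ (s - t) ^ 2) (hΔ : Δ * Δ = 0) : B = 0 ∧ C = 0 := by
  have ht : t ≠ 0 := by rintro rfl; exact hlm (by ring)
  have a1 : algebraMap L R (s + t) * algebraMap L R (s + t)⁻¹ = 1 := by rw [← map_mul, mul_inv_cancel₀ hl, map_one]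
  have a2 : algebraMap L R (s - t) * algebraMap L R (s - t)⁻¹ = 1 := by rw [← map_mul, mul_inv_cancel₀ hm, map_one]
  have e1 : ρ y⁻¹ = E f g B C (algebraMap L R (s + t)⁻¹) 0 0 (algebraMap L R (s - t)⁻¹) := inv_of ρ (by
    rw [hy, h.mul, ← E_one (f := f) (g := g) (B := B) (C := C)]; exact E_congr (by grind) (by grind) (by grind) (by grind))
  have u1 : IsUnit (algebraMap L R t) := (Ne.isUnit ht).map _
  have u2 : IsUnit (2 : R) := by
    rw [← map_ofNat (algebraMap L R) 2]; exact (Ne.isUnit h2).map _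
  have hy0 := hy
  rw [map_add, map_sub] at hy; rw [map_add] at a1; rw [map_sub] at a2
  generalize algebraMap L R (s + t)⁻¹ = l at *
  generalize algebraMap L R (s - t)⁻¹ = m at *
  generalize algebraMap L R s = S at *
  generalize algebraMap L R t = T at *
  have e2 : ρ y'⁻¹ = E f g B C (l * m * (S - T * ω)) (-(l * m * T)) (-(l * m * T)) (l * m * (S + T * ω)) := inv_of ρ (by
    rw [hy', h.mul, ← E_one (f := f) (g := g) (B := B) (C := C)]; exact E_congr (by grind) (by grind) (by grind) (by grind))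
  have u3 : IsUnit ((S + T * ω) * (S - T * ω)) :=
    IsUnit.of_mul_eq_one (l * m * (1 - Δ * T * T * l * m)) (by grind)
  have u4 : IsUnit (l * m) := IsUnit.of_mul_eq_one ((S + T) * (S - T)) (by grind)
  have u5 : IsUnit l := isUnit_of_mul_isUnit_left u4
  have u6 : IsUnit m := isUnit_of_mul_isUnit_right u4
  refine h.step h2 X hy0 hl hm hlm hΔ (w := y * y' * y⁻¹ * y'⁻¹) (a := -(2 * T ^ 3 * l * m * m))
    (β := 2 * T * T * l * m * m * (S + T * ω)) (γ := -(2 * T * T * l * m * l * (S - T * ω))) (d := 2 * T ^ 3 * l * m * l) ?_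
    (by grind) ?_ ?_
  · rw [map_mul, map_mul, map_mul, hy, hy', e1, e2, h.mul, h.mul, h.mul]
    exact E_congr (by grind) (by grind) (by grind) (by grind)
  · exact (((((u2.mul u1).mul u1).mul u5).mul u6).mul u6).mul (isUnit_of_mul_isUnit_left u3)
  · exact ((((((u2.mul u1).mul u1).mul u5).mul u6).mul u5).mul (isUnit_of_mul_isUnit_right u3)).neg

theorem Ef.four (h : Ef f g B C Δ) (X : Cx ρ) {y y' : Γ} {s t : L} {ω : R} (hω : ω * ω + Δ = 1)
    (hy : ρ y = E f g B C (algebraMap L R (s + t)) 0 0 (algebraMap L R (s - t)))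
    (hy' : ρ y' = E f g B C (algebraMap L R s + algebraMap L R t * ω) (algebraMap L R t) (algebraMap L R t)
      (algebraMap L R s - algebraMap L R t * ω))
    (hl : s + t ≠ 0) (hm : s - t ≠ 0) (hlm : (s + t) ^ 2 ≠ (s - t) ^ 2) (h4 : s ^ 2 + t ^ 2 = 0)
    (hd : (s ^ 2 - t ^ 2) ^ 2 = 1) (hΔ : ω * ω * Δ = 0) : ρ ((y ^ 2 * y' ^ 2) ^ 4) = 1 := by
  have hy0 := hy
  have a1 := congrArg (algebraMap L R) h4
  have a2 := congrArg (algebraMap L R) hd
  simp only [map_add, map_sub, map_pow, map_zero, map_one] at a1 a2 hy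
  generalize algebraMap L R s = S at *
  generalize algebraMap L R t = T at *
  have e1 : ρ (y ^ 2 * y' ^ 2) = E f g B C (-ω) (-1) 1 (-ω) := by
    rw [sq, sq, map_mul, map_mul, map_mul, hy, hy', h.mul, h.mul, h.mul]
    exact E_congr (by grind) (by grind) (by grind) (by grind)
  generalize y ^ 2 * y' ^ 2 = x at e1
  have e2 : ρ (x ^ 4) = E f g B C 1 (4 * ω * (ω * ω - Δ)) (-(4 * ω * (ω * ω - Δ))) 1 := by
    rw [show x ^ 4 = x * x * (x * x) by simp [pow_succ, mul_assoc], map_mul, map_mul, e1, h.mul, h.mul]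
    exact E_congr (by grind) (by grind) (by grind) (by grind)
  obtain ⟨b1, b2⟩ := h.k0 X hy0 hl hm hlm e2 (by grind)
  rw [e2, E, b1, b2]; simp

end Cfsg.Agent.H6.W
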