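import Cfsg.Agent.H6.W5

set_option autoImplicit false

/-! Two rotations: normal forms and the pair lemma. -/

namespace Cfsg.Agent.H6.W
open Matrix Cfsg.Agent.H2.Mi

variable {L : Type*} [Field L] {Γ : Type*} [Group Γ]

section cj
variable {I J : Type*} [Fintype I] [DecidableEq I] [Fintype J] [DecidableEq J]

/-- change of basis -/
def cb (Q : Matrix I J L) (Q' : Matrix J I L) (h : Q * Q' = 1) (h' : Q' * Q = 1) : Matrix I I L →ₐ[L] Matrix J J L where
  toFun M := Q' * M * Q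
  map_one' := by simp [h']
  map_mul' M N := by
    calc Q' * (M * N) * Q = Q' * M * (Q * Q') * N * Q := by rw [h]; simp [Matrix.mul_assoc]
      _ = _ := by simp only [Matrix.mul_assoc]
  map_zero' := by simp
  map_add' M N := by simp [Matrix.mul_add, Matrix.add_mul]
  commutes' c := by simp [Algebra.algebraMap_eq_smul_one, h']

variable {Q : Matrix I J L} {Q' : Matrix J I L} {h : Q * Q' = 1} {h' : Q' * Q = 1}

theorem cb_apply (M : Matrix I I L) : cb Q Q' h h' M = Q' * M * Q := rfl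

theorem cb_cb (M : Matrix I I L) : cb Q' Q h' h (cb Q Q' h h' M) = M := by
  rw [cb_apply, cb_apply]
  calc _ = Q * Q' * M * (Q * Q') := by simp only [Matrix.mul_assoc]
    _ = M := by rw [h]; simp

theorem cb_inj : Function.Injective (cb Q Q' h h') := Function.LeftInverse.injective cb_cb

theorem cb_eq {M : Matrix I I L} {N : Matrix J J L} (e : M * Q = Q * N) : cb Q Q' h h' M = N := by
  rw [cb_apply, Matrix.mul_assoc, e, ← Matrix.mul_assoc, h', Matrix.one_mul]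

theorem cb_eq' {ρ : Γ →* Matrix I I L} {g : Γ} {N : Matrix J J L} (e : ρ g * Q = Q * N) :
    ((cb Q Q' h h' : Matrix I I L →* Matrix J J L).comp ρ) g = N := cb_eq (h := h) (h' := h') e

theorem cb_trace (M : Matrix I I L) : (cb Q Q' h h' M).trace = M.trace := by
  rw [cb_apply, Matrix.trace_mul_cycle, h, Matrix.one_mul]

theorem Cx.cb {ρ : Γ →* Matrix I I L} (C : Cx ρ) (h : Q * Q' = 1) (h' : Q' * Q = 1) :
    Cx ((cb Q Q' h h' : Matrix I I L →* Matrix J J L).comp ρ) where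
  nt g v φ e := by
    have := congrArg (W.cb Q' Q h' h) e
    rw [MonoidHom.comp_apply, MonoidHom.coe_coe, cb_cb, map_add, map_one, cb_apply, mul_vecMulVec, vecMulVec_mul] at this
    simp [C.nt g _ _ this]
  sq u y a b c := by
    simp only [MonoidHom.comp_apply, MonoidHom.coe_coe] at *
    have k : ∀ u y, (W.cb Q Q' h h' (ρ u) - 1) * (W.cb Q Q' h h' (ρ y) - 1) = 0 → (ρ u - 1) * (ρ y - 1) = 0 :=
      fun u y e => cb_inj (h := h) (h' := h') (by simpa using e)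
    rcases C.sq u y (k _ _ a) (k _ _ b) (k _ _ c) with r | r | r | r
    · simp [r]
    · simp [r]
    · simp [r]
    · simp [← map_mul (W.cb Q Q' h h'), r]

end cj

theorem tri_ne {M : M2 L} {a b : L} (h1 : M.trace = a + b) (h2 : M.det = a * b) (h : a ≠ b) :
    ∃ Q : M2 L, Q.det ≠ 0 ∧ M * Q = Q * !![a, 0; 0, b] := by
  rw [Matrix.trace_fin_two] at h1; rw [Matrix.det_fin_two] at h2
  have h' := sub_ne_zero.2 h
  simp only [← Matrix.ext_iff, Fin.forall_fin_two]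
  by_cases k : M 1 0 = 0
  · by_cases k2 : M 0 0 = a
    · exact ⟨!![1, M 0 1; 0, b - a], by simpa using sub_ne_zero.2 h.symm, by
        simp [Matrix.mul_apply, Fin.sum_univ_two]; grind⟩
    · exact ⟨!![M 0 1, 1; a - b, 0], by simpa using sub_ne_zero.2 (Ne.symm h), by
        simp [Matrix.mul_apply, Fin.sum_univ_two]; grind⟩
  · exact ⟨!![a - M 1 1, b - M 1 1; M 1 0, M 1 0], by
      rw [det_fin_two_of]; intro e; exact mul_ne_zero k h' (by linear_combination e), by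
        simp [Matrix.mul_apply, Fin.sum_univ_two]; grind⟩

theorem tri_eq {M : M2 L} {a : L} (h1 : M.trace = a + a) (h2 : M.det = a * a) :
    ∃ (Q : M2 L) (e : L), Q.det ≠ 0 ∧ M * Q = Q * !![a, e; 0, a] := by
  rw [Matrix.trace_fin_two] at h1; rw [Matrix.det_fin_two] at h2
  simp only [← Matrix.ext_iff, Fin.forall_fin_two]
  by_cases k : M 1 0 = 0
  · have : M 0 0 - a = 0 := pow_eq_zero_iff two_ne_zero |>.1 (by grind)
    exact ⟨1, M 0 1, by simp, by simp; grind⟩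
  · exact ⟨!![a - M 1 1, 1; M 1 0, 0], 1, by simpa using k, by
        simp [Matrix.mul_apply, Fin.sum_univ_two]; grind⟩

/-- the permutation matrix -/
def Pm : Matrix I4 I4 L := fromBlocks !![1, 0; 0, 0] !![0, 0; 1, 0] !![0, 1; 0, 0] !![0, 0; 0, 1]

theorem Pm_sq : (Pm : Matrix I4 I4 L) * Pm = 1 := by
  ext (i | i) (j | j) <;> fin_cases i <;> fin_cases j <;> simp [Pm, fromBlocks_multiply]

/-- the standard involution -/
def sg : Matrix I4 I4 L := fromBlocks 1 0 0 (-1)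

theorem sm_one (s : L) : s • (1 : Matrix I4 I4 L) = fromBlocks (s • 1) 0 0 (s • 1) := by
  rw [← fromBlocks_one, fromBlocks_smul]; simp

theorem rg1 {R : Type*} [CommRing R] {w a b : R} (h : (w - a) * (w - b) = 0) (ha : a ^ 2 = 1) (hb : b ^ 2 = 1) :
    (1 - w * w) * (1 - w * w) = 0 := by grind

theorem rg2 {R : Type*} [CommRing R] {w a b : R} (h : (w - a) * (w - b) = 0) (ha : a ^ 2 = 1 ∨ a = 0) (hb : b = 0) :
    w * w * (1 - w * w) = 0 := by grind

variable [Finite Γ] (p : ℕ) [Fact p.Prime] [CharP L p] {ρ : Γ →* Matrix I4 I4 L}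
include p

theorem nfA (hL : LocFin L) (h2 : (2 : L) ≠ 0) (X : Cx ρ) {y y' : Γ} {s t a b : L} {B C : M2 L}
    (hy : ρ y = s • 1 + t • sg) (hy' : ρ y' = s • 1 + t • fromBlocks !![a, 0; 0, b] B C (-!![a, 0; 0, b]))
    (hS : fromBlocks !![a, 0; 0, b] B C (-!![a, 0; 0, b]) * fromBlocks !![a, 0; 0, b] B C (-!![a, 0; 0, b]) = 1)
    (h : a ≠ b) (ha : a ^ 2 ≠ 1) : Cc s t a := by
  rw [fromBlocks_multiply, ← fromBlocks_one, fromBlocks_inj] at hS
  obtain ⟨r1, r2, r3, -⟩ := hS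
  have r1 := congrFun (congrFun r1 0) 0
  have b1 := congrFun (congrFun r2 0) 1
  have b2 := congrFun (congrFun r2 1) 0
  have c1 := congrFun (congrFun r3 0) 1
  have c2 := congrFun (congrFun r3 1) 0
  simp [Matrix.mul_apply, Fin.sum_univ_two, vecMul, dotProduct] at r1 b1 b2 c1 c2
  have h' := sub_ne_zero.2 h
  have b1 : B 0 1 = 0 := mul_left_cancel₀ h' (by linear_combination b1)
  have b2 : B 1 0 = 0 := mul_left_cancel₀ h' (by linear_combination -b2)
  have c1 : C 0 1 = 0 := mul_left_cancel₀ h' (by linear_combination -c1)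
  have c2 : C 1 0 = 0 := mul_left_cancel₀ h' (by linear_combination c2)
  rw [b1] at r1
  refine caseA p hL h2 (X.cb Pm_sq Pm_sq) (y := y) (y' := y') (b := B 0 0) (c := C 0 0) (W := !![s + t, 0; 0, s - t])
    (W' := !![s + t * b, t * B 1 1; t * C 1 1, s - t * b]) (cb_eq' ?_) (cb_eq' ?_) (by grind) (by grind) (by grind)
  · rw [hy]
    ext (i | i) (j | j) <;> fin_cases i <;> fin_cases j <;>
      simp [Pm, sg, Matrix.mul_apply, Fin.sum_univ_two, sub_eq_add_neg]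
  · rw [hy']
    ext (i | i) (j | j) <;> fin_cases i <;> fin_cases j <;>
      simp [Pm, Matrix.mul_apply, Fin.sum_univ_two, sub_eq_add_neg, b1, b2, c1, c2]

theorem nfB (hL : LocFin L) (h2 : (2 : L) ≠ 0) (X : Cx ρ) {y y' : Γ} {s t a e : L} {B D : M2 L}
    (hy : ρ y = s • 1 + t • sg) (hy' : ρ y' = s • 1 + t • fromBlocks !![a, e; 0, a] B 1 D)
    (hS : fromBlocks !![a, e; 0, a] B 1 D * fromBlocks !![a, e; 0, a] B 1 D = 1) (ha : a ^ 2 ≠ 1) : Cc s t a := by
  rw [fromBlocks_multiply, ← fromBlocks_one, fromBlocks_inj] at hS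
  obtain ⟨r1, -, r3, -⟩ := hS
  rw [mul_one] at r1; rw [mul_one, one_mul] at r3
  obtain rfl := eq_sub_of_add_eq' r1
  obtain rfl := eq_neg_of_add_eq_zero_right r3
  refine caseB p hL h2 (X.cb Pm_sq Pm_sq) (y := y) (y' := y') (b := 1 - a ^ 2) (c := 1)
    (Z0 := !![t * e, -(2 * t * a * e); 0, -(t * e)]) (cb_eq' ?_) (cb_eq' ?_) ?_ (sub_ne_zero.2 ha.symm) one_ne_zero (by ring)
  · rw [hy]
    ext (i | i) (j | j) <;> fin_cases i <;> fin_cases j <;>
      simp [Pm, sg, Matrix.mul_apply, Fin.sum_univ_two, sub_eq_add_neg]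
  · rw [hy']
    ext (i | i) (j | j) <;> fin_cases i <;> fin_cases j <;>
      simp [Pm, Matrix.mul_apply, Fin.sum_univ_two, sub_eq_add_neg] <;> ring_nf <;> simp
  · simp [Matrix.trace_fin_two]; ring

theorem eig (hL : LocFin L) (h2 : (2 : L) ≠ 0) (X : Cx ρ) {y y' : Γ} {s t a b : L} {A B C D : M2 L}
    (hy : ρ y = s • 1 + t • sg) (hy' : ρ y' = s • 1 + t • fromBlocks A B C D)
    (hS : fromBlocks A B C D * fromBlocks A B C D = 1) (h1 : A.trace = a + b) (h3 : A.det = a * b)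
    (h4 : (-D).trace = a + b) (h5 : (-D).det = a * b) (ha : a ^ 2 ≠ 1) : Cc s t a := by
  have key : ∀ Q1 Q2 : M2 L, Q1.det ≠ 0 → Q2.det ≠ 0 → ∃ ρ' : Γ →* Matrix I4 I4 L, Cx ρ' ∧ ρ' y = s • 1 + t • sg ∧
      ρ' y' = s • 1 + t • fromBlocks (Q1⁻¹ * A * Q1) (Q1⁻¹ * B * Q2) (Q2⁻¹ * C * Q1) (Q2⁻¹ * D * Q2) ∧
      fromBlocks (Q1⁻¹ * A * Q1) (Q1⁻¹ * B * Q2) (Q2⁻¹ * C * Q1) (Q2⁻¹ * D * Q2) *
        fromBlocks (Q1⁻¹ * A * Q1) (Q1⁻¹ * B * Q2) (Q2⁻¹ * C * Q1) (Q2⁻¹ * D * Q2) = 1 := fun Q1 Q2 q1 q2 => by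
    have e1 : fromBlocks Q1 0 0 Q2 * fromBlocks Q1⁻¹ 0 0 Q2⁻¹ = 1 := by
      simp [fromBlocks_multiply, Matrix.mul_nonsing_inv _ (Ne.isUnit q1), Matrix.mul_nonsing_inv _ (Ne.isUnit q2)]
    have e2 := mul_eq_one_comm.1 e1
    have e3 : cb _ _ e1 e2 (fromBlocks A B C D) =
        fromBlocks (Q1⁻¹ * A * Q1) (Q1⁻¹ * B * Q2) (Q2⁻¹ * C * Q1) (Q2⁻¹ * D * Q2) := by
      simp [cb_apply, fromBlocks_multiply]
    refine ⟨_, X.cb e1 e2, ?_, ?_, by rw [← e3, ← map_mul, hS, map_one]⟩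
    · have : cb _ _ e1 e2 sg = sg := cb_eq (by simp [sg, fromBlocks_multiply])
      simp [hy, this]
    · simp [hy', e3]
  have k : ∀ {Q M N : M2 L}, Q.det ≠ 0 → M * Q = Q * N → Q⁻¹ * M * Q = N := fun q e => by
    rw [mul_assoc, e, ← mul_assoc, Matrix.nonsing_inv_mul _ (Ne.isUnit q), one_mul]
  by_cases h : a = b
  · subst h
    obtain ⟨Q, e, q, hQ⟩ := tri_eq h1 h3
    have hC : C.det ≠ 0 := fun c => by
      rw [fromBlocks_multiply, ← fromBlocks_one, fromBlocks_inj] at hS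
      have := congrArg Matrix.det (eq_sub_of_add_eq' hS.1)
      rw [det_mul, c, mul_zero] at this
      rw [Matrix.trace_fin_two] at h1; rw [Matrix.det_fin_two] at h3 this
      simp [Matrix.mul_apply, Fin.sum_univ_two] at this
      exact pow_ne_zero 2 (sub_ne_zero.2 ha) (by grind)
    have q2 : (C * Q).det ≠ 0 := by rw [det_mul]; exact mul_ne_zero hC q
    obtain ⟨ρ', X', e1, e2, e3⟩ := key Q (C * Q) q q2
    rw [k q hQ, mul_assoc _ C, Matrix.nonsing_inv_mul _ (Ne.isUnit q2)] at e2 e3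
    exact nfB p hL h2 X' e1 e2 e3 ha
  · obtain ⟨Q1, q1, hQ1⟩ := tri_ne h1 h3 h
    obtain ⟨Q2, q2, hQ2⟩ := tri_ne h4 h5 h
    obtain ⟨ρ', X', e1, e2, e3⟩ := key Q1 Q2 q1 q2
    rw [k q1 hQ1, k (M := D) (N := -!![a, 0; 0, b]) q2 (by rw [mul_neg, ← hQ2]; simp)] at e2 e3
    exact nfA p hL h2 X' e1 e2 e3 h ha

theorem pair0 [IsAlgClosed L] (hL : LocFin L) (h2 : (2 : L) ≠ 0) (X : Cx ρ) {y y' : Γ} {s t : L} {S : Matrix I4 I4 L}
    (hy : ρ y = s • 1 + t • sg) (hy' : ρ y' = s • 1 + t • S) (hS : S * S = 1) (ht : S.trace = 0)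
    (hd : (s ^ 2 - t ^ 2) ^ 2 = 1) (q2 : (s + t) ^ 2 ≠ (s - t) ^ 2) (q3 : (s + t) ^ 3 ≠ (s - t) ^ 3)
    (q5 : (s + t) ^ 5 ≠ (s - t) ^ 5) :
    ρ y * ρ y' = ρ y' * ρ y ∨ ((s + t) ^ 4 = (s - t) ^ 4 ∧ ρ ((y ^ 2 * y' ^ 2) ^ 4) = 1) := by
  obtain ⟨A, B, C, D, rfl⟩ : ∃ A B C D, S = fromBlocks A B C D := ⟨_, _, _, _, (fromBlocks_toBlocks S).symm⟩
  have hS' := hS
  rw [fromBlocks_multiply, ← fromBlocks_one, fromBlocks_inj] at hS'
  obtain ⟨r1, r2, r3, r4⟩ := hS'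
  have t1 : (-D).trace = A.trace := by
    simp only [Matrix.trace, diag, Fintype.sum_sum_type, fromBlocks_apply₁₁, fromBlocks_apply₂₂] at ht
    rw [Matrix.trace_neg]; simp only [Matrix.trace, diag]; linear_combination -ht
  have t2 : (-D).det = A.det := by
    have e1 := congrArg Matrix.trace r1
    have e2 := congrArg Matrix.trace r4
    rw [Matrix.trace_add] at e1 e2
    rw [Matrix.trace_mul_comm C] at e2
    generalize (B * C).trace = z at *
    simp [Matrix.trace_fin_two, Matrix.det_fin_two, Matrix.mul_apply, Fin.sum_univ_two] at e1 e2 t1 ⊢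
    exact mul_left_cancel₀ h2 (by grind)
  obtain ⟨a, b, h1, h3⟩ : ∃ a b, A.trace = a + b ∧ A.det = a * b := by
    obtain ⟨d, hd⟩ := IsAlgClosed.exists_pow_nat_eq (A.trace ^ 2 - 4 * A.det) two_pos
    exact ⟨(A.trace + d) / 2, (A.trace - d) / 2, by field_simp; ring, by field_simp; linear_combination hd⟩
  have ka := eig p hL h2 X hy hy' hS h1 h3 (t1.trans h1) (t2.trans h3)
  have kb := eig p hL h2 X (a := b) (b := a) hy hy' hS (by rw [h1, add_comm]) (by rw [h3, mul_comm])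
    (by rw [t1, h1, add_comm]) (by rw [t2, h3, mul_comm])
  have ch : ∀ M : M2 L, M.trace = a + b → M.det = a * b → M * M = (-(a * b)) • (1 : M2 L) + (a + b) • M := fun M m1 m2 => by
    rw [← m1, ← m2]
    ext i j; fin_cases i <;> fin_cases j <;> simp [Matrix.mul_apply, Matrix.trace_fin_two, Matrix.det_fin_two] <;> ring
  let R := QuadraticAlgebra L (-(a * b)) (a + b)
  let f : R →ₐ[L] M2 L := QuadraticAlgebra.lift ⟨A, ch A h1 h3⟩
  let g : R →ₐ[L] M2 L := QuadraticAlgebra.lift ⟨-D, ch _ (t1.trans h1) (t2.trans h3)⟩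
  have hf : ∀ r, f r = r.re • 1 + r.im • A := fun r => rfl
  have hg : ∀ r, g r = r.re • 1 + r.im • -D := fun r => rfl
  let ω : R := ⟨0, 1⟩
  have fω : f ω = A := by simp [hf, ω]
  have gω : g ω = -D := by simp [hg, ω]
  have hE : Ef f g B C (1 - ω * ω) :=
    ⟨fun r => by rw [hf, hg]; simp [add_mul, mul_add, eq_neg_of_add_eq_zero_left r2],
      fun r => by rw [hf, hg]; simp [add_mul, mul_add, eq_neg_of_add_eq_zero_left r3],
      by rw [map_sub, map_mul, fω, map_one, ← r1]; simp, by rw [map_sub, map_mul, gω, map_one, ← r4]; simp⟩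
  have hω : (ω - algebraMap L R a) * (ω - algebraMap L R b) = 0 := by
    ext <;> simp [ω, R]
    ring
  have e1 : ρ y = E f g B C (algebraMap L R (s + t)) 0 0 (algebraMap L R (s - t)) := by
    rw [hy, E, AlgHom.commutes, AlgHom.commutes, sg, sm_one]
    simp [fromBlocks_smul, fromBlocks_add, Algebra.algebraMap_eq_smul_one, add_smul, sub_eq_add_neg]
  have e2 : ρ y' = E f g B C (algebraMap L R s + algebraMap L R t * ω) (algebraMap L R t) (algebraMap L R t)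
      (algebraMap L R s - algebraMap L R t * ω) := by
    rw [hy', E, sm_one]
    simp [fromBlocks_smul, fromBlocks_add, Algebra.algebraMap_eq_smul_one, fω, gω]
  have hl : s + t ≠ 0 := fun e => by grind
  have hm : s - t ≠ 0 := fun e => by grind
  have ma : ∀ {a : L}, a ^ 2 = 1 → algebraMap L R a ^ 2 = 1 := fun h => by rw [← map_pow, h, map_one]
  have kc : ∀ {a : L}, Cc s t a → (s + t) ^ 4 = (s - t) ^ 4 ∧ a = 0 := fun h =>
    ((h.resolve_left q2).resolve_left q3).resolve_left q5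
  have fin : (s + t) ^ 4 = (s - t) ^ 4 → ω * ω * (1 - ω * ω) = 0 →
      (s + t) ^ 4 = (s - t) ^ 4 ∧ ρ ((y ^ 2 * y' ^ 2) ^ 4) = 1 := fun q4 e =>
    ⟨q4, hE.four X (by ring) e1 e2 hl hm q2 (mul_left_cancel₀ (mul_ne_zero h2 (sub_ne_zero.2 q2)) (by
      linear_combination q4)) hd e⟩
  by_cases ha : a ^ 2 = 1 <;> by_cases hb : b ^ 2 = 1
  · left
    obtain ⟨rfl, rfl⟩ := hE.caseI h2 X (by ring) e1 e2 hl hm q2 (rg1 hω (ma ha) (ma hb))
    rw [hy, hy', sg, sm_one]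
    simp [fromBlocks_smul, fromBlocks_add, fromBlocks_multiply, mul_add, add_mul]
    constructor <;> module
  · obtain ⟨q4, rfl⟩ := kc (kb hb)
    exact Or.inr (fin q4 (rg2 hω (Or.inl (ma ha)) (map_zero _)))
  · obtain ⟨q4, rfl⟩ := kc (ka ha)
    exact Or.inr (fin q4 (rg2 (mul_comm (ω - _) _ ▸ hω) (Or.inl (ma hb)) (map_zero _)))
  · obtain ⟨q4, rfl⟩ := kc (ka ha)
    obtain ⟨-, rfl⟩ := kc (kb hb)
    exact Or.inr (fin q4 (rg2 hω (Or.inr (map_zero _)) (map_zero _)))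

end Cfsg.Agent.H6.W
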