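import Cfsg.Agent.H6.W6

set_option autoImplicit false

/-! Two rotations: the pair lemma without coordinates. -/

namespace Cfsg.Agent.H6.W
open Matrix Cfsg.Agent.H2.Mi Module

variable {L : Type*} [Field L] {Γ : Type*} [Group Γ]

abbrev N4 (L : Type*) := Matrix (Fin 4) (Fin 4) L

theorem idem_proj {e : N4 L} (h : e * e = e) : LinearMap.IsProj (LinearMap.range e.mulVecLin) e.mulVecLin :=
  LinearMap.IsIdempotentElem.isProj_range _ (by
    rw [IsIdempotentElem, Module.End.mul_eq_comp, ← Matrix.mulVecLin_mul, h])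

theorem idem_trace {e : N4 L} (h : e * e = e) : e.trace = e.rank := by
  rw [← Matrix.trace_toLin'_eq, Matrix.toLin'_apply', (idem_proj h).trace]; rfl

theorem idem {e : N4 L} (h : e * e = e) :
    e = 0 ∨ (e.trace = 1 ∧ ∃ v φ, e = vecMulVec v φ) ∨ e.trace = 2 ∨ e.trace = 3 ∨ e = 1 := by
  have h1 := idem_trace h
  have h2 : e.rank ≤ 4 := e.rank_le_width
  have h3 : ∀ j, e *ᵥ Pi.single j 1 ∈ LinearMap.range e.mulVecLin := fun j => ⟨_, rfl⟩
  rcases (by omega : e.rank = 0 ∨ e.rank = 1 ∨ e.rank = 2 ∨ e.rank = 3 ∨ e.rank = 4) with r | r | r | r | r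
  · left
    rw [Matrix.rank, Submodule.finrank_eq_zero] at r
    ext i j
    have := h3 j
    rw [r, Submodule.mem_bot] at this
    simpa using congrFun this i
  · refine Or.inr (Or.inl ⟨by simp [h1, r], ?_⟩)
    obtain ⟨v, -, hv⟩ := finrank_eq_one_iff'.1 r
    choose c hc using fun j => hv ⟨_, h3 j⟩
    refine ⟨v, c, ?_⟩
    ext i j
    have := congrFun (congrArg Subtype.val (hc j)) i
    simpa [vecMulVec_apply, mul_comm] using this.symm
  · exact Or.inr (Or.inr (Or.inl (by simp [h1, r])))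
  · exact Or.inr (Or.inr (Or.inr (Or.inl (by simp [h1, r]))))
  · refine Or.inr (Or.inr (Or.inr (Or.inr ?_)))
    have := Submodule.eq_top_of_finrank_eq (S := LinearMap.range e.mulVecLin) (r.trans (by simp))
    refine Matrix.ext_iff_mulVec.2 fun v => ?_
    rw [one_mulVec]
    exact (idem_proj h).map_id v (this ▸ Submodule.mem_top)

theorem exists_cb (h2 : (2 : L) ≠ 0) {S : N4 L} (h : S * S = 1) (ht : S.trace = 0) :
    ∃ (Q : Matrix (Fin 4) I4 L) (Q' : Matrix I4 (Fin 4) L), Q * Q' = 1 ∧ Q' * Q = 1 ∧ S * Q = Q * (sg : Matrix I4 I4 L) := by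
  obtain ⟨e, he⟩ : ∃ e : N4 L, e = (2 : L)⁻¹ • (1 + S) := ⟨_, rfl⟩
  have hS : S = (2 : L) • e - 1 := by rw [he, smul_smul, mul_inv_cancel₀ h2]; simp
  have h1 : e * e = e := by
    rw [he]; simp only [smul_mul_assoc, mul_smul_comm, add_mul, mul_add, h, one_mul, mul_one, smul_smul]
    match_scalars <;> field_simp <;> ring
  have h3 : e.rank = 2 := by
    have t := idem_trace h1
    have t2 : e.trace = 2 := by rw [he]; simp [ht]; field_simp; ring
    have h4 : e.rank ≤ 4 := e.rank_le_width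
    rw [t2] at t
    generalize e.rank = r at *
    interval_cases r <;> simp at t ⊢ <;> grind
  have hp := idem_proj h1
  have h4 : finrank L (LinearMap.ker e.mulVecLin) = 2 := by
    have := e.mulVecLin.finrank_range_add_finrank_ker
    rw [show finrank L (LinearMap.range e.mulVecLin) = 2 from h3] at this
    simp at this; omega
  let b := ((finBasisOfFinrankEq L _ h3).prod (finBasisOfFinrankEq L _ h4)).map
    (Submodule.prodEquivOfIsCompl _ _ hp.isCompl)
  refine ⟨(Pi.basisFun L (Fin 4)).toMatrix b, b.toMatrix (Pi.basisFun L (Fin 4)), Basis.toMatrix_mul_toMatrix_flip _ _,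
    Basis.toMatrix_mul_toMatrix_flip _ _, ?_⟩
  have k : ∀ j, (Pi.basisFun L (Fin 4)).toMatrix b *ᵥ Pi.single j 1 = b j := fun j => by
    ext i; simp [Basis.toMatrix_apply]
  refine Matrix.ext_of_mulVec_single fun j => ?_
  rw [← mulVec_mulVec, ← mulVec_mulVec, k]
  rcases j with j | j
  · have : sg *ᵥ Pi.single (Sum.inl j : I4) (1 : L) = Pi.single (Sum.inl j) 1 := by
      ext (i | i) <;> simp [sg, one_apply, Pi.single_apply]
    rw [this, k, hS, sub_mulVec, smul_mulVec, one_mulVec]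
    have : e *ᵥ b (Sum.inl j) = b (Sum.inl j) := hp.map_id _ (by simp [b])
    rw [this]; module
  · have : sg *ᵥ Pi.single (Sum.inr j : I4) (1 : L) = -Pi.single (Sum.inr j) 1 := by
      ext (i | i) <;> simp [sg, one_apply, Pi.single_apply]
    rw [this, mulVec_neg, k, hS, sub_mulVec, smul_mulVec, one_mulVec]
    have : e *ᵥ b (Sum.inr j) = 0 := show b (Sum.inr j) ∈ LinearMap.ker e.mulVecLin by simp [b]
    rw [this]; simp

theorem rot_pow (h2 : (2 : L) ≠ 0) {S : N4 L} (h : S * S = 1) (s t : L) (n : ℕ) : (s • (1 : N4 L) + t • S) ^ n =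
    (((s + t) ^ n + (s - t) ^ n) / 2) • (1 : N4 L) + (((s + t) ^ n - (s - t) ^ n) / 2) • S := by
  induction n with
  | zero => simp [show (1 + 1 : L) = 2 by norm_num, h2]
  | succ n ih =>
    rw [pow_succ, ih]
    simp only [smul_mul_assoc, mul_smul_comm, add_mul, mul_add, h, one_mul, mul_one, smul_smul]
    match_scalars <;> ring

theorem pair [Finite Γ] (p : ℕ) [Fact p.Prime] [CharP L p] {ρ : Γ →* N4 L} [IsAlgClosed L] (hL : LocFin L)
    (h2 : (2 : L) ≠ 0) (X : Cx ρ) {y y' : Γ} {s t : L} {S S' : N4 L}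
    (hy : ρ y = s • 1 + t • S) (hy' : ρ y' = s • 1 + t • S') (hS : S * S = 1) (ht : S.trace = 0)
    (hS' : S' * S' = 1) (ht' : S'.trace = 0) (hd : (ρ y).det = 1) (q2 : (s + t) ^ 2 ≠ (s - t) ^ 2)
    (q3 : (s + t) ^ 3 ≠ (s - t) ^ 3) (q5 : (s + t) ^ 5 ≠ (s - t) ^ 5) :
    ρ y * ρ y' = ρ y' * ρ y ∨ ((s + t) ^ 4 = (s - t) ^ 4 ∧ ρ ((y ^ 2 * y' ^ 2) ^ 4) = 1) := by
  obtain ⟨Q, Q', a, b, c⟩ := exists_cb h2 hS ht
  have e1 : cb Q Q' a b (ρ y) = s • 1 + t • sg := by rw [hy, map_add, map_smul, map_smul, map_one, cb_eq c]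
  have := pair0 p hL h2 (X.cb a b) (y := y) (y' := y') (S := cb Q Q' a b S') e1 (by simp [hy'])
    (by rw [← map_mul, hS', map_one]) (by rw [cb_trace, ht']) (by
      have := congrArg Matrix.det e1
      rw [cb_apply, det_conj_of_mul_eq_one b a, hd, sm_one, sg, fromBlocks_smul, fromBlocks_add] at this
      simp only [smul_zero, add_zero, det_fromBlocks_zero₂₁] at this
      simp [Matrix.det_fin_two] at this
      linear_combination -this) q2 q3 q5
  refine this.imp (fun k => cb_inj (h := a) (h' := b) (by simpa using k)) fun k =>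
    ⟨k.1, cb_inj (h := a) (h' := b) (by simpa using k.2)⟩

theorem pg_zp {G : Type*} [Group G] {p k : ℕ} {a : G} (h : a ^ p ^ k = 1) : IsPGroup p (Subgroup.zpowers a) :=
  fun ⟨_, n, rfl⟩ => ⟨k, Subtype.ext (by
    simp only [SubmonoidClass.coe_pow, OneMemClass.coe_one]
    rw [← zpow_natCast, ← _root_.zpow_mul, mul_comm, _root_.zpow_mul, zpow_natCast, h, _root_.one_zpow])⟩

/-- an involution in a simple group inverts an element whose order is not a power of two -/
theorem inv_four {G : Type*} [Group G] [Finite G] [IsSimpleGroup G] [Group.IsPerfect G] {z : G} (hz : z * z = 1)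
    (h : ∀ g g' : G, (g * z * g⁻¹ * (g' * z * g'⁻¹)) ^ 4 = 1) : z = 1 := by
  have : Fact (Nat.Prime 2) := ⟨Nat.prime_two⟩
  have hD : ∀ g, ∀ x ∈ Group.conjugatesOfSet {z}, g * x * g⁻¹ ∈ Group.conjugatesOfSet {z} :=
    fun g x hx => Group.conj_mem_conjugatesOfSet hx
  have hc : ∀ x ∈ Group.conjugatesOfSet {z}, ∃ g, g * z * g⁻¹ = x := fun x hx => by
    obtain ⟨_, rfl, hx'⟩ := Group.mem_conjugatesOfSet_iff.1 hx
    exact isConj_iff.1 hx'
  have := baer_suzuki (p := 2) hD fun x hx y hy => by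
    obtain ⟨g, rfl⟩ := hc x hx
    obtain ⟨g', rfl⟩ := hc y hy
    have h1 := h g g'
    have h2 : g * z * g⁻¹ * (g * z * g⁻¹) = 1 := by rw [conj_mul, hz]; simp
    have h3 : g' * z * g'⁻¹ * (g' * z * g'⁻¹) = 1 := by rw [conj_mul, hz]; simp
    generalize g * z * g⁻¹ = x at *
    generalize g' * z * g'⁻¹ = y at *
    have h4 : x * (x * y) * x⁻¹ = (x * y)⁻¹ := by
      rw [← mul_assoc, h2, one_mul, _root_.mul_inv_rev, inv_eq_of_mul_eq_one_right h3]
    have k : ∀ w ∈ Subgroup.zpowers (x * y), x * w * x⁻¹ ∈ Subgroup.zpowers (x * y) := by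
      rintro _ ⟨n, rfl⟩
      exact ⟨-n, by simp only; rw [← conj_zpow, h4]; simp only [_root_.zpow_neg, _root_.inv_zpow]⟩
    refine (IsPGroup.to_sup_of_normal_right' (pg_zp (a := x) (k := 1) (by simpa [sq] using h2))
      (pg_zp (a := x * y) (k := 2) h1) (Subgroup.zpowers_le_of_mem fun w => ⟨k w, fun hw => ?_⟩)).to_le
      ((Subgroup.closure_le _).2 ?_)
    · have := k _ hw
      rwa [← mul_assoc, ← mul_assoc, h2, one_mul, mul_assoc, ← _root_.mul_inv_rev, h2, inv_one, mul_one] at this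
    · have := Subgroup.mul_mem_sup (Subgroup.mem_zpowers x) (Subgroup.mem_zpowers (x * y))
      rw [show x * (x * y) = y by rw [← mul_assoc, h2, one_mul]] at this
      rintro _ (rfl | rfl)
      exacts [Subgroup.mem_sup_left (Subgroup.mem_zpowers _), this]
  rcases (Subgroup.normalClosure_normal (s := {z})).eq_bot_or_eq_top with e | e
  · exact Subgroup.mem_bot.1 (e ▸ Subgroup.subset_normalClosure rfl)
  · exfalso
    rw [show Subgroup.closure _ = ⊤ from e] at this
    exact Group.IsPerfect.not_isNilpotent G (this.of_equiv Subgroup.topEquiv).isNilpotent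

theorem comm_one {G : Type*} [Group G] [IsSimpleGroup G] [Group.IsPerfect G] {z : G}
    (h : ∀ g g' : G, g * z * g⁻¹ * (g' * z * g'⁻¹) = g' * z * g'⁻¹ * (g * z * g⁻¹)) : z = 1 := by
  rcases (Subgroup.normalClosure_normal (s := {z})).eq_bot_or_eq_top with e | e
  · exact Subgroup.mem_bot.1 (e ▸ Subgroup.subset_normalClosure rfl)
  · exfalso
    have := Subgroup.isMulCommutative_closure (k := Group.conjugatesOfSet {z}) fun x hx y hy => by
      obtain ⟨_, rfl, hx'⟩ := Group.mem_conjugatesOfSet_iff.1 hx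
      obtain ⟨_, rfl, hy'⟩ := Group.mem_conjugatesOfSet_iff.1 hy
      obtain ⟨g, rfl⟩ := isConj_iff.1 hx'
      obtain ⟨g', rfl⟩ := isConj_iff.1 hy'
      exact h g g'
    rw [show Subgroup.closure _ = ⊤ from e] at this
    exact Group.IsPerfect.not_isMulCommutative G ⟨⟨fun a b =>
      congrArg Subtype.val (this.is_comm.comm ⟨a, trivial⟩ ⟨b, trivial⟩)⟩⟩

end Cfsg.Agent.H6.W
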