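import Cfsg.Agent.H6.Y2

set_option autoImplicit false

/-! Two quaternion groups, each commuting with the rotation normalising the other. -/

namespace Cfsg.Agent.H6.Y
open Matrix Cfsg.Agent.H1.Mit Cfsg.Agent.H1.N1

variable {K : Type*} [Field K] {i j x y a b c I p r s t : M4 K} {β l m : K}

theorem tl {x y z : M4 K} (e : x * y = z) (w : M4 K) : x * (y * w) = z * w := by rw [← mul_assoc, e]

theorem Cm.one : Cm i j 1 := by simp [Cm]
theorem Cm.add (h : Cm i j x) (k : Cm i j y) : Cm i j (x + y) := by simp [Cm, mul_add, add_mul, h.1, h.2, k.1, k.2]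
theorem Cm.sub (h : Cm i j x) (k : Cm i j y) : Cm i j (x - y) := by simp [Cm, mul_sub, sub_mul, h.1, h.2, k.1, k.2]
theorem Cm.neg (h : Cm i j x) : Cm i j (-x) := by simp [Cm, h.1, h.2]
theorem Cm.smul (h : Cm i j x) (l : K) : Cm i j (l • x) := by simp [Cm, h.1, h.2]
theorem Cm.mul (h : Cm i j x) (k : Cm i j y) : Cm i j (x * y) := by
  simp [Cm, mul_assoc, tl h.1, tl h.2, k.1, k.2]

/-- normal form of words in the units -/
macro "qs" q:term "," "[" ts:term,* "]" l:(Lean.Parser.Tactic.location)? : tactic => `(tactic| simp only [mul_add, add_mul, mul_sub, sub_mul,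
  mul_neg, neg_mul, mul_assoc, mul_one, one_mul, mul_smul_comm, smul_mul_assoc, neg_neg, Qa.ii $q, Qa.jj $q, Qa.ji $q,
  tl (Qa.ii $q), tl (Qa.jj $q), tl (Qa.ji $q), smul_add, zero_mul, $[$ts:term],*, $[tl $ts:term],*] $[$l]?)

namespace Qa
variable (q : Qa i j)
include q

theorem ind2 (hp : Cm i j p) (hr : Cm i j r) (e : p + r * i = 0) : p = 0 ∧ r = 0 := by
  have e1 : j * (p + r * i) * j = -p + r * i := by qs q, [hp.2, hr.2]
  have e2 : i * (r * i) = -r := by qs q, [hr.1]
  rw [e, mul_zero, zero_mul] at e1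
  have e3 : r * i = 0 := half q.two (by linear_combination (norm := module) e - e1)
  exact ⟨half q.two (by linear_combination (norm := module) e + e1), by simpa [e3] using e2⟩

theorem ind4 (hp : Cm i j p) (hr : Cm i j r) (hs : Cm i j s) (ht : Cm i j t) (e : p + r * i + s * j + t * (i * j) = 0) :
    p = 0 ∧ r = 0 ∧ s = 0 ∧ t = 0 := by
  have e1 : i * (p + r * i + s * j + t * (i * j)) * i = -p - r * i + s * j + t * (i * j) := by
    qs q, [hp.1, hr.1, hs.1, ht.1]; module
  rw [e, mul_zero, zero_mul] at e1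
  have e2 : (s * j + t * (i * j)) * j = -(s + t * i) := by qs q, [q.ii]; module
  have e3 : s * j + t * (i * j) = 0 := half q.two (by linear_combination (norm := module) e - e1)
  have := q.ind2 hp hr (half q.two (by linear_combination (norm := module) e + e1))
  have := q.ind2 hs ht (by rw [e3, zero_mul] at e2; exact neg_eq_zero.1 e2.symm)
  tauto

theorem dec (hx : x * (i + j + i * j) = (i + j + i * j) * x) : ∃ a b, Cm i j a ∧ Cm i j b ∧ x = a + b * (i + j + i * j) := by
  have c : ∀ x, Cm i j (x - i * x * i - j * x * j - i * j * x * (i * j)) := fun x => ⟨by qs q, [q.ii]; module, by qs q, [q.ii]; module⟩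
  have h4 : (4 : K) ≠ 0 := fun e => mul_ne_zero q.two q.two (by linear_combination e)
  have d : (4 : K) • x = (x - i * x * i - j * x * j - i * j * x * (i * j)) +
      -(x * i - i * (x * i) * i - j * (x * i) * j - i * j * (x * i) * (i * j)) * i +
      -(x * j - i * (x * j) * i - j * (x * j) * j - i * j * (x * j) * (i * j)) * j +
      -(x * (i * j) - i * (x * (i * j)) * i - j * (x * (i * j)) * j - i * j * (x * (i * j)) * (i * j)) * (i * j) := by
    qs q, [q.ii]; module
  have c0 := c x
  have c1 := (c (x * i)).neg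
  have c2 := (c (x * j)).neg
  have c3 := (c (x * (i * j))).neg
  generalize x - i * x * i - j * x * j - i * j * x * (i * j) = p at *
  generalize -(x * i - i * (x * i) * i - j * (x * i) * j - i * j * (x * i) * (i * j)) = r at *
  generalize -(x * j - i * (x * j) * i - j * (x * j) * j - i * j * (x * j) * (i * j)) = s at *
  generalize -(x * (i * j) - i * (x * (i * j)) * i - j * (x * (i * j)) * j - i * j * (x * (i * j)) * (i * j)) = t at *
  have e : (4 : K) • x * (i + j + i * j) = (i + j + i * j) * (4 : K) • x := by rw [smul_mul_assoc, hx, mul_smul_comm]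
  rw [d, ← sub_eq_zero] at e
  obtain ⟨-, e1, e2, -⟩ := q.ind4 (p := 0) (by simp [Cm]) (c2.sub c3) (c3.sub c1) (c1.sub c2) (half q.two (by
    rw [smul_zero, zero_add, ← e]; qs q, [c0.1, c1.1, c2.1, c3.1, c0.2, c1.2, c2.2, c3.2]; module))
  refine ⟨(4 : K)⁻¹ • p, (4 : K)⁻¹ • r, c0.smul _, c1.smul _, smul_right_injective _ h4 ?_⟩
  simp only [d, sub_eq_zero.1 e1, sub_eq_zero.1 e2, smul_add, smul_mul_assoc, smul_inv_smul₀ h4, mul_add, add_assoc]

end Qa

/-- the relations between the components -/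
structure St (i j a b I : M4 K) (β : K) : Prop extends Qa i j where
  ca : Cm i j a
  cb : Cm i j b
  cI : Cm i j I
  aa : a * a = (3 * β - 1) • 1
  bb : b * b = β • 1
  ba : b * a = -(a * b)
  II : I * I = (-3 : K) • 1
  Ia : I * a = (2 : K) • 1 - a * I
  Ib : I * b = -(b * I)

theorem Qa.st (q : Qa i j) (hs : i.charpoly.Splits) (hx : x * (i + j + i * j) = (i + j + i * j) * x) (xx : x * x = -1)
    (cI : Cm i j I) (II : I * I = (-3 : K) • 1) (xI : x * I + I * x = (2 : K) • 1) :
    ∃ a b β, St i j a b I β ∧ x = a + b * (i + j + i * j) := by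
  obtain ⟨a, b, ca, cb, rfl⟩ := q.dec hx
  obtain ⟨e1, e2, -⟩ := q.ind4 (((ca.mul ca).sub ((cb.mul cb).smul 3)).add .one) ((ca.mul cb).add (cb.mul ca))
    ((ca.mul cb).add (cb.mul ca)) ((ca.mul cb).add (cb.mul ca)) (by
      rw [← add_eq_zero_iff_eq_neg] at xx
      rw [← xx]; qs q, [ca.1, ca.2, cb.1, cb.2]; module)
  obtain ⟨e3, e4, -⟩ := q.ind4 (((ca.mul cI).add (cI.mul ca)).sub (Cm.one.smul 2)) ((cb.mul cI).add (cI.mul cb))
    ((cb.mul cI).add (cI.mul cb)) ((cb.mul cI).add (cI.mul cb)) (by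
      rw [← sub_eq_zero] at xI
      rw [← xI]; qs q, [cI.1, cI.2]; module)
  have ba : b * a = -(a * b) := by linear_combination (norm := module) e2
  have Ia : I * a = (2 : K) • 1 - a * I := by linear_combination (norm := module) e3
  have Ib : I * b = -(b * I) := by linear_combination (norm := module) e4
  obtain ⟨τ, β, e⟩ := q.quad hs cb
  have k : ∀ y, y * b = -(b * y) → τ • (b * y) = 0 := fun y h => by
    have : y * (b * b) = b * b * y := by rw [tl h, neg_mul, mul_assoc, h, mul_assoc]; simp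
    rw [e] at this
    qs q, [h] at this
    exact half q.two (by linear_combination (norm := module) -this)
  have k1 := congrArg (· * I) (k a (by rw [ba, neg_neg]))
  have k2 := congrArg (· * a) (k I Ib)
  qs q, [Ia] at k1 k2
  have bb : b * b = β • 1 := by
    rw [e]; exact half q.two (by linear_combination (norm := module) k1 + k2)
  exact ⟨a, b, β, ⟨q, ca, cb, cI, by rw [bb] at e1; linear_combination (norm := module) e1, bb, ba, II, Ia, Ib⟩, rfl⟩

namespace St
variable (h : St i j a b I β)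
include h

theorem quad : (1 - I - (2 : K) • (a + b * (i + j + i * j))) * i * ((1 - I - (2 : K) • (a + b * (i + j + i * j))) * i) = x →
    x * x = (4 * (1 - 8 * β)) • x - (16 : K) • 1 := by
  rintro rfl
  have q := h.toQa
  have cc : (I + (2 : K) • a) * (I + (2 : K) • a) = (12 * β - 3) • 1 := by qs q, [h.II, h.Ia, h.aa]; module
  have bc : b * (I + (2 : K) • a) = -((I + (2 : K) • a) * b) := by qs q, [h.Ib, h.ba]; module
  have c1 := h.cI.add (h.ca.smul 2)
  have c2 := h.cb
  rw [show 1 - I - (2 : K) • (a + b * (i + j + i * j)) = 1 - (I + (2 : K) • a) - (2 : K) • (b * (i + j + i * j)) by module]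
  generalize I + (2 : K) • a = c at *
  have e : (1 - c - (2 : K) • (b * (i + j + i * j))) * i * ((1 - c - (2 : K) • (b * (i + j + i * j))) * i) =
      (2 - 16 * β) • 1 + (2 : K) • c + (4 : K) • (b * i) + (4 : K) • (c * (b * (j + i * j))) - (8 * β) • (j - i * j) := by
    qs q, [c1.1, c1.2, c2.1, c2.2, cc, bc, h.bb]; module
  rw [e]
  qs q, [c1.1, c1.2, c2.1, c2.2, cc, bc, h.bb]; module

theorem sq : i * (a + b * (i + j + i * j)) * (i * (a + b * (i + j + i * j))) =
    (1 - 4 * β) • 1 + ((2 * β) • (j - i * j) - (2 : K) • (a * b * (j + i * j))) := by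
  qs h.toQa, [h.ca.1, h.ca.2, h.cb.1, h.cb.2, h.aa, h.ba, h.bb]; module

theorem a_ne : a ≠ 0 := by
  rintro rfl
  have := congrFun (congrFun h.Ia 0) 0
  exact h.two (by simpa using this.symm)

theorem zero (e : β = 0) (p : ℕ) [CharP K p] (hp : Odd p) :
    (i * (a + b * (i + j + i * j))) ^ p * (i * (a + b * (i + j + i * j))) ^ p = 1 ∧
      (i * (a + b * (i + j + i * j))) ^ p ≠ l • 1 := by
  subst e
  have q := h.toQa
  have s := h.sq
  simp only [mul_zero, sub_zero, zero_smul, one_smul, zero_sub] at s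
  have nn : -((2 : K) • (a * b * (j + i * j))) * -((2 : K) • (a * b * (j + i * j))) = 0 := by
    qs q, [h.ca.1, h.ca.2, h.cb.1, h.cb.2, h.aa, h.ba, h.bb]; module
  have k : ∀ m : ℕ, (1 + -((2 : K) • (a * b * (j + i * j)))) ^ m = 1 + (m : K) • -((2 : K) • (a * b * (j + i * j))) := by
    intro m
    generalize -((2 : K) • (a * b * (j + i * j))) = n at *
    induction m with
    | zero => simp
    | succ m ih => rw [pow_succ, ih]; qs q, [nn]; push_cast; module
  refine ⟨by rw [← (Commute.refl _).mul_pow, s, k]; simp, fun e => ?_⟩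
  obtain ⟨m, rfl⟩ := hp
  rw [pow_succ', pow_mul, pow_two, s, k, ← sub_eq_zero] at e
  refine h.a_ne (q.ind4 (h.cb.neg.sub (Cm.one.smul l)) h.ca (h.cb.smul (-1 - 2 * (m : K))) (h.cb.smul (1 + 2 * (m : K))) ?_).2.1
  rw [← e]
  qs q, [h.ca.1, h.ca.2, h.cb.1, h.cb.2, h.aa, h.ba, h.bb]; module

theorem ns (e : 4 * β = 1) (l0 : l ≠ 0) : l • (a * b) ≠ m • 1 := fun k => by
  have q := h.toQa
  have k1 := congrArg (a * ·) k
  have k2 := congrArg (· * a) k
  have k3 := congrArg (fun x => x * (a * b)) k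
  qs q, [h.ba, h.aa, h.bb] at k1 k2 k3
  have m0 : m = 0 := (smul_eq_zero.1 (half q.two (by linear_combination (norm := module) -k1 - k2) : m • a = 0)).resolve_right
    h.a_ne
  have := congrFun (congrFun k3 0) 0
  simp [m0, l0] at this
  grind

theorem quarter (e : 4 * β = 1) (hx : (2 * β) • (j - i * j) - (2 : K) • (a * b * (j + i * j)) = x) :
    i * x = (-1 : K) • (x * i) ∧ x * j ≠ l • (j * x) ∧ x * j ≠ l • (i * j * x) := by
  subst hx
  have q := h.toQa
  have c := h.ca.mul h.cb
  have ns := fun l m => h.ns (l := l) (m := m) e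
  have t2 := q.two
  generalize a * b = g at *
  refine ⟨by qs q, [c.1]; module, fun k => ?_, fun k => ?_⟩ <;> rw [← sub_eq_zero] at k
  · obtain ⟨k1, k2⟩ := q.ind2 ((c.smul ((1 - l) * 2)).sub (Cm.one.smul ((1 - l) * (2 * β))))
      ((c.smul ((1 + l) * 2)).add (Cm.one.smul ((1 + l) * (2 * β)))) (by rw [← k]; qs q, [c.2]; module)
    by_cases k : l = 1
    · exact ns ((1 + l) * 2) (-((1 + l) * (2 * β))) (by grind) (by linear_combination (norm := module) k2)
    · exact ns _ _ (by grind) (sub_eq_zero.1 k1)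
  · obtain ⟨k1, -⟩ := q.ind2 ((c.smul ((1 - l) * 2)).sub (Cm.one.smul ((1 + l) * (2 * β))))
      ((c.smul ((1 - l) * 2)).add (Cm.one.smul ((1 + l) * (2 * β)))) (by rw [← k]; qs q, [c.1, c.2]; module)
    by_cases k : l = 1
    · have := congrFun (congrFun k1 0) 0
      simp [k] at this
      grind
    · exact ns _ _ (by grind) (sub_eq_zero.1 k1)

end St

end Cfsg.Agent.H6.Y
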